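import Mathlib
import Cfsg.Agent.H9.ClForms

set_option autoImplicit false

/-! Zeros of the standard quadratic forms and orders of the orthogonal groups. -/

namespace CfsgH9.ClForms

open Matrix Cfsg CfsgH9.Witt CfsgH9.CountHyp

variable {F : Type*} [Field F] [Finite F] (m : ℕ)

/-- zero counts for `Σ x_i y_i = c` -/
lemma plus_count (c : F) [Decidable (c = 0)] : Nat.card F * Nat.card {v : Fin m ⊕ Fin m → F // quadFormPlus m F v = c} =
    (if c = 0 then Nat.card F ^ m * Nat.card F else 0) + (Nat.card F ^ m - 1) * Nat.card F ^ m := by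
  classical
  haveI := Fintype.ofFinite F
  let L : (Fin m → F) → ((Fin m → F) →ₗ[F] F) := fun x => ∑ i, x i • LinearMap.proj i
  have hL : ∀ x y, L x y = ∑ i, x i * y i := by
    intro x y
    simp [L]
  have e : {v : Fin m ⊕ Fin m → F // quadFormPlus m F v = c} ≃ Σ x : Fin m → F, {y : Fin m → F // L x y = c} :=
    { toFun := fun v => ⟨fun i => v.1 (Sum.inl i), ⟨fun i => v.1 (Sum.inr i), by rw [hL]; exact v.2⟩⟩
      invFun := fun p => ⟨Sum.elim p.1 p.2.1, by
        have := p.2.2
        rw [hL] at this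
        exact this⟩
      left_inv := fun v => by
        apply Subtype.ext
        funext i
        rcases i with i | i <;> rfl
      right_inv := fun p => rfl }
  have hcF : Nat.card (Fin m → F) = Nat.card F ^ m := by
    rw [Nat.card_eq_fintype_card, Fintype.card_fun, Fintype.card_fin, Nat.card_eq_fintype_card]
  rw [Nat.card_congr e, Nat.card_sigma, Finset.mul_sum, ← Finset.add_sum_erase _ _ (Finset.mem_univ (0 : Fin m → F))]
  congr 1
  · by_cases hc : c = 0
    · rw [if_pos hc]
      have : Nat.card {y : Fin m → F // L 0 y = c} = Nat.card F ^ m := by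
        rw [← hcF]
        refine Nat.card_congr (Equiv.subtypeUnivEquiv fun y => ?_)
        rw [hL, hc]; simp
      rw [this, mul_comm]
    · rw [if_neg hc]
      have hemp : IsEmpty {y : Fin m → F // L 0 y = c} := by
        refine ⟨fun y => hc ?_⟩
        have h1 := y.2
        rw [hL] at h1
        rw [← h1]; simp
      rw [@Nat.card_of_isEmpty _ hemp, mul_zero]
  · rw [Finset.sum_congr rfl (g := fun _ => Nat.card F ^ m), Finset.sum_const, Finset.card_erase_of_mem (Finset.mem_univ _),
      Finset.card_univ, smul_eq_mul, ← Nat.card_eq_fintype_card, hcF]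
    intro x hx
    have hx0 : x ≠ 0 := Finset.ne_of_mem_erase hx
    have hne : L x ≠ 0 := by
      intro h0
      apply hx0
      ext i
      have h1 := LinearMap.congr_fun h0 (Pi.single i 1)
      rw [hL] at h1
      simpa [Pi.single_apply] using h1
    rw [mul_comm, card_fiber (L x) hne c, hcF]

lemma sum_ite_one {α : Type*} [Fintype α] [DecidableEq α] (a : α) (A B : ℕ) :
    ∑ t : α, ((if t = a then A else 0) + B) = A + Fintype.card α * B := by
  rw [Finset.sum_add_distrib, Finset.sum_ite_eq' Finset.univ a (fun _ => A), if_pos (Finset.mem_univ a), Finset.sum_const,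
    Finset.card_univ, smul_eq_mul]

theorem zc_plus : Nat.card F * zc (qPlus m F) + Nat.card F ^ m =
    Nat.card (Fin m ⊕ Fin m → F) + Nat.card F * Nat.card F ^ m := by
  classical
  have h := plus_count (F := F) m 0
  rw [if_pos rfl] at h
  have h1 : zc (qPlus m F) = Nat.card {v : Fin m ⊕ Fin m → F // quadFormPlus m F v = 0} := by
    rw [zc, qPlus_coe]
  have hcV : Nat.card (Fin m ⊕ Fin m → F) = Nat.card F ^ m * Nat.card F ^ m := by
    haveI := Fintype.ofFinite F
    rw [Nat.card_eq_fintype_card, Fintype.card_fun, Fintype.card_sum, Fintype.card_fin, Nat.card_eq_fintype_card, pow_add]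
  rw [h1, h, hcV]
  have hpos : 0 < Nat.card F ^ m := pow_pos Nat.card_pos _
  obtain ⟨k, hk⟩ : ∃ k, Nat.card F ^ m = k + 1 := ⟨Nat.card F ^ m - 1, by omega⟩
  rw [hk, Nat.add_sub_cancel]
  ring

theorem zc_odd : Nat.card F * zc (qOdd m F) = Nat.card (Unit ⊕ (Fin m ⊕ Fin m) → F) := by
  classical
  haveI := Fintype.ofFinite F
  have e : {v : Unit ⊕ (Fin m ⊕ Fin m) → F // quadFormOdd m F v = 0} ≃
      Σ x : F, {w : Fin m ⊕ Fin m → F // quadFormPlus m F w = -(x ^ 2)} :=
    { toFun := fun v => ⟨v.1 (Sum.inl ()), ⟨fun i => v.1 (Sum.inr i), by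
        have h := v.2
        rw [quadFormOdd] at h
        exact eq_neg_of_add_eq_zero_right h⟩⟩
      invFun := fun p => ⟨Sum.elim (fun _ => p.1) p.2.1, by
        have h := p.2.2
        rw [quadFormPlus] at h
        rw [quadFormOdd]
        simp only [Sum.elim_inl, Sum.elim_inr]
        rw [h]; ring⟩
      left_inv := fun v => by
        apply Subtype.ext
        funext i
        rcases i with i | i <;> rfl
      right_inv := fun p => rfl }
  have h1 : zc (qOdd m F) = Nat.card {v : Unit ⊕ (Fin m ⊕ Fin m) → F // quadFormOdd m F v = 0} := by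
    rw [zc, qOdd_coe]
  have hcV : Nat.card (Unit ⊕ (Fin m ⊕ Fin m) → F) = Nat.card F * (Nat.card F ^ m * Nat.card F ^ m) := by
    rw [Nat.card_eq_fintype_card, Fintype.card_fun, Fintype.card_sum, Fintype.card_sum, Fintype.card_fin,
      Fintype.card_unit, Nat.card_eq_fintype_card, pow_add, pow_one, pow_add]
  rw [h1, Nat.card_congr e, Nat.card_sigma, Finset.mul_sum,
    Finset.sum_congr rfl (g := fun t => (if t = 0 then Nat.card F ^ m * Nat.card F else 0) + (Nat.card F ^ m - 1) * Nat.card F ^ m)]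
  · rw [sum_ite_one, ← Nat.card_eq_fintype_card, hcV]
    have hpos : 0 < Nat.card F ^ m := pow_pos Nat.card_pos _
    obtain ⟨k, hk⟩ : ∃ k, Nat.card F ^ m = k + 1 := ⟨Nat.card F ^ m - 1, by omega⟩
    rw [hk, Nat.add_sub_cancel]
    ring
  · intro t _
    rw [plus_count]
    congr 1
    by_cases ht : t = 0
    · subst ht; simp
    · rw [if_neg ht, if_neg (by simpa using ht)]

variable {m}

/-- the binary form is non-degenerate -/
lemma binary_nondeg {a b : F} (hab : ∀ z₁ z₂ : F, z₁ ^ 2 + a * z₁ * z₂ + b * z₂ ^ 2 = 0 → z₁ = 0 ∧ z₂ = 0) {x y : F}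
    (h1 : 2 * x + a * y = 0) (h2 : a * x + 2 * b * y = 0) : x = 0 ∧ y = 0 := by
  by_cases h : (2 : F) = 0
  · have ha : a ≠ 0 := by
      rintro rfl
      obtain ⟨t, ht⟩ := exists_sqrt h b
      have h3 := hab t 1 (by rw [ht]; linear_combination b * h)
      exact one_ne_zero h3.2
    rw [h] at h1 h2
    have h3 : a * y = 0 := by linear_combination h1
    have h4 : a * x = 0 := by linear_combination h2
    exact ⟨(mul_eq_zero.1 h4).resolve_left ha, (mul_eq_zero.1 h3).resolve_left ha⟩
  · apply hab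
    have h3 : 2 * (x ^ 2 + a * x * y + b * y ^ 2) = 0 := by linear_combination x * h1 + y * h2
    exact (mul_eq_zero.1 h3).resolve_left h

variable (m) in
lemma nondeg_minus {a b : F} (hab : ∀ z₁ z₂ : F, z₁ ^ 2 + a * z₁ * z₂ + b * z₂ ^ 2 = 0 → z₁ = 0 ∧ z₂ = 0) :
    (QuadraticMap.polarBilin (qMinus m a b)).Nondegenerate := by
  apply nondeg_of_left
  intro u hu
  have hb0 := hu (Pi.single (Sum.inr 0) 1)
  have hb1 := hu (Pi.single (Sum.inr 1) 1)
  rw [polar_minus, Finset.sum_eq_zero (fun j _ => by simp)] at hb0 hb1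
  have hb := binary_nondeg hab (x := u (Sum.inr 0)) (y := u (Sum.inr 1)) (by
    have : (2 * (u (Sum.inr 0) * 1) + a * (u (Sum.inr 0) * 0 + u (Sum.inr 1) * 1) + 2 * b * (u (Sum.inr 1) * 0) : F) = 0 := by
      simpa [Pi.single_apply] using hb0
    linear_combination this) (by
    have : (2 * (u (Sum.inr 0) * 0) + a * (u (Sum.inr 0) * 1 + u (Sum.inr 1) * 0) + 2 * b * (u (Sum.inr 1) * 1) : F) = 0 := by
      simpa [Pi.single_apply] using hb1
    linear_combination this)
  ext i
  rcases i with (i | i) | i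
  · have h := hu (Pi.single (Sum.inl (Sum.inr i)) 1)
    rw [polar_minus, Finset.sum_eq_single i] at h
    · simpa using h
    · intro j _ hj
      simp [Pi.single_apply, hj]
    · intro h; exact absurd (Finset.mem_univ i) h
  · have h := hu (Pi.single (Sum.inl (Sum.inl i)) 1)
    rw [polar_minus, Finset.sum_eq_single i] at h
    · simpa using h
    · intro j _ hj
      simp [Pi.single_apply, hj]
    · intro h; exact absurd (Finset.mem_univ i) h
  · fin_cases i
    · exact hb.1
    · exact hb.2

variable (m) in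
theorem zc_minus {a b : F} (hab : ∀ z₁ z₂ : F, z₁ ^ 2 + a * z₁ * z₂ + b * z₂ ^ 2 = 0 → z₁ = 0 ∧ z₂ = 0) :
    Nat.card F * zc (qMinus m a b) + Nat.card F * Nat.card F ^ (m + 1) =
      Nat.card ((Fin m ⊕ Fin m) ⊕ Fin 2 → F) + Nat.card F ^ (m + 1) := by
  classical
  haveI := Fintype.ofFinite F
  have e : {v : (Fin m ⊕ Fin m) ⊕ Fin 2 → F // quadFormMinus m F a b v = 0} ≃
      Σ x : F × F, {w : Fin m ⊕ Fin m → F // quadFormPlus m F w = -(x.1 ^ 2 + a * x.1 * x.2 + b * x.2 ^ 2)} :=
    { toFun := fun v => ⟨(v.1 (Sum.inr 0), v.1 (Sum.inr 1)), ⟨fun i => v.1 (Sum.inl i), by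
        have h := v.2
        rw [quadFormMinus] at h
        exact eq_neg_of_add_eq_zero_left h⟩⟩
      invFun := fun p => ⟨Sum.elim p.2.1 ![p.1.1, p.1.2], by
        have h := p.2.2
        rw [quadFormPlus] at h
        rw [quadFormMinus]
        simp only [Sum.elim_inl, Sum.elim_inr, Matrix.cons_val_zero, Matrix.cons_val_one]
        rw [h]; ring⟩
      left_inv := fun v => by
        apply Subtype.ext
        funext i
        rcases i with i | i
        · rfl
        · fin_cases i <;> rfl
      right_inv := fun p => rfl }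
  have h1 : zc (qMinus m a b) = Nat.card {v : (Fin m ⊕ Fin m) ⊕ Fin 2 → F // quadFormMinus m F a b v = 0} := by
    rw [zc, qMinus_coe]
  have hcV : Nat.card ((Fin m ⊕ Fin m) ⊕ Fin 2 → F) = (Nat.card F ^ m * Nat.card F ^ m) * Nat.card F ^ 2 := by
    rw [Nat.card_eq_fintype_card, Fintype.card_fun, Fintype.card_sum, Fintype.card_sum, Fintype.card_fin,
      Fintype.card_fin, Nat.card_eq_fintype_card, pow_add, pow_add]
  rw [h1, Nat.card_congr e, Nat.card_sigma, Finset.mul_sum,
    Finset.sum_congr rfl (g := fun t => (if t = (0, 0) then Nat.card F ^ m * Nat.card F else 0) + (Nat.card F ^ m - 1) * Nat.card F ^ m)]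
  · rw [sum_ite_one, Fintype.card_prod, ← Nat.card_eq_fintype_card, hcV]
    have hpos : 0 < Nat.card F ^ m := pow_pos Nat.card_pos _
    obtain ⟨k, hk⟩ : ∃ k, Nat.card F ^ m = k + 1 := ⟨Nat.card F ^ m - 1, by omega⟩
    rw [pow_succ, hk, Nat.add_sub_cancel]
    ring
  · rintro ⟨x, y⟩ _
    rw [plus_count]
    congr 1
    by_cases ht : (x, y) = ((0, 0) : F × F)
    · rw [if_pos ht]
      obtain ⟨rfl, rfl⟩ := Prod.mk.inj ht
      simp
    · rw [if_neg ht, if_neg]
      intro h0
      apply ht
      have := hab x y (by linear_combination -h0)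
      rw [this.1, this.2]

end CfsgH9.ClForms
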