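import Mathlib

set_option autoImplicit false

/-! Equivalence of diagonal forms and discriminants. -/

namespace CfsgH9.Diag

open Matrix

variable {F : Type*} [Field F] {ι : Type*} [Fintype ι] [DecidableEq ι]

lemma polar_wss (w : ι → F) (x y : ι → F) :
    QuadraticMap.polar (QuadraticMap.weightedSumSquares F w) x y = 2 * ∑ i, w i * (x i * y i) := by
  simp only [QuadraticMap.polar, QuadraticMap.weightedSumSquares_apply, smul_eq_mul, Pi.add_apply]
  rw [← Finset.sum_sub_distrib, ← Finset.sum_sub_distrib, Finset.mul_sum]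
  exact Finset.sum_congr rfl fun i _ => by ring

lemma prod_of_equiv (h2 : (2 : F) ≠ 0) (w1 w2 : ι → F)
    (h : (QuadraticMap.weightedSumSquares F w1).Equivalent (QuadraticMap.weightedSumSquares F w2)) :
    ∃ d : F, d ≠ 0 ∧ ∏ i, w1 i = d ^ 2 * ∏ i, w2 i := by
  obtain ⟨g⟩ := h
  have hg : ∀ x, QuadraticMap.weightedSumSquares F w2 (g x) = QuadraticMap.weightedSumSquares F w1 x := g.map_app
  have hp : ∀ x y, ∑ i, w2 i * (g x i * g y i) = ∑ i, w1 i * (x i * y i) := by
    intro x y
    have h1 : QuadraticMap.polar (QuadraticMap.weightedSumSquares F w2) (g x) (g y) =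
        QuadraticMap.polar (QuadraticMap.weightedSumSquares F w1) x y := by
      simp only [QuadraticMap.polar]
      rw [hg, hg, ← hg (x + y)]
      congr 3
      exact (map_add g.toLinearEquiv x y).symm
    rw [polar_wss, polar_wss] at h1
    exact mul_left_cancel₀ h2 h1
  set P := LinearMap.toMatrix' (g.toLinearEquiv : (ι → F) →ₗ[F] (ι → F)) with hP
  have hPij : ∀ i j, P i j = g (Pi.single j 1) i := by
    intro i j
    rw [hP, LinearMap.toMatrix'_apply]
    rfl
  have hmat : Pᵀ * Matrix.diagonal w2 * P = Matrix.diagonal w1 := by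
    ext a b
    rw [Matrix.mul_apply]
    simp only [Matrix.mul_diagonal, Matrix.transpose_apply, hPij]
    have h1 := hp (Pi.single a 1) (Pi.single b 1)
    have h3 : ∑ i, g (Pi.single a 1) i * w2 i * g (Pi.single b 1) i = ∑ i, w2 i * (g (Pi.single a 1) i * g (Pi.single b 1) i) :=
      Finset.sum_congr rfl fun i _ => by ring
    rw [h3, h1, Finset.sum_eq_single a]
    · by_cases hab : a = b
      · subst hab; simp
      · rw [Matrix.diagonal_apply_ne _ hab, Pi.single_eq_same, Pi.single_eq_of_ne hab]; ring
    · intro i _ hi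
      rw [Pi.single_eq_of_ne hi]; ring
    · intro h; exact absurd (Finset.mem_univ a) h
  have hdet := congrArg Matrix.det hmat
  rw [Matrix.det_mul, Matrix.det_mul, Matrix.det_transpose, Matrix.det_diagonal, Matrix.det_diagonal] at hdet
  refine ⟨P.det, ?_, by rw [← hdet]; ring⟩
  have h1 : IsUnit P.det := by
    rw [hP, LinearMap.det_toMatrix']
    exact LinearEquiv.isUnit_det' g.toLinearEquiv
  exact h1.ne_zero

end CfsgH9.Diag
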