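import Mathlib
import Cfsg.Agent.H9.Ort

set_option autoImplicit false

/-! Discriminants of symmetric bilinear forms over finite fields of odd order, and totally isotropic subspaces. -/

namespace CfsgH9.Disc

open Matrix LinearMap

variable {F V : Type*} [Field F] [AddCommGroup V] [Module F V]

/-- independence of the basis, up to squares -/
theorem disc_sq {κ κ' : Type*} [Fintype κ] [DecidableEq κ] [Fintype κ'] [DecidableEq κ'] (b : Module.Basis κ F V) (c : Module.Basis κ' F V)
    (B : LinearMap.BilinForm F V) : ∃ u : F, u ≠ 0 ∧ (LinearMap.BilinForm.toMatrix c B).det = u ^ 2 * (LinearMap.BilinForm.toMatrix b B).det := by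
  classical
  let e : κ' ≃ κ := c.indexEquiv b
  set c' := c.reindex e with hc'
  have h1 : (LinearMap.BilinForm.toMatrix c' B).det = (LinearMap.BilinForm.toMatrix c B).det := by
    have : LinearMap.BilinForm.toMatrix c' B = (LinearMap.BilinForm.toMatrix c B).submatrix e.symm e.symm := by
      ext i j
      simp [hc', LinearMap.BilinForm.toMatrix_apply]
    rw [this, Matrix.det_submatrix_equiv_self]
  have h2 := LinearMap.BilinForm.toMatrix_mul_basis_toMatrix (b := b) c' B
  refine ⟨(b.toMatrix c').det, ?_, ?_⟩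
  · have h3 := b.toMatrix_mul_toMatrix_flip c'
    have h4 := congrArg Matrix.det h3
    rw [Matrix.det_mul, Matrix.det_one] at h4
    intro h0
    rw [h0, zero_mul] at h4
    exact zero_ne_one h4
  · rw [← h1, ← h2, Matrix.det_mul, Matrix.det_mul, Matrix.det_transpose]
    ring

theorem det_block {m : ℕ} (A C : Matrix (Fin m) (Fin m) F) : (Matrix.fromBlocks 0 A Aᵀ C).det = (-1) ^ m * (A.det) ^ 2 := by
  have h1 : (Matrix.J (Fin m) F).det = 1 := SymplecticGroup.det_eq_one (SymplecticGroup.J_mem _ _)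
  have h2 : Matrix.fromBlocks 0 A Aᵀ C * Matrix.J (Fin m) F = Matrix.fromBlocks A 0 C (-Aᵀ) := by
    rw [Matrix.J, Matrix.fromBlocks_multiply]
    simp
  have h3 := congrArg Matrix.det h2
  rw [Matrix.det_mul, h1, mul_one, Matrix.det_fromBlocks_zero₁₂, Matrix.det_neg, Matrix.det_transpose, Fintype.card_fin] at h3
  rw [h3]; ring

variable [FiniteDimensional F V]

/-- a totally isotropic subspace of half dimension determines the discriminant -/
theorem disc_of_plus {m : ℕ} (B : LinearMap.BilinForm F V) (hS : B.IsSymm) (hV : Module.finrank F V = 2 * m) {X : Submodule F V}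
    (hX : Module.finrank F X = m) (hXX : ∀ x ∈ X, ∀ y ∈ X, B x y = 0) {κ : Type*} [Fintype κ] [DecidableEq κ] (b : Module.Basis κ F V) :
    IsSquare ((-1) ^ m * (LinearMap.BilinForm.toMatrix b B).det) := by
  classical
  obtain ⟨Y, hXY⟩ := Submodule.exists_isCompl X
  have hY : Module.finrank F Y = m := by
    have := Submodule.finrank_add_eq_of_isCompl hXY
    omega
  let bX : Module.Basis (Fin m) F X := Module.finBasisOfFinrankEq F X hX
  let bY : Module.Basis (Fin m) F Y := Module.finBasisOfFinrankEq F Y hY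
  let T : Module.Basis (Fin m ⊕ Fin m) F V := (bX.prod bY).map (Submodule.prodEquivOfIsCompl X Y hXY)
  have hTl : ∀ i, T (Sum.inl i) = bX i := by intro i; simp [T]
  have hTr : ∀ i, T (Sum.inr i) = bY i := by intro i; simp [T]
  obtain ⟨u, hu, he⟩ := disc_sq T b B
  set A : Matrix (Fin m) (Fin m) F := Matrix.of fun i j => B (bX i) (bY j) with hA
  set C : Matrix (Fin m) (Fin m) F := Matrix.of fun i j => B (bY i) (bY j) with hC
  have hG : LinearMap.BilinForm.toMatrix T B = Matrix.fromBlocks 0 A Aᵀ C := by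
    ext i j
    rw [LinearMap.BilinForm.toMatrix_apply]
    rcases i with i | i <;> rcases j with j | j
    · rw [hTl, hTl]; exact hXX _ (bX i).2 _ (bX j).2
    · rw [hTl, hTr]; rfl
    · rw [hTl, hTr]; exact hS.eq _ _
    · rw [hTr, hTr]; rfl
  rw [he, hG, det_block]
  refine ⟨u * A.det * (-1) ^ m, ?_⟩
  ring

/-- standard basis -/
theorem exists_std [Finite F] (h2 : (2 : F) ≠ 0) (B : LinearMap.BilinForm F V) (hS : B.IsSymm) (hB : B.Nondegenerate) (N : ℕ)
    (hV : Module.finrank F V = N + 1) : ∃ (d : F) (b : Module.Basis (Fin (N + 1)) F V), d ≠ 0 ∧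
      ∀ i j, B (b i) (b j) = if i = j then (if i = Fin.last N then d else 1) else 0 := by
  classical
  have hS' : ∀ x y, (RingHom.id F) (B x y) = B y x := fun x y => hS.eq x y
  have hB' : ∀ x, (∀ y, B x y = 0) → x = 0 := hB.1
  obtain ⟨e, he, he1⟩ := CfsgH9.Ort.exists_on_symm (β := B) h2 rfl hS' hB' N (by omega)
  obtain ⟨w, hw, hww⟩ := he.exists_next hS' hB' (CfsgH9.Ort.na_of_two hS' rfl h2) (by omega)
  have hO := he.snoc hS' hw hww
  let b : Module.Basis (Fin (N + 1)) F V := basisOfLinearIndependentOfCardEqFinrank' _ hO.linearIndependent (by rw [Fintype.card_fin, hV])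
  have hb : ∀ i, b i = (Fin.snoc e w : Fin (N + 1) → V) i := by intro i; simp [b]
  refine ⟨B w w, b, hww, fun i j => ?_⟩
  by_cases hij : i = j
  · subst hij
    rw [if_pos rfl, hb]
    refine Fin.lastCases ?_ (fun k => ?_) i
    · rw [if_pos rfl, Fin.snoc_last]
    · rw [if_neg (Fin.castSucc_lt_last k).ne, Fin.snoc_castSucc]; exact he1 k
  · rw [if_neg hij, hb, hb]
    exact hO.orth i j hij

theorem det_std {N : ℕ} {d : F} {B : LinearMap.BilinForm F V} {b : Module.Basis (Fin (N + 1)) F V}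
    (h : ∀ i j, B (b i) (b j) = if i = j then (if i = Fin.last N then d else 1) else 0) : (LinearMap.BilinForm.toMatrix b B).det = d := by
  have : LinearMap.BilinForm.toMatrix b B = Matrix.diagonal (fun i => if i = Fin.last N then d else 1) := by
    ext i j
    rw [LinearMap.BilinForm.toMatrix_apply, h, Matrix.diagonal_apply]
  rw [this, Matrix.det_diagonal, Finset.prod_ite_eq' Finset.univ (Fin.last N), if_pos (Finset.mem_univ _)]

/-- forms with the same discriminant are isometric -/
theorem exists_isometry [Finite F] (h2 : (2 : F) ≠ 0) {V' : Type*} [AddCommGroup V'] [Module F V'] [FiniteDimensional F V']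
    (B : LinearMap.BilinForm F V) (hS : B.IsSymm) (hB : B.Nondegenerate) (B' : LinearMap.BilinForm F V') (hS' : B'.IsSymm) (hB' : B'.Nondegenerate) (N : ℕ)
    (hV : Module.finrank F V = N + 1) (hV' : Module.finrank F V' = N + 1) {κ κ' : Type*} [Fintype κ] [DecidableEq κ] [Fintype κ'] [DecidableEq κ']
    (b : Module.Basis κ F V) (b' : Module.Basis κ' F V') (hd : IsSquare ((LinearMap.BilinForm.toMatrix b B).det * (LinearMap.BilinForm.toMatrix b' B').det)) :
    ∃ φ : V' ≃ₗ[F] V, ∀ x y, B (φ x) (φ y) = B' x y := by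
  classical
  obtain ⟨d, c, hd0, hc⟩ := exists_std h2 B hS hB N hV
  obtain ⟨d', c', hd0', hc'⟩ := exists_std h2 B' hS' hB' N hV'
  obtain ⟨u, hu, e1⟩ := disc_sq c b B
  obtain ⟨u', hu', e2⟩ := disc_sq c' b' B'
  rw [det_std hc] at e1
  rw [det_std hc'] at e2
  rw [e1, e2] at hd
  obtain ⟨r, hr⟩ := hd
  -- d * t^2 = d'
  obtain ⟨t, ht0, ht⟩ : ∃ t : F, t ≠ 0 ∧ d * t ^ 2 = d' := by
    have hr0 : r ≠ 0 := by
      rintro rfl
      have : u ^ 2 * d * (u' ^ 2 * d') ≠ 0 := mul_ne_zero (mul_ne_zero (pow_ne_zero _ hu) hd0) (mul_ne_zero (pow_ne_zero _ hu') hd0')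
      exact this (by rw [hr, mul_zero])
    refine ⟨r / (u * u' * d), div_ne_zero hr0 (mul_ne_zero (mul_ne_zero hu hu') hd0), ?_⟩
    field_simp
    linear_combination -hr
  let w : Fin (N + 1) → Fˣ := fun i => if i = Fin.last N then Units.mk0 t ht0 else 1
  let c2 := c.unitsSMul w
  have hc2 : ∀ i j, B (c2 i) (c2 j) = B' (c' i) (c' j) := by
    intro i j
    rw [Module.Basis.unitsSMul_apply, Module.Basis.unitsSMul_apply, Units.smul_def, Units.smul_def, map_smul, LinearMap.map_smul₂, hc, hc']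
    by_cases hij : i = j
    · subst hij
      rw [if_pos rfl, if_pos rfl]
      by_cases hi : i = Fin.last N
      · simp only [w, if_pos hi, Units.val_mk0, smul_eq_mul]
        rw [← ht]; ring
      · simp [w, if_neg hi]
    · rw [if_neg hij, if_neg hij]; simp
  refine ⟨c'.equiv c2 (Equiv.refl _), ?_⟩
  have h3 : B.compl₁₂ (c'.equiv c2 (Equiv.refl _)).toLinearMap (c'.equiv c2 (Equiv.refl _)).toLinearMap = B' := by
    apply LinearMap.ext_basis c' c'
    intro i j
    rw [LinearMap.compl₁₂_apply]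
    simp only [LinearEquiv.coe_coe, Module.Basis.equiv_apply, Equiv.refl_apply]
    exact hc2 i j
  intro x y
  rw [← h3]; rfl

/-- converse: the discriminant gives a totally isotropic subspace of half dimension -/
theorem plus_of_disc [Finite F] (h2 : (2 : F) ≠ 0) {m : ℕ} (B : LinearMap.BilinForm F V) (hS : B.IsSymm) (hB : B.Nondegenerate)
    (hV : Module.finrank F V = 2 * m) {κ : Type*} [Fintype κ] [DecidableEq κ] (b : Module.Basis κ F V)
    (hd : IsSquare ((-1) ^ m * (LinearMap.BilinForm.toMatrix b B).det)) :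
    ∃ X : Submodule F V, Module.finrank F X = m ∧ ∀ x ∈ X, ∀ y ∈ X, B x y = 0 := by
  classical
  rcases Nat.eq_zero_or_pos m with rfl | hm
  · exact ⟨⊥, by simp, by intro x hx y _; rw [(Submodule.mem_bot F).1 hx]; simp⟩
  obtain ⟨N, hN⟩ : ∃ N, 2 * m = N + 1 := ⟨2 * m - 1, by omega⟩
  set M0 : Matrix (Fin m ⊕ Fin m) (Fin m ⊕ Fin m) F := Matrix.fromBlocks 0 1 (1 : Matrix (Fin m) (Fin m) F)ᵀ 0 with hM0
  have hM0d : M0.det = (-1) ^ m := by rw [hM0, det_block, Matrix.det_one]; ring
  let B0 : LinearMap.BilinForm F (Fin m ⊕ Fin m → F) := Matrix.toBilin' M0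
  have hB0m : LinearMap.BilinForm.toMatrix (Pi.basisFun F (Fin m ⊕ Fin m)) B0 = M0 := by
    rw [LinearMap.BilinForm.toMatrix_basisFun]
    exact LinearMap.BilinForm.toMatrix'_toBilin' M0
  have hB0 : B0.Nondegenerate := by
    rw [LinearMap.BilinForm.nondegenerate_iff_det_ne_zero (Pi.basisFun F (Fin m ⊕ Fin m)), hB0m, hM0d]
    exact pow_ne_zero _ (neg_ne_zero.2 one_ne_zero)
  have happ : ∀ x y, B0 x y = ∑ i, (x (Sum.inl i) * y (Sum.inr i) + x (Sum.inr i) * y (Sum.inl i)) := by
    intro x y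
    rw [Matrix.toBilin'_apply', hM0, Matrix.transpose_one]
    conv_lhs => rw [← Sum.elim_comp_inl_inr y, Matrix.fromBlocks_mulVec]
    simp [dotProduct, Fintype.sum_sum_type, Finset.sum_add_distrib]
  have hS0 : B0.IsSymm := by
    constructor
    intro x y
    rw [happ, happ]
    exact Finset.sum_congr rfl (fun i _ => by ring)
  obtain ⟨φ, hφ⟩ := exists_isometry h2 B hS hB B0 hS0 hB0 N (by rw [hV, hN]) (by
    rw [Module.finrank_fintype_fun_eq_card, Fintype.card_sum, Fintype.card_fin]; omega) b (Pi.basisFun F (Fin m ⊕ Fin m)) (by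
      rw [hB0m, hM0d, mul_comm]; exact hd)
  let X0 : Submodule F (Fin m ⊕ Fin m → F) := LinearMap.ker (LinearMap.funLeft F F (Sum.inr : Fin m → Fin m ⊕ Fin m))
  have hX0 : Module.finrank F X0 = m := by
    have h3 := LinearMap.finrank_range_add_finrank_ker (LinearMap.funLeft F F (Sum.inr : Fin m → Fin m ⊕ Fin m))
    rw [LinearMap.range_eq_top.2 (LinearMap.funLeft_surjective_of_injective F F _ Sum.inr_injective), finrank_top,
      Module.finrank_fintype_fun_eq_card, Module.finrank_fintype_fun_eq_card, Fintype.card_sum, Fintype.card_fin] at h3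
    have h4 : Module.finrank F X0 = Module.finrank F (LinearMap.ker (LinearMap.funLeft F F (Sum.inr : Fin m → Fin m ⊕ Fin m))) := rfl
    omega
  refine ⟨X0.map φ.toLinearMap, ?_, ?_⟩
  · exact (LinearEquiv.finrank_map_eq φ X0).trans hX0
  · rintro _ ⟨x, hx, rfl⟩ _ ⟨y, hy, rfl⟩
    change B (φ x) (φ y) = 0
    rw [hφ, happ]
    have hx' : ∀ i, x (Sum.inr i) = 0 := fun i => congrFun (show LinearMap.funLeft F F (Sum.inr : Fin m → Fin m ⊕ Fin m) x = 0 from hx) i
    have hy' : ∀ i, y (Sum.inr i) = 0 := fun i => congrFun (show LinearMap.funLeft F F (Sum.inr : Fin m → Fin m ⊕ Fin m) y = 0 from hy) i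
    simp [hx', hy']

end CfsgH9.Disc
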