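import Cfsg.Agent.H9.Dk21

set_option autoImplicit false

open MulAction Matrix

namespace CfsgH9.Dk

section
variable {F : Type*} [Field F] [Fintype F] (p : ℕ) [hp : Fact p.Prime] [CharP F p]

/-- overgroups of subgroups of order divisible by `p` -/
theorem overs {M H : Subgroup (PS F)} (hMH : M ≤ H) (hpM : p ∣ Nat.card M) (h4 : p = 2 → 4 ∣ Nat.card M)
    (hB : ∀ S : Sylow p (PS F), ¬ M ≤ Subgroup.normalizer ((S : Subgroup (PS F)) : Set (PS F))) :
    (p = 3 ∧ Nonempty (H ≃* alternatingGroup (Fin 5))) ∨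
    (∃ (k : Type) (_ : Field k) (_ : Fintype k) (m : ℕ), Fintype.card k ^ m = Fintype.card F ∧
      (Nonempty (H ≃* PG k) ∨ (Odd (Fintype.card k) ∧ Nonempty (H ≃* ProjectiveSpecialLinearGroup (Fin 2) k)))) := by
  have hMd : Nat.card M ∣ Nat.card H := Subgroup.card_dvd_of_le hMH
  have hpH : p ∣ Nat.card H := hpM.trans hMd
  rcases dickson_psl p H with ⟨h1, h2⟩ | ⟨S, h1, -⟩ | ⟨C, h1, h2, h3, ⟨h5⟩⟩ | ⟨h, -⟩ | ⟨h, -⟩ | ⟨h, h'⟩ | h
  · exact absurd hpH h1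
  · exact absurd (hMH.trans h1) (hB S)
  · exfalso
    have h6 : Nat.card H = 2 * Nat.card C := by rw [Nat.card_congr h5.toEquiv, DihedralGroup.nat_card]
    rw [h6] at hpH
    rcases hp.out.dvd_mul.1 hpH with h7 | h7
    · have hp2 : p = 2 := (Nat.prime_dvd_prime_iff_eq hp.out Nat.prime_two).1 h7
      have h8 := (h4 hp2).trans hMd
      rw [h6] at h8
      apply h3
      rw [hp2]
      have : 2 * 2 ∣ 2 * Nat.card C := h8
      exact Nat.dvd_of_mul_dvd_mul_left (by norm_num) this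
    · exact h3 h7
  · exact absurd hpH h
  · exact absurd hpH h
  · rcases h with h | h
    · exact absurd hpH h
    · exact Or.inl ⟨h, h'⟩
  · exact Or.inr h

end

section
variable {F k : Type*} [Field F] [Fintype F] [Field k] [Fintype k]

theorem card_expand (q : ℕ) (hq : 0 < q) : q * (q - 1) * (q + 1) = q * (q ^ 2 - 1) := by
  obtain ⟨r, hr⟩ : ∃ r, q = r + 1 := ⟨q - 1, by omega⟩
  rw [hr, Nat.add_sub_cancel]
  have : (r + 1) ^ 2 = r * (r + 1 + 1) + 1 := by ring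
  rw [this, Nat.add_sub_cancel]; ring

/-- order restrictions between subfields: `q = p ^ a`, `κ = p ^ b` -/
theorem kappa' {p : ℕ} (hp : p.Prime) {q κ Q m r a b : ℕ} (hq : q = p ^ a) (hκ : κ = p ^ b) (ha : 0 < a) (hr : r.Prime) (hQ : Q = q ^ r)
    (hm : κ ^ m = Q) (hd : q * (q - 1) * (q + 1) ∣ 2 * (κ * (κ - 1) * (κ + 1))) (h2 : p = 2 → q * (q - 1) * (q + 1) ∣ κ * (κ - 1) * (κ + 1)) :
    κ = q ∨ κ = Q := by
  have hq0 : 0 < q := by rw [hq]; exact Nat.pow_pos hp.pos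
  have hκ0 : 0 < κ := by rw [hκ]; exact Nat.pow_pos hp.pos
  rw [card_expand q hq0, card_expand κ hκ0] at hd h2
  have hcop : ∀ {x : ℕ} (s : ℕ), 0 < x → p ∣ x → Nat.Coprime (p ^ s) (x ^ 2 - 1) := by
    intro x s hx hpx
    apply Nat.Coprime.pow_left
    refine (Nat.Prime.coprime_iff_not_dvd hp).2 (fun h => ?_)
    have h3 : p ∣ x ^ 2 := dvd_pow hpx (by norm_num)
    have h4 : 1 ≤ x ^ 2 := Nat.one_le_pow _ _ hx
    have h5 : p ∣ 1 := (Nat.dvd_sub_iff_right h4 h3).1 h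
    exact hp.one_lt.ne' (Nat.dvd_one.1 h5)
  have hb0 : b ≠ 0 := by
    rintro rfl
    rw [pow_zero] at hκ
    rw [hκ, one_pow] at hm
    have : 1 < Q := by rw [hQ, hq, ← pow_mul]; exact Nat.one_lt_pow (Nat.mul_ne_zero ha.ne' hr.ne_zero) hp.one_lt
    omega
  have hpκ : p ∣ κ := by rw [hκ]; exact dvd_pow_self p hb0
  have hpq : p ∣ q := by rw [hq]; exact dvd_pow_self p ha.ne'
  have hab : a ≤ b := by
    have h1 : p ^ a ∣ κ := by
      by_cases hp2 : p = 2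
      · have h3 : p ^ a ∣ κ * (κ ^ 2 - 1) := by
          rw [← hq]; exact (Dvd.intro _ rfl).trans (h2 hp2)
        exact (hcop a hκ0 hpκ).dvd_of_dvd_mul_right h3
      · have h3 : p ^ a ∣ 2 * κ * (κ ^ 2 - 1) := by
          rw [← hq, mul_assoc]; exact (Dvd.intro _ rfl).trans hd
        have h4 := (hcop a hκ0 hpκ).dvd_of_dvd_mul_right h3
        have h5 : Nat.Coprime (p ^ a) 2 := by
          apply Nat.Coprime.pow_left
          exact (Nat.coprime_primes hp Nat.prime_two).2 hp2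
        exact h5.dvd_of_dvd_mul_left h4
    rw [hκ] at h1
    exact (Nat.pow_dvd_pow_iff_le_right hp.one_lt).1 h1
  have hd' : p ^ (2 * a) - 1 ∣ 2 * (p ^ (2 * b) - 1) := by
    have e1 : p ^ (2 * a) = q ^ 2 := by rw [hq, ← pow_mul, mul_comm]
    have e2 : p ^ (2 * b) = κ ^ 2 := by rw [hκ, ← pow_mul, mul_comm]
    rw [e1, e2]
    have h3 : q ^ 2 - 1 ∣ κ * (2 * (κ ^ 2 - 1)) := by
      have h4 : q ^ 2 - 1 ∣ 2 * (κ * (κ ^ 2 - 1)) := (Dvd.intro_left _ rfl).trans hd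
      have h5 : 2 * (κ * (κ ^ 2 - 1)) = κ * (2 * (κ ^ 2 - 1)) := by ring
      rwa [h5] at h4
    have h6 : Nat.Coprime (q ^ 2 - 1) κ := by rw [hκ]; exact (hcop b hq0 hpq).symm
    exact h6.dvd_of_dvd_mul_left h3
  have hbm : b * m = a * r := by
    apply Nat.pow_right_injective hp.two_le
    change p ^ (b * m) = p ^ (a * r)
    rw [pow_mul, pow_mul, ← hκ, ← hq, hm, hQ]
  rcases kappa hp ha hr hbm hab hd' with h | h
  · left; rw [hκ, hq, h]
  · right; rw [hκ, hQ, hq, ← pow_mul, h]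

/-- `PSL₂(q)`, `q` odd, in the Borel -/
theorem borel_arith {q r : ℕ} (hq : 1 < q) (hr : Odd r) (hr0 : 0 < r) (h : q ^ 2 - 1 ∣ q ^ r - 1) : False := by
  have hg := Nat.pow_sub_one_gcd_pow_sub_one q 2 r
  rw [Nat.gcd_eq_left h] at hg
  have : Nat.gcd 2 r = 1 := by
    rw [← Nat.coprime_iff_gcd_eq_one, Nat.coprime_two_left]; exact hr
  rw [this, pow_one] at hg
  have h2 : q * 2 ≤ q ^ 2 := by rw [pow_two]; exact Nat.mul_le_mul_left _ hq
  omega

end

end CfsgH9.Dk
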