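import Cfsg.Agent.H9.Dk22
import Cfsg.Agent.S0805

set_option autoImplicit false

open MulAction Matrix

namespace CfsgH9.Dk

section
variable {F : Type*} [Field F] [Fintype F]

theorem setup {q r : ℕ} (hQ : Fintype.card F = q ^ r) (hr : r ≠ 0) :
    ∃ p : ℕ, p.Prime ∧ CharP F p ∧ ∃ a, 0 < a ∧ q = p ^ a := by
  obtain ⟨p, hp⟩ := CharP.exists F
  have hpp : p.Prime := (CharP.char_is_prime_or_zero F p).resolve_right (CharP.char_ne_zero_of_finite F p)
  haveI : Fact p.Prime := ⟨hpp⟩
  obtain ⟨f, hpf, hff⟩ := FiniteField.card F p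
  refine ⟨p, hpp, hp, ?_⟩
  have h1 : q ∣ p ^ (f : ℕ) := by rw [← hff, hQ]; exact dvd_pow_self q hr
  obtain ⟨a, -, ha⟩ := (Nat.dvd_prime_pow hpp).1 h1
  refine ⟨a, ?_, ha⟩
  rcases Nat.eq_zero_or_pos a with h0 | h0
  · exfalso
    rw [h0, pow_zero] at ha
    rw [ha, one_pow] at hQ
    have : 1 < Fintype.card F := Fintype.one_lt_card
    omega
  · exact h0

theorem kpow (p : ℕ) [hp : Fact p.Prime] [CharP F p] {κ m : ℕ} (hQ : κ ^ m = Fintype.card F) : ∃ b, κ = p ^ b := by
  obtain ⟨f, hpf, hff⟩ := FiniteField.card F p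
  have hm : m ≠ 0 := by
    rintro rfl
    rw [pow_zero] at hQ
    have : 1 < Fintype.card F := Fintype.one_lt_card
    omega
  have h1 : κ ∣ p ^ (f : ℕ) := by rw [← hff, ← hQ]; exact dvd_pow_self κ hm
  obtain ⟨a, -, ha⟩ := (Nat.dvd_prime_pow hpf).1 h1
  exact ⟨a, ha⟩

theorem sub_coatom (p : ℕ) [hp : Fact p.Prime] [CharP F p] {M : Subgroup (PS F)} {q r a : ℕ} (hr : r.Prime)
    (hQ : Fintype.card F = q ^ r) (hq : q = p ^ a) (ha : 0 < a)
    (hM : (Nat.card M = q * (q - 1) * (q + 1) ∧ (p = 2 ∨ r = 2)) ∨ (p ≠ 2 ∧ Odd r ∧ 2 * Nat.card M = q * (q - 1) * (q + 1)))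
    (hB : ∀ S : Sylow p (PS F), ¬ M ≤ Subgroup.normalizer ((S : Subgroup (PS F)) : Set (PS F)))
    (h4 : p = 2 → 4 ∣ Nat.card M) : IsCoatom M := by
  have hcard : Nat.gcd 2 (Fintype.card F - 1) * Nat.card (PS F) = Fintype.card F * (Fintype.card F - 1) * (Fintype.card F + 1) := card_psl
  obtain ⟨hd1, hd2, hd3, hd4⟩ := d_facts (F := F)
  have hq1 : 1 < q := by rw [hq]; exact Nat.one_lt_pow ha.ne' hp.out.one_lt
  have hpq : p ∣ q := by rw [hq]; exact dvd_pow_self p ha.ne'
  have hX1 : Nat.card M ≤ q * (q - 1) * (q + 1) := by rcases hM with ⟨h, -⟩ | ⟨-, -, h⟩ <;> omega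
  have hX2 : q * (q - 1) * (q + 1) ∣ 2 * Nat.card M := by
    rcases hM with ⟨h, -⟩ | ⟨-, -, h⟩
    · rw [h]; exact Dvd.intro_left _ rfl
    · rw [h]
  have hpodd : p ≠ 2 → Odd q := by
    intro h
    rw [hq]
    exact (hp.out.odd_of_ne_two h).pow
  have hpM : p ∣ Nat.card M := by
    by_cases h2 : p = 2
    · exact (by rw [h2]; norm_num : p ∣ 4).trans (h4 h2)
    · have h1 : p ∣ 2 * Nat.card M := (hpq.trans ((Dvd.intro _ (by ring : q * ((q - 1) * (q + 1)) = q * (q - 1) * (q + 1))))).trans hX2
      rcases hp.out.dvd_mul.1 h1 with h | h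
      · exact absurd ((Nat.prime_dvd_prime_iff_eq hp.out Nat.prime_two).1 h) h2
      · exact h
  refine coatom_of ?_ ?_
  · intro h
    have h1 : Nat.card M = Nat.card (PS F) := by rw [h, Subgroup.card_top]
    have h2 : Fintype.card F * (Fintype.card F - 1) * (Fintype.card F + 1) ≤ 2 * (q * (q - 1) * (q + 1)) := by
      rw [← hcard, ← h1]
      exact Nat.mul_le_mul hd2 hX1
    have h3 : 2 * q ≤ Fintype.card F := by
      rw [hQ]
      calc 2 * q ≤ q * q := Nat.mul_le_mul_right _ hq1
        _ = q ^ 2 := (pow_two q).symm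
        _ ≤ q ^ r := Nat.pow_le_pow_right (by omega) hr.two_le
    have h5 : 2 * q * (q - 1) * (q + 1) < Fintype.card F * (Fintype.card F - 1) * (Fintype.card F + 1) := by
      have h6 : 2 * q * (q - 1) ≤ Fintype.card F * (Fintype.card F - 1) := Nat.mul_le_mul h3 (by omega)
      exact Nat.mul_lt_mul_of_le_of_lt h6 (by omega) (Nat.mul_pos (by omega) (by omega))
    have h7 : 2 * q * (q - 1) * (q + 1) = 2 * (q * (q - 1) * (q + 1)) := by ring
    omega
  · intro H hMH hH
    have hMHd : Nat.card M ∣ Nat.card H := Subgroup.card_dvd_of_le hMH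
    rcases overs p hMH hpM h4 hB with ⟨h3, ⟨h⟩⟩ | ⟨k, i1, i2, m, hm, h⟩
    · exfalso
      have h60 : Nat.card H = 60 := by rw [Nat.card_congr h.toEquiv, cA5]
      rw [h60] at hMHd
      have h1 : q ∣ 120 := by
        have h2 : q ∣ 2 * Nat.card M := (Dvd.intro _ (by ring : q * ((q - 1) * (q + 1)) = q * (q - 1) * (q + 1))).trans hX2
        exact h2.trans (Nat.mul_dvd_mul_left 2 hMHd)
      have ha1 : a = 1 := by
        by_contra ha1
        have h2 : 3 ^ 2 ∣ q := by rw [hq, h3]; exact pow_dvd_pow 3 (by omega)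
        have h5 := h2.trans h1
        norm_num at h5
      have hq3 : q = 3 := by rw [hq, h3, ha1, pow_one]
      rcases hM with ⟨h6, -⟩ | ⟨-, h6, -⟩
      · rw [h6, hq3] at hMHd
        norm_num at hMHd
      · have h5 : 5 ∣ Fintype.card F * (Fintype.card F - 1) * (Fintype.card F + 1) := by
          rw [← hcard]
          apply Dvd.dvd.mul_left
          have : Nat.card H ∣ Nat.card (PS F) := Subgroup.card_subgroup_dvd_card H
          rw [h60] at this
          exact (by norm_num : 5 ∣ 60).trans this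
        have hQ3 : Fintype.card F % 5 = 3 ∨ Fintype.card F % 5 = 2 := by
          obtain ⟨t, ht⟩ := h6
          rw [hQ, hq3, ht, pow_succ, pow_mul, Nat.mul_mod, Nat.pow_mod]
          norm_num
          rcases Nat.even_or_odd t with ⟨s, hs⟩ | ⟨s, hs⟩
          · left
            rw [hs, ← two_mul, pow_mul]
            norm_num [Nat.mul_mod, Nat.pow_mod]
          · right
            rw [hs, pow_succ, pow_mul]
            norm_num [Nat.mul_mod, Nat.pow_mod]
        rw [(show Nat.Prime 5 by norm_num).dvd_mul, (show Nat.Prime 5 by norm_num).dvd_mul] at h5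
        omega
    · obtain ⟨b, hb⟩ := kpow (F := F) p hm
      have hcH : (Nonempty (H ≃* PG k) ∧ Nat.card H = Fintype.card k * (Fintype.card k - 1) * (Fintype.card k + 1)) ∨
          (Odd (Fintype.card k) ∧ 2 * Nat.card H = Fintype.card k * (Fintype.card k - 1) * (Fintype.card k + 1)) := by
        rcases h with h | ⟨h, ⟨e⟩⟩
        · left
          refine ⟨h, ?_⟩
          obtain ⟨e⟩ := h
          rw [Nat.card_congr e.toEquiv]; exact card_PG
        · right
          refine ⟨h, ?_⟩
          have h5 : Nat.gcd 2 (Fintype.card k - 1) * Nat.card (PS k) = Fintype.card k * (Fintype.card k - 1) * (Fintype.card k + 1) := card_psl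
          rw [d_odd h] at h5
          rw [Nat.card_congr e.toEquiv]
          exact h5
      have hd : q * (q - 1) * (q + 1) ∣ 2 * (Fintype.card k * (Fintype.card k - 1) * (Fintype.card k + 1)) := by
        refine hX2.trans ?_
        rcases hcH with ⟨-, h⟩ | ⟨-, h⟩
        · rw [← h]; exact Nat.mul_dvd_mul_left 2 hMHd
        · rw [← h]
          exact (Nat.mul_dvd_mul_left 2 hMHd).trans (Dvd.intro_left _ rfl)
      have hd2' : p = 2 → q * (q - 1) * (q + 1) ∣ Fintype.card k * (Fintype.card k - 1) * (Fintype.card k + 1) := by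
        intro hp2
        have h5 : Nat.card M = q * (q - 1) * (q + 1) := by
          rcases hM with ⟨h, -⟩ | ⟨h, -⟩
          · exact h
          · exact absurd hp2 h
        rcases hcH with ⟨-, h⟩ | ⟨h, -⟩
        · rw [← h5, ← h]; exact hMHd
        · exfalso
          have hb0 : b ≠ 0 := by
            rintro rfl
            rw [pow_zero] at hb
            have : 1 < Fintype.card k := Fintype.one_lt_card
            omega
          rw [hb, hp2] at h
          have : Even (2 ^ b) := (Nat.even_pow).2 ⟨even_two, hb0⟩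
          exact Nat.not_even_iff_odd.2 h this
      rcases kappa' hp.out hq hb ha hr hQ hm hd hd2' with h6 | h6
      · rw [h6] at hcH
        rcases hcH with ⟨h7, h8⟩ | ⟨-, h8⟩
        · rcases hM with ⟨h9, -⟩ | ⟨h9, h10, -⟩
          · rw [h8, h9]
          · exfalso
            have hFo : Odd (Fintype.card F) := by rw [hQ]; exact (hpodd h9).pow
            have hmr : m = r := by
              rw [h6, hQ] at hm
              exact Nat.pow_right_injective hq1 hm
            have h11 := ((Cfsg.Agent.S0805.result (F := F) (K := k) rfl hFo m (by rw [hmr]; exact hr.one_lt.le) hm).2).1 ⟨H, h7⟩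
            rw [hmr] at h11
            exact Nat.not_even_iff_odd.2 h10 h11
        · rcases hM with ⟨h9, -⟩ | ⟨h9, h10, h11⟩
          · omega
          · omega
      · exfalso
        exact hH (sub_top h6 h)

end

end CfsgH9.Dk
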