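import Cfsg.Agent.H9.Dk14
import Cfsg.Agent.H9.Dih

set_option autoImplicit false

open MulAction Matrix

namespace CfsgH9.Dk

section abstractDih
variable {G : Type*} [Group G]

/-- the subgroup `T ∪ wT` -/
def dsub (T : Subgroup G) (w : G) (hw : w * w = 1) (hinv : ∀ t ∈ T, w * t * w = t⁻¹) : Subgroup G where
  carrier := {x | x ∈ T ∨ w * x ∈ T}
  one_mem' := Or.inl T.one_mem
  mul_mem' := by
    rintro x y (hx | hx) (hy | hy)
    · exact Or.inl (T.mul_mem hx hy)
    · right
      have : w * (x * y) = (w * x * w) * (w * y) := by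
        have : w * x * w * (w * y) = w * x * (w * w) * y := by group
        rw [this, hw, mul_one, mul_assoc]
      rw [this, hinv x hx]
      exact T.mul_mem (T.inv_mem hx) hy
    · right
      rw [← mul_assoc]; exact T.mul_mem hx hy
    · left
      have : x * y = (w * (w * x) * w) * (w * y) := by
        have h1 : w * (w * x) * w * (w * y) = (w * w) * x * (w * w) * y := by group
        rw [h1, hw, one_mul, mul_one]
      rw [this, hinv _ hx]
      exact T.mul_mem (T.inv_mem hx) hy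
  inv_mem' := by
    rintro x (hx | hx)
    · exact Or.inl (T.inv_mem hx)
    · right
      have : w * x⁻¹ = w * (w * x)⁻¹ * w := by
        rw [_root_.mul_inv_rev]
        have : w * (x⁻¹ * w⁻¹) * w = w * x⁻¹ := by group
        rw [this]
      rw [this, hinv _ (T.inv_mem hx), inv_inv]
      exact hx

theorem dsub_facts [Finite G] (T : Subgroup G) (w : G) (hw : w * w = 1) (hinv : ∀ t ∈ T, w * t * w = t⁻¹) (hwT : w ∉ T) (hT : IsCyclic T) :
    T ≤ dsub T w hw hinv ∧ w ∈ dsub T w hw hinv ∧ Nat.card (dsub T w hw hinv) = 2 * Nat.card T ∧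
      Nonempty (dsub T w hw hinv ≃* DihedralGroup (Nat.card T)) := by
  have h1 : T ≤ dsub T w hw hinv := fun x hx => Or.inl hx
  have h2 : w ∈ dsub T w hw hinv := Or.inr (by rw [hw]; exact T.one_mem)
  have h3 : Nat.card (dsub T w hw hinv) = 2 * Nat.card T := by
    have h4 : (T.subgroupOf (dsub T w hw hinv)).index = 2 := by
      rw [Subgroup.index_eq_two_iff]
      refine ⟨⟨w, h2⟩, ?_⟩
      rintro ⟨x, hx⟩
      rw [Subgroup.mem_subgroupOf, Subgroup.mem_subgroupOf]
      change Xor' (x * w ∈ T) (x ∈ T)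
      by_cases hxT : x ∈ T
      · right
        refine ⟨hxT, fun h => hwT ?_⟩
        have := T.mul_mem (T.inv_mem hxT) h
        rwa [inv_mul_cancel_left] at this
      · left
        refine ⟨?_, hxT⟩
        have h5 : w * x ∈ T := hx.resolve_left hxT
        have h6 : x * w = w * (w * x) * w := by
          rw [← mul_assoc, hw, one_mul]
        rw [h6, hinv _ h5]
        exact T.inv_mem h5
    have h5 := Subgroup.card_mul_index (T.subgroupOf (dsub T w hw hinv))
    rw [h4, Nat.card_congr (Subgroup.subgroupOfEquivOfLe h1).toEquiv] at h5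
    omega
  refine ⟨h1, h2, h3, ?_⟩
  refine CfsgH9.Dih.dihedral_of_cyclic (T.subgroupOf (dsub T w hw hinv)) ?_ ?_ h3 (w := ⟨w, h2⟩) (Subtype.ext hw) ?_ ?_
  · exact (Subgroup.subgroupOfEquivOfLe h1).isCyclic.2 hT
  · exact Nat.card_congr (Subgroup.subgroupOfEquivOfLe h1).toEquiv
  · rintro ⟨c, hc⟩ hcT
    exact Subtype.ext (hinv c hcT)
  · rintro ⟨x, hx⟩
    exact hx

end abstractDih

section
variable {F : Type*} [Field F] [Fintype F]
open CfsgH7

theorem card_cen_SL2 : Nat.card (Subgroup.center (SL2 F)) = Nat.gcd 2 (Fintype.card F - 1) := by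
  have h1 : Nat.gcd 2 (Fintype.card F - 1) * Nat.card (PS F) = Fintype.card F * (Fintype.card F - 1) * (Fintype.card F + 1) := card_psl
  have h2 : Nat.card (SL2 F) = _ := SLt.card_SL2
  have h3 : Nat.card (SL2 F) = Nat.card (PS F) * Nat.card (Subgroup.center (SL2 F)) := Subgroup.card_eq_card_quotient_mul_card_subgroup _
  rw [← h1] at h2
  rw [h2, mul_comm] at h3
  exact (Nat.eq_of_mul_eq_mul_left Nat.card_pos h3).symm

/-- the torus of `PSL₂` through `pr z` -/
def TT (z : SL2 F) : Subgroup (PS F) := (cen z).map SLt.pr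

theorem TT_card (z : SL2 F) : Nat.gcd 2 (Fintype.card F - 1) * Nat.card (TT z) = Nat.card (cen z) := by
  have h1 : (Subgroup.center (SL2 F)) ≤ cen z := by
    intro c hc
    rw [mem_cen]
    exact (Subgroup.mem_center_iff.1 hc z)
  rw [← card_cen_SL2]
  let φ : cen z →* PS F := (SLt.pr (F := F)).comp (cen z).subtype
  have h2 : φ.range = TT z := by
    rw [MonoidHom.range_comp, Subgroup.range_subtype]; rfl
  have h3 : φ.ker = (Subgroup.center (SL2 F)).subgroupOf (cen z) := by
    ext x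
    rw [MonoidHom.mem_ker, Subgroup.mem_subgroupOf]
    exact QuotientGroup.eq_one_iff _
  have h4 := Subgroup.card_mul_index φ.ker
  rw [Subgroup.index_ker, h2, h3, Nat.card_congr (Subgroup.subgroupOfEquivOfLe h1).toEquiv] at h4
  exact h4

theorem TT_cyclic {z : SL2 F} (hz : tr2 z ^ 2 ≠ 4) : IsCyclic (TT z) := by
  obtain ⟨n, -, -, hc, -⟩ := SLt.exists_torus z hz
  haveI := hc
  have : Function.Surjective ((SLt.pr (F := F)).subgroupMap (cen z)) := MonoidHom.subgroupMap_surjective _ _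
  exact isCyclic_of_surjective _ this

theorem TT_mem (z : SL2 F) : SLt.pr z ∈ TT z := ⟨z, mem_cen.2 rfl, rfl⟩

theorem TT_inv {z : SL2 F} (hz : tr2 z ^ 2 ≠ 4) : ∃ w : PS F, w * w = 1 ∧ (∀ t ∈ TT z, w * t * w = t⁻¹) ∧ w ∉ TT z := by
  classical
  have hsq : ∀ y : SL2 F, y * y = 1 → tr2 y ^ 2 = 4 := by
    intro y hy
    have h1 := tr2_sq y
    rw [hy] at h1
    have h2 : tr2 (1 : SL2 F) = 2 := by
      simp [tr2]; norm_num
    rw [h2] at h1
    linear_combination -h1
  have hcj : IsConj z z⁻¹ := by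
    apply SLt.conj_of_tr hz
    simp only [tr2]
    rw [SpecialLinearGroup.SL2_inv_expl]
    simp [add_comm]
  obtain ⟨w, hw⟩ := isConj_iff.1 hcj
  -- the eigenvalue character
  let K := AlgebraicClosure F
  obtain ⟨lam, hlam⟩ : ∃ lam : K, lam ^ 2 - algebraMap F K (tr2 z) * lam + 1 = 0 := by
    obtain ⟨n, -⟩ := SLt.exists_torus z hz
    let P : Polynomial K := Polynomial.X ^ 2 + Polynomial.C (-(algebraMap F K (tr2 z))) * Polynomial.X + Polynomial.C 1
    have hdeg : P.degree = 2 := by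
      have : P = Polynomial.C 1 * Polynomial.X ^ 2 + Polynomial.C (-(algebraMap F K (tr2 z))) * Polynomial.X + Polynomial.C 1 := by
        simp [P]
      rw [this]; exact Polynomial.degree_quadratic one_ne_zero
    obtain ⟨lam, hl⟩ := IsAlgClosed.exists_root P (by rw [hdeg]; norm_num)
    refine ⟨lam, ?_⟩
    have h2 : P.eval lam = 0 := hl
    simp only [P, Polynomial.eval_add, Polynomial.eval_pow, Polynomial.eval_X, Polynomial.eval_mul, Polynomial.eval_C] at h2
    linear_combination h2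
  obtain ⟨v, hv, hE⟩ := SLt.exists_eig z lam hlam
  let χ := SLt.chi (SLt.not_isPM_of_tr hz) hv hE
  have hχ : Function.Injective χ := SLt.chi_injective hz hv hE
  have hχ0 : ∀ y, χ y ≠ 0 := fun y => (SLt.chi_spec (SLt.not_isPM_of_tr hz) hv hE y).ne_zero hv
  have hχt : ∀ y : cen z, algebraMap F K (tr2 (y : SL2 F)) = χ y + (χ y)⁻¹ := by
    intro y
    exact (SLt.chi_spec (SLt.not_isPM_of_tr hz) hv hE y).tr hv
  have htr : ∀ y y' : cen z, tr2 (y : SL2 F) = tr2 (y' : SL2 F) → y' = y ∨ y' = y⁻¹ := by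
    intro y y' h
    have h1 := hχt y
    rw [h, hχt y'] at h1
    have h2 := hχ0 y
    have h3 := hχ0 y'
    have h4 : (χ y' - χ y) * (χ y' * χ y - 1) = 0 := by
      have e1 : χ y * (χ y)⁻¹ = 1 := mul_inv_cancel₀ h2
      have e2 : χ y' * (χ y')⁻¹ = 1 := mul_inv_cancel₀ h3
      linear_combination (χ y' * χ y) * h1 - χ y * e2 + χ y' * e1
    rcases mul_eq_zero.1 h4 with h5 | h5
    · left; exact hχ (sub_eq_zero.1 h5)
    · right
      rw [eq_inv_iff_mul_eq_one]
      apply hχ
      rw [map_mul, map_one]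
      exact sub_eq_zero.1 h5
  have hσ : ∀ y ∈ cen z, w * y * w⁻¹ ∈ cen z := by
    intro y hy
    rw [mem_cen] at hy ⊢
    have h1 : z = (w * z * w⁻¹)⁻¹ := by rw [hw, inv_inv]
    have h2 : (w * z * w⁻¹) * (w * y * w⁻¹) = (w * y * w⁻¹) * (w * z * w⁻¹) := by
      have e1 : (w * z * w⁻¹) * (w * y * w⁻¹) = w * (z * y) * w⁻¹ := by group
      have e2 : (w * y * w⁻¹) * (w * z * w⁻¹) = w * (y * z) * w⁻¹ := by group
      rw [e1, e2, hy]
    rw [h1]
    exact (Commute.inv_left h2 : Commute (w * z * w⁻¹)⁻¹ (w * y * w⁻¹))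
  obtain ⟨n, -, -, hcyc, -⟩ := SLt.exists_torus z hz
  obtain ⟨t, ht⟩ := hcyc.exists_generator
  have htt : w * (t : SL2 F) * w⁻¹ = (t : SL2 F)⁻¹ := by
    have h1 := htr t ⟨w * (t : SL2 F) * w⁻¹, hσ t t.2⟩ (by
      exact (SLt.isConj_tr (isConj_iff.2 ⟨w, rfl⟩)).symm)
    rcases h1 with h1 | h1
    · exfalso
      have h2 : w * (t : SL2 F) * w⁻¹ = (t : SL2 F) := congrArg Subtype.val h1
      obtain ⟨k, hk⟩ := ht ⟨z, mem_cen.2 rfl⟩
      have hk' : (t : SL2 F) ^ k = z := by
        have := congrArg Subtype.val hk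
        simpa using this
      have h3 : w * z * w⁻¹ = z := by
        rw [← hk', ← conj_zpow, h2]
      rw [hw] at h3
      apply hz
      apply hsq
      nth_rewrite 1 [← h3]
      exact inv_mul_cancel z
    · exact congrArg Subtype.val h1
  have hall : ∀ y ∈ cen z, w * y * w⁻¹ = y⁻¹ := by
    intro y hy
    obtain ⟨k, hk⟩ := ht ⟨y, hy⟩
    have hk' : (t : SL2 F) ^ k = y := by
      have := congrArg Subtype.val hk
      simpa using this
    rw [← hk', ← conj_zpow, htt, _root_.inv_zpow]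
  have hw2 : w * w ∈ cen z := by
    rw [mem_cen]
    have h1 : w * (w * z * w⁻¹) * w⁻¹ = z := by
      rw [hw]
      have : w * z⁻¹ * w⁻¹ = (w * z * w⁻¹)⁻¹ := by group
      rw [this, hw, inv_inv]
    have h2 : w * w * z = w * (w * z * w⁻¹) * w⁻¹ * (w * w) := by group
    rw [h1] at h2
    exact h2.symm
  have hprw : SLt.pr w * SLt.pr w = 1 := by
    rw [← map_mul, SLt.pr_eq_one]
    have h1 := hall _ hw2
    have h2 : w * (w * w) * w⁻¹ = w * w := by group
    rw [h2] at h1
    have h3 : (w * w) * (w * w) = 1 := by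
      nth_rewrite 1 [h1]
      exact inv_mul_cancel _
    have h4 := hsq _ h3
    have h5 : (tr2 (w * w) - 2) * (tr2 (w * w) + 2) = 0 := by linear_combination h4
    rcases mul_eq_zero.1 h5 with h6 | h6
    · rw [SLt.eq_one_of_tr hz (mem_cen.1 hw2) (sub_eq_zero.1 h6)]
      exact isPM_one
    · have h7 : SLt.m1 * (w * w) = 1 := by
        apply SLt.eq_one_of_tr hz
        · rw [← mul_assoc, ← SLt.m1_comm, mul_assoc, mem_cen.1 hw2, ← mul_assoc]
        · have : tr2 (SLt.m1 * (w * w)) = - tr2 (w * w) := by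
            simp only [tr2, SLt.m1_mul_apply]; ring
          rw [this]
          linear_combination -h6
      have h8 : w * w = SLt.m1 := by
        have := congrArg (fun x => SLt.m1 * x) h7
        simp only [← mul_assoc, SLt.m1_mul_m1, one_mul, mul_one] at this
        exact this
      rw [h8]
      exact SLt.isPM_m1
  refine ⟨SLt.pr w, hprw, ?_, ?_⟩
  · rintro _ ⟨y, hy, rfl⟩
    have h1 : (SLt.pr w)⁻¹ = SLt.pr w := inv_eq_of_mul_eq_one_left hprw
    nth_rewrite 2 [← h1]
    rw [← map_inv, ← map_mul, ← map_mul, hall y hy, map_inv]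
  · rintro ⟨y, hy, h⟩
    have h1 : w ∈ cen z := by
      rcases SLt.pr_eq_iff.1 h with h | h
      · rw [h]; exact hy
      · rw [h]
        refine (cen z).mul_mem ?_ hy
        rw [mem_cen]
        exact (SLt.m1_comm z).symm
    rw [mem_cen] at h1
    have h2 : w * z * w⁻¹ = z := by rw [← h1]; group
    rw [hw] at h2
    apply hz
    apply hsq
    nth_rewrite 1 [← h2]
    exact inv_mul_cancel z

end

end CfsgH9.Dk
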