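import Cfsg.Agent.H9.Dk24
import Cfsg.Agent.H9.Dk23

set_option autoImplicit false

open MulAction Matrix

namespace CfsgH9.Dk

section PGord
variable {k : Type*} [Field k] [Fintype k]

/-- a cyclic vector of a non-scalar matrix -/
theorem cyclic_vec {M : Matrix (Fin 2) (Fin 2) k} (hM : ¬ ∃ c : k, M = c • (1 : Matrix (Fin 2) (Fin 2) k)) :
    ∃ v : Fin 2 → k, v ≠ 0 ∧ v 0 * (M *ᵥ v) 1 - v 1 * (M *ᵥ v) 0 ≠ 0 := by
  by_cases h1 : M 1 0 = 0
  · by_cases h2 : M 0 1 = 0
    · refine ⟨![1, 1], ?_, ?_⟩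
      · intro h; exact one_ne_zero (congrFun h 0)
      · simp only [mulVec, dotProduct, Fin.sum_univ_two, Matrix.cons_val_zero, Matrix.cons_val_one, h1, h2]
        intro h
        apply hM
        refine ⟨M 0 0, ?_⟩
        ext i j
        fin_cases i <;> fin_cases j
        · simp
        · simp [h2]
        · simp [h1]
        · simp; linear_combination h
    · refine ⟨![0, 1], ?_, ?_⟩
      · intro h; exact one_ne_zero (congrFun h 1)
      · simp [mulVec, dotProduct, Fin.sum_univ_two]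
        exact h2
  · refine ⟨![1, 0], ?_, ?_⟩
    · intro h; exact one_ne_zero (congrFun h 0)
    · simp [mulVec, dotProduct, Fin.sum_univ_two]
      exact h1

theorem eq_of_cyclic {M A B : Matrix (Fin 2) (Fin 2) k} {v : Fin 2 → k} (hv : v 0 * (M *ᵥ v) 1 - v 1 * (M *ᵥ v) 0 ≠ 0)
    (hA : A * M = M * A) (hB : B * M = M * B) (h : A *ᵥ v = B *ᵥ v) : A = B := by
  have h2 : A *ᵥ (M *ᵥ v) = B *ᵥ (M *ᵥ v) := by
    rw [mulVec_mulVec, mulVec_mulVec, hA, hB, ← mulVec_mulVec, ← mulVec_mulVec, h]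
  set u := M *ᵥ v with hu
  have e1 : ∀ i, A i 0 * v 0 + A i 1 * v 1 = B i 0 * v 0 + B i 1 * v 1 := by
    intro i
    have := congrFun h i
    simpa [mulVec, dotProduct, Fin.sum_univ_two] using this
  have e2 : ∀ i, A i 0 * u 0 + A i 1 * u 1 = B i 0 * u 0 + B i 1 * u 1 := by
    intro i
    have := congrFun h2 i
    simpa [mulVec, dotProduct, Fin.sum_univ_two] using this
  have key : ∀ i j, A i j = B i j := by
    intro i j
    apply sub_eq_zero.1
    fin_cases j
    · have : (A i 0 - B i 0) * (v 0 * u 1 - v 1 * u 0) = 0 := by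
        linear_combination u 1 * e1 i - v 1 * e2 i
      exact (mul_eq_zero.1 this).resolve_right hv
    · have : (A i 1 - B i 1) * (v 0 * u 1 - v 1 * u 0) = 0 := by
        linear_combination v 0 * e2 i - u 0 * e1 i
      exact (mul_eq_zero.1 this).resolve_right hv
  ext i j
  exact key i j

theorem mk_of_smul {g h : GL (Fin 2) k} {c c' : kˣ} (hc : (c : k) • (g : Matrix (Fin 2) (Fin 2) k) = (c' : k) • (h : Matrix (Fin 2) (Fin 2) k)) :
    (ProjGenLinGroup.mk g : PG k) = ProjGenLinGroup.mk h := by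
  rw [ProjGenLinGroup.mk_eq_mk_iff]
  refine ⟨c'⁻¹ * c, ?_⟩
  apply Units.ext
  rw [Units.val_mul]
  have h1 : (h : Matrix (Fin 2) (Fin 2) k) = ((c'⁻¹ * c : kˣ) : k) • (g : Matrix (Fin 2) (Fin 2) k) := by
    rw [Units.val_mul, mul_smul, hc, ← mul_smul, Units.inv_mul, one_smul]
  rw [h1]
  generalize c'⁻¹ * c = u
  ext i j
  simp [Matrix.mul_apply, Matrix.scalar_apply, Matrix.diagonal_apply, mul_comm]

theorem ord_PG (x : PG k) : orderOf x ≤ Fintype.card k + 1 := by
  classical
  induction x using ProjGenLinGroup.induction_on with | mk g =>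
  have hk1 : 1 < Fintype.card k := Fintype.one_lt_card
  by_cases hs : ∃ c : k, (g : Matrix (Fin 2) (Fin 2) k) = c • (1 : Matrix (Fin 2) (Fin 2) k)
  · obtain ⟨c, hc⟩ := hs
    have h1 : (ProjGenLinGroup.mk g : PG k) = 1 := by
      have hc0 : c ≠ 0 := by
        rintro rfl
        rw [zero_smul] at hc
        exact g.ne_zero hc
      rw [← map_one ProjGenLinGroup.mk]
      apply mk_of_smul (c := 1) (c' := Units.mk0 c hc0)
      rw [Units.val_one, one_smul, Units.val_mk0, hc, Units.val_one]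
    rw [h1, orderOf_one]; omega
  · obtain ⟨v, hv0, hv⟩ := cyclic_vec hs
    set n := orderOf (ProjGenLinGroup.mk g : PG k) with hn
    let f : kˣ × Fin n → {u : Fin 2 → k // u ≠ 0} := fun x =>
      ⟨((x.1 : k) • ((g ^ (x.2 : ℕ) : GL (Fin 2) k) : Matrix (Fin 2) (Fin 2) k)) *ᵥ v, by
        intro h
        apply hv0
        rw [smul_mulVec] at h
        have h2 := (smul_eq_zero.1 h).resolve_left x.1.ne_zero
        have h3 : ((g ^ (x.2 : ℕ))⁻¹ : GL (Fin 2) k).1 *ᵥ (((g ^ (x.2 : ℕ) : GL (Fin 2) k) : Matrix (Fin 2) (Fin 2) k) *ᵥ v) = v := by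
          rw [mulVec_mulVec, ← Units.val_mul, inv_mul_cancel, Units.val_one, one_mulVec]
        rw [h2, mulVec_zero] at h3
        exact h3.symm⟩
    have hf : Function.Injective f := by
      rintro ⟨c, i⟩ ⟨c', j⟩ h
      have h1 := congrArg Subtype.val h
      have h2 := eq_of_cyclic (A := (c : k) • ((g ^ (i : ℕ) : GL (Fin 2) k) : Matrix (Fin 2) (Fin 2) k))
        (B := (c' : k) • ((g ^ (j : ℕ) : GL (Fin 2) k) : Matrix (Fin 2) (Fin 2) k)) hv ?_ ?_ h1
      · have h3 : (ProjGenLinGroup.mk g : PG k) ^ (i : ℕ) = (ProjGenLinGroup.mk g : PG k) ^ (j : ℕ) := by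
          rw [← map_pow, ← map_pow]
          exact mk_of_smul h2
        have h4 : (i : ℕ) = j := pow_injOn_Iio_orderOf i.2 j.2 h3
        have h5 : i = j := Fin.ext h4
        subst h5
        have h6 : (c : k) = c' := by
          have h7 := congrArg (fun X => X * (((g ^ (i : ℕ))⁻¹ : GL (Fin 2) k) : Matrix (Fin 2) (Fin 2) k)) h2
          simp only [smul_mul_assoc] at h7
          rw [← Units.val_mul, mul_inv_cancel, Units.val_one] at h7
          have := congrFun (congrFun h7 0) 0
          simpa using this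
        rw [Units.ext h6]
      · rw [smul_mul_assoc, mul_smul_comm]
        congr 1
        rw [← Units.val_mul, ← Units.val_mul, pow_mul_comm']
      · rw [smul_mul_assoc, mul_smul_comm]
        congr 1
        rw [← Units.val_mul, ← Units.val_mul, pow_mul_comm']
    have h1 := Fintype.card_le_of_injective f hf
    rw [Fintype.card_prod, Fintype.card_units, Fintype.card_fin, Fintype.card_subtype_compl, Fintype.card_subtype_eq, Fintype.card_fun, Fintype.card_fin] at h1
    obtain ⟨r, hr⟩ : ∃ r, Fintype.card k = r + 2 := ⟨Fintype.card k - 2, by omega⟩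
    rw [hr] at h1 ⊢
    have h2 : (r + 2) ^ 2 - 1 = (r + 1) * (r + 3) := by
      have : (r + 2) ^ 2 = (r + 1) * (r + 3) + 1 := by ring
      rw [this, Nat.add_sub_cancel]
    rw [h2] at h1
    exact Nat.le_of_mul_le_mul_left h1 (by omega)

end PGord

end CfsgH9.Dk
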