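import Cfsg.Agent.H9.Dk25

set_option autoImplicit false

open MulAction Matrix

namespace CfsgH9.Dk

section
variable {F : Type*} [Field F] [Fintype F]
open CfsgH7

theorem exists_nonsplit : ∃ z : SL2 F, tr2 z ^ 2 ≠ 4 ∧ Nat.card (cen z) = Fintype.card F + 1 := by
  classical
  have h1 : ¬ Function.Surjective (fun x : Fˣ => (x : F) + (x : F)⁻¹) := by
    intro h
    have h2 := Fintype.card_le_of_surjective _ h
    rw [Fintype.card_units] at h2
    have : 0 < Fintype.card F := Fintype.card_pos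
    omega
  rw [Function.Surjective] at h1
  push Not at h1
  obtain ⟨t, ht⟩ := h1
  have htr : tr2 (SLt.mk2 t (-1) 1 0 (by ring) : SL2 F) = t := by
    simp [tr2]
  have hz : tr2 (SLt.mk2 t (-1) 1 0 (by ring) : SL2 F) ^ 2 ≠ 4 := by
    rw [htr]
    intro h
    have h5 : (t - 2) * (t + 2) = 0 := by linear_combination h
    rcases mul_eq_zero.mp h5 with h | h
    · apply ht 1
      simp only [Units.val_one, inv_one]
      linear_combination -h
    · apply ht (-1)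
      simp only [Units.val_neg, Units.val_one, inv_neg, inv_one]
      linear_combination -h
  refine ⟨_, hz, ?_⟩
  obtain ⟨n, hn, hc, -, ha, hb⟩ := SLt.exists_torus _ hz
  rw [hc]
  rcases hn with hn | hn
  · exfalso
    obtain ⟨lam, hl⟩ := ha hn
    rw [htr] at hl
    have hl0 : lam ≠ 0 := by
      rintro rfl
      apply one_ne_zero (α := F)
      linear_combination hl
    apply ht (Units.mk0 lam hl0)
    simp only [Units.val_mk0]
    field_simp
    linear_combination hl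
  · exact hn

theorem exists_split (hq : 3 < Fintype.card F ∨ (Even (Fintype.card F) ∧ Fintype.card F ≠ 2)) :
    ∃ z : SL2 F, tr2 z ^ 2 ≠ 4 ∧ Nat.card (cen z) = Fintype.card F - 1 := by
  classical
  have hq1 : 3 < Fintype.card F := by
    rcases hq with h | ⟨⟨t, h⟩, h'⟩
    · exact h
    · have : 1 < Fintype.card F := Fintype.one_lt_card
      omega
  obtain ⟨lam, hl⟩ : ∃ lam : F, lam ∉ ({0, 1, -1} : Finset F) := by
    by_contra h
    push Not at h
    have h1 : (Finset.univ : Finset F) ⊆ {0, 1, -1} := fun x _ => h x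
    have h2 := Finset.card_le_card h1
    rw [Finset.card_univ] at h2
    have h3 : ({0, 1, -1} : Finset F).card ≤ 3 := Finset.card_le_three
    omega
  simp only [Finset.mem_insert, Finset.mem_singleton, not_or] at hl
  obtain ⟨hl0, hl1, hl2⟩ := hl
  have htr : tr2 (SLt.mk2 lam 0 0 lam⁻¹ (by field_simp; ring) : SL2 F) = lam + lam⁻¹ := by
    simp [tr2]
  have hz : tr2 (SLt.mk2 lam 0 0 lam⁻¹ (by field_simp; ring) : SL2 F) ^ 2 ≠ 4 := by
    rw [htr]
    intro h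
    have e : lam * lam⁻¹ = 1 := mul_inv_cancel₀ hl0
    have h5 : (lam - lam⁻¹) ^ 2 = 0 := by linear_combination h - 4 * e
    have h6 : lam - lam⁻¹ = 0 := pow_eq_zero_iff (two_ne_zero) |>.mp h5
    have h7 : (lam - 1) * (lam + 1) = 0 := by linear_combination lam * h6 + e
    rcases mul_eq_zero.mp h7 with h | h
    · exact hl1 (sub_eq_zero.1 h)
    · exact hl2 (eq_neg_of_add_eq_zero_left h)
  refine ⟨_, hz, ?_⟩
  obtain ⟨n, hn, hc, -, ha, hb⟩ := SLt.exists_torus _ hz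
  rw [hc]
  apply hb
  refine ⟨lam, ?_⟩
  rw [htr]
  have e : lam * lam⁻¹ = 1 := mul_inv_cancel₀ hl0
  linear_combination -e

theorem lift_ss (p : ℕ) [hp : Fact p.Prime] [CharP F p] {c : PS F} (hc : c ≠ 1) (hpc : ¬ p ∣ orderOf c) :
    ∃ z : SL2 F, SLt.pr z = c ∧ tr2 z ^ 2 ≠ 4 := by
  obtain ⟨x, rfl⟩ := SLt.pr_surjective c
  refine ⟨x, rfl, fun h4 => ?_⟩
  have h5 : (tr2 x - 2) * (tr2 x + 2) = 0 := by linear_combination h4
  have h6 : SLt.pr x ^ p = 1 := by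
    rcases mul_eq_zero.mp h5 with h | h
    · rw [← map_pow, sl2_pow_char (p := p) (sub_eq_zero.mp h), map_one]
    · have h7 : SLt.pr (SLt.m1 * x) = SLt.pr x := by rw [map_mul, SLt.pr_m1, one_mul]
      rw [← h7, ← map_pow, sl2_pow_char (p := p) ?_, map_one]
      rw [tr2, SLt.m1_mul_apply, SLt.m1_mul_apply]
      rw [tr2] at h
      linear_combination -h
  have h7 := orderOf_dvd_of_pow_eq_one h6
  rcases (Nat.dvd_prime hp.out).1 h7 with h | h
  · exact hc (orderOf_eq_one_iff.1 h)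
  · exact hpc (by rw [h])

/-- the dihedral subgroups of `PSL₂(q)` -/
theorem exists_DD {z : SL2 F} (hz : tr2 z ^ 2 ≠ 4) : ∃ (D : Subgroup (PS F)) (t w : PS F), TT z = Subgroup.zpowers t ∧ TT z ≤ D ∧ w ∈ D ∧
    w * w = 1 ∧ (∀ t ∈ TT z, w * t * w = t⁻¹) ∧ w ∉ TT z ∧ orderOf t = Nat.card (TT z) ∧ Nat.card D = 2 * Nat.card (TT z) ∧
    Nonempty (D ≃* DihedralGroup (Nat.card (TT z))) := by
  obtain ⟨w, hw, hinv, hwT⟩ := TT_inv hz
  obtain ⟨h1, h2, h3, h4⟩ := dsub_facts (TT z) w hw hinv hwT (TT_cyclic hz)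
  obtain ⟨t, ht⟩ := (TT_cyclic hz).exists_generator
  have ht' : TT z = Subgroup.zpowers (t : PS F) := by
    apply le_antisymm
    · intro x hx
      obtain ⟨k, hk⟩ := ht ⟨x, hx⟩
      refine ⟨k, ?_⟩
      have := congrArg Subtype.val hk
      simpa using this
    · rw [Subgroup.zpowers_le]; exact t.2
  refine ⟨_, t, w, ht', h1, h2, hw, hinv, hwT, ?_, h3, h4⟩
  rw [← Nat.card_zpowers, ← ht']

end

section perm

set_option maxRecDepth 100000 in
theorem A4_noinv : ∀ σ τ : Equiv.Perm (Fin 4), Equiv.Perm.sign σ = 1 → Equiv.Perm.sign τ = 1 → σ * τ * σ * τ = 1 → σ * σ = 1 → τ ^ 2 = 1 := by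
  decide

end perm

section
variable {F : Type*} [Field F] [Fintype F] (p : ℕ) [hp : Fact p.Prime] [CharP F p]
open CfsgH7

theorem card_TT_coprime {z : SL2 F} (hz : tr2 z ^ 2 ≠ 4) : Nat.Coprime p (Nat.card (TT z)) := by
  obtain ⟨n, hn, hc, -⟩ := SLt.exists_torus z hz
  have h1 := TT_card z
  rw [hc] at h1
  refine (Nat.Prime.coprime_iff_not_dvd hp.out).2 (fun h => ?_)
  have h2 : p ∣ n := by rw [← h1]; exact h.mul_left _
  obtain ⟨f, hpf, hff⟩ := FiniteField.card F p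
  have h3 : p ∣ Fintype.card F := by rw [hff]; exact dvd_pow_self _ f.pos.ne'
  have h4 : 1 < Fintype.card F := Fintype.one_lt_card
  rcases hn with hn | hn
  · rw [hn] at h2
    have h5 : p ∣ 1 := (Nat.dvd_sub_iff_right (by omega) h3).1 h2
    exact hp.out.one_lt.ne' (Nat.dvd_one.1 h5)
  · rw [hn] at h2
    have h5 : p ∣ 1 := (Nat.dvd_add_right h3).1 h2
    exact hp.out.one_lt.ne' (Nat.dvd_one.1 h5)

theorem dih_cases {n : ℕ} {D H : Subgroup (PS F)} {t w : PS F} (htD : t ∈ D) (hwD : w ∈ D) (hw : w * w = 1) (hinv : w * t * w = t⁻¹)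
    (hn : orderOf t = n) (hn3 : 3 ≤ n) (hcop : Nat.Coprime p n) (hcD : Nat.card D = 2 * n) (hDH : D ≤ H) :
    (∃ C : Subgroup (PS F), IsCyclic C ∧ ¬ p ∣ Nat.card C ∧ Nat.card H = 2 * Nat.card C ∧ n ∣ Nat.card C) ∨
    (¬ p ∣ Nat.card H ∧ (n = 3 ∨ n = 4) ∧ Nat.card H = 24) ∨
    ((¬ p ∣ Nat.card H ∨ p = 3) ∧ (n = 3 ∨ n = 5) ∧ Nat.card H = 60) ∨
    (∃ (k : Type) (_ : Field k) (_ : Fintype k) (m : ℕ), Fintype.card k ^ m = Fintype.card F ∧ n ≤ Fintype.card k + 1 ∧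
      (Nonempty (H ≃* PG k) ∨ (Odd (Fintype.card k) ∧ Nonempty (H ≃* ProjectiveSpecialLinearGroup (Fin 2) k)))) := by
  have htH : t ∈ H := hDH htD
  have hwH : w ∈ H := hDH hwD
  have ht2 : t ^ 2 ≠ 1 := by
    intro h
    have := Nat.le_of_dvd (by norm_num) (orderOf_dvd_of_pow_eq_one h)
    omega
  have hnc : w * t ≠ t * w := by
    intro h
    rw [h, mul_assoc, hw, mul_one] at hinv
    apply ht2
    rw [pow_two]
    nth_rewrite 1 [hinv]
    exact inv_mul_cancel t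
  rcases dickson_psl p H with ⟨h1, h2⟩ | ⟨S, h1, -⟩ | ⟨C, h1, h2, h3, ⟨h5⟩⟩ | ⟨h, ⟨e⟩⟩ | ⟨h, ⟨e⟩⟩ | ⟨h, ⟨e⟩⟩ | ⟨k, i1, i2, m, hm, h⟩
  · exfalso
    haveI := h2
    letI : CommGroup H := IsCyclic.commGroup
    exact hnc (congrArg Subtype.val (mul_comm (⟨w, hwH⟩ : H) ⟨t, htH⟩))
  · exfalso
    have h2 := norm_comm p S (h1 hwH) (h1 htH)
    have h3 : w * t * w⁻¹ * t⁻¹ = (t⁻¹) ^ 2 := by
      have hw' : w⁻¹ = w := inv_eq_of_mul_eq_one_left hw
      rw [hw', hinv, pow_two]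
    rw [h3] at h2
    obtain ⟨j, hj⟩ := S.2 ⟨_, h2⟩
    have hj' : ((t⁻¹) ^ 2) ^ p ^ j = 1 := congrArg Subtype.val hj
    rw [inv_pow, inv_pow, inv_eq_one] at hj'
    have h4 : orderOf (t ^ 2) ∣ p ^ j := orderOf_dvd_of_pow_eq_one hj'
    have h5 : orderOf (t ^ 2) ∣ n := by rw [← hn]; exact orderOf_pow_dvd 2
    exact ht2 (orderOf_eq_one_iff.1 (Nat.eq_one_of_dvd_coprimes (Nat.Coprime.pow_left j hcop) h4 h5))
  · left
    have h6 : Nat.card H = 2 * Nat.card C := by rw [Nat.card_congr h5.toEquiv, DihedralGroup.nat_card]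
    refine ⟨C, h2, h3, h6, ?_⟩
    have h7 : Nat.card D ∣ Nat.card H := Subgroup.card_dvd_of_le hDH
    rw [h6, hcD] at h7
    exact Nat.dvd_of_mul_dvd_mul_left (by norm_num) h7
  · exfalso
    have h1 : orderOf (e ⟨t, htH⟩) = n := by rw [MulEquiv.orderOf_eq e, Subgroup.orderOf_mk, hn]
    have h2 : e ⟨w, hwH⟩ * e ⟨w, hwH⟩ = 1 := by
      rw [← map_mul]
      have : (⟨w, hwH⟩ * ⟨w, hwH⟩ : H) = 1 := Subtype.ext hw
      rw [this, map_one]
    have h3 : e ⟨w, hwH⟩ * e ⟨t, htH⟩ * e ⟨w, hwH⟩ * e ⟨t, htH⟩ = 1 := by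
      rw [← map_mul, ← map_mul, ← map_mul]
      have : (⟨w, hwH⟩ * ⟨t, htH⟩ * ⟨w, hwH⟩ * ⟨t, htH⟩ : H) = 1 := by
        apply Subtype.ext
        change w * t * w * t = 1
        rw [hinv, inv_mul_cancel]
      rw [this, map_one]
    have h4 := A4_noinv (e ⟨w, hwH⟩) (e ⟨t, htH⟩) (Equiv.Perm.mem_alternatingGroup.1 (e ⟨w, hwH⟩).2)
      (Equiv.Perm.mem_alternatingGroup.1 (e ⟨t, htH⟩).2) (congrArg Subtype.val h3) (congrArg Subtype.val h2)
    have h5 : (e ⟨t, htH⟩) ^ 2 = 1 := Subtype.ext h4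
    have h6 := Nat.le_of_dvd (by norm_num) (orderOf_dvd_of_pow_eq_one h5)
    omega
  · right; left
    refine ⟨h, ?_, by rw [Nat.card_congr e.toEquiv, cS4]⟩
    have h1 : orderOf (e ⟨t, htH⟩) = n := by rw [MulEquiv.orderOf_eq e, Subgroup.orderOf_mk, hn]
    have := ordS4 (e ⟨t, htH⟩)
    omega
  · right; right; left
    refine ⟨h, ?_, by rw [Nat.card_congr e.toEquiv, cA5]⟩
    have h1 : orderOf (e ⟨t, htH⟩) = n := by rw [MulEquiv.orderOf_eq e, Subgroup.orderOf_mk, hn]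
    have := ordA5 (e ⟨t, htH⟩)
    omega
  · right; right; right
    refine ⟨k, i1, i2, m, hm, ?_, h⟩
    rcases h with ⟨⟨e⟩⟩ | ⟨-, ⟨e⟩⟩
    · have h1 : orderOf (e ⟨t, htH⟩) = n := by rw [MulEquiv.orderOf_eq e, Subgroup.orderOf_mk, hn]
      rw [← h1]
      exact ord_PG _
    · have h1 : orderOf (e ⟨t, htH⟩) = n := by rw [MulEquiv.orderOf_eq e, Subgroup.orderOf_mk, hn]
      rw [← h1, ← orderOf_injective _ (ProjectiveSpecialLinearGroup.toPGL_injective : Function.Injective (ProjectiveSpecialLinearGroup.toPGL : PS k →* PG k))]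
      exact ord_PG _

end

end CfsgH9.Dk
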