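import Cfsg.Agent.H9.Dk26
import Cfsg.Agent.H4.Burnside

set_option autoImplicit false

open MulAction Matrix

namespace CfsgH9.Dk

section general

theorem dih_solvable (n : ℕ) : Group.IsSolvable (DihedralGroup n) := by
  let f : Multiplicative (ZMod n) →* DihedralGroup n :=
    { toFun := fun i => DihedralGroup.r (Multiplicative.toAdd i)
      map_one' := rfl
      map_mul' := fun i j => by rw [DihedralGroup.r_mul_r]; rfl }
  let g : DihedralGroup n →* ℤˣ :=
    { toFun := fun x => match x with
        | DihedralGroup.r _ => 1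
        | DihedralGroup.sr _ => -1
      map_one' := rfl
      map_mul' := by
        rintro (i | i) (j | j)
        · rw [DihedralGroup.r_mul_r]; rfl
        · rw [DihedralGroup.r_mul_sr]; rfl
        · rw [DihedralGroup.sr_mul_r]; rfl
        · rw [DihedralGroup.sr_mul_sr]; rfl }
  refine Group.isSolvable_of_ker_le_range f g ?_
  rintro (i | i) hx
  · exact ⟨Multiplicative.ofAdd i, rfl⟩
  · exact absurd hx (by
      rw [MonoidHom.mem_ker]
      change (-1 : ℤˣ) ≠ 1
      decide)

theorem solv_congr {G H : Type*} [Group G] [Group H] (e : G ≃* H) (h : Group.IsSolvable H) : Group.IsSolvable G := by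
  haveI := h
  exact Group.isSolvable_of_isSolvable_injective (f := e.toMonoidHom) e.injective

theorem simple_nonsolv {G : Type*} [Group G] (hs : IsSimpleGroup G) (hnc : ∃ a b : G, a * b ≠ b * a) : ¬ Group.IsSolvable G := by
  intro h
  haveI := hs
  obtain ⟨a, b, hab⟩ := hnc
  exact hab (IsSimpleGroup.comm_iff_isSolvable.2 h a b)

theorem A5_nonsolv : ¬ Group.IsSolvable (alternatingGroup (Fin 5)) := simple_nonsolv alternatingGroup.isSimpleGroup_five ncA5

end general

section
variable {F : Type*} [Field F] [Fintype F]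

theorem simple_PS (h : 4 ≤ Fintype.card F) : IsSimpleGroup (PS F) :=
  ProjectiveSpecialLinearGroup.rank_two_simple (by rw [Nat.card_eq_fintype_card]; exact h)

theorem nc_PS (h : 4 ≤ Fintype.card F) : ∃ a b : PS F, a * b ≠ b * a := by
  by_contra hcon
  push Not at hcon
  haveI := simple_PS h
  letI : CommGroup (PS F) := { (inferInstance : Group (PS F)) with mul_comm := hcon }
  have h1 : (Nat.card (PS F)).Prime := IsSimpleGroup.prime_card
  have h2 : Nat.gcd 2 (Fintype.card F - 1) * Nat.card (PS F) = Fintype.card F * (Fintype.card F - 1) * (Fintype.card F + 1) := card_psl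
  obtain ⟨hd1, hd2, hd3, hd4⟩ := d_facts (F := F)
  have h3 : Nat.Coprime (Fintype.card F) (Nat.gcd 2 (Fintype.card F - 1)) := by
    rw [Nat.coprime_comm]
    refine Nat.Coprime.coprime_dvd_left hd3 ?_
    obtain ⟨s, hs⟩ : ∃ s, Fintype.card F = s + 1 := ⟨Fintype.card F - 1, by omega⟩
    rw [hs, Nat.add_sub_cancel]
    simp
  have h4 : Fintype.card F ∣ Nat.card (PS F) := by
    apply h3.dvd_of_dvd_mul_left
    rw [h2, mul_assoc]
    exact Dvd.intro _ rfl
  rcases (Nat.dvd_prime h1).1 h4 with h5 | h5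
  · omega
  · rw [← h5, mul_comm, mul_assoc] at h2
    have h6 := Nat.eq_of_mul_eq_mul_left (by omega) h2
    have h7 : 3 * 5 ≤ (Fintype.card F - 1) * (Fintype.card F + 1) := Nat.mul_le_mul (by omega) (by omega)
    omega

theorem ps_nonsolv (h : 4 ≤ Fintype.card F) : ¬ Group.IsSolvable (PS F) := simple_nonsolv (simple_PS h) (nc_PS h)

theorem norm_solvable (p : ℕ) [hp : Fact p.Prime] [CharP F p] (S : Sylow p (PS F)) :
    Group.IsSolvable (Subgroup.normalizer ((S : Subgroup (PS F)) : Set (PS F))) := by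
  set N := Subgroup.normalizer ((S : Subgroup (PS F)) : Set (PS F)) with hN
  have hn : ((S : Subgroup (PS F)).subgroupOf N).Normal := by
    refine ⟨fun s hs g => ?_⟩
    rw [Subgroup.mem_subgroupOf] at hs ⊢
    exact (Subgroup.mem_normalizer_iff.1 g.2 s).1 hs
  rw [Group.isSolvable_iff_subgroup_quotient ((S : Subgroup (PS F)).subgroupOf N)]
  constructor
  · have h1 : IsPGroup p ((S : Subgroup (PS F)).subgroupOf N) :=
      S.2.of_injective ((Subgroup.subgroupOfEquivOfLe (Subgroup.le_normalizer : (S : Subgroup (PS F)) ≤ N)).toMonoidHom)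
        (Subgroup.subgroupOfEquivOfLe _).injective
    haveI := h1.isNilpotent
    infer_instance
  · apply isSolvable_of_comm
    intro a b
    induction a using QuotientGroup.induction_on with | H a =>
    induction b using QuotientGroup.induction_on with | H b =>
    rw [← QuotientGroup.mk_mul, ← QuotientGroup.mk_mul, QuotientGroup.eq, Subgroup.mem_subgroupOf]
    have h1 := norm_comm p S (N.inv_mem b.2) (N.inv_mem a.2)
    have h2 : (((a * b)⁻¹ * (b * a) : N) : PS F) = (b : PS F)⁻¹ * (a : PS F)⁻¹ * (b : PS F)⁻¹⁻¹ * (a : PS F)⁻¹⁻¹ := by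
      simp only [Subgroup.coe_mul, Subgroup.coe_inv]
      group
    rw [h2]; exact h1

theorem sub_solvable {N H : Subgroup (PS F)} (h : H ≤ N) (hN : Group.IsSolvable N) : Group.IsSolvable H := by
  haveI := hN
  exact Group.isSolvable_of_isSolvable_injective (f := Subgroup.inclusion h) (Subgroup.inclusion_injective h)

theorem card_solv {G : Type*} [Group G] [Finite G] (h : Nat.card G = 6 ∨ Nat.card G = 12 ∨ Nat.card G = 24) : Group.IsSolvable G := by
  rcases h with h | h | h
  · exact CfsgH4.burnside_pq Nat.prime_two Nat.prime_three _ G 1 1 rfl (by rw [h]; norm_num)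
  · exact CfsgH4.burnside_pq Nat.prime_two Nat.prime_three _ G 2 1 rfl (by rw [h]; norm_num)
  · exact CfsgH4.burnside_pq Nat.prime_two Nat.prime_three _ G 3 1 rfl (by rw [h]; norm_num)

/-- solvability of the proper subgroups -/
theorem proper_solv (p : ℕ) [hp : Fact p.Prime] [CharP F p]
    (hA5 : ∀ H : Subgroup (PS F), (¬ p ∣ Nat.card H ∨ p = 3) → Nonempty (H ≃* alternatingGroup (Fin 5)) → False)
    (hκ : ∀ κ m : ℕ, κ ^ m = Fintype.card F → m = 1 ∨ κ ≤ 3) (H : Subgroup (PS F)) (hH : H ≠ ⊤) : Group.IsSolvable H := by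
  rcases dickson_psl p H with ⟨h1, h2⟩ | ⟨S, h1, -⟩ | ⟨C, h1, h2, h3, ⟨h5⟩⟩ | ⟨h, ⟨e⟩⟩ | ⟨h, ⟨e⟩⟩ | ⟨h, h'⟩ | ⟨k, i1, i2, m, hm, h⟩
  · haveI := h2
    letI : CommGroup H := IsCyclic.commGroup
    exact isSolvable_of_comm (fun a b => mul_comm a b)
  · exact sub_solvable h1 (norm_solvable p S)
  · exact solv_congr h5 (dih_solvable _)
  · exact card_solv (Or.inr (Or.inl (by rw [Nat.card_congr e.toEquiv, cA4])))
  · exact card_solv (Or.inr (Or.inr (by rw [Nat.card_congr e.toEquiv, cS4])))
  · exact (hA5 H h h').elim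
  · rcases hκ _ m hm with h1 | h1
    · exfalso
      rw [h1, pow_one] at hm
      exact hH (sub_top hm h)
    · have hk1 : 1 < Fintype.card k := Fintype.one_lt_card
      have h2 := card_sub h
      have h3 : Fintype.card k = 2 ∨ Fintype.card k = 3 := by omega
      apply card_solv
      rcases h3 with h3 | h3
      · rw [h3] at h2
        rcases h2 with h2 | ⟨⟨s, hs⟩, -⟩
        · left; exact h2
        · omega
      · rw [h3] at h2
        rcases h2 with h2 | ⟨-, h2⟩
        · right; right; exact h2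
        · right; left; omega

/-- proper nonsolvable subfield subgroups -/
theorem sub_nonsolv {k : Type*} [Field k] [Fintype k] {m : ℕ} (hm : Fintype.card k ^ m = Fintype.card F) (hm2 : 2 ≤ m) (hk : 4 ≤ Fintype.card k) :
    ∃ H : Subgroup (PS F), H ≠ ⊤ ∧ ¬ Group.IsSolvable H := by
  obtain ⟨f⟩ := exists_hom hm
  obtain ⟨H, ⟨e⟩⟩ := exists_PS f
  refine ⟨H, ?_, fun h => ps_nonsolv hk (solv_congr e.symm h)⟩
  intro h
  have hcard : Nat.gcd 2 (Fintype.card F - 1) * Nat.card (PS F) = Fintype.card F * (Fintype.card F - 1) * (Fintype.card F + 1) := card_psl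
  have hcardk : Nat.gcd 2 (Fintype.card k - 1) * Nat.card (PS k) = Fintype.card k * (Fintype.card k - 1) * (Fintype.card k + 1) := card_psl
  obtain ⟨hd1, hd2, hd3, hd4⟩ := d_facts (F := F)
  obtain ⟨ke1, -, -, -⟩ := d_facts (F := k)
  have h1 : Nat.card (PS F) = Nat.card (PS k) := by
    rw [← Nat.card_congr e.toEquiv, h, Subgroup.card_top]
  have h2 : Nat.card (PS k) ≤ Fintype.card k * (Fintype.card k - 1) * (Fintype.card k + 1) := by
    rw [← hcardk]; exact Nat.le_mul_of_pos_left _ ke1
  have h3 : 2 * Fintype.card k ≤ Fintype.card F := by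
    rw [← hm]
    calc 2 * Fintype.card k ≤ Fintype.card k * Fintype.card k := Nat.mul_le_mul_right _ (by omega)
      _ = Fintype.card k ^ 2 := (pow_two _).symm
      _ ≤ Fintype.card k ^ m := Nat.pow_le_pow_right (by omega) hm2
  have h4 : Fintype.card F * (Fintype.card F - 1) * (Fintype.card F + 1) ≤ 2 * (Fintype.card k * (Fintype.card k - 1) * (Fintype.card k + 1)) := by
    rw [← hcard, h1]; exact Nat.mul_le_mul hd2 h2
  have h5 : 2 * Fintype.card k * (Fintype.card k - 1) * (Fintype.card k + 1) < Fintype.card F * (Fintype.card F - 1) * (Fintype.card F + 1) := by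
    have h6 : 2 * Fintype.card k * (Fintype.card k - 1) ≤ Fintype.card F * (Fintype.card F - 1) := Nat.mul_le_mul h3 (by omega)
    exact Nat.mul_lt_mul_of_le_of_lt h6 (by omega) (Nat.mul_pos (by omega) (by omega))
  have h7 : 2 * Fintype.card k * (Fintype.card k - 1) * (Fintype.card k + 1) = 2 * (Fintype.card k * (Fintype.card k - 1) * (Fintype.card k + 1)) := by ring
  omega

end

end CfsgH9.Dk
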