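import Mathlib.FieldTheory.Finite.Basic
import Mathlib.FieldTheory.Galois.Basic
import Mathlib.FieldTheory.Fixed
import Mathlib.LinearAlgebra.QuadraticForm.Basis
import Mathlib.FieldTheory.Finite.GaloisField
import Mathlib.Algebra.Module.ZMod

set_option autoImplicit false

namespace CfsgH9.FAP

section
variable {F : Type*} [Field F] [Fintype F] [CharP F 2]

omit [Fintype F] [CharP F 2] in
theorem li : LinearIndependent F (fun σ : F ≃+* F => ((σ : F →+* F) : F → F)) := by
  have h1 := linearIndependent_monoidHom F F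
  exact h1.comp (fun σ : F ≃+* F => ((σ : F →+* F) : F →* F)) (fun σ τ h => by
    ext x
    exact DFunLike.congr_fun h x)

omit [CharP F 2] in
theorem finite_ringEquiv : Finite (F ≃+* F) := Finite.of_injective (fun σ => (σ : F → F)) DFunLike.coe_injective

theorem exists_sum (f : F →+ F) : ∃ (s : Finset (F ≃+* F)) (c : (F ≃+* F) → F), ∀ x : F, f x = ∑ σ ∈ s, c σ * σ x := by
  letI := ZMod.algebra F 2
  haveI : Module.Finite (ZMod 2) F := Module.Finite.of_finite
  haveI : IsGalois (ZMod 2) F := inferInstance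
  haveI : Finite (F ≃+* F) := finite_ringEquiv
  letI := Fintype.ofFinite (F ≃+* F)
  let L : (F ≃+* F) → (F →ₗ[ZMod 2] F) := fun σ => AddMonoidHom.toZModLinearMap 2 ((σ : F →+* F) : F →+ F)
  have hL : LinearIndependent F L := by
    have h1 := li (F := F)
    let ψ : (F →ₗ[ZMod 2] F) →ₗ[F] (F → F) := { toFun := fun g => g, map_add' := fun _ _ => rfl, map_smul' := fun _ _ => rfl }
    exact LinearIndependent.of_comp ψ h1
  have hcard : Fintype.card (F ≃+* F) = Module.finrank F (F →ₗ[ZMod 2] F) := by
    rw [Module.finrank_linearMap_self, ← IsGalois.card_aut_eq_finrank, ← Nat.card_eq_fintype_card]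
    refine Nat.card_congr
      { toFun := fun σ => AlgEquiv.ofRingEquiv (f := σ) (fun r => ?_)
        invFun := fun e => (e : F ≃+* F)
        left_inv := fun σ => ?_
        right_inv := fun e => ?_ }
    · exact RingHom.congr_fun (Subsingleton.elim (((σ : F →+* F)).comp (algebraMap (ZMod 2) F)) (algebraMap (ZMod 2) F)) r
    · rfl
    · rfl
  have h2 := hL.span_eq_top_of_card_eq_finrank' hcard
  have h3 : AddMonoidHom.toZModLinearMap 2 f ∈ Submodule.span F (Set.range L) := by rw [h2]; trivial
  rw [Submodule.mem_span_range_iff_exists_fun] at h3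
  obtain ⟨c, hc⟩ := h3
  refine ⟨Finset.univ, c, fun x => ?_⟩
  have := LinearMap.congr_fun hc x
  rw [LinearMap.sum_apply] at this
  exact this.symm

theorem exists_sum₂ (B : F →+ F →+ F) : ∃ (s : Finset ((F ≃+* F) × (F ≃+* F))) (c : (F ≃+* F) × (F ≃+* F) → F),
        ∀ x y : F, B x y = ∑ p ∈ s, c p * (p.1 x * p.2 y) := by
  haveI : Finite (F ≃+* F) := finite_ringEquiv
  letI := Fintype.ofFinite (F ≃+* F)
  have h0 : ∀ f : F →+ F, ∃ c : (F ≃+* F) → F, ∀ x, f x = ∑ σ, c σ * σ x := by
    classical
    intro f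
    obtain ⟨s, c, h⟩ := exists_sum f
    refine ⟨fun σ => if σ ∈ s then c σ else 0, fun x => ?_⟩
    rw [h x]
    simp [ite_mul, Finset.sum_ite_mem]
  have huniq : ∀ c d : (F ≃+* F) → F, (∀ x, ∑ σ, c σ * σ x = ∑ σ, d σ * σ x) → c = d := by
    intro c d h
    have h1 := Fintype.linearIndependent_iff.1 (li (F := F)) (c - d) (by
      funext x
      rw [Finset.sum_apply]
      have : ∀ σ : F ≃+* F, ((c - d) σ • ((σ : F →+* F) : F → F)) x = c σ * σ x - d σ * σ x := fun σ => by
        simp [sub_mul]
      simp_rw [this, Finset.sum_sub_distrib, h x, sub_self]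
      rfl)
    funext σ
    exact sub_eq_zero.1 (h1 σ)
  choose c hc using fun x => h0 (B x)
  -- c additive
  have hadd : ∀ x x', c (x + x') = c x + c x' := by
    intro x x'
    apply huniq
    intro y
    rw [← hc, map_add, AddMonoidHom.add_apply, hc, hc, ← Finset.sum_add_distrib]
    exact Finset.sum_congr rfl (fun σ _ => by rw [Pi.add_apply]; ring)
  have h1 : ∀ σ : F ≃+* F, ∃ d : (F ≃+* F) → F, ∀ x, c x σ = ∑ τ, d τ * τ x := by
    intro σ
    exact h0 (AddMonoidHom.mk' (fun x => c x σ) (fun x x' => by rw [hadd]; rfl))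
  choose d hd using h1
  refine ⟨Finset.univ, fun p => d p.2 p.1, fun x y => ?_⟩
  rw [hc, Fintype.sum_prod_type, Finset.sum_comm]
  refine Finset.sum_congr rfl (fun σ _ => ?_)
  rw [hd, Finset.sum_mul]
  exact Finset.sum_congr rfl (fun τ _ => by ring)

theorem quad (q : F → F)
    (hq : ∀ x y z : F, q (x + y + z) + q (x + y) + q (x + z) + q (y + z) + q x + q y + q z = 0) :
    ∃ (s : Finset ((F ≃+* F) × (F ≃+* F))) (c : (F ≃+* F) × (F ≃+* F) → F),
      ∀ x : F, q x = ∑ p ∈ s, c p * (p.1 x * p.2 x) := by
  letI := ZMod.algebra F 2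
  haveI : Module.Finite (ZMod 2) F := Module.Finite.of_finite
  have h2 : ∀ x : F, x + x = 0 := fun x => CharTwo.add_self_eq_zero x
  have h0 : q 0 = 0 := by
    have := hq 0 0 0
    simp only [add_zero] at this
    rw [h2, zero_add, h2, zero_add, h2, zero_add] at this
    exact this
  let b : F →+ F →+ F := AddMonoidHom.mk' (fun x => AddMonoidHom.mk' (fun y => q (x + y) + q x + q y) (fun y z => by
    have := hq x y z
    rw [← add_assoc]
    rw [← sub_eq_zero, CharTwo.sub_eq_add]
    linear_combination this + h2 (q x))) (fun x x' => by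
    ext y
    simp only [AddMonoidHom.mk'_apply, AddMonoidHom.add_apply]
    have := hq x x' y
    rw [← sub_eq_zero, CharTwo.sub_eq_add]
    linear_combination this + h2 (q y))
  let B : LinearMap.BilinMap (ZMod 2) F F := AddMonoidHom.toZModLinearMap 2
    (AddMonoidHom.mk' (fun x => AddMonoidHom.toZModLinearMap 2 (b x)) (fun x x' => by
      ext y
      exact DFunLike.congr_fun (map_add b x x') y))
  let Q : QuadraticMap (ZMod 2) F F :=
    { toFun := q
      toFun_smul := fun a x => by
        have ha : a = 0 ∨ a = 1 := by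
          revert a
          decide
        rcases ha with rfl | rfl
        · rw [zero_smul, mul_zero, zero_smul, h0]
        · rw [one_smul, mul_one, one_smul]
      exists_companion' := ⟨B, fun x y => by
        change q (x + y) = q x + q y + (q (x + y) + q x + q y)
        linear_combination - h2 (q x) - h2 (q y)⟩ }
  obtain ⟨C, hC⟩ := LinearMap.BilinMap.toQuadraticMap_surjective Q
  obtain ⟨s, c, h⟩ := exists_sum₂ (AddMonoidHom.mk' (fun x => (C x).toAddMonoidHom) (fun x x' => by
    ext y
    exact DFunLike.congr_fun (map_add C x x') y))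
  refine ⟨s, c, fun x => ?_⟩
  rw [← h x x]
  have := DFunLike.congr_fun hC x
  exact this.symm

end

end CfsgH9.FAP
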