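import Mathlib
import Cfsg.Prelude.Def_ClassicalGeometry
import Cfsg.Prelude.Def_GeometricClasses
import Cfsg.Agent.H9.MaxImpSp
import Cfsg.Agent.H9.WittInst
import Cfsg.Agent.H9.Ort

set_option autoImplicit false

/-! Orthogonal groups: basic theory (reflections, Siegel transformations). -/

namespace CfsgH9.Og

open Matrix Cfsg Cfsg.Geo CfsgH9.Tv CfsgH9.Witt
open CfsgH9.MaxSymp (inv_mulVec mulVec_inv)
open CfsgH9.MaxImpSp (glOf glOf_mulVec)

variable {ι : Type} [Fintype ι] [DecidableEq ι] {F : Type*} [Field F]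

/-- a quadratic form with its polar form, non-degenerate -/
structure Qf (Q : (ι → F) → F) (f : (ι → F) → (ι → F) → F) : Prop where
  add : ∀ x y, Q (x + y) = Q x + Q y + f x y
  smul : ∀ (c : F) x, Q (c • x) = c * c * Q x
  add_left : ∀ x y z, f (x + y) z = f x z + f y z
  smul_left : ∀ (c : F) x y, f (c • x) y = c * f x y
  nondeg : ∀ x, x ≠ 0 → ∃ y, f x y ≠ 0

variable {Q : (ι → F) → F} {f : (ι → F) → (ι → F) → F}

namespace Qf

variable (hf : Qf Q f)
include hf

omit [DecidableEq ι] [Fintype ι] in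
lemma symm (x y : ι → F) : f y x = f x y := by
  have h1 := hf.add x y
  have h2 := hf.add y x
  rw [add_comm y x, h1] at h2
  linear_combination -h2

omit [DecidableEq ι] [Fintype ι] in
lemma add_right (x y z : ι → F) : f x (y + z) = f x y + f x z := by
  rw [hf.symm (y + z) x, hf.add_left, hf.symm x y, hf.symm x z]

omit [DecidableEq ι] [Fintype ι] in
lemma smul_right (c : F) (x y : ι → F) : f x (c • y) = c * f x y := by
  rw [hf.symm (c • y) x, hf.smul_left, hf.symm x y]

omit [DecidableEq ι] [Fintype ι] in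
lemma zero_left (y : ι → F) : f 0 y = 0 := by
  have := hf.smul_left 0 0 y
  simpa using this

omit [DecidableEq ι] [Fintype ι] in
lemma zero_right (y : ι → F) : f y 0 = 0 := by rw [hf.symm, hf.zero_left]

omit [DecidableEq ι] [Fintype ι] in
lemma neg_left (x y : ι → F) : f (-x) y = - f x y := by
  have := hf.smul_left (-1) x y
  simpa using this

omit [DecidableEq ι] [Fintype ι] in
lemma neg_right (x y : ι → F) : f x (-y) = - f x y := by rw [hf.symm, hf.neg_left, hf.symm]

omit [DecidableEq ι] [Fintype ι] in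
lemma sub_left (x y z : ι → F) : f (x - y) z = f x z - f y z := by
  rw [sub_eq_add_neg, hf.add_left, hf.neg_left]; ring

omit [DecidableEq ι] [Fintype ι] in
lemma sub_right (x y z : ι → F) : f x (y - z) = f x y - f x z := by
  rw [sub_eq_add_neg, hf.add_right, hf.neg_right]; ring

omit [DecidableEq ι] [Fintype ι] in
lemma Q_zero : Q 0 = 0 := by
  have := hf.smul 0 0
  simpa using this

omit [DecidableEq ι] [Fintype ι] in
lemma Q_neg (x : ι → F) : Q (-x) = Q x := by
  have := hf.smul (-1) x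
  simpa using this

omit [DecidableEq ι] [Fintype ι] in
lemma self (x : ι → F) : f x x = 2 * Q x := by
  have h1 := hf.add x x
  have h2 := hf.smul 2 x
  rw [two_smul] at h2
  rw [h2] at h1
  linear_combination -h1

omit [DecidableEq ι] [Fintype ι] in
lemma Q_sub (x y : ι → F) : Q (x - y) = Q x + Q y - f x y := by
  rw [sub_eq_add_neg, hf.add, hf.Q_neg, hf.neg_right]; ring

omit [DecidableEq ι] [Fintype ι] in
lemma swap {x y : ι → F} (h : f x y = 0) : f y x = 0 := by rw [hf.symm, h]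

omit [DecidableEq ι] [Fintype ι] in
lemma self_of {x : ι → F} (h : Q x = 0) : f x x = 0 := by rw [hf.self, h, mul_zero]

/-- as a Mathlib quadratic form -/
def toQ : QuadraticForm F (ι → F) :=
  QuadraticMap.ofPolar Q (fun c x => by rw [hf.smul]; rfl)
    (fun x x' y => by
      simp only [QuadraticMap.polar]
      rw [hf.add (x + x') y, hf.add x y, hf.add x' y, hf.add_left]; ring)
    (fun c x y => by
      simp only [QuadraticMap.polar, smul_eq_mul]
      rw [hf.add (c • x) y, hf.add x y, hf.smul_left]; ring)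

omit [DecidableEq ι] [Fintype ι] in
lemma toQ_apply (x : ι → F) : hf.toQ x = Q x := rfl

omit [DecidableEq ι] [Fintype ι] in
lemma polar_toQ (x y : ι → F) : QuadraticMap.polarBilin hf.toQ x y = f x y := by
  rw [QuadraticMap.polarBilin_apply_apply, QuadraticMap.polar]
  simp only [toQ_apply]
  rw [hf.add]; ring

omit [DecidableEq ι] [Fintype ι] in
lemma nondeg_toQ : (QuadraticMap.polarBilin hf.toQ).Nondegenerate := by
  constructor
  · intro x hx
    by_contra hne
    obtain ⟨y, hy⟩ := hf.nondeg x hne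
    exact hy (by rw [← hf.polar_toQ]; exact hx y)
  · intro x hx
    by_contra hne
    obtain ⟨y, hy⟩ := hf.nondeg x hne
    exact hy (by rw [← hf.symm, ← hf.polar_toQ]; exact hx y)

omit [DecidableEq ι] [Fintype ι] in
lemma fm : Fm (σ := RingHom.id F) (QuadraticMap.polarBilin hf.toQ) hf.toQ (AddMonoidHom.id F) (fun c => c * c) 1 :=
  fm_quad hf.toQ hf.nondeg_toQ

end Qf

omit [DecidableEq ι] [Fintype ι] in
lemma qf_of_quad (Q : QuadraticForm F (ι → F)) (hQ : (QuadraticMap.polarBilin Q).Nondegenerate) :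
    Qf (⇑Q) (QuadraticMap.polar ⇑Q) where
  add x y := by rw [QuadraticMap.polar]; ring
  smul c x := by rw [QuadraticMap.map_smul]; rfl
  add_left x y z := QuadraticMap.polar_add_left Q x y z
  smul_left c x y := by rw [QuadraticMap.polar_smul_left]; rfl
  nondeg x hx := by
    by_contra hcon
    push Not at hcon
    exact hx (hQ.1 x (fun y => hcon y))

omit [DecidableEq ι] [Fintype ι] in
lemma qf_of_geo {Q : (ι → F) → F} (hQ : IsNondegenerateQuadraticForm Q) : Qf Q (QuadraticMap.polar Q) where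
  add x y := by rw [QuadraticMap.polar]; ring
  smul c x := by rw [hQ.smul, pow_two]
  add_left x y z := hQ.polar_bilinear.add_left x y z
  smul_left c x y := hQ.polar_bilinear.smul_left c x y
  nondeg x hx := (hQ.nondegenerate x hx).2

variable (hf : Qf Q f)

omit [DecidableEq ι] [Fintype ι] in
/-- a linear functional -/
def fl (hf : Qf Q f) (y : ι → F) : (ι → F) →ₗ[F] F where
  toFun x := f x y
  map_add' x x' := hf.add_left x x' y
  map_smul' c x := by rw [hf.smul_left]; rfl

omit [DecidableEq ι] [Fintype ι] in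
lemma fl_apply (hf : Qf Q f) (x y : ι → F) : fl hf y x = f x y := rfl

omit [DecidableEq ι] in
/-- every functional is represented -/
lemma rep (hf : Qf Q f) (l : (ι → F) →ₗ[F] F) : ∃ z, ∀ x, l x = f x z := by
  obtain ⟨z, hz⟩ := hf.fm.rep l
  exact ⟨z, fun x => by rw [← hz x, hf.polar_toQ, hf.symm]⟩

/-- orthogonal complement -/
def perp (hf : Qf Q f) (W : Submodule F (ι → F)) : Submodule F (ι → F) where
  carrier := {x | ∀ w ∈ W, f x w = 0}
  add_mem' := fun {x y} hx hy w hw => by rw [hf.add_left, hx w hw, hy w hw, add_zero]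
  zero_mem' := fun w _ => hf.zero_left w
  smul_mem' := fun c x hx w hw => by rw [hf.smul_left, hx w hw, mul_zero]

omit [DecidableEq ι] [Fintype ι] in
lemma mem_perp (hf : Qf Q f) {W : Submodule F (ι → F)} {x : ι → F} : x ∈ perp hf W ↔ ∀ w ∈ W, f x w = 0 := Iff.rfl

omit [DecidableEq ι] in
lemma exists_perp (hf : Qf Q f) {W : Submodule F (ι → F)} {w : ι → F} (hw : w ∉ W) :
    ∃ v ∈ perp hf W, f v w = 1 := by
  obtain ⟨φ, hφ, hφW⟩ := Submodule.exists_dual_map_eq_bot_of_notMem hw inferInstance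
  obtain ⟨z, hz⟩ := rep hf φ
  have h1 : f z w ≠ 0 := by
    intro h
    apply hφ
    rw [hz]; exact hf.swap h
  refine ⟨(f z w)⁻¹ • z, ?_, ?_⟩
  · intro v hv
    rw [hf.smul_left]
    have h2 : φ v ∈ W.map φ := ⟨v, hv, rfl⟩
    rw [hφW, Submodule.mem_bot, hz] at h2
    rw [hf.swap h2, mul_zero]
  · rw [hf.smul_left, inv_mul_cancel₀ h1]

omit [DecidableEq ι] in
lemma perp_perp (hf : Qf Q f) (W : Submodule F (ι → F)) : perp hf (perp hf W) = W := by
  apply le_antisymm
  · intro x hx
    by_contra hxW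
    obtain ⟨v, hv, hv1⟩ := exists_perp hf hxW
    exact one_ne_zero (hv1.symm.trans (hf.swap (hx v hv)))
  · intro x hx w hw
    exact hf.swap (hw x hx)

omit [DecidableEq ι] in
lemma finrank_perp (hf : Qf Q f) (W : Submodule F (ι → F)) :
    Module.finrank F (perp hf W) + Module.finrank F W = Fintype.card ι := by
  have h1 : perp hf W = LinearMap.BilinForm.orthogonal (QuadraticMap.polarBilin hf.toQ) W := by
    ext x
    rw [mem_perp, LinearMap.BilinForm.mem_orthogonal_iff]
    constructor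
    · intro h n hn
      show QuadraticMap.polarBilin hf.toQ n x = 0
      rw [hf.polar_toQ]; exact hf.swap (h n hn)
    · intro h n hn
      have := h n hn
      have h2 : QuadraticMap.polarBilin hf.toQ n x = 0 := this
      rw [hf.polar_toQ] at h2
      exact hf.swap h2
  have h2 := LinearMap.BilinForm.finrank_orthogonal hf.nondeg_toQ W
  rw [← h1, Module.finrank_fintype_fun_eq_card] at h2
  have h3 := Submodule.finrank_le W
  rw [Module.finrank_fintype_fun_eq_card] at h3
  omega

omit [DecidableEq ι] [Fintype ι] in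
lemma perp_anti (hf : Qf Q f) {W W' : Submodule F (ι → F)} (h : W ≤ W') : perp hf W' ≤ perp hf W :=
  fun _ hx w hw => hx w (h hw)

omit [DecidableEq ι] [Fintype ι] in
lemma mem_perp_one (hf : Qf Q f) {x z : ι → F} : z ∈ perp hf (Submodule.span F {x}) ↔ f z x = 0 := by
  constructor
  · intro h
    exact h x (Submodule.subset_span (by simp))
  · intro h1 w hw
    obtain ⟨a, rfl⟩ := Submodule.mem_span_singleton.1 hw
    rw [hf.smul_right, h1, mul_zero]

omit [DecidableEq ι] [Fintype ι] in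
lemma mem_perp_pair (hf : Qf Q f) {x y z : ι → F} : z ∈ perp hf (Submodule.span F {x, y}) ↔ f z x = 0 ∧ f z y = 0 := by
  constructor
  · intro h
    exact ⟨h x (Submodule.subset_span (by simp)), h y (Submodule.subset_span (by simp))⟩
  · rintro ⟨h1, h2⟩ w hw
    obtain ⟨a, b, rfl⟩ := Submodule.mem_span_pair.1 hw
    rw [hf.add_right, hf.smul_right, hf.smul_right, h1, h2, mul_zero, mul_zero, add_zero]

omit [DecidableEq ι] in
lemma exists_avoid (hf : Qf Q f) (C S : Submodule F (ι → F)) {k : ℕ} (w : Fin k → (ι → F))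
    (h : k + Module.finrank F S < Module.finrank F C) : ∃ y ∈ C, (∀ i, f y (w i) = 0) ∧ y ∉ S := by
  let L : C →ₗ[F] (Fin k → F) := LinearMap.pi fun i => (fl hf (w i)).comp C.subtype
  have h1 := LinearMap.finrank_range_add_finrank_ker L
  have h2 : Module.finrank F (LinearMap.range L) ≤ k := by
    have := Submodule.finrank_le (LinearMap.range L)
    simpa using this
  have h3 : ¬ ((LinearMap.ker L).map C.subtype ≤ S) := by
    intro hle
    have h4 := Submodule.finrank_mono hle
    rw [← LinearEquiv.finrank_eq (Submodule.equivMapOfInjective _ C.injective_subtype (LinearMap.ker L))] at h4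
    omega
  obtain ⟨y, hy, hyn⟩ := SetLike.not_le_iff_exists.1 h3
  obtain ⟨z, hz, rfl⟩ := hy
  refine ⟨z, z.2, ?_, hyn⟩
  intro i
  have := congrFun (show L z = 0 from hz) i
  exact this

/-! ### isometries -/

/-- isometries -/
def Iso (Q : (ι → F) → F) (g : GL ι F) : Prop := ∀ x, Q ((g : Matrix ι ι F) *ᵥ x) = Q x

lemma Iso.one : Iso Q (1 : GL ι F) := by
  intro x; rw [Units.val_one, one_mulVec]

lemma Iso.mul {g h : GL ι F} (hg : Iso Q g) (hh : Iso Q h) : Iso Q (g * h) := by
  intro x; rw [Units.val_mul, ← mulVec_mulVec, hg, hh]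

lemma Iso.inv {g : GL ι F} (hg : Iso Q g) : Iso Q g⁻¹ := by
  intro x; rw [← hg, mulVec_inv]

lemma Iso.form (hf : Qf Q f) {g : GL ι F} (hg : Iso Q g) (x y : ι → F) :
    f ((g : Matrix ι ι F) *ᵥ x) ((g : Matrix ι ι F) *ᵥ y) = f x y := by
  have h1 := hf.add ((g : Matrix ι ι F) *ᵥ x) ((g : Matrix ι ι F) *ᵥ y)
  rw [← mulVec_add, hg, hg, hg, hf.add] at h1
  linear_combination -h1

lemma mem_iso {g : GL ι F} : g ∈ isometryGroup F Q ↔ Iso Q g := by
  constructor
  · intro h x; exact h x x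
  · intro h x _; exact h x

/-- the coordinates of a functional -/
def cov (f : (ι → F) → (ι → F) → F) (y : ι → F) : ι → F := fun i => f (Pi.single i 1) y

lemma cov_dot (hf : Qf Q f) (x y : ι → F) : cov f y ⬝ᵥ x = f x y := by
  have h1 : ∀ s : Finset ι, f (∑ i ∈ s, x i • (Pi.single i 1 : ι → F)) y = ∑ i ∈ s, x i * f (Pi.single i 1) y := by
    intro s
    induction s using Finset.induction_on with
    | empty => simp [hf.zero_left]
    | insert a s ha ih => rw [Finset.sum_insert ha, Finset.sum_insert ha, hf.add_left, hf.smul_left, ih]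
  have h2 : x = ∑ i, x i • (Pi.single i 1 : ι → F) := by
    conv_lhs => rw [← Finset.univ_sum_single x]
    refine Finset.sum_congr rfl fun i _ => ?_
    rw [← Pi.single_smul, smul_eq_mul, mul_one]
  conv_rhs => rw [h2, h1]
  rw [dotProduct]
  exact Finset.sum_congr rfl fun i _ => by rw [cov, mul_comm]

/-! ### reflections -/

/-- `g` is the reflection in `v` -/
def IsR (Q : (ι → F) → F) (f : (ι → F) → (ι → F) → F) (g : GL ι F) (v : ι → F) : Prop :=
  ∀ x, (g : Matrix ι ι F) *ᵥ x = x - ((Q v)⁻¹ * f x v) • v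

lemma IsR.val (hf : Qf Q f) {g : GL ι F} {v : ι → F} (h : IsR Q f g v) :
    (g : Matrix ι ι F) = 1 + vecMulVec v ((-(Q v)⁻¹) • cov f v) := by
  apply Matrix.ext_of_mulVec_single
  intro i
  rw [h, add_mulVec, one_mulVec, vecMulVec_mulVec, smul_dotProduct, cov_dot hf, op_smul_eq_smul, smul_eq_mul, neg_mul,
    neg_smul, sub_eq_add_neg]

lemma IsR.det (hf : Qf Q f) {g : GL ι F} {v : ι → F} (hv : Q v ≠ 0) (h : IsR Q f g v) :
    (g : Matrix ι ι F).det = -1 := by
  rw [h.val hf, vecMulVec_eq Unit, det_one_add_replicateCol_mul_replicateRow, smul_dotProduct, cov_dot hf, smul_eq_mul, hf.self]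
  field_simp; ring

lemma IsR.iso (hf : Qf Q f) {g : GL ι F} {v : ι → F} (hv : Q v ≠ 0) (h : IsR Q f g v) : Iso Q g := by
  intro x
  rw [h, hf.Q_sub, hf.smul, hf.smul_right]
  field_simp; ring

lemma exists_R (hf : Qf Q f) {v : ι → F} (hv : Q v ≠ 0) : ∃ g : GL ι F, IsR Q f g v := by
  have hdet : (1 + vecMulVec v ((-(Q v)⁻¹) • cov f v) : Matrix ι ι F).det ≠ 0 := by
    rw [vecMulVec_eq Unit, det_one_add_replicateCol_mul_replicateRow, smul_dotProduct, cov_dot hf, smul_eq_mul, hf.self]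
    have : 1 + -(Q v)⁻¹ * (2 * Q v) = -1 := by field_simp; ring
    rw [this]
    exact neg_ne_zero.2 one_ne_zero
  refine ⟨GeneralLinearGroup.mkOfDetNeZero _ hdet, ?_⟩
  intro x
  rw [GeneralLinearGroup.mkOfDetNeZero, GeneralLinearGroup.mk', Matrix.unitOfDetInvertible]
  show (1 + vecMulVec v ((-(Q v)⁻¹) • cov f v) : Matrix ι ι F) *ᵥ x = _
  rw [add_mulVec, one_mulVec, vecMulVec_mulVec, smul_dotProduct, cov_dot hf, op_smul_eq_smul, smul_eq_mul, neg_mul,
    neg_smul, sub_eq_add_neg]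

lemma IsR.unique {g h : GL ι F} {v : ι → F} (hg : IsR Q f g v) (hh : IsR Q f h v) : g = h :=
  ext_mulVec fun x => by rw [hg, hh]

lemma IsR.smul (hf : Qf Q f) {g : GL ι F} {c : F} (hc : c ≠ 0) {v : ι → F} (hg : IsR Q f g v) :
    IsR Q f g (c • v) := by
  intro x
  rw [hg, hf.smul_right, hf.smul, mul_inv, mul_inv, smul_smul]
  congr 2
  field_simp

lemma IsR.conj (hf : Qf Q f) {g h : GL ι F} {v : ι → F} (hg : IsR Q f g v) (hh : Iso Q h) :
    IsR Q f (h * g * h⁻¹) ((h : Matrix ι ι F) *ᵥ v) := by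
  intro x
  rw [Units.val_mul, Units.val_mul, ← mulVec_mulVec, ← mulVec_mulVec, hg, mulVec_sub, mulVec_smul, mulVec_inv, hh]
  congr 3
  rw [← hh.form hf, mulVec_inv]

lemma IsR.sq (hf : Qf Q f) {g : GL ι F} {v : ι → F} (hv : Q v ≠ 0) (hg : IsR Q f g v) : g * g = 1 := by
  apply ext_mulVec
  intro x
  rw [Units.val_mul, ← mulVec_mulVec, hg x, hg, hf.sub_left, hf.smul_left, hf.self, Units.val_one, one_mulVec]
  have : (Q v)⁻¹ * (f x v - (Q v)⁻¹ * f x v * (2 * Q v)) = - ((Q v)⁻¹ * f x v) := by field_simp; ring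
  rw [this]; module

lemma IsR.inv_eq (hf : Qf Q f) {g : GL ι F} {v : ι → F} (hv : Q v ≠ 0) (hg : IsR Q f g v) : g⁻¹ = g :=
  inv_eq_of_mul_eq_one_left (hg.sq hf hv)

lemma IsR.self (hf : Qf Q f) {g : GL ι F} {v : ι → F} (hv : Q v ≠ 0) (hg : IsR Q f g v) :
    (g : Matrix ι ι F) *ᵥ v = - v := by
  rw [hg, hf.self]
  have : (Q v)⁻¹ * (2 * Q v) = 2 := by field_simp
  rw [this]; module

lemma IsR.fix {g : GL ι F} {v x : ι → F} (hg : IsR Q f g v) (hx : f x v = 0) :
    (g : Matrix ι ι F) *ᵥ x = x := by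
  rw [hg, hx, mul_zero, zero_smul, sub_zero]

/-- orthogonal reflections commute -/
lemma IsR.comm (hf : Qf Q f) {g h : GL ι F} {v w : ι → F} (hg : IsR Q f g v) (hh : IsR Q f h w) (hvw : f v w = 0) :
    g * h = h * g := by
  apply ext_mulVec
  intro x
  rw [Units.val_mul, Units.val_mul, ← mulVec_mulVec, ← mulVec_mulVec, hh x, hg, hg x, hh, hf.sub_left, hf.sub_left,
    hf.smul_left, hf.smul_left, hvw, hf.swap hvw]
  module

/-! ### Siegel transformations -/

/-- Siegel transformations -/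
def IsE (Q : (ι → F) → F) (f : (ι → F) → (ι → F) → F) (g : GL ι F) (u w : ι → F) : Prop :=
  ∀ x, (g : Matrix ι ι F) *ᵥ x = x + f x u • w - (f x w + Q w * f x u) • u

/-- linear map -/
def eMap (hf : Qf Q f) (u w : ι → F) : (ι → F) →ₗ[F] (ι → F) where
  toFun x := x + f x u • w - (f x w + Q w * f x u) • u
  map_add' x y := by
    rw [hf.add_left, hf.add_left]; module
  map_smul' c x := by
    rw [hf.smul_left, hf.smul_left, RingHom.id_apply]; module

omit [DecidableEq ι] [Fintype ι] in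
lemma eMap_apply (hf : Qf Q f) (u w x : ι → F) : eMap hf u w x = x + f x u • w - (f x w + Q w * f x u) • u := rfl

omit [DecidableEq ι] [Fintype ι] in
lemma eMap_add (hf : Qf Q f) {u w w' : ι → F} (hu : Q u = 0) (hw : f u w = 0) (hw' : f u w' = 0) (x : ι → F) :
    eMap hf u w (eMap hf u w' x) = eMap hf u (w + w') x := by
  have h1 := hf.self_of hu
  have h2 := hf.swap hw
  have h3 := hf.swap hw'
  simp only [eMap_apply, hf.sub_left, hf.add_left, hf.smul_left, h1, h2, h3, hw, hw', mul_zero, add_zero, sub_zero, hf.add_right,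
    hf.add, hf.symm w w']
  module

omit [DecidableEq ι] [Fintype ι] in
lemma eMap_zero (hf : Qf Q f) (u x : ι → F) : eMap hf u 0 x = x := by
  rw [eMap_apply, hf.zero_right, hf.Q_zero]; simp

lemma exists_E (hf : Qf Q f) {u w : ι → F} (hu : Q u = 0) (huw : f u w = 0) : ∃ g : GL ι F, IsE Q f g u w := by
  have hn : f u (-w) = 0 := by rw [hf.neg_right, huw, neg_zero]
  let e : (ι → F) ≃ₗ[F] (ι → F) := LinearEquiv.ofLinear (eMap hf u w) (eMap hf u (-w))
    (by
      refine LinearMap.ext fun x => ?_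
      rw [LinearMap.comp_apply, eMap_add hf hu huw hn, add_neg_cancel, eMap_zero, LinearMap.id_apply])
    (by
      refine LinearMap.ext fun x => ?_
      rw [LinearMap.comp_apply, eMap_add hf hu hn huw, neg_add_cancel, eMap_zero, LinearMap.id_apply])
  refine ⟨glOf e, ?_⟩
  intro x
  rw [glOf_mulVec]
  rfl

lemma IsE.iso (hf : Qf Q f) {g : GL ι F} {u w : ι → F} (hu : Q u = 0) (huw : f u w = 0) (hg : IsE Q f g u w) : Iso Q g := by
  intro x
  rw [hg, hf.Q_sub, hf.add, hf.smul, hf.smul, hf.smul_right, hf.smul_right, hf.add_left, hf.smul_left, hf.swap huw, hu]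
  ring

lemma IsE.unique {g h : GL ι F} {u w : ι → F} (hg : IsE Q f g u w) (hh : IsE Q f h u w) : g = h :=
  ext_mulVec fun x => by rw [hg, hh]

lemma IsE.mul (hf : Qf Q f) {g h : GL ι F} {u w w' : ι → F} (hu : Q u = 0) (hw : f u w = 0) (hw' : f u w' = 0)
    (hg : IsE Q f g u w) (hh : IsE Q f h u w') : IsE Q f (g * h) u (w + w') := by
  intro x
  rw [Units.val_mul, ← mulVec_mulVec, hh, hg]
  exact eMap_add hf hu hw hw' x

lemma IsE.one (hf : Qf Q f) {g : GL ι F} {u : ι → F} (hg : IsE Q f g u 0) : g = 1 := by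
  apply ext_mulVec
  intro x
  rw [hg, Units.val_one, one_mulVec]
  exact eMap_zero hf u x

lemma IsE.of_one (hf : Qf Q f) (u : ι → F) : IsE Q f 1 u 0 := by
  intro x
  rw [Units.val_one, one_mulVec]
  exact (eMap_zero hf u x).symm

lemma IsE.inv (hf : Qf Q f) {g : GL ι F} {u w : ι → F} (hu : Q u = 0) (hw : f u w = 0)
    (hg : IsE Q f g u w) : IsE Q f g⁻¹ u (-w) := by
  have hn : f u (-w) = 0 := by rw [hf.neg_right, hw, neg_zero]
  obtain ⟨h, hh⟩ := exists_E hf hu hn
  have h1 := hg.mul hf hu hw hn hh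
  rw [add_neg_cancel] at h1
  have h2 := h1.one hf
  rw [inv_eq_of_mul_eq_one_right h2]
  exact hh

lemma IsE.conj (hf : Qf Q f) {g h : GL ι F} {u w : ι → F} (hg : IsE Q f g u w) (hh : Iso Q h) :
    IsE Q f (h * g * h⁻¹) ((h : Matrix ι ι F) *ᵥ u) ((h : Matrix ι ι F) *ᵥ w) := by
  intro x
  have h1 : ∀ y, f x ((h : Matrix ι ι F) *ᵥ y) = f (((h⁻¹ : GL ι F) : Matrix ι ι F) *ᵥ x) y := by
    intro y
    rw [← hh.form hf (((h⁻¹ : GL ι F) : Matrix ι ι F) *ᵥ x) y, mulVec_inv]
  rw [Units.val_mul, Units.val_mul, ← mulVec_mulVec, ← mulVec_mulVec, hg, mulVec_sub, mulVec_add, mulVec_smul, mulVec_smul,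
    mulVec_inv, hh, h1, h1]

lemma IsE.smul (hf : Qf Q f) {g : GL ι F} {c : F} {u w : ι → F} (hg : IsE Q f g (c • u) w) : IsE Q f g u (c • w) := by
  intro x
  rw [hg, hf.smul_right, hf.smul_right, hf.smul]
  module

lemma IsE.smul' (hf : Qf Q f) {g : GL ι F} {c : F} {u w : ι → F} (hg : IsE Q f g u (c • w)) : IsE Q f g (c • u) w := by
  intro x
  rw [hg, hf.smul_right, hf.smul_right, hf.smul]
  module

/-- long root elements -/
lemma IsE.swap (hf : Qf Q f) {g : GL ι F} {u w : ι → F} (hu : Q u = 0) (hw : Q w = 0) (hg : IsE Q f g u w) :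
    IsE Q f g w (-u) := by
  intro x
  rw [hg, hf.neg_right, hf.Q_neg, hu, hw]
  module

/-- adding a multiple of `u` to `w` does nothing -/
lemma IsE.add_smul (hf : Qf Q f) {g : GL ι F} {u w : ι → F} (c : F) (hu : Q u = 0) (huw : f u w = 0)
    (hg : IsE Q f g u w) : IsE Q f g u (w + c • u) := by
  intro x
  rw [hg, hf.add_right, hf.smul_right, hf.add, hf.smul, hu, hf.smul_right, hf.swap huw]
  module

/-- the group generated by the Siegel transformations -/
def Tg (Q : (ι → F) → F) (f : (ι → F) → (ι → F) → F) : Subgroup (GL ι F) :=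
  Subgroup.closure {g | ∃ u w, Q u = 0 ∧ f u w = 0 ∧ IsE Q f g u w}

lemma E_mem {g : GL ι F} {u w : ι → F} (hu : Q u = 0) (huw : f u w = 0) (hg : IsE Q f g u w) : g ∈ Tg Q f :=
  Subgroup.subset_closure ⟨u, w, hu, huw, hg⟩

lemma Tg_iso (hf : Qf Q f) {g : GL ι F} (hg : g ∈ Tg Q f) : Iso Q g := by
  induction hg using Subgroup.closure_induction with
  | mem g hg =>
    obtain ⟨u, a, hu, ha, hr⟩ := hg
    exact hr.iso hf hu ha
  | one => exact Iso.one
  | mul g h _ _ h1 h2 => exact h1.mul h2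
  | inv g _ h => exact h.inv

lemma Tg_conj (hf : Qf Q f) {g h : GL ι F} (hg : g ∈ Tg Q f) (hh : Iso Q h) : h * g * h⁻¹ ∈ Tg Q f := by
  induction hg using Subgroup.closure_induction with
  | mem g hg =>
    obtain ⟨u, a, hu, ha, hr⟩ := hg
    exact E_mem (by rw [hh, hu]) (by rw [hh.form hf, ha]) (hr.conj hf hh)
  | one => rw [mul_one, mul_inv_cancel]; exact Subgroup.one_mem _
  | mul g g' _ _ h1 h2 =>
    have : h * (g * g') * h⁻¹ = (h * g * h⁻¹) * (h * g' * h⁻¹) := by group
    rw [this]; exact Subgroup.mul_mem _ h1 h2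
  | inv g _ h1 =>
    have : h * g⁻¹ * h⁻¹ = (h * g * h⁻¹)⁻¹ := by group
    rw [this]; exact Subgroup.inv_mem _ h1

/-- moving a vector by a Siegel transformation -/
lemma move (hf : Qf Q f) {x y a : ι → F} (hxy : Q x = Q y) (ha : Q a = 0) (hax : f x a = 1) (hay : f y a = 1) {g : GL ι F}
    (hg : IsE Q f g a (y - x)) : (g : Matrix ι ι F) *ᵥ x = y := by
  rw [hg, hax, hf.sub_right, hf.self, hf.Q_sub, hf.symm x y]
  have : f x y - 2 * Q x + (Q y + Q x - f x y) * 1 = 0 := by rw [← hxy]; ring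
  rw [this]; module

end CfsgH9.Og
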