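import Mathlib
import Cfsg.Agent.H9.Og

set_option autoImplicit false

/-! Orthogonal groups: links with the standard matrices. -/

namespace CfsgH9.Og

open Matrix Cfsg Cfsg.Geo CfsgH9.Tv CfsgH9.Witt

variable {ι : Type} [Fintype ι] [DecidableEq ι] {F : Type*} [Field F]

lemma polarVec_dot (Q : QuadraticForm F (ι → F)) (v x : ι → F) : polarVec ⇑Q v ⬝ᵥ x = QuadraticMap.polar Q v x := by
  have h2 : x = ∑ i, x i • (Pi.single i 1 : ι → F) := by
    conv_lhs => rw [← Finset.univ_sum_single x]
    refine Finset.sum_congr rfl fun i _ => ?_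
    rw [← Pi.single_smul, smul_eq_mul, mul_one]
  have h1 : QuadraticMap.polar Q v x = ∑ i, x i * QuadraticMap.polar Q v (Pi.single i 1) := by
    conv_lhs => rw [h2]
    rw [← QuadraticMap.polarBilin_apply_apply, map_sum]
    refine Finset.sum_congr rfl fun i _ => ?_
    rw [map_smul, smul_eq_mul, QuadraticMap.polarBilin_apply_apply]
  rw [h1, dotProduct]
  refine Finset.sum_congr rfl fun i _ => ?_
  rw [polarVec, mul_comm]

lemma refl_mulVec (Q : QuadraticForm F (ι → F)) (v x : ι → F) :
    reflectionMatrix ⇑Q v *ᵥ x = x - ((Q v)⁻¹ * QuadraticMap.polar Q x v) • v := by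
  rw [reflectionMatrix, sub_mulVec, one_mulVec, smul_mulVec, vecMulVec_mulVec, polarVec_dot, op_smul_eq_smul, smul_smul,
    QuadraticMap.polar_comm]

lemma refl_det (Q : QuadraticForm F (ι → F)) {v : ι → F} (hv : Q v ≠ 0) : (reflectionMatrix ⇑Q v).det = -1 := by
  have h1 : reflectionMatrix ⇑Q v = 1 + vecMulVec v ((-(Q v)⁻¹) • polarVec ⇑Q v) := by
    rw [reflectionMatrix, vecMulVec_smul, neg_smul, sub_eq_add_neg]
  rw [h1, vecMulVec_eq Unit, det_one_add_replicateCol_mul_replicateRow, smul_dotProduct, polarVec_dot, smul_eq_mul,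
    QuadraticMap.polar_self]
  field_simp; ring

lemma siegel_mulVec (Q : QuadraticForm F (ι → F)) (u v : ι → F) (c : F) (x : ι → F) :
    siegelMatrix ⇑Q u v c *ᵥ x = x + (c * QuadraticMap.polar Q x u) • v - (c * QuadraticMap.polar Q x v) • u := by
  rw [siegelMatrix, add_mulVec, one_mulVec, smul_mulVec, sub_mulVec, vecMulVec_mulVec, vecMulVec_mulVec, polarVec_dot,
    polarVec_dot, op_smul_eq_smul, op_smul_eq_smul, QuadraticMap.polar_comm _ u, QuadraticMap.polar_comm _ v]
  module

lemma ext_of_mulVec {A B : Matrix ι ι F} (h : ∀ x, A *ᵥ x = B *ᵥ x) : A = B :=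
  Matrix.ext_of_mulVec_single fun i => h _

lemma isR_iff (Q : QuadraticForm F (ι → F)) {g : GL ι F} {v : ι → F} :
    (g : Matrix ι ι F) = reflectionMatrix ⇑Q v ↔ IsR (⇑Q) (QuadraticMap.polar ⇑Q) g v := by
  constructor
  · intro h x
    rw [h, refl_mulVec]
  · intro h
    apply ext_of_mulVec
    intro x
    rw [h x, refl_mulVec]

lemma isE_iff (Q : QuadraticForm F (ι → F)) {g : GL ι F} {u v : ι → F} {c : F} (hv : Q v = 0) :
    (g : Matrix ι ι F) = siegelMatrix ⇑Q u v c ↔ IsE (⇑Q) (QuadraticMap.polar ⇑Q) g u (c • v) := by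
  have h1 : ∀ x, siegelMatrix ⇑Q u v c *ᵥ x = x + QuadraticMap.polar Q x u • (c • v) -
      (QuadraticMap.polar Q x (c • v) + Q (c • v) * QuadraticMap.polar Q x u) • u := by
    intro x
    rw [siegel_mulVec, QuadraticMap.map_smul, hv, QuadraticMap.polar_smul_right, smul_zero, zero_mul, smul_eq_mul]
    module
  constructor
  · intro h x
    rw [h, h1]
  · intro h
    apply ext_of_mulVec
    intro x
    rw [h x, h1]

/-- determinants of isometries -/
lemma Iso.det {Q : (ι → F) → F} {f : (ι → F) → (ι → F) → F} (hf : Qf Q f) {g : GL ι F} (hg : Iso Q g) :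
    (g : Matrix ι ι F).det = 1 ∨ (g : Matrix ι ι F).det = -1 := by
  have hsum : ∀ x y, f x y = ∑ i, ∑ j, x i * f (Pi.single i 1) (Pi.single j 1) * y j := by
    intro x y
    rw [← cov_dot hf, dotProduct]
    refine Finset.sum_congr rfl fun i _ => ?_
    rw [cov, hf.symm y, ← cov_dot hf y, dotProduct, Finset.sum_mul]
    refine Finset.sum_congr rfl fun j _ => ?_
    rw [cov, hf.symm]
    ring
  set B : Matrix ι ι F := Matrix.of fun i j => f (Pi.single i 1) (Pi.single j 1) with hB
  have h1 : (g : Matrix ι ι F)ᵀ * B * (g : Matrix ι ι F) = B := by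
    ext i j
    have h2 := hg.form hf (Pi.single i 1) (Pi.single j 1)
    rw [hsum] at h2
    rw [hB, Matrix.of_apply, ← h2, Matrix.mul_apply]
    rw [Finset.sum_comm]
    refine Finset.sum_congr rfl fun k _ => ?_
    rw [Matrix.mul_apply, Finset.sum_mul]
    refine Finset.sum_congr rfl fun l _ => ?_
    rw [Matrix.transpose_apply, mulVec_single_one, mulVec_single_one, Matrix.of_apply, Matrix.col_apply, Matrix.col_apply]
  have hdB : B.det ≠ 0 := by
    intro h0
    obtain ⟨v, hv0, hv⟩ := Matrix.exists_mulVec_eq_zero_iff.2 h0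
    obtain ⟨y, hy⟩ := hf.nondeg v hv0
    apply hy
    rw [← hf.symm, hsum]
    apply Finset.sum_eq_zero
    intro i _
    have := congrFun hv i
    rw [Matrix.mulVec, dotProduct, Pi.zero_apply] at this
    simp only [hB, Matrix.of_apply] at this
    simp only [mul_assoc, ← Finset.mul_sum]
    rw [this, mul_zero]
  have h2 := congrArg Matrix.det h1
  rw [Matrix.det_mul, Matrix.det_mul, Matrix.det_transpose] at h2
  have h3 : (g : Matrix ι ι F).det * (g : Matrix ι ι F).det = 1 := by
    apply mul_right_cancel₀ hdB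
    linear_combination h2
  rw [mul_self_eq_one_iff] at h3
  exact h3

end CfsgH9.Og
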