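import Mathlib
import Cfsg.Agent.H9.OgStd

set_option autoImplicit false

/-! Orthogonal groups: generation by reflections. -/

namespace CfsgH9.Og

open Matrix Cfsg Cfsg.Geo CfsgH9.Tv CfsgH9.Witt
open CfsgH9.MaxSymp (inv_mulVec mulVec_inv)

variable {ι : Type} [Fintype ι] [DecidableEq ι] {F : Type*} [Field F]
variable {Q : (ι → F) → F} {f : (ι → F) → (ι → F) → F}

/-- image of `1 - g` -/
def Vg (g : GL ι F) : Submodule F (ι → F) := LinearMap.range (LinearMap.id - mulVecLin (g : Matrix ι ι F))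

/-- kernel of `1 - g` -/
def Kg (g : GL ι F) : Submodule F (ι → F) := LinearMap.ker (LinearMap.id - mulVecLin (g : Matrix ι ι F))

lemma mem_Vg {g : GL ι F} {v : ι → F} : v ∈ Vg g ↔ ∃ y, y - (g : Matrix ι ι F) *ᵥ y = v := Iff.rfl

lemma mem_Kg {g : GL ι F} {v : ι → F} : v ∈ Kg g ↔ (g : Matrix ι ι F) *ᵥ v = v := by
  rw [Kg, LinearMap.mem_ker, LinearMap.sub_apply, LinearMap.id_apply, mulVecLin_apply, sub_eq_zero]
  exact eq_comm

lemma Kg_eq (hf : Qf Q f) {g : GL ι F} (hg : Iso Q g) : Kg g = perp hf (Vg g) := by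
  ext x
  rw [mem_Kg, mem_perp]
  constructor
  · rintro hx _ ⟨y, rfl⟩
    rw [LinearMap.sub_apply, LinearMap.id_apply, mulVecLin_apply, hf.sub_right]
    nth_rewrite 2 [← hx]
    rw [hg.form hf, sub_self]
  · intro hx
    have h1 : ((g⁻¹ : GL ι F) : Matrix ι ι F) *ᵥ x - x = 0 := by
      by_contra hne
      obtain ⟨y, hy⟩ := hf.nondeg _ hne
      apply hy
      have h2 := hx _ ⟨y, rfl⟩
      rw [LinearMap.sub_apply, LinearMap.id_apply, mulVecLin_apply, hf.sub_right] at h2
      rw [hf.sub_left, ← hg.form hf, mulVec_inv]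
      linear_combination -h2
    have h2 := sub_eq_zero.1 h1
    conv_lhs => rw [← h2]
    exact mulVec_inv g x

lemma Vg_eq (hf : Qf Q f) {g : GL ι F} (hg : Iso Q g) : Vg g = perp hf (Kg g) := by
  rw [Kg_eq hf hg, perp_perp]

lemma finrank_VK (hf : Qf Q f) {g : GL ι F} (hg : Iso Q g) :
    Module.finrank F (Kg g) + Module.finrank F (Vg g) = Fintype.card ι := by
  rw [Kg_eq hf hg]; exact finrank_perp hf _

omit [Fintype ι] [DecidableEq ι] in
lemma finrank_sup_span_eq [Finite ι] {U : Submodule F (ι → F)} {w : ι → F} (hw : w ∉ U) :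
    Module.finrank F (U ⊔ Submodule.span F {w} : Submodule F (ι → F)) = Module.finrank F U + 1 := by
  have hw0 : w ≠ 0 := by rintro rfl; exact hw U.zero_mem
  have h1 := Submodule.finrank_sup_add_finrank_inf_eq U (Submodule.span F {w})
  have h2 : U ⊓ Submodule.span F {w} = ⊥ := by
    rw [eq_bot_iff]
    rintro x ⟨hx, hx'⟩
    obtain ⟨c, rfl⟩ := Submodule.mem_span_singleton.1 hx'
    by_cases hc : c = 0
    · rw [hc, zero_smul]; exact Submodule.zero_mem _
    · exact absurd ((Submodule.smul_mem_iff _ hc).1 hx) hw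
  rw [h2, finrank_bot, add_zero, finrank_span_singleton hw0] at h1
  exact h1

lemma Vg_mul_le (g h : GL ι F) : Vg (g * h) ≤ Vg g ⊔ Vg h := by
  rintro _ ⟨x, rfl⟩
  rw [LinearMap.sub_apply, LinearMap.id_apply, mulVecLin_apply, Units.val_mul, ← mulVec_mulVec]
  have h1 : x - (g : Matrix ι ι F) *ᵥ (h : Matrix ι ι F) *ᵥ x =
      ((h : Matrix ι ι F) *ᵥ x - (g : Matrix ι ι F) *ᵥ (h : Matrix ι ι F) *ᵥ x) + (x - (h : Matrix ι ι F) *ᵥ x) := by abel
  rw [h1]
  exact Submodule.add_mem_sup ⟨_, rfl⟩ ⟨_, rfl⟩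

lemma Vg_inv (g : GL ι F) : Vg g⁻¹ = Vg g := by
  have key : ∀ g : GL ι F, Vg g⁻¹ ≤ Vg g := by
    rintro g _ ⟨x, rfl⟩
    rw [LinearMap.sub_apply, LinearMap.id_apply, mulVecLin_apply]
    refine ⟨-(((g⁻¹ : GL ι F) : Matrix ι ι F) *ᵥ x), ?_⟩
    rw [LinearMap.sub_apply, LinearMap.id_apply, mulVecLin_apply, mulVec_neg, mulVec_inv]
    abel
  apply le_antisymm (key g)
  have := key g⁻¹
  rwa [inv_inv] at this

lemma Vg_R_le {g : GL ι F} {v : ι → F} (hg : IsR Q f g v) : Vg g ≤ Submodule.span F {v} := by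
  rintro _ ⟨x, rfl⟩
  rw [LinearMap.sub_apply, LinearMap.id_apply, mulVecLin_apply, hg, sub_sub_cancel]
  exact Submodule.smul_mem _ _ (Submodule.mem_span_singleton_self v)

lemma mem_Vg_R (hf : Qf Q f) {g : GL ι F} {v : ι → F} (hv : Q v ≠ 0) (hg : IsR Q f g v) : v ∈ Vg g := by
  have hv0 : v ≠ 0 := by rintro rfl; exact hv hf.Q_zero
  obtain ⟨y, hy⟩ := hf.nondeg v hv0
  have hy' : f y v ≠ 0 := by rw [hf.symm]; exact hy
  have h1 : (Q v)⁻¹ * f y v ≠ 0 := mul_ne_zero (inv_ne_zero hv) hy'
  refine (Submodule.smul_mem_iff _ h1).1 ?_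
  refine ⟨y, ?_⟩
  rw [LinearMap.sub_apply, LinearMap.id_apply, mulVecLin_apply, hg, sub_sub_cancel]

lemma Vg_eq_bot {g : GL ι F} (h : Vg g = ⊥) : g = 1 := by
  apply ext_mulVec
  intro x
  have h1 : x - (g : Matrix ι ι F) *ᵥ x ∈ Vg g := ⟨x, rfl⟩
  rw [h, Submodule.mem_bot, sub_eq_zero] at h1
  rw [Units.val_one, one_mulVec, ← h1]

/-- multiplying by a reflection outside the image -/
lemma K_notMem (hf : Qf Q f) {g r : GL ι F} (hg : Iso Q g) {v : ι → F} (hv : Q v ≠ 0) (hr : IsR Q f r v) (h : v ∉ Vg g) :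
    Vg (r * g) = Vg g ⊔ Submodule.span F {v} := by
  rw [Vg_eq hf ((hr.iso hf hv).mul hg), ← perp_perp hf (Vg g ⊔ Submodule.span F {v})]
  congr 1
  ext x
  rw [mem_Kg, Units.val_mul, ← mulVec_mulVec, hr]
  constructor
  · intro hx
    have h1 : x - (g : Matrix ι ι F) *ᵥ x = (-((Q v)⁻¹ * f ((g : Matrix ι ι F) *ᵥ x) v)) • v := by
      have h0 : x - (g : Matrix ι ι F) *ᵥ x = (g : Matrix ι ι F) *ᵥ x - ((Q v)⁻¹ * f ((g : Matrix ι ι F) *ᵥ x) v) • v -
        (g : Matrix ι ι F) *ᵥ x := by rw [hx]
      rw [h0]; module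
    have h2 : f ((g : Matrix ι ι F) *ᵥ x) v = 0 := by
      by_contra hne
      apply h
      have h3 : (-((Q v)⁻¹ * f ((g : Matrix ι ι F) *ᵥ x) v)) • v ∈ Vg g := by rw [← h1]; exact ⟨x, rfl⟩
      exact (Submodule.smul_mem_iff _ (neg_ne_zero.2 (mul_ne_zero (inv_ne_zero hv) hne))).1 h3
    rw [h2, mul_zero, neg_zero, zero_smul, sub_eq_zero] at h1
    rw [← h1] at h2
    intro w hw
    obtain ⟨a, ha, c, rfl⟩ := mem_sup_span.1 hw
    have h3 : x ∈ Kg g := mem_Kg.2 h1.symm
    rw [Kg_eq hf hg] at h3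
    rw [hf.add_right, hf.smul_right, h2, h3 a ha, mul_zero, add_zero]
  · intro hx
    have h1 : x ∈ Kg g := by
      rw [Kg_eq hf hg]
      exact fun w hw => hx w (Submodule.mem_sup_left hw)
    have h2 := hx v (Submodule.mem_sup_right (Submodule.mem_span_singleton_self v))
    rw [mem_Kg.1 h1, h2, mul_zero, zero_smul, sub_zero]

lemma rk_notMem (hf : Qf Q f) {g r : GL ι F} (hg : Iso Q g) {v : ι → F} (hv : Q v ≠ 0) (hr : IsR Q f r v) (h : v ∉ Vg g) :
    Module.finrank F (Vg (r * g)) = Module.finrank F (Vg g) + 1 := by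
  rw [K_notMem hf hg hv hr h, finrank_sup_span_eq h]

/-- multiplying by a reflection inside the image -/
lemma rk_mem (hf : Qf Q f) {g r : GL ι F} (hg : Iso Q g) {v : ι → F} (hv : Q v ≠ 0) (hr : IsR Q f r v) (h : v ∈ Vg g) :
    Module.finrank F (Vg (r * g)) + 1 = Module.finrank F (Vg g) := by
  have hv0 : v ≠ 0 := by rintro rfl; exact hv hf.Q_zero
  obtain ⟨y, hy⟩ := mem_Vg.1 h
  have hyK : y ∉ Kg g := by
    intro hK
    rw [mem_Kg.1 hK, sub_self] at hy
    exact hv0 hy.symm
  have hyv : f y v = Q v := by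
    have h1 : Q (y - (g : Matrix ι ι F) *ᵥ y) = f y (y - (g : Matrix ι ι F) *ᵥ y) := by
      rw [hf.Q_sub, hg, hf.sub_right, hf.self]; ring
    rw [hy] at h1
    exact h1.symm
  have hK : Kg (r * g) = Kg g ⊔ Submodule.span F {y} := by
    ext x
    rw [mem_Kg, Units.val_mul, ← mulVec_mulVec, hr, mem_sup_span]
    constructor
    · intro hx
      set t := -((Q v)⁻¹ * f ((g : Matrix ι ι F) *ᵥ x) v) with ht
      have h1 : (g : Matrix ι ι F) *ᵥ x = x - t • v := by
        have h0 : (g : Matrix ι ι F) *ᵥ x = ((g : Matrix ι ι F) *ᵥ x - ((Q v)⁻¹ * f ((g : Matrix ι ι F) *ᵥ x) v) • v) - t • v := by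
          rw [ht]; module
        rwa [hx] at h0
      refine ⟨x - t • y, ?_, t, by abel⟩
      rw [mem_Kg, mulVec_sub, mulVec_smul, h1]
      have h2 : (g : Matrix ι ι F) *ᵥ y = y - v := by rw [← hy]; abel
      rw [h2]; module
    · rintro ⟨k, hk, t, rfl⟩
      have hkg := mem_Kg.1 hk
      rw [Kg_eq hf hg] at hk
      have h2 : (g : Matrix ι ι F) *ᵥ y = y - v := by rw [← hy]; abel
      rw [mulVec_add, mulVec_smul, hkg, h2, hf.add_left, hk v h, hf.smul_left, hf.sub_left, hf.self, hyv]
      have : (Q v)⁻¹ * (0 + t * (Q v - 2 * Q v)) = -t := by field_simp; ring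
      rw [this]; module
  have h1 := finrank_VK hf hg
  have h2 := finrank_VK hf ((hr.iso hf hv).mul hg)
  rw [hK, finrank_sup_span_eq hyK] at h2
  omega

/-- the group generated by the reflections -/
def RS (Q : (ι → F) → F) (f : (ι → F) → (ι → F) → F) : Subgroup (GL ι F) :=
  Subgroup.closure {g | ∃ v, Q v ≠ 0 ∧ IsR Q f g v}

lemma R_mem {g : GL ι F} {v : ι → F} (hv : Q v ≠ 0) (hg : IsR Q f g v) : g ∈ RS Q f :=
  Subgroup.subset_closure ⟨v, hv, hg⟩

lemma ts_iso (hf : Qf Q f) {W : Submodule F (ι → F)} (hW : ∀ x ∈ W, Q x = 0) {x y : ι → F} (hx : x ∈ W) (hy : y ∈ W) :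
    f x y = 0 := by
  have h1 := hf.add x y
  rw [hW _ (W.add_mem hx hy), hW x hx, hW y hy] at h1
  linear_combination -h1

/-- product of two independent reflections -/
lemma Vg_two (hf : Qf Q f) {r s : GL ι F} {v w : ι → F} (hv : Q v ≠ 0) (hw : Q w ≠ 0) (hr : IsR Q f r v) (hs : IsR Q f s w)
    (h : v ∉ Submodule.span F {w}) : v ∈ Vg (r * s) := by
  rw [K_notMem hf (hs.iso hf hw) hv hr (fun h' => h (Vg_R_le hs h'))]
  exact Submodule.mem_sup_right (Submodule.mem_span_singleton_self v)

theorem gen (hf : Qf Q f) (h4 : (∃ c : F, c ≠ 0 ∧ c ≠ 1) ∨ Fintype.card ι ≠ 4) {g : GL ι F} (hg : Iso Q g) :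
    g ∈ RS Q f := by
  have key : ∀ k, ∀ g : GL ι F, Iso Q g → Module.finrank F (Vg g) ≤ k → g ∈ RS Q f := by
    intro k
    induction k with
    | zero =>
      intro g _ hk
      have : Vg g = ⊥ := Submodule.finrank_eq_zero.1 (by omega)
      rw [Vg_eq_bot this]; exact Subgroup.one_mem _
    | succ k ih =>
      intro g hg hk
      -- the non totally singular case
      have key1 : ∀ g : GL ι F, Iso Q g → Module.finrank F (Vg g) ≤ k + 1 → (∃ v ∈ Vg g, Q v ≠ 0) → g ∈ RS Q f := by
        rintro g hg hk ⟨v, hvV, hv⟩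
        obtain ⟨r, hr⟩ := exists_R hf hv
        have h1 := rk_mem hf hg hv hr hvV
        have h2 := ih (r * g) ((hr.iso hf hv).mul hg) (by omega)
        have h3 := Subgroup.mul_mem _ (Subgroup.inv_mem _ (R_mem hv hr)) h2
        rwa [inv_mul_cancel_left] at h3
      by_cases hts : ∃ v ∈ Vg g, Q v ≠ 0
      · exact key1 g hg hk hts
      push Not at hts
      by_cases hbot : Vg g = ⊥
      · rw [Vg_eq_bot hbot]; exact Subgroup.one_mem _
      obtain ⟨z, hz, hz0⟩ := (Submodule.ne_bot_iff _).1 hbot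
      -- general conclusion
      have concl : ∀ (v v' : ι → F) (r r' : GL ι F), Q v ≠ 0 → Q v' ≠ 0 → IsR Q f r v → IsR Q f r' v' →
          v' ∈ Vg g ⊔ Submodule.span F {v} → (∃ x ∈ Vg (r' * (r * g)), Q x ≠ 0) → g ∈ RS Q f := by
        intro v v' r r' hv hv' hr hr' hmem hex
        have hvn : v ∉ Vg g := fun h => hv (hts v h)
        have h1 := rk_notMem hf hg hv hr hvn
        have h2 := rk_mem hf ((hr.iso hf hv).mul hg) hv' hr' (by rw [K_notMem hf hg hv hr hvn]; exact hmem)
        have h3 := key1 (r' * (r * g)) ((hr'.iso hf hv').mul ((hr.iso hf hv).mul hg)) (by omega) hex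
        have h4 := Subgroup.mul_mem _ (Subgroup.inv_mem _ (R_mem hv' hr')) h3
        rw [inv_mul_cancel_left] at h4
        have h5 := Subgroup.mul_mem _ (Subgroup.inv_mem _ (R_mem hv hr)) h4
        rwa [inv_mul_cancel_left] at h5
      -- images of the modified element
      have hH : ∀ (v v' : ι → F) (r r' : GL ι F), Q v ≠ 0 → IsR Q f r v → IsR Q f r' v' →
          v' ∈ Vg g ⊔ Submodule.span F {v} → Vg (r' * (r * g)) ≤ Vg g ⊔ Submodule.span F {v} := by
        intro v v' r r' hv hr hr' hmem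
        have hvn : v ∉ Vg g := fun h => hv (hts v h)
        refine (Vg_mul_le _ _).trans (sup_le ((Vg_R_le hr').trans ?_) (K_notMem hf hg hv hr hvn).le)
        rw [Submodule.span_le]
        intro x hx
        rw [Set.mem_singleton_iff.1 hx]; exact hmem
      -- the new image is not inside the old one
      have hnot : ∀ (v z : ι → F) (r r' : GL ι F), Q v ≠ 0 → Q (v + z) ≠ 0 → z ∈ Vg g → z ≠ 0 → IsR Q f r v →
          IsR Q f r' (v + z) → ¬ Vg (r' * (r * g)) ≤ Vg g := by
        intro v z r r' hv hv' hz hz0 hr hr' hle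
        have h1 : r' * (r * g) * g⁻¹ = r' * r := by group
        have h2 := Vg_mul_le (r' * (r * g)) g⁻¹
        rw [h1, Vg_inv, sup_of_le_right hle] at h2
        have h3 : v + z ∈ Vg (r' * r) := by
          refine Vg_two hf hv' hv hr' hr ?_
          intro hmem
          obtain ⟨c, hc⟩ := Submodule.mem_span_singleton.1 hmem
          have hvn : v ∉ Vg g := fun h => hv (hts v h)
          have h4 : (c - 1) • v = z := by rw [sub_smul, hc]; module
          by_cases hc1 : c - 1 = 0
          · rw [hc1, zero_smul] at h4; exact hz0 h4.symm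
          · apply hvn
            refine (Submodule.smul_mem_iff _ hc1).1 ?_
            rw [h4]; exact hz
        exact hv' (hts _ (h2 h3))
      by_cases hA : ∃ v ∈ perp hf (Vg g), Q v ≠ 0
      · obtain ⟨v, hvp, hv⟩ := hA
        have hv' : Q (v + z) ≠ 0 := by
          rw [hf.add, hts z hz, hvp z hz, add_zero, add_zero]; exact hv
        obtain ⟨r, hr⟩ := exists_R hf hv
        obtain ⟨r', hr'⟩ := exists_R hf hv'
        have hmem : v + z ∈ Vg g ⊔ Submodule.span F {v} := by
          rw [mem_sup_span]; exact ⟨z, hz, 1, by rw [one_smul, add_comm]⟩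
        refine concl v (v + z) r r' hv hv' hr hr' hmem ?_
        by_contra hcon
        push Not at hcon
        apply hnot v z r r' hv hv' hz hz0 hr hr'
        intro x hx
        obtain ⟨a, ha, c, rfl⟩ := mem_sup_span.1 (hH v (v + z) r r' hv hr hr' hmem hx)
        have h1 := hcon _ hx
        rw [hf.add, hts a ha, hf.smul, hf.smul_right, hf.swap (hvp a ha), zero_add, mul_zero, add_zero] at h1
        have h2 : c = 0 := by
          rcases mul_eq_zero.1 h1 with h3 | h3
          · exact mul_self_eq_zero.1 h3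
          · exact absurd h3 hv
        rw [h2, zero_smul, add_zero]; exact ha
      · push Not at hA
        have hKV : Kg g = Vg g := by
          apply le_antisymm
          · rw [Vg_eq hf hg]
            intro x hx y hy
            rw [Kg_eq hf hg] at hx hy
            exact ts_iso hf hA hx hy
          · rw [Kg_eq hf hg]
            intro x hx y hy
            exact ts_iso hf hts hx hy
        have hdim := finrank_VK hf hg
        rw [hKV] at hdim
        -- a non-singular vector
        obtain ⟨v, hv⟩ : ∃ v, Q v ≠ 0 := by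
          by_contra hcon
          push Not at hcon
          obtain ⟨y, hy⟩ := hf.nondeg z hz0
          apply hy
          have := hf.add z y
          rw [hcon, hcon, hcon] at this
          linear_combination -this
        have hvn : v ∉ Vg g := fun h => hv (hts v h)
        -- dimension is not one
        have hdim1 : Module.finrank F (Vg g) ≠ 1 := by
          intro h1
          obtain ⟨z1, hz1⟩ := finrank_eq_one_iff'.1 h1
          have halt : ∀ y, f y (y - (g : Matrix ι ι F) *ᵥ y) = 0 := by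
            intro y
            have h2 : Q (y - (g : Matrix ι ι F) *ᵥ y) = f y (y - (g : Matrix ι ι F) *ᵥ y) := by
              rw [hf.Q_sub, hg, hf.sub_right, hf.self]; ring
            rw [← h2]; exact hts _ ⟨y, rfl⟩
          obtain ⟨y, hy1, hy2⟩ : ∃ y, y ∉ Kg g ∧ y ∉ LinearMap.ker (fl hf (z1 : ι → F)) := by
            obtain ⟨y, -, hy⟩ := not_union (W := (⊤ : Submodule F (ι → F))) (U := Kg g) (U' := LinearMap.ker (fl hf (z1 : ι → F)))
              (by
                rw [hKV]
                intro h; exact hvn (h trivial))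
              (by
                intro h
                have hz10 : (z1 : ι → F) ≠ 0 := by
                  have := hz1.1
                  simpa using this
                obtain ⟨y, hy⟩ := hf.nondeg _ hz10
                have h2 : y ∈ LinearMap.ker (fl hf (z1 : ι → F)) := h trivial
                rw [LinearMap.mem_ker, fl_apply] at h2
                exact hy (hf.swap h2))
            exact ⟨y, hy⟩
          obtain ⟨c, hc⟩ := hz1.2 ⟨y - (g : Matrix ι ι F) *ᵥ y, ⟨y, rfl⟩⟩
          have hc' : c • (z1 : ι → F) = y - (g : Matrix ι ι F) *ᵥ y := congrArg Subtype.val hc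
          have h2 := halt y
          rw [← hc', hf.smul_right] at h2
          rcases mul_eq_zero.1 h2 with h3 | h3
          · rw [h3, zero_smul] at hc'
            exact hy1 (mem_Kg.2 (sub_eq_zero.1 hc'.symm).symm)
          · exact hy2 h3
        -- two vectors in `Vg g` orthogonal to `v`
        have hpos : Module.finrank F (Vg g) ≠ 0 := fun h => hbot (Submodule.finrank_eq_zero.1 h)
        obtain ⟨z1, hz1V, hz1v, hz1n⟩ := exists_avoid hf (Vg g) ⊥ ![v] (by rw [finrank_bot]; omega)
        have hz1v : f z1 v = 0 := hz1v 0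
        have hz10 : z1 ≠ 0 := by simpa using hz1n
        obtain ⟨z2, hz2V, hz2v, hz20, hz12⟩ : ∃ z2 ∈ Vg g, f z2 v = 0 ∧ z2 ≠ 0 ∧ z2 ≠ z1 := by
          by_cases hc : ∃ c : F, c ≠ 0 ∧ c ≠ 1
          · obtain ⟨c, hc0, hc1⟩ := hc
            refine ⟨c • z1, Submodule.smul_mem _ _ hz1V, by rw [hf.smul_left, hz1v, mul_zero], smul_ne_zero hc0 hz10, ?_⟩
            intro h
            have h5 : (c - 1) • z1 = 0 := by rw [sub_smul, h, one_smul, sub_self]
            rcases smul_eq_zero.1 h5 with h6 | h6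
            · exact hc1 (sub_eq_zero.1 h6)
            · exact hz10 h6
          · have h5 := h4.resolve_left hc
            obtain ⟨z2, hz2V, hz2v, hz2n⟩ := exists_avoid hf (Vg g) (Submodule.span F {z1}) ![v] (by
              rw [finrank_span_singleton hz10]; omega)
            refine ⟨z2, hz2V, hz2v 0, ?_, ?_⟩
            · rintro rfl; exact hz2n (Submodule.zero_mem _)
            · rintro rfl; exact hz2n (Submodule.mem_span_singleton_self _)
        obtain ⟨r, hr⟩ := exists_R hf hv
        have hv1 : Q (v + z1) ≠ 0 := by rw [hf.add, hts z1 hz1V, hf.swap hz1v, add_zero, add_zero]; exact hv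
        have hv2 : Q (v + z2) ≠ 0 := by rw [hf.add, hts z2 hz2V, hf.swap hz2v, add_zero, add_zero]; exact hv
        obtain ⟨r1, hr1⟩ := exists_R hf hv1
        obtain ⟨r2, hr2⟩ := exists_R hf hv2
        have hmem1 : v + z1 ∈ Vg g ⊔ Submodule.span F {v} := by
          rw [mem_sup_span]; exact ⟨z1, hz1V, 1, by rw [one_smul, add_comm]⟩
        have hmem2 : v + z2 ∈ Vg g ⊔ Submodule.span F {v} := by
          rw [mem_sup_span]; exact ⟨z2, hz2V, 1, by rw [one_smul, add_comm]⟩
        by_cases hc1 : ∃ x ∈ Vg (r1 * (r * g)), Q x ≠ 0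
        · exact concl v (v + z1) r r1 hv hv1 hr hr1 hmem1 hc1
        by_cases hc2 : ∃ x ∈ Vg (r2 * (r * g)), Q x ≠ 0
        · exact concl v (v + z2) r r2 hv hv2 hr hr2 hmem2 hc2
        exfalso
        push Not at hc1 hc2
        -- both images satisfy the condition
        have hP : ∀ H : Submodule F (ι → F), H ≤ Vg g ⊔ Submodule.span F {v} → (∀ x ∈ H, Q x = 0) → ¬ H ≤ Vg g →
            ∀ x ∈ H, ∃ a ∈ Vg g, ∃ c : F, x = a + c • v ∧ f v a = -(c * Q v) := by
          intro H hH hQH hHn x hx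
          obtain ⟨a, ha, c, rfl⟩ := mem_sup_span.1 (hH hx)
          refine ⟨a, ha, c, rfl, ?_⟩
          by_cases hc : c = 0
          · obtain ⟨y, hy, hyn⟩ := SetLike.not_le_iff_exists.1 hHn
            obtain ⟨b, hb, d, rfl⟩ := mem_sup_span.1 (hH hy)
            have hd : d ≠ 0 := by
              rintro rfl
              rw [zero_smul, add_zero] at hyn; exact hyn hb
            rw [hc, zero_smul, add_zero] at hx
            have h6 := ts_iso hf hQH hx hy
            rw [hf.add_right, ts_iso hf hts ha hb, hf.smul_right, zero_add] at h6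
            rw [hc, zero_mul, neg_zero]
            exact hf.swap ((mul_eq_zero.1 h6).resolve_left hd)
          · have h6 := hQH _ hx
            rw [hf.add, hts a ha, hf.smul, hf.smul_right, zero_add] at h6
            have h7 : c * (c * Q v + f a v) = 0 := by linear_combination h6
            have h8 := (mul_eq_zero.1 h7).resolve_left hc
            rw [hf.symm]
            linear_combination h8
        have hP1 := hP _ (hH v _ r r1 hv hr hr1 hmem1) hc1 (hnot v z1 r r1 hv hv1 hz1V hz10 hr hr1)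
        have hP2 := hP _ (hH v _ r r2 hv hr hr2 hmem2) hc2 (hnot v z2 r r2 hv hv2 hz2V hz20 hr hr2)
        have h6 : r1 * (r * g) * (r2 * (r * g))⁻¹ = r1 * r2 := by
          rw [_root_.mul_inv_rev, ← mul_assoc, mul_inv_cancel_right, hr2.inv_eq hf hv2]
        have h7 := Vg_mul_le (r1 * (r * g)) (r2 * (r * g))⁻¹
        rw [h6, Vg_inv] at h7
        have h8 : v + z1 ∈ Vg (r1 * r2) := by
          refine Vg_two hf hv1 hv2 hr1 hr2 ?_
          intro hmem
          obtain ⟨c, hc⟩ := Submodule.mem_span_singleton.1 hmem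
          have h9 : (c - 1) • v = z1 - c • z2 := by
            rw [smul_add] at hc
            have : c • v = v + z1 - c • z2 := by rw [← hc]; abel
            rw [sub_smul, this, one_smul]; abel
          by_cases hc1' : c - 1 = 0
          · rw [hc1', zero_smul] at h9
            have hc2' : c = 1 := sub_eq_zero.1 hc1'
            rw [hc2', one_smul] at h9
            exact hz12 (sub_eq_zero.1 h9.symm).symm
          · apply hvn
            refine (Submodule.smul_mem_iff _ hc1').1 ?_
            rw [h9]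
            exact Submodule.sub_mem _ hz1V (Submodule.smul_mem _ _ hz2V)
        obtain ⟨x, hx, y, hy, hxy⟩ := Submodule.mem_sup.1 (h7 h8)
        obtain ⟨a, ha, c, rfl, hac⟩ := hP1 x hx
        obtain ⟨b, hb, d, rfl, hbd⟩ := hP2 y hy
        apply hv1
        rw [← hxy]
        have h9 : a + c • v + (b + d • v) = (a + b) + (c + d) • v := by module
        rw [h9, hf.add, hts _ (Submodule.add_mem _ ha hb), hf.smul, hf.smul_right, hf.symm v, hf.add_right, hac, hbd]
        ring
  exact key _ g hg le_rfl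

end CfsgH9.Og
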