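import Mathlib
import Cfsg.Agent.H9.Og2

set_option autoImplicit false

/-! Orthogonal groups: the index of the commutator subgroup. -/

namespace CfsgH9.Og

open Matrix Cfsg Cfsg.Geo CfsgH9.Tv CfsgH9.Witt
open CfsgH9.MaxSymp (inv_mulVec mulVec_inv)
open CfsgH9.MaxImpSp (glOf glOf_mulVec)

variable {ι : Type} [Fintype ι] [DecidableEq ι] {F : Type*} [Field F]
variable {Q : (ι → F) → F} {f : (ι → F) → (ι → F) → F}

/-! ### Witt's theorem in matrix form -/

lemma witt_GL (hf : Qf Q f) {W : Submodule F (ι → F)} {φ : (ι → F) →ₗ[F] (ι → F)}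
    (hφ : ∀ u ∈ W, Q (φ u) = Q u) (hinj : ∀ u ∈ W, φ u = 0 → u = 0) :
    ∃ g : GL ι F, Iso Q g ∧ (∀ u ∈ W, (g : Matrix ι ι F) *ᵥ u = φ u) := by
  have hfo : ∀ u ∈ W, ∀ v ∈ W, f (φ u) (φ v) = f u v := by
    intro u hu v hv
    have h1 := hf.add (φ u) (φ v)
    rw [← map_add, hφ _ (W.add_mem hu hv), hφ u hu, hφ v hv, hf.add] at h1
    linear_combination -h1
  have hP : Pres (σ := RingHom.id F) (QuadraticMap.polarBilin hf.toQ) hf.toQ W φ :=
    ⟨fun u hu v hv => by rw [hf.polar_toQ, hf.polar_toQ]; exact hfo u hu v hv, fun u hu => hφ u hu, hinj⟩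
  obtain ⟨g, hg, hgf⟩ := hf.fm.extend _ _ φ le_rfl hP
  refine ⟨glOf g, ?_, ?_⟩
  · intro x
    rw [glOf_mulVec]
    exact hg.2 x
  · intro u hu
    rw [glOf_mulVec, hgf u hu]

/-- vectors of the same norm are conjugate -/
lemma exists_map (hf : Qf Q f) {x y : ι → F} (hx : x ≠ 0) (hy : y ≠ 0) (hxy : Q x = Q y) :
    ∃ g : GL ι F, Iso Q g ∧ (g : Matrix ι ι F) *ᵥ x = y := by
  obtain ⟨φ, -, hφ⟩ := exists_extend (U := (⊥ : Submodule F (ι → F))) (0 : (ι → F) →ₗ[F] (ι → F)) (w := x)
    (by simpa using hx) y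
  obtain ⟨g, hg, hgx⟩ := witt_GL hf (W := Submodule.span F {x}) (φ := φ) (by
    intro u hu
    obtain ⟨c, rfl⟩ := Submodule.mem_span_singleton.1 hu
    rw [map_smul, hφ, hf.smul, hf.smul, hxy]) (by
    intro u hu h0
    obtain ⟨c, rfl⟩ := Submodule.mem_span_singleton.1 hu
    rw [map_smul, hφ] at h0
    rw [(smul_eq_zero.1 h0).resolve_right hy, zero_smul])
  exact ⟨g, hg, by rw [hgx x (Submodule.mem_span_singleton_self x), hφ]⟩

/-! ### the group of isometries -/

/-- element of the isometry group -/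
def mkO {g : GL ι F} (hg : Iso Q g) : isometryGroup F Q := ⟨g, mem_iso.2 hg⟩

lemma coe_mkO {g : GL ι F} (hg : Iso Q g) : ((mkO hg : isometryGroup F Q) : GL ι F) = g := rfl

lemma iso_of (g : isometryGroup F Q) : Iso Q (g : GL ι F) := mem_iso.1 g.2

/-- reflections as elements of the isometry group -/
def Rs (Q : (ι → F) → F) (f : (ι → F) → (ι → F) → F) : Set (isometryGroup F Q) :=
  {g | ∃ v, Q v ≠ 0 ∧ IsR Q f (g : GL ι F) v}

lemma closure_Rs (hf : Qf Q f) (h4 : (∃ c : F, c ≠ 0 ∧ c ≠ 1) ∨ Fintype.card ι ≠ 4) :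
    Subgroup.closure (Rs Q f) = ⊤ := by
  rw [eq_top_iff]
  rintro ⟨g, hg⟩ -
  have hgen := gen hf h4 (mem_iso.1 hg)
  have key : ∀ g ∈ RS Q f, ∃ hg : Iso Q g, mkO hg ∈ Subgroup.closure (Rs Q f) := by
    intro g hg
    induction hg using Subgroup.closure_induction with
    | mem g hg =>
      obtain ⟨v, hv, hr⟩ := hg
      exact ⟨hr.iso hf hv, Subgroup.subset_closure ⟨v, hv, hr⟩⟩
    | one => exact ⟨Iso.one, Subgroup.one_mem _⟩
    | mul g h _ _ h1 h2 =>
      obtain ⟨h1, h1'⟩ := h1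
      obtain ⟨h2, h2'⟩ := h2
      exact ⟨h1.mul h2, Subgroup.mul_mem _ h1' h2'⟩
    | inv g _ h =>
      obtain ⟨h, h'⟩ := h
      exact ⟨h.inv, Subgroup.inv_mem _ h'⟩
  obtain ⟨_, h⟩ := key g hgen
  exact h

/-- induction principle -/
lemma refl_induction (hf : Qf Q f) (h4 : (∃ c : F, c ≠ 0 ∧ c ≠ 1) ∨ Fintype.card ι ≠ 4) {P : isometryGroup F Q → Prop}
    (h1 : P 1) (hr : ∀ r ∈ Rs Q f, ∀ g, P g → P (r * g)) (g : isometryGroup F Q) : P g := by
  have hg : g ∈ Subgroup.closure (Rs Q f) := by rw [closure_Rs hf h4]; trivial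
  have hsymm : ∀ r ∈ Rs Q f, r⁻¹ = r := by
    rintro r ⟨v, hv, hr⟩
    apply Subtype.ext
    exact hr.inv_eq hf hv
  rw [← Subgroup.mem_toSubmonoid, Subgroup.closure_toSubmonoid] at hg
  induction hg using Submonoid.closure_induction_left with
  | one => exact h1
  | mul_left x hx y _ ih =>
    rcases hx with hx | hx
    · exact hr x hx y ih
    · have h2 := Set.mem_inv.1 hx
      have h3 := hsymm _ h2
      rw [inv_inv] at h3
      rw [← h3] at h2
      exact hr x h2 y ih

/-- parity of the rank of `1 - g` -/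
noncomputable def dsgn (g : isometryGroup F Q) : ℤˣ := (-1) ^ (Module.finrank F (Vg (g : GL ι F)))

lemma dsgn_R (hf : Qf Q f) {r : isometryGroup F Q} (hr : r ∈ Rs Q f) (g : isometryGroup F Q) :
    dsgn (r * g) = - dsgn g := by
  obtain ⟨v, hv, hr⟩ := hr
  rw [dsgn, dsgn, Subgroup.coe_mul]
  by_cases h : v ∈ Vg (g : GL ι F)
  · rw [← rk_mem hf (iso_of g) hv hr h, pow_succ]
    simp
  · rw [rk_notMem hf (iso_of g) hv hr h, pow_succ]
    simp

lemma dsgn_one : dsgn (1 : isometryGroup F Q) = 1 := by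
  have h : Vg ((1 : isometryGroup F Q) : GL ι F) = ⊥ := by
    rw [eq_bot_iff]
    rintro _ ⟨x, rfl⟩
    rw [Submodule.mem_bot, LinearMap.sub_apply, LinearMap.id_apply, mulVecLin_apply, Subgroup.coe_one, Units.val_one,
      one_mulVec, sub_self]
  rw [dsgn, h, finrank_bot, pow_zero]

lemma dsgn_mul (hf : Qf Q f) (h4 : (∃ c : F, c ≠ 0 ∧ c ≠ 1) ∨ Fintype.card ι ≠ 4) (g h : isometryGroup F Q) :
    dsgn (g * h) = dsgn g * dsgn h := by
  refine refl_induction hf h4 (P := fun g => dsgn (g * h) = dsgn g * dsgn h) ?_ ?_ g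
  · rw [one_mul, dsgn_one, one_mul]
  · intro r hr g hg
    rw [mul_assoc, dsgn_R hf hr, dsgn_R hf hr, hg, neg_mul]

/-- the Dickson invariant -/
noncomputable def dHom (hf : Qf Q f) (h4 : (∃ c : F, c ≠ 0 ∧ c ≠ 1) ∨ Fintype.card ι ≠ 4) : isometryGroup F Q →* ℤˣ where
  toFun := dsgn
  map_one' := dsgn_one
  map_mul' := dsgn_mul hf h4

lemma dHom_R (hf : Qf Q f) (h4 : (∃ c : F, c ≠ 0 ∧ c ≠ 1) ∨ Fintype.card ι ≠ 4) {r : isometryGroup F Q}
    (hr : r ∈ Rs Q f) : dHom hf h4 r = -1 := by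
  have := dsgn_R hf hr 1
  rw [mul_one, dsgn_one] at this
  exact this

/-- permutation representation on vectors of norm `c` -/
def permC (Q : (ι → F) → F) (c : F) : isometryGroup F Q →* Equiv.Perm {x : ι → F // Q x = c} where
  toFun g :=
    { toFun := fun x => ⟨((g : GL ι F) : Matrix ι ι F) *ᵥ x.1, by rw [iso_of g]; exact x.2⟩
      invFun := fun x => ⟨(((g : GL ι F)⁻¹ : GL ι F) : Matrix ι ι F) *ᵥ x.1, by rw [(iso_of g).inv]; exact x.2⟩
      left_inv := fun x => Subtype.ext (inv_mulVec _ _)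
      right_inv := fun x => Subtype.ext (mulVec_inv _ _) }
  map_one' := by
    ext x
    show ((1 : Matrix ι ι F) *ᵥ x.1) _ = _
    rw [one_mulVec]; rfl
  map_mul' g h := by
    apply Equiv.ext
    intro x
    apply Subtype.ext
    show (((g : GL ι F) * (h : GL ι F) : GL ι F) : Matrix ι ι F) *ᵥ x.1 = _
    rw [Units.val_mul, ← mulVec_mulVec]
    rfl

lemma permC_apply (g : isometryGroup F Q) (c : F) (x : {x : ι → F // Q x = c}) :
    ((permC Q c g x : {x : ι → F // Q x = c}) : ι → F) = ((g : GL ι F) : Matrix ι ι F) *ᵥ x.1 := rfl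

section odd

/-- solutions on a line -/
lemma card_line [Fintype F] [DecidableEq F] (h2 : (2 : F) ≠ 0) {a : F} (ha : a ≠ 0) (d : F) :
    (Nat.card {t : F // t * t * a = d} : ℤ) = quadraticChar F (a * d) + 1 := by
  have hF : ringChar F ≠ 2 := by
    intro h
    apply h2
    have h1 : ((2 : ℕ) : F) = 0 := by rw [← h]; exact ringChar.Nat.cast_ringChar
    exact_mod_cast h1
  have h1 := quadraticChar_card_sqrts hF (d / a)
  have h3 : quadraticChar F (a * d) = quadraticChar F (d / a) := by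
    have : a * d = d / a * a ^ 2 := by field_simp
    rw [this, map_mul, quadraticChar_sq_one' ha, mul_one]
  rw [h3, ← h1, Nat.card_eq_fintype_card, Set.toFinset_card, Nat.cast_inj]
  apply Fintype.card_congr
  refine Equiv.subtypeEquivRight fun t => ?_
  show t * t * a = d ↔ t ^ 2 = d / a
  rw [eq_div_iff ha, pow_two]

variable [Fintype F]

/-- the number of vectors of norm `c` orthogonal to `a` -/
lemma card_N (hf : Qf Q f) (h2 : (2 : F) ≠ 0) {a b : ι → F} (ha : Q a ≠ 0) (hb : Q b ≠ 0) (hab : f a b = 0) (c : F)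
    [Fintype (perp hf (Submodule.span F {a, b}))] :
    Nat.card {x : ι → F // Q x = c ∧ f x a = 0} =
      ∑ w : perp hf (Submodule.span F {a, b}), Nat.card {t : F // t * t * Q b = c - Q (w : ι → F)} := by
  have hba := hf.swap hab
  have e : {x : ι → F // Q x = c ∧ f x a = 0} ≃
      (Σ w : perp hf (Submodule.span F {a, b}), {t : F // t * t * Q b = c - Q (w : ι → F)}) :=
    { toFun := fun x => ⟨⟨x.1 - (f x.1 b / (2 * Q b)) • b, by
          rw [mem_perp_pair, hf.sub_left, hf.smul_left, hba, x.2.2, hf.sub_left, hf.smul_left, hf.self]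
          refine ⟨by ring, ?_⟩
          field_simp; ring⟩, ⟨f x.1 b / (2 * Q b), by
          rw [hf.Q_sub, hf.smul, hf.smul_right, x.2.1]
          field_simp; ring⟩⟩
      invFun := fun p => ⟨(p.1 : ι → F) + (p.2 : F) • b, by
          have h1 := (mem_perp_pair hf).1 p.1.2
          rw [hf.add, hf.smul, hf.smul_right, h1.2, p.2.2]; ring, by
          have h1 := (mem_perp_pair hf).1 p.1.2
          rw [hf.add_left, hf.smul_left, h1.1, hba]; ring⟩
      left_inv := fun x => Subtype.ext (by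
        show x.1 - (f x.1 b / (2 * Q b)) • b + (f x.1 b / (2 * Q b)) • b = x.1
        abel)
      right_inv := fun p => by
        obtain ⟨w, t, ht⟩ := p
        have h1 := (mem_perp_pair hf).1 w.2
        have h3 : f ((w : ι → F) + t • b) b / (2 * Q b) = t := by
          rw [hf.add_left, hf.smul_left, h1.2, hf.self]; field_simp; ring
        have h4 : (⟨(w : ι → F) + t • b - (f ((w : ι → F) + t • b) b / (2 * Q b)) • b, by
          rw [h3, add_sub_cancel_right]; exact w.2⟩ : perp hf (Submodule.span F {a, b})) = w := by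
          apply Subtype.ext
          show (w : ι → F) + t • b - (f ((w : ι → F) + t • b) b / (2 * Q b)) • b = w
          rw [h3, add_sub_cancel_right]
        apply Sigma.ext
        · exact h4
        · refine (Subtype.heq_iff_coe_heq rfl ?_).2 (heq_of_eq h3)
          apply heq_of_eq
          funext s
          show (s * s * Q b = c - Q ((w : ι → F) + t • b - (f ((w : ι → F) + t • b) b / (2 * Q b)) • b)) =
            (s * s * Q b = c - Q (w : ι → F))
          have h5 := congrArg (fun z : perp hf (Submodule.span F {a, b}) => (z : ι → F)) h4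
          simp only at h5
          rw [h5] }
  rw [Nat.card_congr e, Nat.card_sigma]

omit [Fintype ι] [DecidableEq ι] in
lemma even_card_of_neg [Finite ι] (h2 : (2 : F) ≠ 0) (P : (ι → F) → Prop) (hP : ∀ x, P x → P (-x)) (h0 : ¬ P 0) :
    Even (Nat.card {x : ι → F // P x}) := by
  classical
  haveI : Fintype {x : ι → F // P x} := Fintype.ofFinite _
  let σ : Equiv.Perm {x : ι → F // P x} :=
    { toFun := fun x => ⟨-x.1, hP _ x.2⟩
      invFun := fun x => ⟨-x.1, hP _ x.2⟩
      left_inv := fun x => Subtype.ext (neg_neg _)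
      right_inv := fun x => Subtype.ext (neg_neg _) }
  have hσ : σ ^ 2 ^ 1 = 1 := by
    ext x i
    simp [σ, pow_two]
  have h1 := Equiv.Perm.card_compl_support_modEq (p := 2) (n := 1) hσ
  have h3 : σ.supportᶜ.card = 0 := by
    rw [Finset.card_eq_zero]
    ext x
    simp only [Finset.mem_compl, Equiv.Perm.mem_support, ne_eq, not_not, Finset.notMem_empty, iff_false]
    intro h
    have h4 : -x.1 = x.1 := congrArg Subtype.val h
    have h5 : (2 : F) • x.1 = 0 := by
      rw [two_smul]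
      nth_rewrite 1 [← h4]
      exact neg_add_cancel _
    rcases smul_eq_zero.1 h5 with h6 | h6
    · exact h2 h6
    · apply h0; rw [← h6]; exact x.2
  rw [h3] at h1
  rw [Nat.card_eq_fintype_card, Nat.even_iff]
  exact h1.symm

/-- the sign of a reflection on the vectors of norm `c` -/
lemma sign_R (hf : Qf Q f) [DecidableEq F] {r : isometryGroup F Q} {v : ι → F} (hv : Q v ≠ 0) (hr : IsR Q f (r : GL ι F) v) (c : F) :
    Equiv.Perm.sign (permC Q c r) =
      (-1) ^ ((Nat.card {x : ι → F // Q x = c} - Nat.card {x : ι → F // Q x = c ∧ f x v = 0}) / 2) := by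
  have hsq : (permC Q c r) ^ 2 = 1 := by
    rw [← map_pow, pow_two]
    have : r * r = 1 := Subtype.ext (hr.sq hf hv)
    rw [this, map_one]
  rw [Equiv.Perm.sign_of_pow_two_eq_one hsq]
  congr 2
  rw [← Nat.card_eq_fintype_card, ← Nat.card_eq_fintype_card]
  congr 1
  apply Nat.card_congr
  refine ⟨fun x => ⟨x.1.1, x.1.2, ?_⟩, fun x => ⟨⟨x.1, x.2.1⟩, ?_⟩, fun x => rfl, fun x => rfl⟩
  · have h1 : permC Q c r x.1 = x.1 := x.2
    have h2 : ((r : GL ι F) : Matrix ι ι F) *ᵥ x.1.1 = x.1.1 := by rw [← permC_apply, h1]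
    rw [hr, sub_eq_self] at h2
    have hv0 : v ≠ 0 := by rintro rfl; exact hv hf.Q_zero
    exact (mul_eq_zero.1 ((smul_eq_zero.1 h2).resolve_right hv0)).resolve_left (inv_ne_zero hv)
  · apply Subtype.ext
    rw [permC_apply]
    exact hr.fix x.2.2

/-- reflections of different classes have different signs -/
lemma sign_ne (hf : Qf Q f) [DecidableEq F] (h2 : (2 : F) ≠ 0) {v v' : ι → F} (hv : Q v ≠ 0) (hv' : Q v' ≠ 0) (hvv' : f v v' = 0)
    {α β c : F} (hc : c ≠ 0) (hα : ¬ IsSquare (Q v * Q (α • v + β • v'))) {r s : isometryGroup F Q}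
    (hr : IsR Q f (r : GL ι F) v) (hs : IsR Q f (s : GL ι F) (α • v + β • v')) :
    Equiv.Perm.sign (permC Q c r) * Equiv.Perm.sign (permC Q c s) = -1 := by
  have hF : ringChar F ≠ 2 := by
    intro h
    apply h2
    have h1 : ((2 : ℕ) : F) = 0 := by rw [← h]; exact ringChar.Nat.cast_ringChar
    exact_mod_cast h1
  set a := α • v + β • v' with ha
  set b := (β * Q v') • v - (α * Q v) • v' with hb
  have hv'v := hf.swap hvv'
  have hQa : Q a = α * α * Q v + β * β * Q v' := by
    rw [ha, hf.add, hf.smul, hf.smul, hf.smul_left, hf.smul_right, hvv']; ring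
  have ha0 : Q a ≠ 0 := by
    intro h0
    apply hα
    rw [h0, mul_zero]; exact ⟨0, by ring⟩
  have hQb : Q b = Q v * Q v' * Q a := by
    rw [hb, hf.Q_sub, hf.smul, hf.smul, hf.smul_left, hf.smul_right, hvv', hQa]; ring
  have hb0 : Q b ≠ 0 := by rw [hQb]; exact mul_ne_zero (mul_ne_zero hv hv') ha0
  have hab : f a b = 0 := by
    rw [ha, hb, hf.add_left, hf.sub_right, hf.sub_right, hf.smul_left, hf.smul_left, hf.smul_left, hf.smul_left, hf.smul_right,
      hf.smul_right, hf.smul_right, hf.smul_right, hvv', hv'v, hf.self, hf.self]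
    ring
  have hperp : perp hf (Submodule.span F {v, v'}) = perp hf (Submodule.span F {a, b}) := by
    ext z
    rw [mem_perp_pair, mem_perp_pair, ha, hb, hf.add_right, hf.sub_right, hf.smul_right, hf.smul_right, hf.smul_right,
      hf.smul_right]
    constructor
    · rintro ⟨h1, h2⟩
      rw [h1, h2]; constructor <;> ring
    · rintro ⟨h1, h2⟩
      rw [hQa] at ha0
      constructor
      · apply mul_left_cancel₀ ha0
        linear_combination (α * Q v) * h1 + β * h2
      · apply mul_left_cancel₀ ha0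
        linear_combination (β * Q v') * h1 - α * h2
  haveI : Fintype (perp hf (Submodule.span F {v, v'})) := Fintype.ofFinite _
  haveI : Fintype (perp hf (Submodule.span F {a, b})) := Fintype.ofFinite _
  have hN1 := card_N hf h2 hv hv' hvv' c
  have hN2 := card_N hf h2 ha0 hb0 hab c
  have hsum : Nat.card {x : ι → F // Q x = c ∧ f x v = 0} + Nat.card {x : ι → F // Q x = c ∧ f x a = 0} =
      2 * Nat.card (perp hf (Submodule.span F {v, v'})) := by
    have h3 : ∑ w : perp hf (Submodule.span F {a, b}), Nat.card {t : F // t * t * Q b = c - Q (w : ι → F)} =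
        ∑ w : perp hf (Submodule.span F {v, v'}), Nat.card {t : F // t * t * Q b = c - Q (w : ι → F)} := by
      refine Fintype.sum_equiv (LinearEquiv.ofEq _ _ hperp.symm).toEquiv _ _ (fun w => rfl)
    rw [hN1, hN2, h3, ← Finset.sum_add_distrib, Nat.card_eq_fintype_card (α := perp hf (Submodule.span F {v, v'})),
      mul_comm, ← smul_eq_mul, ← Finset.card_univ, ← Finset.sum_const]
    refine Finset.sum_congr rfl fun w _ => ?_
    have h5 := card_line h2 hv' (c - Q (w : ι → F))
    have h6 := card_line h2 hb0 (c - Q (w : ι → F))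
    have h7 : quadraticChar F (Q b * (c - Q (w : ι → F))) = - quadraticChar F (Q v' * (c - Q (w : ι → F))) := by
      have h8 : Q b * (c - Q (w : ι → F)) = (Q v * Q a) * (Q v' * (c - Q (w : ι → F))) := by rw [hQb]; ring
      rw [h8, map_mul, quadraticChar_neg_one_iff_not_isSquare.2 hα]; ring
    rw [h7] at h6
    have h9 : ((Nat.card {t : F // t * t * Q v' = c - Q (w : ι → F)} + Nat.card {t : F // t * t * Q b = c - Q (w : ι → F)} : ℕ) : ℤ) = 2 := by
      push_cast
      rw [h5, h6]; ring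
    exact_mod_cast h9
  have hev1 : Even (Nat.card {x : ι → F // Q x = c ∧ f x v = 0}) :=
    even_card_of_neg h2 _ (fun x hx => ⟨by rw [hf.Q_neg]; exact hx.1, by rw [hf.neg_left, hx.2, neg_zero]⟩)
      (fun h => hc (by rw [← h.1, hf.Q_zero]))
  have hev2 : Even (Nat.card {x : ι → F // Q x = c ∧ f x a = 0}) :=
    even_card_of_neg h2 _ (fun x hx => ⟨by rw [hf.Q_neg]; exact hx.1, by rw [hf.neg_left, hx.2, neg_zero]⟩)
      (fun h => hc (by rw [← h.1, hf.Q_zero]))
  have hev3 : Even (Nat.card {x : ι → F // Q x = c}) :=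
    even_card_of_neg h2 _ (fun x hx => by rw [hf.Q_neg]; exact hx) (fun h => hc (by rw [← h, hf.Q_zero]))
  have hodd : Odd (Nat.card (perp hf (Submodule.span F {v, v'}))) := by
    have h10 : Odd (Nat.card F) := by
      rw [Nat.card_eq_fintype_card, Nat.odd_iff]; exact CfsgH9.Ort.card_odd h2
    rw [Module.natCard_eq_pow_finrank (K := F)]
    exact h10.pow
  have hle : ∀ z, Nat.card {x : ι → F // Q x = c ∧ f x z = 0} ≤ Nat.card {x : ι → F // Q x = c} := by
    intro z
    apply Nat.card_le_card_of_injective (fun x => (⟨x.1, x.2.1⟩ : {x : ι → F // Q x = c}))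
    intro x y h
    have := congrArg Subtype.val h
    exact Subtype.ext this
  rw [sign_R hf hv hr, sign_R hf ha0 hs, ← pow_add]
  obtain ⟨n1, h1⟩ := hev1
  obtain ⟨n2, h2'⟩ := hev2
  obtain ⟨n3, h3⟩ := hev3
  have hl1 := hle v
  have hl2 := hle a
  rw [h1, h2'] at hsum
  rw [h1, h3] at hl1
  rw [h2', h3] at hl2
  rw [h1, h2', h3]
  have e1 : (n3 + n3 - (n1 + n1)) / 2 = n3 - n1 := by omega
  have e2 : (n3 + n3 - (n2 + n2)) / 2 = n3 - n2 := by omega
  rw [e1, e2]
  apply Odd.neg_one_pow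
  obtain ⟨k, hk⟩ := hodd
  refine ⟨n3 - k - 1, ?_⟩
  omega

end odd

end CfsgH9.Og
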