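import Mathlib
import Cfsg.Agent.H9.Og3

set_option autoImplicit false

/-! Orthogonal groups: the index of the commutator subgroup (continued). -/

namespace CfsgH9.Og

open Matrix Cfsg Cfsg.Geo CfsgH9.Tv CfsgH9.Witt
open CfsgH9.MaxSymp (inv_mulVec mulVec_inv)
open scoped commutatorElement

variable {ι : Type} [Fintype ι] [DecidableEq ι] {F : Type*} [Field F]
variable {Q : (ι → F) → F} {f : (ι → F) → (ι → F) → F}

lemma exists_nonsing_in (hf : Qf Q f) {W : Submodule F (ι → F)} (hW : ∃ x ∈ W, ∃ y ∈ W, f x y ≠ 0) : ∃ e ∈ W, Q e ≠ 0 := by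
  by_contra hcon
  push Not at hcon
  obtain ⟨x, hx, y, hy, hxy⟩ := hW
  exact hxy (ts_iso hf hcon hx hy)

lemma exists_nonsing (hf : Qf Q f) (hn : 1 ≤ Fintype.card ι) : ∃ e : ι → F, Q e ≠ 0 := by
  haveI : Nonempty ι := Fintype.card_pos_iff.1 hn
  obtain ⟨i⟩ := (inferInstance : Nonempty ι)
  have h1 : (Pi.single i 1 : ι → F) ≠ 0 := by
    intro h
    have := congrFun h i
    rw [Pi.single_eq_same, Pi.zero_apply] at this
    exact one_ne_zero this
  obtain ⟨y, hy⟩ := hf.nondeg _ h1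
  obtain ⟨e, -, he⟩ := exists_nonsing_in hf (W := ⊤) ⟨_, trivial, y, trivial, hy⟩
  exact ⟨e, he⟩

lemma exists_pair (hf : Qf Q f) (h2 : (2 : F) ≠ 0) (hn : 2 ≤ Fintype.card ι) :
    ∃ v v' : ι → F, Q v ≠ 0 ∧ Q v' ≠ 0 ∧ f v v' = 0 := by
  obtain ⟨v, hv⟩ := exists_nonsing hf (by omega)
  have hv0 : v ≠ 0 := by rintro rfl; exact hv hf.Q_zero
  obtain ⟨z, -, hz, hzn⟩ := exists_avoid hf ⊤ ⊥ ![v] (by
    rw [finrank_bot, finrank_top, Module.finrank_fintype_fun_eq_card]; omega)
  have hzv : f z v = 0 := hz 0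
  have hz0 : z ≠ 0 := by simpa using hzn
  obtain ⟨y, hy⟩ := hf.nondeg z hz0
  have hy' : f (y - (f y v / (2 * Q v)) • v) v = 0 := by
    rw [hf.sub_left, hf.smul_left, hf.self]; field_simp; ring
  obtain ⟨e, he, heQ⟩ := exists_nonsing_in hf (W := perp hf (Submodule.span F {v})) ⟨z, (mem_perp_one hf).2 hzv,
    y - (f y v / (2 * Q v)) • v, (mem_perp_one hf).2 hy', by
      rw [hf.sub_right, hf.smul_right, hzv, mul_zero, sub_zero]; exact hy⟩
  exact ⟨v, e, hv, heQ, hf.swap ((mem_perp_one hf).1 he)⟩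

/-- reflections in vectors of the same class are conjugate -/
lemma R_conj (hf : Qf Q f) {u v : ι → F} (hu : Q u ≠ 0) {t : F} (huv : Q u = t * t * Q v)
    {r s : isometryGroup F Q} (hr : IsR Q f (r : GL ι F) u) (hs : IsR Q f (s : GL ι F) v) :
    ∃ g : isometryGroup F Q, r = g * s * g⁻¹ := by
  have hu0 : u ≠ 0 := by rintro rfl; exact hu hf.Q_zero
  have ht : t ≠ 0 := by rintro rfl; apply hu; rw [huv]; ring
  have hv0 : v ≠ 0 := by rintro rfl; apply hu; rw [huv, hf.Q_zero, mul_zero]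
  obtain ⟨g, hg, hgx⟩ := exists_map hf (x := t • v) (y := u) (smul_ne_zero ht hv0) hu0 (by rw [hf.smul, huv])
  refine ⟨mkO hg, Subtype.ext ?_⟩
  have h1 := (hs.smul hf ht).conj hf hg
  rw [hgx] at h1
  exact hr.unique h1

lemma comm_le_ker {G A : Type*} [Group G] [CommGroup A] (φ : G →* A) : commutator G ≤ φ.ker :=
  Abelianization.commutator_subset_ker φ

lemma R_image (hf : Qf Q f) {A : Type*} [CommGroup A] (χ : isometryGroup F Q →* A) {u v : ι → F} (hu : Q u ≠ 0) {t : F}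
    (huv : Q u = t * t * Q v) {r s : isometryGroup F Q} (hr : IsR Q f (r : GL ι F) u) (hs : IsR Q f (s : GL ι F) v) :
    χ r = χ s := by
  obtain ⟨g, rfl⟩ := R_conj hf hu huv hr hs
  rw [map_mul, map_mul, map_inv]
  rw [mul_comm (χ g), mul_assoc, mul_inv_cancel, mul_one]

/-- even characteristic -/
theorem comm_even [Fintype F] (hf : Qf Q f) (h2 : (2 : F) = 0) (h4 : (∃ c : F, c ≠ 0 ∧ c ≠ 1) ∨ Fintype.card ι ≠ 4) :
    commutator (isometryGroup F Q) = (dHom hf h4).ker := by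
  apply le_antisymm (comm_le_ker _)
  intro g hg
  have hsq : ∀ a : F, ∃ t, a = t * t := by
    intro a
    haveI : CharP F 2 := CharTwo.of_one_ne_zero_of_two_eq_zero one_ne_zero h2
    obtain ⟨t, ht⟩ := FiniteField.isSquare_of_char_two (F := F) (by rwa [ringChar.eq_iff]) a
    exact ⟨t, ht⟩
  have key : ∀ g : isometryGroup F Q, (dHom hf h4 g = 1 → Abelianization.of g = 1) ∧
      (dHom hf h4 g = -1 → ∀ r ∈ Rs Q f, Abelianization.of g = Abelianization.of r) := by
    refine refl_induction hf h4 ?_ ?_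
    · refine ⟨fun _ => map_one _, fun h => ?_⟩
      rw [map_one] at h
      exact absurd h (by decide)
    · intro r hr g hg
      rw [map_mul, dHom_R hf h4 hr]
      obtain ⟨v, hv, hrv⟩ := id hr
      have hrr : Abelianization.of r * Abelianization.of r = 1 := by
        rw [← map_mul, (show r * r = 1 from Subtype.ext (hrv.sq hf hv)), map_one]
      constructor
      · intro h
        have h3 : dHom hf h4 g = -1 := by
          rw [neg_one_mul, neg_eq_iff_eq_neg] at h; exact h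
        rw [map_mul, hg.2 h3 r hr, hrr]
      · intro h s hs
        have h3 : dHom hf h4 g = 1 := by
          rw [neg_one_mul, neg_inj] at h; exact h
        rw [map_mul, hg.1 h3, mul_one]
        obtain ⟨w, hw, hsw⟩ := hs
        obtain ⟨t, ht⟩ := hsq (Q v / Q w)
        refine R_image hf Abelianization.of hv (t := t) ?_ hrv hsw
        rw [← ht]; field_simp
  have h1 := (key g).1 hg
  exact (QuotientGroup.eq_one_iff g).1 h1

lemma exists_R_mem (hf : Qf Q f) {v : ι → F} (hv : Q v ≠ 0) : ∃ r ∈ Rs Q f, IsR Q f (r : GL ι F) v := by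
  obtain ⟨r, hr⟩ := exists_R hf hv
  exact ⟨mkO (hr.iso hf hv), ⟨v, hv, hr⟩, hr⟩

theorem index_even [Fintype F] (hf : Qf Q f) (h2 : (2 : F) = 0) (h4 : (∃ c : F, c ≠ 0 ∧ c ≠ 1) ∨ Fintype.card ι ≠ 4)
    (hn : 1 ≤ Fintype.card ι) : (commutator (isometryGroup F Q)).index = 2 := by
  rw [comm_even hf h2 h4, Subgroup.index_ker]
  obtain ⟨v, hv⟩ := exists_nonsing hf hn
  obtain ⟨r, hr, -⟩ := exists_R_mem hf hv
  have h1 := dHom_R hf h4 hr
  have h3 : (dHom hf h4).range = ⊤ := by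
    rw [eq_top_iff]
    intro x _
    rcases Int.units_eq_one_or x with rfl | rfl
    · exact Subgroup.one_mem _
    · exact ⟨r, h1⟩
  rw [h3, Subgroup.card_top, Nat.card_eq_fintype_card]
  rfl

section odd

variable [Fintype F]

/-- the second invariant -/
noncomputable def sHom (Q : (ι → F) → F) (c : F) : isometryGroup F Q →* ℤˣ :=
  letI := Classical.decEq F
  (Equiv.Perm.sign).comp (permC Q c)

/-- the pair of invariants -/
noncomputable def pHom (hf : Qf Q f) (h4 : (∃ c : F, c ≠ 0 ∧ c ≠ 1) ∨ Fintype.card ι ≠ 4) :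
    isometryGroup F Q →* ℤˣ × ℤˣ := (dHom hf h4).prod (sHom Q 1)

/-- base data in odd characteristic -/
structure Base (Q : (ι → F) → F) (f : (ι → F) → (ι → F) → F) (v a : ι → F) (r s : isometryGroup F Q) : Prop where
  hv : Q v ≠ 0
  ha : Q a ≠ 0
  nsq : ¬ IsSquare (Q v * Q a)
  hr : IsR Q f (r : GL ι F) v
  hs : IsR Q f (s : GL ι F) a
  sgn : sHom Q 1 r * sHom Q 1 s = -1

lemma exists_nonsq (h2 : (2 : F) ≠ 0) : ∃ d : F, ¬ IsSquare d := by
  have hF : ringChar F ≠ 2 := by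
    intro h
    apply h2
    have h1 : ((2 : ℕ) : F) = 0 := by rw [← h]; exact ringChar.Nat.cast_ringChar
    exact_mod_cast h1
  exact FiniteField.exists_nonsquare hF

lemma exists_base (hf : Qf Q f) (h2 : (2 : F) ≠ 0) (hn : 2 ≤ Fintype.card ι) :
    ∃ v a r s, Base Q f v a r s := by
  letI := Classical.decEq F
  obtain ⟨v, v', hv, hv', hvv'⟩ := exists_pair hf h2 hn
  obtain ⟨d, hd⟩ := exists_nonsq (F := F) h2
  obtain ⟨α, β, hαβ⟩ := CfsgH9.Ort.binary_repr h2 hv hv' (d * Q v)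
  have hQ : Q (α • v + β • v') = d * Q v := by
    rw [hf.add, hf.smul, hf.smul, hf.smul_left, hf.smul_right, hvv', ← hαβ]; ring
  have hnsq : ¬ IsSquare (Q v * Q (α • v + β • v')) := by
    rw [hQ]
    rintro ⟨t, ht⟩
    apply hd
    refine ⟨t / Q v, ?_⟩
    field_simp
    linear_combination ht
  have hd0 : d ≠ 0 := by rintro rfl; exact hd ⟨0, by ring⟩
  have ha : Q (α • v + β • v') ≠ 0 := by rw [hQ]; exact mul_ne_zero hd0 hv
  obtain ⟨r, -, hr⟩ := exists_R_mem hf hv
  obtain ⟨s, -, hs⟩ := exists_R_mem hf ha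
  refine ⟨v, _, r, s, hv, ha, hnsq, hr, hs, ?_⟩
  exact sign_ne hf h2 hv hv' hvv' (c := 1) one_ne_zero hnsq hr hs

/-- every reflection behaves as one of the two base ones -/
lemma Base.cases (hf : Qf Q f) (h2 : (2 : F) ≠ 0) {v a : ι → F} {r s : isometryGroup F Q} (hB : Base Q f v a r s)
    {t : isometryGroup F Q} (ht : t ∈ Rs Q f) {A : Type*} [CommGroup A] (χ : isometryGroup F Q →* A) :
    (χ t = χ r ∧ sHom Q 1 t = sHom Q 1 r) ∨ (χ t = χ s ∧ sHom Q 1 t = sHom Q 1 s) := by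
  obtain ⟨u, hu, ht⟩ := ht
  by_cases h : IsSquare (Q u * Q v)
  · left
    obtain ⟨c, hc⟩ := h
    have h1 : Q u = (c / Q v) * (c / Q v) * Q v := by
      have := hB.hv
      field_simp
      linear_combination hc
    exact ⟨R_image hf χ hu h1 ht hB.hr, R_image hf _ hu h1 ht hB.hr⟩
  · right
    obtain ⟨c, hc0, hc⟩ := CfsgH9.Ort.nonsq_mul h2 hB.nsq h
    have h1 : Q u = c * c * Q a := by
      apply mul_right_cancel₀ hB.hv
      linear_combination hc
    exact ⟨R_image hf χ hu h1 ht hB.hs, R_image hf _ hu h1 ht hB.hs⟩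

theorem comm_odd (hf : Qf Q f) (h2 : (2 : F) ≠ 0) (h4 : (∃ c : F, c ≠ 0 ∧ c ≠ 1) ∨ Fintype.card ι ≠ 4)
    (hn : 2 ≤ Fintype.card ι) : commutator (isometryGroup F Q) = (pHom hf h4).ker := by
  apply le_antisymm (comm_le_ker _)
  intro g hg
  obtain ⟨v, a, r, s, hB⟩ := exists_base hf h2 hn
  have hrr : Abelianization.of r * Abelianization.of r = 1 := by
    rw [← map_mul, (show r * r = 1 from Subtype.ext (hB.hr.sq hf hB.hv)), map_one]
  have hss : Abelianization.of s * Abelianization.of s = 1 := by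
    rw [← map_mul, (show s * s = 1 from Subtype.ext (hB.hs.sq hf hB.ha)), map_one]
  have key : ∀ g : isometryGroup F Q, ∃ i j : ℕ, Abelianization.of g = Abelianization.of r ^ i * Abelianization.of s ^ j ∧
      dHom hf h4 g = (-1) ^ (i + j) ∧ sHom Q 1 g = sHom Q 1 r ^ i * sHom Q 1 s ^ j := by
    refine refl_induction hf h4 ?_ ?_
    · exact ⟨0, 0, by simp, by simp, by simp⟩
    · rintro t ht g ⟨i, j, h1, h3, h5⟩
      rcases hB.cases hf h2 ht (Abelianization.of (G := isometryGroup F Q)) with ⟨h6, h7⟩ | ⟨h6, h7⟩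
      · refine ⟨i + 1, j, ?_, ?_, ?_⟩
        · rw [map_mul, h1, h6, pow_succ]
          rw [mul_comm (Abelianization.of r ^ i) (Abelianization.of r), mul_assoc]
        · rw [map_mul, h3, dHom_R hf h4 ht, show i + 1 + j = (i + j) + 1 by omega, pow_succ, mul_comm]
        · rw [map_mul, h5, h7, pow_succ]
          rw [mul_comm (sHom Q 1 r ^ i) (sHom Q 1 r), mul_assoc]
      · refine ⟨i, j + 1, ?_, ?_, ?_⟩
        · rw [map_mul, h1, h6, pow_succ]
          rw [mul_comm (Abelianization.of s) _, mul_assoc]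
        · rw [map_mul, h3, dHom_R hf h4 ht, show i + (j + 1) = (i + j) + 1 by omega, pow_succ, mul_comm]
        · rw [map_mul, h5, h7, pow_succ]
          rw [mul_comm (sHom Q 1 s) _, mul_assoc]
  obtain ⟨i, j, h1, h3, h5⟩ := key g
  have hg' : pHom hf h4 g = 1 := hg
  have hg1 : dHom hf h4 g = 1 := congrArg Prod.fst hg'
  have hg2 : sHom Q 1 g = 1 := congrArg Prod.snd hg'
  rw [hg1] at h3
  rw [hg2] at h5
  have hij : Even (i + j) := by
    by_contra hodd
    rw [Nat.not_even_iff_odd] at hodd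
    rw [hodd.neg_one_pow] at h3
    exact absurd h3 (by decide)
  have hboth : Even i ∧ Even j := by
    have hs : sHom Q 1 s = - sHom Q 1 r := by
      have := hB.sgn
      rcases Int.units_eq_one_or (sHom Q 1 r) with h | h <;> rw [h] at this ⊢
      · rw [one_mul] at this; exact this
      · rw [neg_one_mul] at this; rw [neg_neg]; exact neg_injective this
    have h8 : sHom Q 1 r ^ (i + j) = 1 := by
      obtain ⟨k, hk⟩ := hij
      rw [hk, ← two_mul, pow_mul, pow_two, Int.units_mul_self, one_pow]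
    rw [hs, neg_pow, ← mul_assoc, mul_comm _ ((-1) ^ j), mul_assoc, ← pow_add, h8, mul_one] at h5
    have hj : Even j := by
      by_contra hodd
      rw [Nat.not_even_iff_odd] at hodd
      rw [hodd.neg_one_pow] at h5
      exact absurd h5 (by decide)
    exact ⟨(Nat.even_add.1 hij).2 hj, hj⟩
  obtain ⟨⟨i', hi⟩, ⟨j', hj⟩⟩ := hboth
  have h9 : Abelianization.of g = 1 := by
    rw [h1, hi, hj, ← two_mul, ← two_mul, pow_mul, pow_mul, pow_two, pow_two, hrr, hss, one_pow, one_pow, one_mul]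
  exact (QuotientGroup.eq_one_iff g).1 h9

lemma pHom_range (hf : Qf Q f) (h2 : (2 : F) ≠ 0) (h4 : (∃ c : F, c ≠ 0 ∧ c ≠ 1) ∨ Fintype.card ι ≠ 4)
    (hn : 2 ≤ Fintype.card ι) : (pHom hf h4).range = ⊤ := by
  obtain ⟨v, a, r, s, hB⟩ := exists_base hf h2 hn
  have hr : pHom hf h4 r = (-1, sHom Q 1 r) := Prod.ext (dHom_R hf h4 ⟨v, hB.hv, hB.hr⟩) rfl
  have hs : pHom hf h4 s = (-1, sHom Q 1 s) := Prod.ext (dHom_R hf h4 ⟨a, hB.ha, hB.hs⟩) rfl
  have h3 : sHom Q 1 s = - sHom Q 1 r := by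
    have := hB.sgn
    rcases Int.units_eq_one_or (sHom Q 1 r) with h | h <;> rw [h] at this ⊢
    · rw [one_mul] at this; exact this
    · rw [neg_one_mul] at this; rw [neg_neg]; exact neg_injective this
  rw [eq_top_iff]
  rintro ⟨x, y⟩ -
  rcases Int.units_eq_one_or x with rfl | rfl
  · rcases Int.units_eq_one_or y with rfl | rfl
    · exact Subgroup.one_mem _
    · exact ⟨r * s, by rw [map_mul, hr, hs]; exact Prod.ext (show (-1 : ℤˣ) * (-1) = 1 by decide) hB.sgn⟩
  · by_cases hy : sHom Q 1 r = y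
    · exact ⟨r, by rw [hr, hy]⟩
    · refine ⟨s, ?_⟩
      rw [hs, h3]
      refine Prod.ext rfl ?_
      show - sHom Q 1 r = y
      rcases Int.units_eq_one_or (sHom Q 1 r) with h | h <;> rcases Int.units_eq_one_or y with h' | h'
      · exact absurd (h.trans h'.symm) hy
      · rw [h, h']
      · rw [h, h', neg_neg]
      · exact absurd (h.trans h'.symm) hy

theorem index_odd (hf : Qf Q f) (h2 : (2 : F) ≠ 0) (h4 : (∃ c : F, c ≠ 0 ∧ c ≠ 1) ∨ Fintype.card ι ≠ 4)
    (hn : 2 ≤ Fintype.card ι) : (commutator (isometryGroup F Q)).index = 4 := by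
  rw [comm_odd hf h2 h4 hn, Subgroup.index_ker, pHom_range hf h2 h4 hn, Subgroup.card_top, Nat.card_prod,
    Nat.card_eq_fintype_card]
  rfl

end odd

end CfsgH9.Og
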