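import Mathlib
import Cfsg.Agent.H9.Og4

set_option autoImplicit false

/-! Orthogonal groups: special orthogonal group, subgroups of index two. -/

namespace CfsgH9.Og

open Matrix Cfsg Cfsg.Geo CfsgH9.Tv CfsgH9.Witt
open CfsgH9.MaxSymp (inv_mulVec mulVec_inv)
open scoped commutatorElement

variable {ι : Type} [Fintype ι] [DecidableEq ι] {F : Type*} [Field F]
variable {Q : (ι → F) → F} {f : (ι → F) → (ι → F) → F}

lemma exists_c [Fintype F] (h : Fintype.card F ≠ 2) : ∃ c : F, c ≠ 0 ∧ c ≠ 1 := by
  classical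
  by_contra hcon
  push Not at hcon
  apply h
  have h1 : (Finset.univ : Finset F) = {0, 1} := by
    ext x
    simp only [Finset.mem_univ, Finset.mem_insert, Finset.mem_singleton, true_iff]
    by_cases hx : x = 0
    · exact Or.inl hx
    · exact Or.inr (hcon x hx)
  rw [← Finset.card_univ, h1, Finset.card_pair zero_ne_one]

omit [Field F] in
lemma exists_c_of_two [Field F] (h2 : (2 : F) ≠ 0) : ∃ c : F, c ≠ 0 ∧ c ≠ 1 := by
  refine ⟨-1, neg_ne_zero.2 one_ne_zero, fun h => h2 ?_⟩
  have : (2 : F) = 1 - (-1) := by norm_num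
  rw [this, h, sub_self]

lemma det_eq (hf : Qf Q f) (h4 : (∃ c : F, c ≠ 0 ∧ c ≠ 1) ∨ Fintype.card ι ≠ 4) (g : isometryGroup F Q) :
    ((g : GL ι F) : Matrix ι ι F).det = (((dHom hf h4 g : ℤˣ) : ℤ) : F) := by
  refine refl_induction hf h4 (P := fun g => ((g : GL ι F) : Matrix ι ι F).det = (((dHom hf h4 g : ℤˣ) : ℤ) : F)) ?_ ?_ g
  · rw [map_one, Subgroup.coe_one, Units.val_one, Matrix.det_one, Units.val_one, Int.cast_one]
  · intro r hr g hg
    rw [map_mul, dHom_R hf h4 hr, Subgroup.coe_mul, Units.val_mul, Matrix.det_mul, hg]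
    obtain ⟨v, hv, hrv⟩ := hr
    rw [hrv.det hf hv]
    push_cast
    ring

lemma mem_SO {g : isometryGroup F Q} : g ∈ specialIsometryGroup F Q ↔ ((g : GL ι F) : Matrix ι ι F).det = 1 := by
  rw [specialIsometryGroup, MonoidHom.mem_ker]
  show Matrix.GeneralLinearGroup.det (g : GL ι F) = 1 ↔ _
  rw [Units.ext_iff]
  rfl

lemma so_odd (hf : Qf Q f) (h2 : (2 : F) ≠ 0) (h4 : (∃ c : F, c ≠ 0 ∧ c ≠ 1) ∨ Fintype.card ι ≠ 4) :
    specialIsometryGroup F Q = (dHom hf h4).ker := by
  ext g
  rw [mem_SO, det_eq hf h4, MonoidHom.mem_ker]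
  rcases Int.units_eq_one_or (dHom hf h4 g) with h | h
  · rw [h]; simp
  · rw [h]
    constructor
    · intro h1
      exfalso
      apply h2
      push_cast at h1
      have : (2 : F) = 1 - (-1) := by norm_num
      rw [this, h1, sub_self]
    · intro h1
      exact absurd h1 (by decide)

lemma so_even (hf : Qf Q f) (h2 : (2 : F) = 0) : specialIsometryGroup F Q = ⊤ := by
  rw [eq_top_iff]
  intro g _
  rw [mem_SO]
  rcases (iso_of g).det hf with h | h
  · exact h
  · rw [h]
    have h3 : (1 : F) + 1 = 0 := by rw [← h2]; norm_num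
    exact (eq_neg_of_add_eq_zero_left h3).symm

/-- the commutator subgroup is generated by the commutators of reflections -/
lemma comm_closure (hf : Qf Q f) (h4 : (∃ c : F, c ≠ 0 ∧ c ≠ 1) ∨ Fintype.card ι ≠ 4) :
    commutator (isometryGroup F Q) ≤ Subgroup.closure {g | ∃ r ∈ Rs Q f, ∃ s ∈ Rs Q f, g = r * s * r⁻¹ * s⁻¹} := by
  set N := Subgroup.closure {g : isometryGroup F Q | ∃ r ∈ Rs Q f, ∃ s ∈ Rs Q f, g = r * s * r⁻¹ * s⁻¹} with hN
  have hconj : ∀ r ∈ Rs Q f, ∀ g : isometryGroup F Q, g * r * g⁻¹ ∈ Rs Q f := by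
    rintro r ⟨v, hv, hr⟩ g
    exact ⟨((g : GL ι F) : Matrix ι ι F) *ᵥ v, by rw [iso_of g]; exact hv, hr.conj hf (iso_of g)⟩
  haveI hnorm : N.Normal := by
    constructor
    intro n hn g
    induction hn using Subgroup.closure_induction with
    | mem n hn =>
      obtain ⟨r, hr, s, hs, rfl⟩ := hn
      refine Subgroup.subset_closure ⟨_, hconj r hr g, _, hconj s hs g, ?_⟩
      group
    | one => rw [mul_one, mul_inv_cancel]; exact N.one_mem
    | mul a b _ _ h1 h2 =>
      have : g * (a * b) * g⁻¹ = (g * a * g⁻¹) * (g * b * g⁻¹) := by group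
      rw [this]; exact N.mul_mem h1 h2
    | inv a _ h =>
      have : g * a⁻¹ * g⁻¹ = (g * a * g⁻¹)⁻¹ := by group
      rw [this]; exact N.inv_mem h
  -- the quotient is commutative
  have hR : ∀ r ∈ Rs Q f, ∀ s ∈ Rs Q f, Commute (r : isometryGroup F Q ⧸ N) (s : isometryGroup F Q ⧸ N) := by
    intro r hr s hs
    have h1 : ((r * s * r⁻¹ * s⁻¹ : isometryGroup F Q) : isometryGroup F Q ⧸ N) = 1 :=
      (QuotientGroup.eq_one_iff _).2 (Subgroup.subset_closure ⟨r, hr, s, hs, rfl⟩)
    rw [QuotientGroup.mk_mul, QuotientGroup.mk_mul, QuotientGroup.mk_mul, QuotientGroup.mk_inv, QuotientGroup.mk_inv] at h1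
    rw [mul_inv_eq_one, mul_inv_eq_iff_eq_mul] at h1
    exact h1
  have hR2 : ∀ r ∈ Rs Q f, ∀ g : isometryGroup F Q, Commute (r : isometryGroup F Q ⧸ N) (g : isometryGroup F Q ⧸ N) := by
    intro r hr g
    refine refl_induction hf h4 (P := fun g => Commute (r : isometryGroup F Q ⧸ N) (g : isometryGroup F Q ⧸ N)) ?_ ?_ g
    · rw [QuotientGroup.mk_one]; exact Commute.one_right _
    · intro s hs g hg
      rw [QuotientGroup.mk_mul]
      exact (hR r hr s hs).mul_right hg
  have hcomm : ∀ g h : isometryGroup F Q, Commute (g : isometryGroup F Q ⧸ N) (h : isometryGroup F Q ⧸ N) := by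
    intro g h
    refine refl_induction hf h4 (P := fun g => Commute (g : isometryGroup F Q ⧸ N) (h : isometryGroup F Q ⧸ N)) ?_ ?_ g
    · rw [QuotientGroup.mk_one]; exact Commute.one_left _
    · intro s hs g hg
      rw [QuotientGroup.mk_mul]
      exact (hR2 s hs h).mul_left hg
  rw [commutator_def, Subgroup.commutator_le]
  intro g _ h _
  rw [← QuotientGroup.eq_one_iff, commutatorElement_def, QuotientGroup.mk_mul, QuotientGroup.mk_mul, QuotientGroup.mk_mul,
    QuotientGroup.mk_inv, QuotientGroup.mk_inv, (hcomm g h).eq, mul_assoc _ (_ : isometryGroup F Q ⧸ N)⁻¹]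
  group

/-- products of two reflections -/
def Rs2 (Q : (ι → F) → F) (f : (ι → F) → (ι → F) → F) : Set (isometryGroup F Q) :=
  {g | ∃ r ∈ Rs Q f, ∃ s ∈ Rs Q f, g = r * s}

/-- the kernel of the Dickson invariant is generated by products of two reflections -/
lemma ker_d (hf : Qf Q f) (h4 : (∃ c : F, c ≠ 0 ∧ c ≠ 1) ∨ Fintype.card ι ≠ 4) :
    (dHom hf h4).ker = Subgroup.closure (Rs2 Q f) := by
  apply le_antisymm
  · intro g hg
    have key : ∀ g : isometryGroup F Q, (dHom hf h4 g = 1 → g ∈ Subgroup.closure (Rs2 Q f)) ∧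
        (dHom hf h4 g = -1 → ∀ r ∈ Rs Q f, r * g ∈ Subgroup.closure (Rs2 Q f)) := by
      refine refl_induction hf h4 ?_ ?_
      · refine ⟨fun _ => Subgroup.one_mem _, fun h => ?_⟩
        rw [map_one] at h
        exact absurd h (by decide)
      · intro r hr g hg
        rw [map_mul, dHom_R hf h4 hr]
        constructor
        · intro h
          have h3 : dHom hf h4 g = -1 := by
            rw [neg_one_mul, neg_eq_iff_eq_neg] at h; exact h
          exact hg.2 h3 r hr
        · intro h s hs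
          have h3 : dHom hf h4 g = 1 := by
            rw [neg_one_mul, neg_inj] at h; exact h
          rw [← mul_assoc]
          exact Subgroup.mul_mem _ (Subgroup.subset_closure ⟨s, hs, r, hr, rfl⟩) (hg.1 h3)
    exact (key g).1 hg
  · rw [Subgroup.closure_le]
    rintro _ ⟨r, hr, s, hs, rfl⟩
    show dHom hf h4 (r * s) = 1
    rw [map_mul, dHom_R hf h4 hr, dHom_R hf h4 hs]
    decide

section odd

variable [Fintype F]

lemma Base.conj (hf : Qf Q f) (h2 : (2 : F) ≠ 0) {v a : ι → F} {r s : isometryGroup F Q} (hB : Base Q f v a r s)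
    {t : isometryGroup F Q} (ht : t ∈ Rs Q f) : (∃ g, t = g * r * g⁻¹) ∨ (∃ g, t = g * s * g⁻¹) := by
  obtain ⟨u, hu, ht⟩ := ht
  by_cases h : IsSquare (Q u * Q v)
  · left
    obtain ⟨c, hc⟩ := h
    have h1 : Q u = (c / Q v) * (c / Q v) * Q v := by
      have := hB.hv
      field_simp
      linear_combination hc
    exact R_conj hf hu h1 ht hB.hr
  · right
    obtain ⟨c, hc0, hc⟩ := CfsgH9.Ort.nonsq_mul h2 hB.nsq h
    have h1 : Q u = c * c * Q a := by
      apply mul_right_cancel₀ hB.hv
      linear_combination hc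
    exact R_conj hf hu h1 ht hB.hs

/-- recognising subgroups of index two -/
lemma Base.eq_ker (hf : Qf Q f) (h2 : (2 : F) ≠ 0) {v a : ι → F} {r s : isometryGroup F Q} (hB : Base Q f v a r s)
    {H : Subgroup (isometryGroup F Q)} (hH : H.index = 2) (χ : isometryGroup F Q →* ℤˣ)
    (hr : χ r = 1 ↔ r ∈ H) (hs : χ s = 1 ↔ s ∈ H) : H = χ.ker := by
  haveI := Subgroup.normal_of_index_eq_two hH
  have key : ∀ g : isometryGroup F Q, (g ∈ H ↔ χ g = 1) := by
    refine refl_induction hf (Or.inl (exists_c_of_two h2)) ?_ ?_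
    · simp [H.one_mem]
    · intro t ht g hg
      have h3 : t ∈ H ↔ χ t = 1 := by
        rcases hB.conj hf h2 ht with ⟨x, rfl⟩ | ⟨x, rfl⟩
        · have e1 : χ (x * r * x⁻¹) = χ r := by
            rw [map_mul, map_mul, map_inv, mul_comm (χ x), mul_assoc, mul_inv_cancel, mul_one]
          rw [e1, hr]
          exact ⟨fun h => by
            have := this.conj_mem _ h x⁻¹
            rwa [inv_inv, ← mul_assoc, ← mul_assoc, inv_mul_cancel, one_mul, inv_mul_cancel_right] at this,
            fun h => this.conj_mem _ h x⟩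
        · have e1 : χ (x * s * x⁻¹) = χ s := by
            rw [map_mul, map_mul, map_inv, mul_comm (χ x), mul_assoc, mul_inv_cancel, mul_one]
          rw [e1, hs]
          exact ⟨fun h => by
            have := this.conj_mem _ h x⁻¹
            rwa [inv_inv, ← mul_assoc, ← mul_assoc, inv_mul_cancel, one_mul, inv_mul_cancel_right] at this,
            fun h => this.conj_mem _ h x⟩
      rw [Subgroup.mul_mem_iff_of_index_two hH, h3, hg, map_mul]
      rcases Int.units_eq_one_or (χ t) with h5 | h5 <;> rcases Int.units_eq_one_or (χ g) with h6 | h6 <;> rw [h5, h6] <;>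
        decide
  ext g
  exact key g

lemma Base.dist {v a : ι → F} {r s : isometryGroup F Q} (hB : Base Q f v a r s) : sHom Q 1 s = - sHom Q 1 r := by
  have := hB.sgn
  rcases Int.units_eq_one_or (sHom Q 1 r) with h | h <;> rw [h] at this ⊢
  · rw [one_mul] at this; exact this
  · rw [neg_one_mul] at this; rw [neg_neg]; exact neg_injective this

theorem three_subgroups (hf : Qf Q f) (h2 : (2 : F) ≠ 0) (hn : 2 ≤ Fintype.card ι) :
    Nat.card {H : Subgroup (isometryGroup F Q) // H.index = 2} = 3 := by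
  have h4 : (∃ c : F, c ≠ 0 ∧ c ≠ 1) ∨ Fintype.card ι ≠ 4 := Or.inl (exists_c_of_two h2)
  obtain ⟨v, a, r, s, hB⟩ := exists_base hf h2 hn
  set d := dHom hf h4 with hd
  set e := sHom Q 1 with he
  have hdr : d r = -1 := dHom_R hf h4 ⟨v, hB.hv, hB.hr⟩
  have hds : d s = -1 := dHom_R hf h4 ⟨a, hB.ha, hB.hs⟩
  have hes : e s = - e r := hB.dist
  have hker : ∀ χ : isometryGroup F Q →* ℤˣ, (∃ x, χ x = -1) → χ.ker.index = 2 := by
    rintro χ ⟨x, hx⟩
    rw [Subgroup.index_ker]
    have h3 : χ.range = ⊤ := by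
      rw [eq_top_iff]
      intro y _
      rcases Int.units_eq_one_or y with rfl | rfl
      · exact Subgroup.one_mem _
      · exact ⟨x, hx⟩
    rw [h3, Subgroup.card_top, Nat.card_eq_fintype_card]
    rfl
  have hset : {H : Subgroup (isometryGroup F Q) | H.index = 2} = {d.ker, e.ker, (d * e).ker} := by
    ext H
    simp only [Set.mem_setOf_eq, Set.mem_insert_iff, Set.mem_singleton_iff]
    constructor
    · intro hH
      have hne : ¬ (r ∈ H ∧ s ∈ H) := by
        rintro ⟨h5, h6⟩
        have h7 := hB.eq_ker hf h2 hH (1 : isometryGroup F Q →* ℤˣ) (by simp [h5]) (by simp [h6])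
        have h8 : (1 : isometryGroup F Q →* ℤˣ).ker = ⊤ := by
          rw [eq_top_iff]; intro x _; rfl
        rw [h8] at h7
        rw [h7, Subgroup.index_top] at hH
        omega
      by_cases hr : r ∈ H
      · have hs : s ∉ H := fun h => hne ⟨hr, h⟩
        rcases Int.units_eq_one_or (e r) with h | h
        · right; left
          refine hB.eq_ker hf h2 hH e ?_ ?_
          · simp [h, hr]
          · rw [hes, h]; simp [hs]
        · right; right
          refine hB.eq_ker hf h2 hH (d * e) ?_ ?_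
          · rw [MonoidHom.mul_apply, hdr, h]; simp [hr]
          · rw [MonoidHom.mul_apply, hds, hes, h]; simp [hs]
      · by_cases hs : s ∈ H
        · rcases Int.units_eq_one_or (e r) with h | h
          · right; right
            refine hB.eq_ker hf h2 hH (d * e) ?_ ?_
            · rw [MonoidHom.mul_apply, hdr, h]; simp [hr]
            · rw [MonoidHom.mul_apply, hds, hes, h]; simp [hs]
          · right; left
            refine hB.eq_ker hf h2 hH e ?_ ?_
            · simp [h, hr]
            · rw [hes, h]; simp [hs]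
        · left
          refine hB.eq_ker hf h2 hH d ?_ ?_
          · rw [hdr]; simp [hr]
          · rw [hds]; simp [hs]
    · rintro (rfl | rfl | rfl)
      · exact hker d ⟨r, hdr⟩
      · rcases Int.units_eq_one_or (e r) with h | h
        · exact hker e ⟨s, by rw [hes, h]⟩
        · exact hker e ⟨r, h⟩
      · rcases Int.units_eq_one_or (e r) with h | h
        · exact hker (d * e) ⟨r, by rw [MonoidHom.mul_apply, hdr, h]; rfl⟩
        · exact hker (d * e) ⟨s, by rw [MonoidHom.mul_apply, hds, hes, h]; rfl⟩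
  have hrs1 : d (r * s) = 1 := by rw [map_mul, hdr, hds]; rfl
  have hrs2 : e (r * s) = -1 := by rw [map_mul]; exact hB.sgn
  have hne1 : (-1 : ℤˣ) ≠ 1 := by decide
  have n12 : d.ker ≠ e.ker := by
    intro h
    have h5 : r * s ∈ e.ker := by rw [← h]; exact hrs1
    exact hne1 (hrs2.symm.trans h5)
  have n13 : d.ker ≠ (d * e).ker := by
    intro h
    have h5 : r * s ∈ (d * e).ker := by rw [← h]; exact hrs1
    have h6 : (d * e) (r * s) = 1 := h5
    rw [MonoidHom.mul_apply, hrs1, hrs2] at h6
    exact hne1 h6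
  have n23 : e.ker ≠ (d * e).ker := by
    intro h
    rcases Int.units_eq_one_or (e r) with h5 | h5
    · have h6 : r ∈ (d * e).ker := by rw [← h]; exact h5
      have h7 : (d * e) r = 1 := h6
      rw [MonoidHom.mul_apply, hdr, h5] at h7
      exact hne1 h7
    · have h6 : r ∈ e.ker := by
        rw [h]
        show (d * e) r = 1
        rw [MonoidHom.mul_apply, hdr, h5]; rfl
      have h7 : e r = 1 := h6
      rw [h5] at h7
      exact hne1 h7
  have h9 : Set.ncard {H : Subgroup (isometryGroup F Q) | H.index = 2} = 3 := by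
    rw [hset]
    rw [Set.ncard_eq_three]
    exact ⟨_, _, _, n12, n13, n23, rfl⟩
  exact h9

end odd

end CfsgH9.Og
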