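import Mathlib
import Cfsg.Agent.H9.Og5

set_option autoImplicit false

/-! Orthogonal groups: Siegel transformations generate Omega. -/

namespace CfsgH9.Og

open Matrix Cfsg Cfsg.Geo CfsgH9.Tv CfsgH9.Witt
open CfsgH9.MaxSymp (inv_mulVec mulVec_inv)
open scoped commutatorElement

variable {ι : Type} [Fintype ι] [DecidableEq ι] {F : Type*} [Field F]
variable {Q : (ι → F) → F} {f : (ι → F) → (ι → F) → F}

omit [DecidableEq ι] in
lemma finrank_span_pair (x y : ι → F) : Module.finrank F (Submodule.span F {x, y}) ≤ 2 := by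
  classical
  have h := finrank_span_finset_le_card (R := F) ({x, y} : Finset (ι → F))
  have h2 : ((({x, y} : Finset (ι → F)) : Set (ι → F))) = {x, y} := by simp
  rw [h2] at h
  exact h.trans Finset.card_le_two

omit [DecidableEq ι] in
lemma finrank_span_triple (x y z : ι → F) : Module.finrank F (Submodule.span F {x, y, z}) ≤ 3 := by
  classical
  have h := finrank_span_finset_le_card (R := F) ({x, y, z} : Finset (ι → F))
  have h2 : ((({x, y, z} : Finset (ι → F)) : Set (ι → F))) = {x, y, z} := by simp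
  rw [h2] at h
  exact h.trans Finset.card_le_three

omit [DecidableEq ι] in
/-- totally singular subspaces have dimension at most half -/
lemma ts_dim (hf : Qf Q f) {W : Submodule F (ι → F)} (hW : ∀ x ∈ W, ∀ y ∈ W, f x y = 0) :
    2 * Module.finrank F W ≤ Fintype.card ι := by
  have h1 := Submodule.finrank_mono (show W ≤ perp hf W from fun x hx y hy => hW x hx y hy)
  have h2 := finrank_perp hf W
  omega

omit [DecidableEq ι] in
/-- singular vectors in spaces of dimension at least three -/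
lemma exists_sing [Finite F] (hf : Qf Q f) {E : Submodule F (ι → F)} (hE : 3 ≤ Module.finrank F E) :
    ∃ u ∈ E, u ≠ 0 ∧ Q u = 0 := by
  by_contra hcon
  push Not at hcon
  obtain ⟨e1, he1, -, h1⟩ := exists_avoid hf E ⊥ (k := 0) Fin.elim0 (by rw [finrank_bot]; omega)
  have h10 : e1 ≠ 0 := by simpa using h1
  obtain ⟨e2, he2, h21, h2⟩ := exists_avoid hf E (Submodule.span F {e1}) ![e1] (by rw [finrank_span_singleton h10]; omega)
  have h21 : f e2 e1 = 0 := h21 0
  have h20 : e2 ≠ 0 := by rintro rfl; exact h2 (Submodule.zero_mem _)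
  have hQ1 := hcon e1 he1 h10
  have hQ2 := hcon e2 he2 h20
  by_cases hc : (2 : F) = 0
  · haveI := Fintype.ofFinite F
    haveI : CharP F 2 := CharTwo.of_one_ne_zero_of_two_eq_zero one_ne_zero hc
    obtain ⟨t, ht⟩ := FiniteField.isSquare_of_char_two (F := F) (by rwa [ringChar.eq_iff]) (-(Q e1 / Q e2))
    apply hcon (e1 + t • e2) (E.add_mem he1 (E.smul_mem _ he2))
    · intro h0
      by_cases ht0 : t = 0
      · rw [ht0, zero_smul, add_zero] at h0; exact h10 h0
      · apply h2
        rw [← Submodule.smul_mem_iff _ ht0]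
        have : t • e2 = (-1 : F) • e1 := by
          rw [neg_one_smul]; exact (neg_eq_of_add_eq_zero_right h0).symm
        rw [this]
        exact Submodule.smul_mem _ _ (Submodule.mem_span_singleton_self _)
    · rw [hf.add, hf.smul, hf.smul_right, hf.swap h21, ← ht]
      field_simp; ring
  · obtain ⟨e3, he3, h3, h3n⟩ := exists_avoid hf E ⊥ ![e1, e2] (by rw [finrank_bot]; omega)
    have h31 : f e3 e1 = 0 := h3 0
    have h32 : f e3 e2 = 0 := h3 1
    have h30 : e3 ≠ 0 := by simpa using h3n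
    have hQ3 := hcon e3 he3 h30
    obtain ⟨x, y, hxy⟩ := CfsgH9.Ort.binary_repr hc hQ1 hQ2 (-Q e3)
    apply hcon (e3 + (x • e1 + y • e2)) (E.add_mem he3 (E.add_mem (E.smul_mem _ he1) (E.smul_mem _ he2)))
    · intro h0
      have h5 : f e3 (e3 + (x • e1 + y • e2)) = 0 := by rw [h0, hf.zero_right]
      rw [hf.add_right, hf.add_right, hf.smul_right, hf.smul_right, h31, h32, hf.self] at h5
      simp only [mul_zero, add_zero] at h5
      exact (mul_ne_zero hc hQ3) h5
    · rw [hf.add, hf.add, hf.smul, hf.smul, hf.add_right, hf.smul_right, hf.smul_right, hf.smul_left, hf.smul_right, h31, h32,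
        hf.swap h21]
      linear_combination hxy

omit [DecidableEq ι] in
/-- the singular vectors span -/
lemma sing_span (hf : Qf Q f) {E P : Submodule F (ι → F)} {a b : ι → F} (ha : a ∈ E) (haQ : Q a = 0) (hb : b ∈ E)
    (hab : f a b ≠ 0) (h : ∀ x ∈ E, Q x = 0 → x ∈ P) : E ≤ P := by
  have h1 : ∀ x ∈ E, f a x ≠ 0 → x ∈ P := by
    intro x hx hax
    have h2 : x + (-(Q x / f a x)) • a ∈ P := by
      apply h _ (E.add_mem hx (E.smul_mem _ ha))
      rw [hf.add, hf.smul, hf.smul_right, haQ, hf.symm a x]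
      field_simp; ring
    have h3 := P.sub_mem h2 (P.smul_mem (-(Q x / f a x)) (h a ha haQ))
    rwa [add_sub_cancel_right] at h3
  intro x hx
  by_cases hax : f a x = 0
  · have h2 := P.sub_mem (h1 (x + b) (E.add_mem hx hb) (by rw [hf.add_right, hax, zero_add]; exact hab)) (h1 b hb hab)
    rwa [add_sub_cancel_right] at h2
  · exact h1 x hx hax

omit [DecidableEq ι] in
lemma exists_sing_pair (hf : Qf Q f) {E : Submodule F (ι → F)} {a b : ι → F} (ha : a ∈ E) (haQ : Q a = 0) (hb : b ∈ E)
    (hab : f a b ≠ 0) : ∃ c ∈ E, Q c = 0 ∧ f a c = 1 := by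
  refine ⟨(f a b)⁻¹ • (b + (-(Q b / f a b)) • a), E.smul_mem _ (E.add_mem hb (E.smul_mem _ ha)), ?_, ?_⟩
  · rw [hf.smul, hf.add, hf.smul, hf.smul_right, haQ, hf.symm a b]
    field_simp; ring
  · rw [hf.smul_right, hf.add_right, hf.smul_right, hf.self_of haQ]; field_simp; ring

omit [DecidableEq ι] in
/-- singular partner of a singular vector -/
lemma exists_partner (hf : Qf Q f) {a : ι → F} (ha0 : a ≠ 0) (ha : Q a = 0) : ∃ c, Q c = 0 ∧ f a c = 1 := by
  obtain ⟨b, hb⟩ := hf.nondeg a ha0
  obtain ⟨c, -, h1, h2⟩ := exists_sing_pair hf (E := ⊤) (a := a) (b := b) trivial ha trivial hb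
  exact ⟨c, h1, h2⟩

lemma exists_a [Finite F] (hf : Qf Q f) (hn : 5 ≤ Fintype.card ι) {x y : ι → F} (hx0 : x ≠ 0) (hxy : y ∉ Submodule.span F {x}) :
    ∃ a, Q a = 0 ∧ f x a = 1 ∧ f y a = 1 := by
  have hne : x - y ≠ 0 := by
    intro h
    apply hxy
    rw [← sub_eq_zero.1 h]
    exact Submodule.mem_span_singleton_self _
  obtain ⟨z, hz⟩ := hf.nondeg _ hne
  obtain ⟨u, huE, hu0, hu⟩ := exists_sing hf (E := perp hf (Submodule.span F {x - y, z})) (by
    have h1 := finrank_perp hf (Submodule.span F {x - y, z})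
    have h2 := finrank_span_pair (F := F) (x - y) z
    omega)
  obtain ⟨hu1, hu2⟩ := (mem_perp_pair hf).1 huE
  set H := perp hf (Submodule.span F {x - y}) with hH
  have huH : u ∈ H := (mem_perp_one hf).2 hu1
  have hun : u ∉ Submodule.span F {x - y} := by
    intro h
    obtain ⟨c, rfl⟩ := Submodule.mem_span_singleton.1 h
    rw [hf.smul_left] at hu2
    rcases mul_eq_zero.1 hu2 with h3 | h3
    · rw [h3, zero_smul] at hu0; exact hu0 rfl
    · exact hz h3
  obtain ⟨b, hb, hub⟩ : ∃ b ∈ H, f u b ≠ 0 := by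
    by_contra hcon
    push Not at hcon
    apply hun
    rw [← perp_perp hf (Submodule.span F {x - y})]
    exact hcon
  obtain ⟨a, ha, haQ, hxa⟩ : ∃ a ∈ H, Q a = 0 ∧ f x a ≠ 0 := by
    by_contra hcon
    push Not at hcon
    have h1 : H ≤ perp hf (Submodule.span F {x}) :=
      sing_span hf huH hu hb hub (fun w hw hwQ => (mem_perp_one hf).2 (hf.swap (hcon w hw hwQ)))
    have h2 : x ∈ perp hf H := fun w hw => hf.swap ((mem_perp_one hf).1 (h1 hw))
    rw [hH, perp_perp] at h2
    obtain ⟨c, hc⟩ := Submodule.mem_span_singleton.1 h2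
    by_cases hc0 : c = 0
    · rw [hc0, zero_smul] at hc; exact hx0 hc.symm
    · apply hxy
      rw [← Submodule.smul_mem_iff _ hc0]
      have h3 : c • y = (c - 1) • x := by
        have h4 : c • y = c • x - c • (x - y) := by rw [smul_sub]; abel
        rw [h4, hc, sub_smul, one_smul]
      rw [h3]
      exact Submodule.smul_mem _ _ (Submodule.mem_span_singleton_self _)
  have hya : f y a = f x a := by
    have := (mem_perp_one hf).1 ha
    rw [hf.sub_right] at this
    rw [hf.symm a y, hf.symm a x]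
    linear_combination -this
  refine ⟨(f x a)⁻¹ • a, by rw [hf.smul, haQ, mul_zero], by rw [hf.smul_right, inv_mul_cancel₀ hxa], ?_⟩
  rw [hf.smul_right, hya, inv_mul_cancel₀ hxa]

/-- the group generated by Siegel transformations is transitive on vectors of given norm -/
theorem trans_T [Finite F] (hf : Qf Q f) (hn : 5 ≤ Fintype.card ι) {x y : ι → F} (hx0 : x ≠ 0) (hy0 : y ≠ 0) (hxy : Q x = Q y) :
    ∃ g ∈ Tg Q f, (g : Matrix ι ι F) *ᵥ x = y := by
  have key : ∀ x y : ι → F, x ≠ 0 → y ∉ Submodule.span F {x} → Q x = Q y → ∃ g ∈ Tg Q f, (g : Matrix ι ι F) *ᵥ x = y := by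
    intro x y hx0 hxy hQ
    obtain ⟨a, haQ, hxa, hya⟩ := exists_a hf hn hx0 hxy
    have h1 : f a (y - x) = 0 := by rw [hf.sub_right, hf.symm y a, hf.symm x a, hya, hxa, sub_self]
    obtain ⟨g, hg⟩ := exists_E hf haQ h1
    exact ⟨g, E_mem haQ h1 hg, move hf hQ haQ hxa hya hg⟩
  by_cases hdep : y ∈ Submodule.span F {x}
  · -- intermediate vector
    obtain ⟨z, hzx, hzQ⟩ : ∃ z, z ∉ Submodule.span F {x} ∧ Q z = Q x := by
      obtain ⟨y', hy'⟩ := exists_avoid hf ⊤ (Submodule.span F {x}) (k := 0) Fin.elim0 (by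
        rw [finrank_span_singleton hx0, finrank_top, Module.finrank_fintype_fun_eq_card]; omega)
      obtain ⟨a, haQ, hxa, -⟩ := exists_a hf hn hx0 hy'.2.2
      obtain ⟨w, hw, -, hwn⟩ := exists_avoid hf (perp hf (Submodule.span F {a})) (Submodule.span F {x, a}) (k := 0) Fin.elim0 (by
        have h1 := finrank_perp hf (Submodule.span F {a})
        have h2 := finrank_span_pair (F := F) x a
        have ha0 : a ≠ 0 := by rintro rfl; rw [hf.zero_right] at hxa; exact zero_ne_one hxa
        rw [finrank_span_singleton ha0] at h1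
        omega)
      have haw := hf.swap ((mem_perp_one hf).1 hw)
      obtain ⟨g, hg⟩ := exists_E hf haQ haw
      refine ⟨(g : Matrix ι ι F) *ᵥ x, ?_, hg.iso hf haQ haw x⟩
      intro hmem
      obtain ⟨c, hc⟩ := Submodule.mem_span_singleton.1 hmem
      apply hwn
      rw [hg, hxa, one_smul] at hc
      rw [Submodule.mem_span_pair]
      refine ⟨c - 1, f x w + Q w * 1, ?_⟩
      rw [sub_smul, hc, one_smul]; abel
    obtain ⟨g1, hg1, h1⟩ := key x z hx0 hzx hzQ.symm
    have hz0 : z ≠ 0 := by rintro rfl; exact hzx (Submodule.zero_mem _)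
    have hyz : y ∉ Submodule.span F {z} := by
      intro h
      obtain ⟨c, hc⟩ := Submodule.mem_span_singleton.1 h
      have hc0 : c ≠ 0 := by rintro rfl; rw [zero_smul] at hc; exact hy0 hc.symm
      apply hzx
      rw [← Submodule.smul_mem_iff _ hc0, hc]
      exact hdep
    obtain ⟨g2, hg2, h2⟩ := key z y hz0 hyz (hzQ.trans hxy)
    exact ⟨g2 * g1, Subgroup.mul_mem _ hg2 hg1, by rw [Units.val_mul, ← mulVec_mulVec, h1, h2]⟩
  · exact key x y hx0 hdep hxy

/-- membership of omegaGL -/
lemma mem_omega {g : GL ι F} : g ∈ omegaGL Q ↔ ∃ hg : Iso Q g, mkO hg ∈ commutator (isometryGroup F Q) := by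
  constructor
  · rintro ⟨h, hh, rfl⟩
    exact ⟨iso_of h, hh⟩
  · rintro ⟨hg, h⟩
    exact ⟨_, h, rfl⟩

lemma omega_normal {g h : GL ι F} (hg : g ∈ omegaGL Q) (hh : Iso Q h) : h * g * h⁻¹ ∈ omegaGL Q := by
  obtain ⟨hg', hg⟩ := mem_omega.1 hg
  exact ⟨mkO hh * mkO hg' * (mkO hh)⁻¹, (inferInstance : (commutator (isometryGroup F Q)).Normal).conj_mem _ hg _, rfl⟩

lemma comm_mem_omega {g h : GL ι F} (hg : Iso Q g) (hh : Iso Q h) : g * h * g⁻¹ * h⁻¹ ∈ omegaGL Q :=
  ⟨⁅mkO hg, mkO hh⁆, Subgroup.commutator_mem_commutator (Subgroup.mem_top _) (Subgroup.mem_top _), rfl⟩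

/-- Siegel transformations are in Omega -/
theorem T_le_omega (hf : Qf Q f) (hn : 5 ≤ Fintype.card ι) : Tg Q f ≤ omegaGL Q := by
  rw [Tg, Subgroup.closure_le]
  rintro g ⟨u, w, hu, huw, hg⟩
  by_cases hu0 : u = 0
  · have : g = 1 := by
      apply ext_mulVec
      intro x
      rw [hg, hu0, hf.zero_right, Units.val_one, one_mulVec]; simp
    rw [this]; exact Subgroup.one_mem _
  -- non-singular case
  have key : ∀ w : ι → F, f u w = 0 → Q w ≠ 0 → ∀ g : GL ι F, IsE Q f g u w → g ∈ omegaGL Q := by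
    intro w huw hw g hg
    have hwn : w ∉ Submodule.span F {u} := by
      intro h
      obtain ⟨c, rfl⟩ := Submodule.mem_span_singleton.1 h
      apply hw; rw [hf.smul, hu, mul_zero]
    obtain ⟨v, hv, hvw⟩ := exists_perp hf hwn
    have huv := hf.swap ((mem_perp_one hf).1 hv)
    have hu' : f u ((-Q w) • v) = 0 := by rw [hf.smul_right, huv, mul_zero]
    obtain ⟨h, hh⟩ := exists_E hf hu hu'
    obtain ⟨r, hr⟩ := exists_R hf hw
    have h1 := hh.conj hf (hr.iso hf hw)
    rw [hr.fix huw] at h1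
    have h2 : (r : Matrix ι ι F) *ᵥ ((-Q w) • v) = (-Q w) • v + w := by
      rw [hr, hf.smul_left, hvw]
      have : (Q w)⁻¹ * (-Q w * 1) = -1 := by field_simp
      rw [this]; module
    rw [h2] at h1
    have h3 := h1.mul hf hu (by rw [hf.add_right, hu', huw, add_zero]) (by rw [hf.neg_right, hu', neg_zero])
      (hh.inv hf hu hu')
    rw [add_assoc, add_comm w, ← add_assoc, add_neg_cancel, zero_add] at h3
    rw [hg.unique h3]
    exact comm_mem_omega (hr.iso hf hw) (hh.iso hf hu hu')
  by_cases hw : Q w = 0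
  · obtain ⟨z, hz, hzQ⟩ : ∃ z ∈ perp hf (Submodule.span F {u, w}), Q z ≠ 0 := by
      by_contra hcon
      push Not at hcon
      have h1 := ts_dim hf (W := perp hf (Submodule.span F {u, w})) (fun x hx y hy => ts_iso hf hcon hx hy)
      have h2 := finrank_perp hf (Submodule.span F {u, w})
      have h3 := finrank_span_pair (F := F) u w
      omega
    obtain ⟨hzu, hzw⟩ := (mem_perp_pair hf).1 hz
    have huz := hf.swap hzu
    have h1 : f u (w - z) = 0 := by rw [hf.sub_right, huw, huz, sub_zero]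
    obtain ⟨g1, hg1⟩ := exists_E hf hu h1
    obtain ⟨g2, hg2⟩ := exists_E hf hu huz
    have h2 := hg1.mul hf hu h1 huz hg2
    rw [sub_add_cancel] at h2
    rw [hg.unique h2]
    exact Subgroup.mul_mem _ (key _ h1 (by rw [hf.Q_sub, hw, hf.swap hzw]; simpa using hzQ) _ hg1) (key _ huz hzQ _ hg2)
  · exact key w huw hw g hg

theorem omega_le_T [Finite F] (hf : Qf Q f) (hn : 5 ≤ Fintype.card ι) : omegaGL Q ≤ Tg Q f := by
  rintro _ ⟨g, hg, rfl⟩
  have h1 := comm_closure hf (Or.inr (by omega)) hg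
  have key : Subgroup.closure {g : isometryGroup F Q | ∃ r ∈ Rs Q f, ∃ s ∈ Rs Q f, g = r * s * r⁻¹ * s⁻¹} ≤
      (Tg Q f).comap (isometryGroup F Q).subtype := by
    rw [Subgroup.closure_le]
    rintro _ ⟨r, ⟨u, hu, hr⟩, s, ⟨v, hv, hs⟩, rfl⟩
    have hv0 : v ≠ 0 := by rintro rfl; exact hv hf.Q_zero
    have hru := hr.iso hf hu
    have hQ : Q v = Q (((r : GL ι F) : Matrix ι ι F) *ᵥ v) := (hru v).symm
    have hrv0 : ((r : GL ι F) : Matrix ι ι F) *ᵥ v ≠ 0 := by
      intro h0; rw [h0, hf.Q_zero] at hQ; exact hv hQ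
    obtain ⟨t, ht, htv⟩ := trans_T hf hn hv0 hrv0 hQ
    have h2 := hs.conj hf hru
    have h3 := hs.conj hf (Tg_iso hf ht)
    rw [htv] at h3
    have h4 := h2.unique h3
    show (r : GL ι F) * (s : GL ι F) * (r : GL ι F)⁻¹ * (s : GL ι F)⁻¹ ∈ Tg Q f
    rw [h4]
    have h5 : t * (s : GL ι F) * t⁻¹ * (s : GL ι F)⁻¹ = t * ((s : GL ι F) * t⁻¹ * (s : GL ι F)⁻¹) := by group
    rw [h5]
    exact Subgroup.mul_mem _ ht (Tg_conj hf (Subgroup.inv_mem _ ht) (hs.iso hf hv))
  exact key h1

theorem omega_eq [Finite F] (hf : Qf Q f) (hn : 5 ≤ Fintype.card ι) : omegaGL Q = Tg Q f :=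
  le_antisymm (omega_le_T hf hn) (T_le_omega hf hn)

/-- perfectness -/
theorem T_perfect [Finite F] (hf : Qf Q f) (hn : 5 ≤ Fintype.card ι) : Tg Q f ≤ ⁅Tg Q f, Tg Q f⁆ := by
  conv_lhs => rw [Tg]
  rw [Subgroup.closure_le]
  rintro g ⟨u, w, hu, huw, hg⟩
  by_cases hu0 : u = 0
  · have : g = 1 := by
      apply ext_mulVec
      intro x
      rw [hg, hu0, hf.zero_right, Units.val_one, one_mulVec]; simp
    rw [this]; exact Subgroup.one_mem _
  obtain ⟨v, hv, huv⟩ := exists_partner hf hu0 hu
  have hvu : f v u = 1 := by rw [hf.symm]; exact huv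
  set W := perp hf (Submodule.span F {u, v}) with hW
  have hWd : 3 ≤ Module.finrank F W := by
    rw [hW]
    have h1 := finrank_perp hf (Submodule.span F {u, v})
    have h2 := finrank_span_pair (F := F) u v
    omega
  -- singular vectors of W
  have hsing : ∀ a ∈ W, Q a = 0 → ∀ g : GL ι F, IsE Q f g u a → g ∈ ⁅Tg Q f, Tg Q f⁆ := by
    intro a ha haQ g hg
    obtain ⟨hau, hav⟩ := (mem_perp_pair hf).1 ha
    obtain ⟨b, hb, w', hw', hbw⟩ : ∃ b ∈ perp hf (Submodule.span F {u, v, a}), ∃ w ∈ perp hf (Submodule.span F {u, v, a}), f b w ≠ 0 := by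
      by_contra hcon
      push Not at hcon
      have h1 : perp hf (Submodule.span F {u, v, a}) ≤ Submodule.span F {a} := by
        intro x hx
        have h2 : x ∈ perp hf (perp hf (Submodule.span F {u, v, a})) := fun y hy => hcon x hx y hy
        rw [perp_perp] at h2
        obtain ⟨c, y, hy, rfl⟩ := Submodule.mem_span_insert.1 h2
        obtain ⟨d, e, rfl⟩ := Submodule.mem_span_pair.1 hy
        have h3 := hx u (Submodule.subset_span (by simp))
        have h4 := hx v (Submodule.subset_span (by simp))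
        simp only [hf.add_left, hf.smul_left, hf.self_of hu, hvu, hau, mul_zero, mul_one, zero_add, add_zero] at h3
        simp only [hf.add_left, hf.smul_left, huv, hf.self_of hv, hav, mul_zero, mul_one, add_zero] at h4
        rw [h3, h4, zero_smul, zero_smul, zero_add, zero_add]
        exact Submodule.smul_mem _ _ (Submodule.mem_span_singleton_self _)
      have h2 := Submodule.finrank_mono h1
      have h3 := finrank_perp hf (Submodule.span F {u, v, a})
      have h4 := finrank_span_triple (F := F) u v a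
      have h5 : Module.finrank F (Submodule.span F {a}) ≤ 1 := by
        by_cases ha0 : a = 0
        · rw [ha0, Submodule.span_zero_singleton, finrank_bot]; exact Nat.zero_le 1
        · rw [finrank_span_singleton ha0]
      omega
    have hbu : f b u = 0 := hb u (Submodule.subset_span (by simp))
    have hba : f b a = 0 := hb a (Submodule.subset_span (by simp))
    have hwu : f w' u = 0 := hw' u (Submodule.subset_span (by simp))
    have hwa : f w' a = 0 := hw' a (Submodule.subset_span (by simp))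
    have hwb : f w' b ≠ 0 := by rw [hf.symm]; exact hbw
    -- choose scaling
    set w1 := (-(f w' b)⁻¹) • w' with hw1
    have hw1b : f w1 b = -1 := by rw [hw1, hf.smul_left]; field_simp
    have hw1u : f w1 u = 0 := by rw [hw1, hf.smul_left, hwu, mul_zero]
    have hw1a : f w1 a = 0 := by rw [hw1, hf.smul_left, hwa, mul_zero]
    obtain ⟨t, ht⟩ := exists_E hf haQ (hf.swap hba)
    obtain ⟨h, hh⟩ := exists_E hf hu (hf.swap hw1u)
    have hti := ht.iso hf haQ (hf.swap hba)
    have htu : (t : Matrix ι ι F) *ᵥ u = u := by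
      rw [ht, hf.swap hau, hf.swap hbu]; simp
    have htw : (t : Matrix ι ι F) *ᵥ w1 = w1 + a := by
      rw [ht, hw1a, hw1b]; module
    have h1 := hh.conj hf hti
    rw [htu, htw] at h1
    have hua := hf.swap hau
    have huw1 := hf.swap hw1u
    have h2 := h1.mul hf hu (by rw [hf.add_right, huw1, hua, add_zero]) (by rw [hf.neg_right, huw1, neg_zero])
      (hh.inv hf hu huw1)
    rw [add_assoc, add_comm a, ← add_assoc, add_neg_cancel, zero_add] at h2
    rw [hg.unique h2]
    have h3 := Subgroup.commutator_mem_commutator (E_mem haQ (hf.swap hba) ht) (E_mem hu huw1 hh)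
    exact h3
  have hall : ∀ w ∈ W, ∀ c : F, ∀ g : GL ι F, IsE Q f g u (c • w) → g ∈ ⁅Tg Q f, Tg Q f⁆ := by
    obtain ⟨a, ha, ha0, haQ⟩ := exists_sing hf hWd
    obtain ⟨b, hb, hab⟩ : ∃ b ∈ W, f a b ≠ 0 := by
      by_contra hcon
      push Not at hcon
      have h1 : a ∈ perp hf W := hcon
      rw [hW, perp_perp] at h1
      obtain ⟨c, d, rfl⟩ := Submodule.mem_span_pair.1 h1
      obtain ⟨h3, h4⟩ := (mem_perp_pair hf).1 ha
      simp only [hf.add_left, hf.smul_left, hf.self_of hu, hvu, mul_zero, mul_one, zero_add] at h3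
      simp only [hf.add_left, hf.smul_left, huv, hf.self_of hv, mul_zero, mul_one, add_zero] at h4
      rw [h3, h4] at ha0
      simp at ha0
    let P : Submodule F (ι → F) :=
      { carrier := {w | f u w = 0 ∧ ∀ c : F, ∀ g : GL ι F, IsE Q f g u (c • w) → g ∈ ⁅Tg Q f, Tg Q f⁆}
        add_mem' := by
          rintro x y ⟨hx1, hx2⟩ ⟨hy1, hy2⟩
          refine ⟨by rw [hf.add_right, hx1, hy1, add_zero], ?_⟩
          intro c g hg
          have e1 : f u (c • x) = 0 := by rw [hf.smul_right, hx1, mul_zero]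
          have e2 : f u (c • y) = 0 := by rw [hf.smul_right, hy1, mul_zero]
          obtain ⟨g1, hg1⟩ := exists_E hf hu e1
          obtain ⟨g2, hg2⟩ := exists_E hf hu e2
          have h2 := hg1.mul hf hu e1 e2 hg2
          rw [← smul_add] at h2
          rw [hg.unique h2]
          exact Subgroup.mul_mem _ (hx2 c _ hg1) (hy2 c _ hg2)
        zero_mem' := by
          refine ⟨hf.zero_right u, ?_⟩
          intro c g hg
          rw [smul_zero] at hg
          rw [hg.one hf]; exact Subgroup.one_mem _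
        smul_mem' := by
          rintro d x ⟨hx1, hx2⟩
          refine ⟨by rw [hf.smul_right, hx1, mul_zero], ?_⟩
          intro c g hg
          rw [smul_smul] at hg
          exact hx2 _ g hg }
    have h1 : W ≤ P := by
      refine sing_span hf ha haQ hb hab ?_
      intro x hx hxQ
      refine ⟨hf.swap ((mem_perp_pair hf).1 hx).1, ?_⟩
      intro c g hg
      exact hsing (c • x) (W.smul_mem _ hx) (by rw [hf.smul, hxQ, mul_zero]) g hg
    intro w hw
    exact (h1 hw).2
  -- general w
  have hw0 : w - (f v w) • u ∈ W := by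
    rw [hW, mem_perp_pair, hf.sub_left, hf.sub_left, hf.smul_left, hf.smul_left, hf.self_of hu, huv, hf.swap huw,
      hf.symm v w]
    constructor <;> ring
  have h1 := hg.add_smul hf (-(f v w)) hu huw
  have h2 : w + -(f v w) • u = (1 : F) • (w - (f v w) • u) := by module
  rw [h2] at h1
  exact hall _ hw0 1 g h1

end CfsgH9.Og
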