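import Mathlib
import Cfsg.Agent.H9.Og6

set_option autoImplicit false

/-! Orthogonal groups: long root elements, centralisers. -/

namespace CfsgH9.Og

open Matrix Cfsg Cfsg.Geo CfsgH9.Tv CfsgH9.Witt
open CfsgH9.MaxSymp (inv_mulVec mulVec_inv)
open scoped commutatorElement

variable {ι : Type} [Fintype ι] [DecidableEq ι] {F : Type*} [Field F]
variable {Q : (ι → F) → F} {f : (ι → F) → (ι → F) → F}

/-- vectors `w` such that all multiples give elements of `M` -/
def wSub (hf : Qf Q f) {u : ι → F} (hu : Q u = 0) (M : Subgroup (GL ι F)) : Submodule F (ι → F) where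
  carrier := {w | f u w = 0 ∧ ∀ c : F, ∀ g : GL ι F, IsE Q f g u (c • w) → g ∈ M}
  add_mem' := by
    rintro x y ⟨hx1, hx2⟩ ⟨hy1, hy2⟩
    refine ⟨by rw [hf.add_right, hx1, hy1, add_zero], ?_⟩
    intro c g hg
    have e1 : f u (c • x) = 0 := by rw [hf.smul_right, hx1, mul_zero]
    have e2 : f u (c • y) = 0 := by rw [hf.smul_right, hy1, mul_zero]
    obtain ⟨g1, hg1⟩ := exists_E hf hu e1
    obtain ⟨g2, hg2⟩ := exists_E hf hu e2
    have h2 := hg1.mul hf hu e1 e2 hg2
    rw [← smul_add] at h2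
    rw [hg.unique h2]
    exact Subgroup.mul_mem _ (hx2 c _ hg1) (hy2 c _ hg2)
  zero_mem' := by
    refine ⟨hf.zero_right u, ?_⟩
    intro c g hg
    rw [smul_zero] at hg
    rw [hg.one hf]; exact Subgroup.one_mem _
  smul_mem' := by
    rintro d x ⟨hx1, hx2⟩
    refine ⟨by rw [hf.smul_right, hx1, mul_zero], ?_⟩
    intro c g hg
    rw [smul_smul] at hg
    exact hx2 _ g hg

lemma mem_wSub {hf : Qf Q f} {u : ι → F} {hu : Q u = 0} {M : Subgroup (GL ι F)} {w : ι → F} :
    w ∈ wSub hf hu M ↔ f u w = 0 ∧ ∀ c : F, ∀ g : GL ι F, IsE Q f g u (c • w) → g ∈ M := Iff.rfl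

lemma u_mem_wSub {hf : Qf Q f} {u : ι → F} {hu : Q u = 0} {M : Subgroup (GL ι F)} : u ∈ wSub hf hu M := by
  refine ⟨hf.self_of hu, ?_⟩
  intro c g hg
  have h1 := hg.add_smul hf (-c) hu (by rw [hf.smul_right, hf.self_of hu, mul_zero])
  have h2 : c • u + -c • u = 0 := by module
  rw [h2] at h1
  rw [h1.one hf]; exact Subgroup.one_mem _

/-- perpendicular spaces of hyperbolic pairs -/
lemma perp_pair_props [Finite F] (hf : Qf Q f) {u v : ι → F} (hu : Q u = 0) (hv : Q v = 0) (huv : f u v = 1)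
    (hn : 5 ≤ Fintype.card ι) : 3 ≤ Module.finrank F (perp hf (Submodule.span F {u, v})) ∧
      ∃ a ∈ perp hf (Submodule.span F {u, v}), Q a = 0 ∧ ∃ b ∈ perp hf (Submodule.span F {u, v}), f a b ≠ 0 := by
  have hvu : f v u = 1 := by rw [hf.symm]; exact huv
  have hWd : 3 ≤ Module.finrank F (perp hf (Submodule.span F {u, v})) := by
    have h1 := finrank_perp hf (Submodule.span F {u, v})
    have h2 := finrank_span_pair (F := F) u v
    omega
  refine ⟨hWd, ?_⟩
  obtain ⟨a, ha, ha0, haQ⟩ := exists_sing hf hWd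
  refine ⟨a, ha, haQ, ?_⟩
  by_contra hcon
  push Not at hcon
  have h1 : a ∈ perp hf (perp hf (Submodule.span F {u, v})) := hcon
  rw [perp_perp] at h1
  obtain ⟨c, d, rfl⟩ := Submodule.mem_span_pair.1 h1
  obtain ⟨h3, h4⟩ := (mem_perp_pair hf).1 ha
  simp only [hf.add_left, hf.smul_left, hf.self_of hu, hvu, mul_zero, mul_one, zero_add] at h3
  simp only [hf.add_left, hf.smul_left, huv, hf.self_of hv, mul_zero, mul_one, add_zero] at h4
  rw [h3, h4] at ha0
  simp at ha0

lemma T_le_of_long [Finite F] (hf : Qf Q f) (hn : 5 ≤ Fintype.card ι) {M : Subgroup (GL ι F)}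
    (h : ∀ u a, Q u = 0 → Q a = 0 → f u a = 0 → ∀ g : GL ι F, IsE Q f g u a → g ∈ M) : Tg Q f ≤ M := by
  rw [Tg, Subgroup.closure_le]
  rintro g ⟨u, w, hu, huw, hg⟩
  by_cases hu0 : u = 0
  · have : g = 1 := by
      apply ext_mulVec
      intro x
      rw [hg, hu0, hf.zero_right, Units.val_one, one_mulVec]; simp
    rw [this]; exact Subgroup.one_mem _
  obtain ⟨v, hv, huv⟩ := exists_partner hf hu0 hu
  obtain ⟨hd, a, ha, haQ, b, hb, hab⟩ := perp_pair_props hf hu hv huv hn
  have h1 : perp hf (Submodule.span F {u, v}) ≤ wSub hf hu M := by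
    refine sing_span hf ha haQ hb hab ?_
    intro x hx hxQ
    have hux := hf.swap ((mem_perp_pair hf).1 hx).1
    exact ⟨hux, fun c g hg => h u (c • x) hu (by rw [hf.smul, hxQ, mul_zero]) (by rw [hf.smul_right, hux, mul_zero]) g hg⟩
  have hw0 : w - (f v w) • u ∈ perp hf (Submodule.span F {u, v}) := by
    rw [mem_perp_pair, hf.sub_left, hf.sub_left, hf.smul_left, hf.smul_left, hf.self_of hu, huv, hf.swap huw,
      hf.symm v w]
    constructor <;> ring
  have h2 := (wSub hf hu M).add_mem (h1 hw0) ((wSub hf hu M).smul_mem (f v w) u_mem_wSub)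
  rw [sub_add_cancel] at h2
  have h3 := (mem_wSub.1 h2).2 1 g
  rw [one_smul] at h3
  exact h3 hg

/-- the involution acting as -1 on a hyperbolic plane -/
lemma exists_neg (hf : Qf Q f) (h2 : (2 : F) ≠ 0) {u v : ι → F} (hu : Q u = 0) (hv : Q v = 0) (huv : f u v = 1) :
    ∃ D : GL ι F, Iso Q D ∧ (D : Matrix ι ι F) *ᵥ u = -u ∧ ∀ x, f x u = 0 → f x v = 0 → (D : Matrix ι ι F) *ᵥ x = x := by
  have hvu : f v u = 1 := by rw [hf.symm]; exact huv
  have h1 : Q (u + v) = 1 := by rw [hf.add, hu, hv, huv]; ring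
  have h3 : Q (u - v) = -1 := by rw [hf.Q_sub, hu, hv, huv]; ring
  have h10 : Q (u + v) ≠ 0 := by rw [h1]; exact one_ne_zero
  have h30 : Q (u - v) ≠ 0 := by rw [h3]; exact neg_ne_zero.2 one_ne_zero
  obtain ⟨r, hr⟩ := exists_R hf h10
  obtain ⟨s, hs⟩ := exists_R hf h30
  refine ⟨r * s, (hr.iso hf h10).mul (hs.iso hf h30), ?_, ?_⟩
  · rw [Units.val_mul, ← mulVec_mulVec, hs, mulVec_sub, mulVec_smul, hr u, hr (u - v), h1, h3, hf.sub_right, hf.add_right,
      hf.add_right, hf.sub_left, hf.sub_left, hf.self_of hu, hf.self_of hv, huv, hvu]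
    have : (-1 : F)⁻¹ = -1 := by norm_num
    rw [this, inv_one]
    module
  · intro x hxu hxv
    rw [Units.val_mul, ← mulVec_mulVec, hs.fix (by rw [hf.sub_right, hxu, hxv, sub_zero]),
      hr.fix (by rw [hf.add_right, hxu, hxv, add_zero])]

/-- an isometry fixing all singular points is a scalar -/
theorem scalar_of_pts [Finite F] (hf : Qf Q f) (hn : 5 ≤ Fintype.card ι) {z : GL ι F}
    (hpt : ∀ u, Q u = 0 → (z : Matrix ι ι F) *ᵥ u ∈ Submodule.span F {u}) :
    ∃ c : F, ∀ x, (z : Matrix ι ι F) *ᵥ x = c • x := by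
  have hpt' : ∀ u, ∃ c : F, Q u = 0 → (z : Matrix ι ι F) *ᵥ u = c • u := by
    intro u
    by_cases hu : Q u = 0
    · obtain ⟨c, hc⟩ := Submodule.mem_span_singleton.1 (hpt u hu)
      exact ⟨c, fun _ => hc.symm⟩
    · exact ⟨0, fun h => absurd h hu⟩
  choose l hl using hpt'
  have horth : ∀ u v, u ≠ 0 → v ≠ 0 → Q u = 0 → Q v = 0 → f u v = 0 → l u = l v := by
    intro u v hu0 hv0 hu hv huv
    by_cases hdep : v ∈ Submodule.span F {u}
    · obtain ⟨c, rfl⟩ := Submodule.mem_span_singleton.1 hdep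
      have h1 := hl (c • u) hv
      rw [mulVec_smul, hl u hu, smul_smul, smul_smul, ← sub_eq_zero, ← sub_smul] at h1
      have hc0 : c ≠ 0 := by rintro rfl; rw [zero_smul] at hv0; exact hv0 rfl
      have h2 := (smul_eq_zero.1 h1).resolve_right hu0
      apply mul_right_cancel₀ hc0
      linear_combination h2
    · have hQ : Q (u + v) = 0 := by rw [hf.add, hu, hv, huv]; ring
      have h1 := hl (u + v) hQ
      rw [mulVec_add, hl u hu, hl v hv] at h1
      have h2 : (l u - l (u + v)) • u = (l (u + v) - l v) • v := by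
        rw [sub_smul, sub_smul]
        have h3 : l u • u = l (u + v) • (u + v) - l v • v := by rw [← h1]; abel
        rw [h3, smul_add]; abel
      have h3 : l (u + v) - l v = 0 := by
        by_contra hne
        apply hdep
        rw [← Submodule.smul_mem_iff _ hne, ← h2]
        exact Submodule.smul_mem _ _ (Submodule.mem_span_singleton_self u)
      rw [h3, zero_smul] at h2
      have h4 := (smul_eq_zero.1 h2).resolve_right hu0
      exact (sub_eq_zero.1 h4).trans (sub_eq_zero.1 h3)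
  have hall : ∀ u v, u ≠ 0 → v ≠ 0 → Q u = 0 → Q v = 0 → l u = l v := by
    intro u v hu0 hv0 hu hv
    obtain ⟨w, hw, hw0, hwQ⟩ := exists_sing hf (E := perp hf (Submodule.span F {u, v})) (by
      have h1 := finrank_perp hf (Submodule.span F {u, v})
      have h2 := finrank_span_pair (F := F) u v
      omega)
    obtain ⟨h1, h2⟩ := (mem_perp_pair hf).1 hw
    exact (horth u w hu0 hw0 hu hwQ (hf.swap h1)).trans (horth w v hw0 hv0 hwQ hv h2)
  obtain ⟨u0, -, hu00, hu0⟩ := exists_sing hf (E := ⊤) (by rw [finrank_top, Module.finrank_fintype_fun_eq_card]; omega)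
  obtain ⟨b, hb⟩ := hf.nondeg u0 hu00
  refine ⟨l u0, ?_⟩
  let P : Submodule F (ι → F) :=
    { carrier := {x | (z : Matrix ι ι F) *ᵥ x = l u0 • x}
      add_mem' := fun {x y} hx hy => by
        show (z : Matrix ι ι F) *ᵥ (x + y) = _
        rw [mulVec_add, hx, hy, smul_add]
      zero_mem' := by show (z : Matrix ι ι F) *ᵥ 0 = _; rw [mulVec_zero, smul_zero]
      smul_mem' := fun c x hx => by
        show (z : Matrix ι ι F) *ᵥ (c • x) = _
        rw [mulVec_smul, hx, smul_comm] }
  have hP : ⊤ ≤ P := by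
    refine sing_span hf (E := ⊤) (a := u0) (b := b) trivial hu0 trivial hb ?_
    intro x _ hx
    show (z : Matrix ι ι F) *ᵥ x = _
    by_cases hx0 : x = 0
    · rw [hx0, mulVec_zero, smul_zero]
    · rw [hl x hx, hall x u0 hx0 hu00 hx hu0]
  intro x
  exact hP (show x ∈ (⊤ : Submodule F (ι → F)) from trivial)

/-- an isometry commuting with Omega is a scalar -/
theorem scalar_of_comm [Finite F] (hf : Qf Q f) (hn : 5 ≤ Fintype.card ι) {z : GL ι F} (hz : Iso Q z)
    (hc : ∀ g ∈ Tg Q f, z * g = g * z) : ∃ c : F, ∀ x, (z : Matrix ι ι F) *ᵥ x = c • x := by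
  -- points are fixed
  have hpt : ∀ u, Q u = 0 → (z : Matrix ι ι F) *ᵥ u ∈ Submodule.span F {u} := by
    intro u hu
    by_cases hu0 : u = 0
    · rw [hu0, mulVec_zero]; exact Submodule.zero_mem _
    by_contra hn'
    -- choose x orthogonal to u but not to z u
    obtain ⟨x, hx, hxz⟩ := exists_perp hf hn'
    have hxu := (mem_perp_one hf).1 hx
    have h1 : ∀ w, f u w = 0 → (z : Matrix ι ι F) *ᵥ w ∈ Submodule.span F {u, (z : Matrix ι ι F) *ᵥ u} := by
      intro w hw
      obtain ⟨g, hg⟩ := exists_E hf hu hw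
      have h2 := hg.conj hf hz
      rw [hc g (E_mem hu hw hg), mul_inv_cancel_right] at h2
      have h3 := hg x
      rw [h2 x, hxu, hxz, zero_smul, one_smul, add_zero, mul_zero, add_zero, mul_one] at h3
      rw [Submodule.mem_span_pair]
      refine ⟨- f x w, f x ((z : Matrix ι ι F) *ᵥ w) + Q ((z : Matrix ι ι F) *ᵥ w), ?_⟩
      have h4 : (z : Matrix ι ι F) *ᵥ w = (f x ((z : Matrix ι ι F) *ᵥ w) + Q ((z : Matrix ι ι F) *ᵥ w)) • (z : Matrix ι ι F) *ᵥ u
          - f x w • u := by
        linear_combination (norm := module) h3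
      conv_rhs => rw [h4]
      module
    have h5 : (perp hf (Submodule.span F {u})).map (mulVecLin (z : Matrix ι ι F)) ≤
        Submodule.span F {u, (z : Matrix ι ι F) *ᵥ u} := by
      rintro _ ⟨w, hw, rfl⟩
      exact h1 w (hf.swap ((mem_perp_one hf).1 hw))
    have h6 := Submodule.finrank_mono h5
    have hinj : Function.Injective (mulVecLin (z : Matrix ι ι F)) := by
      intro x y h
      have h' : (z : Matrix ι ι F) *ᵥ x = (z : Matrix ι ι F) *ᵥ y := h
      rw [← inv_mulVec z x, h', inv_mulVec]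
    rw [← (LinearEquiv.finrank_eq (Submodule.equivMapOfInjective _ hinj (perp hf (Submodule.span F {u}))))] at h6
    have h7 := finrank_perp hf (Submodule.span F {u})
    have h8 := finrank_span_pair (F := F) u ((z : Matrix ι ι F) *ᵥ u)
    rw [finrank_span_singleton hu0] at h7
    omega
  exact scalar_of_pts hf hn hpt

end CfsgH9.Og
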