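import Mathlib
import Cfsg.Agent.H9.Og7
import Cfsg.Agent.H9.MaxRedSL

set_option autoImplicit false

/-! Orthogonal groups: maximality of parabolic subgroups. -/

namespace CfsgH9.Og

open Matrix Cfsg Cfsg.Geo CfsgH9.Tv CfsgH9.Witt
open CfsgH9.MaxSymp (inv_mulVec mulVec_inv)
open CfsgH9.MaxRedSL (mem_stab_of mem_stab_iff)

variable {ι : Type} [Fintype ι] [DecidableEq ι] {F : Type*} [Field F]
variable {Q : (ι → F) → F} {f : (ι → F) → (ι → F) → F} {M : Subgroup (GL ι F)}

/-- the full unipotent radical at `u` lies in `M` -/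
def XE (Q : (ι → F) → F) (f : (ι → F) → (ι → F) → F) (M : Subgroup (GL ι F)) (u : ι → F) : Prop :=
  ∀ w (g : GL ι F), f u w = 0 → IsE Q f g u w → g ∈ M

lemma E_conj_inv (hf : Qf Q f) {g h : GL ι F} (hh : Iso Q h) {u w : ι → F}
    (hg : IsE Q f g ((h : Matrix ι ι F) *ᵥ u) w) : IsE Q f (h⁻¹ * g * h) u (((h⁻¹ : GL ι F) : Matrix ι ι F) *ᵥ w) := by
  have := hg.conj hf hh.inv
  rwa [inv_mulVec, inv_inv] at this

lemma XE_map (hf : Qf Q f) {h : GL ι F} (hh : h ∈ M) (hiso : Iso Q h) {u : ι → F} (hu : XE Q f M u) :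
    XE Q f M ((h : Matrix ι ι F) *ᵥ u) := by
  intro w g hw hg
  have h1 := E_conj_inv hf hiso hg
  have h2 : f u (((h⁻¹ : GL ι F) : Matrix ι ι F) *ᵥ w) = 0 := by
    rw [← hiso.form hf, mulVec_inv]; exact hw
  have h3 := M.mul_mem (M.mul_mem hh (hu _ _ h2 h1)) (M.inv_mem hh)
  have h4 : h * (h⁻¹ * g * h) * h⁻¹ = g := by group
  rwa [h4] at h3

lemma XE_unmap (hf : Qf Q f) {h : GL ι F} (hh : h ∈ M) (hiso : Iso Q h) {u : ι → F}
    (hu : XE Q f M ((h : Matrix ι ι F) *ᵥ u)) : XE Q f M u := by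
  have := XE_map hf (M.inv_mem hh) hiso.inv hu
  rwa [inv_mulVec] at this

lemma E_zero (hf : Qf Q f) {g : GL ι F} {w : ι → F} (hg : IsE Q f g 0 w) : g = 1 := by
  apply ext_mulVec
  intro x
  rw [hg, hf.zero_right, Units.val_one, one_mulVec]; simp

lemma XE_smul (hf : Qf Q f) {u : ι → F} (hu : XE Q f M u) (c : F) : XE Q f M (c • u) := by
  intro w g hw hg
  by_cases hc : c = 0
  · rw [hc, zero_smul] at hg
    rw [E_zero hf hg]; exact M.one_mem
  · have h1 := hg.smul hf
    refine hu _ _ ?_ h1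
    rw [hf.smul_left] at hw
    rw [hf.smul_right, hw]

lemma XE_of_smul (hf : Qf Q f) {u : ι → F} {c : F} (hc : c ≠ 0) (hu : XE Q f M (c • u)) : XE Q f M u := by
  have := XE_smul hf hu c⁻¹
  rwa [smul_smul, inv_mul_cancel₀ hc, one_smul] at this

lemma T_le_of_XE (h : ∀ u, Q u = 0 → XE Q f M u) : Tg Q f ≤ M := by
  rw [Tg, Subgroup.closure_le]
  rintro g ⟨u, w, hu, huw, hg⟩
  exact h u hu w g huw hg

/-- the singular vectors orthogonal to a singular vector span -/
lemma sing_span_perp [Finite F] (hf : Qf Q f) (hn : 5 ≤ Fintype.card ι) {u : ι → F} (hu0 : u ≠ 0) (hu : Q u = 0)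
    {P : Submodule F (ι → F)} (h : ∀ x, f x u = 0 → Q x = 0 → x ∈ P) : perp hf (Submodule.span F {u}) ≤ P := by
  obtain ⟨v, hv, huv⟩ := exists_partner hf hu0 hu
  obtain ⟨-, a, ha, haQ, b, hb, hab⟩ := perp_pair_props hf hu hv huv hn
  exact sing_span hf (E := perp hf (Submodule.span F {u})) ((mem_perp_one hf).2 ((mem_perp_pair hf).1 ha).1) haQ
    ((mem_perp_one hf).2 ((mem_perp_pair hf).1 hb).1) hab (fun x hx hxQ => h x ((mem_perp_one hf).1 hx) hxQ)

/-- the singular vectors span -/
lemma sing_span_top [Finite F] (hf : Qf Q f) (hn : 5 ≤ Fintype.card ι)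
    {P : Submodule F (ι → F)} (h : ∀ x, Q x = 0 → x ∈ P) (x : ι → F) : x ∈ P := by
  obtain ⟨u0, -, hu00, hu0⟩ := exists_sing hf (E := ⊤) (by rw [finrank_top, Module.finrank_fintype_fun_eq_card]; omega)
  obtain ⟨b, hb⟩ := hf.nondeg u0 hu00
  exact sing_span hf (E := ⊤) (a := u0) (b := b) trivial hu0 trivial hb (fun x _ hx => h x hx)
    (show x ∈ (⊤ : Submodule F (ι → F)) from trivial)

/-- Siegel elements stabilising a totally singular subspace -/
lemma E_stab (hf : Qf Q f) {W : Submodule F (ι → F)} (hW : ∀ x ∈ W, Q x = 0) {u w : ι → F} (hu : u ∈ W)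
    {g : GL ι F} (hg : IsE Q f g u w) : g ∈ subspaceStabilizer W := by
  apply mem_stab_of
  intro x hx
  have h1 : f x u = 0 := ts_iso hf hW hx hu
  rw [hg, h1, zero_smul, add_zero]
  exact W.sub_mem hx (W.smul_mem _ hu)

lemma E_stab' {W : Submodule F (ι → F)} (hf : Qf Q f) {u w : ι → F} (hu : u ∈ perp hf W) (hw : w ∈ perp hf W)
    {g : GL ι F} (hg : IsE Q f g u w) : g ∈ subspaceStabilizer W := by
  apply mem_stab_of
  intro x hx
  rw [hg, hf.swap (hu x hx), hf.swap (hw x hx)]
  simpa using hx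

theorem par_max [Finite F] (hf : Qf Q f) (hn : 5 ≤ Fintype.card ι) {W : Submodule F (ι → F)} (hW0 : W ≠ ⊥)
    (hW : ∀ x ∈ W, Q x = 0)
    (hex : 2 * Module.finrank F W + 2 = Fintype.card ι → ∀ x ∈ perp hf W, Q x = 0 → x ∈ W) :
    IsMaximalIn (omegaGL Q) (subspaceStabilizer W ⊓ omegaGL Q) := by
  have hWi : ∀ x ∈ W, ∀ y ∈ W, f x y = 0 := fun x hx y hy => ts_iso hf hW hx hy
  have hWP : W ≤ perp hf W := hWi
  have hdW := ts_dim hf hWi
  have hfr := finrank_perp hf W
  obtain ⟨w1, hw1, hw10⟩ := (Submodule.ne_bot_iff _).1 hW0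
  -- perp of a vector not inside perp W
  have hnl : ∀ u, u ≠ 0 → u ∉ W → ¬ perp hf (Submodule.span F {u}) ≤ perp hf W := by
    intro u hu0 huW h
    have h1 := perp_anti hf h
    rw [perp_perp, perp_perp] at h1
    obtain ⟨c, hc⟩ := Submodule.mem_span_singleton.1 (h1 hw1)
    have hc0 : c ≠ 0 := by rintro rfl; rw [zero_smul] at hc; exact hw10 hc.symm
    apply huW
    rw [← Submodule.smul_mem_iff _ hc0, hc]
    exact hw1
  constructor
  · refine lt_of_le_of_ne inf_le_right ?_
    intro heq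
    obtain ⟨y, hy, hyW⟩ : ∃ y, Q y = 0 ∧ y ∉ W := by
      by_contra hcon
      push Not at hcon
      have h1 : ∀ x, x ∈ W := sing_span_top hf hn hcon
      obtain ⟨b, hb⟩ := hf.nondeg w1 hw10
      exact hb (hWi w1 hw1 b (h1 b))
    have hy0 : y ≠ 0 := by rintro rfl; exact hyW W.zero_mem
    obtain ⟨t, ht, htw⟩ := trans_T hf hn hw10 hy0 (by rw [hW w1 hw1, hy])
    have h1 : t ∈ omegaGL Q := T_le_omega hf hn ht
    rw [← heq] at h1
    have h2 := ((mem_stab_iff _ _).1 h1.1 w1).1 hw1
    rw [htw] at h2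
    exact hyW h2
  · intro M hM hMK
    by_cases hsub : M ≤ subspaceStabilizer W
    · left
      exact le_antisymm (le_inf hsub hMK) hM
    right
    refine le_antisymm hMK ?_
    rw [omega_eq hf hn]
    have hMiso : ∀ h ∈ M, Iso Q h := fun h hh => (mem_omega.1 (hMK hh)).1
    have hE1 : ∀ u ∈ W, XE Q f M u := by
      intro u hu w g huw hg
      exact hM ⟨E_stab hf hW hu hg, T_le_omega hf hn (E_mem (hW u hu) huw hg)⟩
    have hE2 : ∀ u ∈ perp hf W, Q u = 0 → ∀ w ∈ perp hf W, f u w = 0 → ∀ g, IsE Q f g u w → g ∈ M := by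
      intro u hu huQ w hw huw g hg
      exact hM ⟨E_stab' hf hu hw hg, T_le_omega hf hn (E_mem huQ huw hg)⟩
    -- transitivity outside W^⊥
    have htrans : ∀ y y', Q y = 0 → Q y' = 0 → y ∉ perp hf W → y' ∉ perp hf W → XE Q f M y → XE Q f M y' := by
      intro y y' hy hy' hyW hyW' hX
      obtain ⟨a, haW, hay, hay'⟩ : ∃ a ∈ W, a ∉ LinearMap.ker (fl hf y) ∧ a ∉ LinearMap.ker (fl hf y') := by
        apply not_union
        · intro h; exact hyW (fun w hw => hf.swap (h hw))
        · intro h; exact hyW' (fun w hw => hf.swap (h hw))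
      rw [LinearMap.mem_ker, fl_apply] at hay hay'
      have h1 : f ((f a y)⁻¹ • y) a = 1 := by rw [hf.smul_left, hf.symm a y, inv_mul_cancel₀ hay]
      have h2 : f ((f a y')⁻¹ • y') a = 1 := by rw [hf.smul_left, hf.symm a y', inv_mul_cancel₀ hay']
      have h3 : f a ((f a y')⁻¹ • y' - (f a y)⁻¹ • y) = 0 := by
        rw [← hf.symm, hf.sub_left, h1, h2, sub_self]
      obtain ⟨g, hg⟩ := exists_E hf (hW a haW) h3
      have h4 := move hf (by rw [hf.smul, hf.smul, hy, hy']; ring) (hW a haW) h1 h2 hg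
      have h5 := XE_map hf (hE1 a haW _ _ h3 hg) (hg.iso hf (hW a haW) h3) (XE_smul hf hX (f a y)⁻¹)
      rw [h4] at h5
      exact XE_of_smul hf (inv_ne_zero hay') h5
    have hfin : (∃ y, Q y = 0 ∧ y ∉ perp hf W ∧ XE Q f M y) → Tg Q f ≤ M := by
      rintro ⟨y, hy, hyW, hX⟩
      apply T_le_of_XE
      intro u hu
      by_cases huP : u ∈ perp hf W
      · by_cases huW : u ∈ W
        · exact hE1 u huW
        have hu0 : u ≠ 0 := by rintro rfl; exact huW W.zero_mem
        obtain ⟨a, hau, haQ, haP⟩ : ∃ a, f a u = 0 ∧ Q a = 0 ∧ a ∉ perp hf W := by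
          by_contra hcon
          push Not at hcon
          exact hnl u hu0 huW (sing_span_perp hf hn hu0 hu hcon)
        have hXa := htrans y a hy haQ hyW haP hX
        have hun : u ∉ Submodule.span F {a} := by
          intro h
          obtain ⟨c, hc⟩ := Submodule.mem_span_singleton.1 h
          have hc0 : c ≠ 0 := by rintro rfl; rw [zero_smul] at hc; exact hu0 hc.symm
          apply haP
          rw [← Submodule.smul_mem_iff _ hc0, hc]
          exact huP
        obtain ⟨w, hw, hwu⟩ := exists_perp hf hun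
        have haw := hf.swap ((mem_perp_one hf).1 hw)
        obtain ⟨g, hg⟩ := exists_E hf haQ haw
        have hgu : (g : Matrix ι ι F) *ᵥ u = u - a := by
          rw [hg, hf.swap hau, hf.symm w u, hwu]; module
        apply XE_unmap hf (hXa w g haw hg) (hg.iso hf haQ haw)
        rw [hgu]
        refine htrans y _ hy ?_ hyW ?_ hX
        · rw [hf.Q_sub, hu, haQ, hf.swap hau]; ring
        · intro h
          apply haP
          have := (perp hf W).sub_mem huP h
          rwa [sub_sub_cancel] at this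
      · exact htrans y u hy hu hyW huP hX
    -- a vector outside W
    obtain ⟨g, hg, x, hx, hgx⟩ : ∃ g ∈ M, ∃ x ∈ W, (g : Matrix ι ι F) *ᵥ x ∉ W := by
      by_contra hcon
      push Not at hcon
      exact hsub fun g hg => mem_stab_of _ _ (fun x hx => hcon g hg x hx)
    set u := (g : Matrix ι ι F) *ᵥ x with hu
    have hXu : XE Q f M u := XE_map hf hg (hMiso g hg) (hE1 x hx)
    have huQ : Q u = 0 := by rw [hu, hMiso g hg, hW x hx]
    have hu0 : u ≠ 0 := by intro h; rw [h] at hgx; exact hgx W.zero_mem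
    by_cases huP : u ∈ perp hf W
    swap
    · exact hfin ⟨u, huQ, huP, hXu⟩
    obtain ⟨z, hz, huz⟩ : ∃ z ∈ perp hf W, f u z ≠ 0 := by
      by_contra hcon
      push Not at hcon
      apply hgx
      rw [← perp_perp hf W]
      exact hcon
    obtain ⟨y, hy, hyQ, huy⟩ := exists_sing_pair hf huP huQ hz huz
    have hyu : f y u = 1 := by rw [hf.symm]; exact huy
    -- dimension
    have hdim : 2 * Module.finrank F W + 3 ≤ Fintype.card ι := by
      have h1 : W ⊔ Submodule.span F {u} ⊔ Submodule.span F {y} ≤ perp hf W := by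
        refine sup_le (sup_le hWP ?_) ?_
        · rw [Submodule.span_le]; intro x hx; rw [Set.mem_singleton_iff.1 hx]; exact huP
        · rw [Submodule.span_le]; intro x hx; rw [Set.mem_singleton_iff.1 hx]; exact hy
      have h2 := Submodule.finrank_mono h1
      have hyn : y ∉ W ⊔ Submodule.span F {u} := by
        intro h
        obtain ⟨a, ha, c, hc⟩ := mem_sup_span.1 h
        have : f u y = 0 := by rw [hc, hf.add_right, hf.smul_right, huP a ha, hf.self_of huQ]; ring
        rw [huy] at this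
        exact one_ne_zero this
      rw [finrank_sup_span_eq hyn, finrank_sup_span_eq hgx] at h2
      by_contra hlt
      exact hgx (hex (by omega) u huP huQ)
    obtain ⟨w0, hw0, hw0Q⟩ : ∃ w0 ∈ perp hf (W ⊔ Submodule.span F {u, y}), Q w0 ≠ 0 := by
      by_contra hcon
      push Not at hcon
      have h1 : perp hf (W ⊔ Submodule.span F {u, y}) ≤ W := by
        intro x hx
        have h2 : x ∈ perp hf (perp hf (W ⊔ Submodule.span F {u, y})) := fun z hz => ts_iso hf hcon hx hz
        rw [perp_perp] at h2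
        obtain ⟨a, ha, b, hb, rfl⟩ := Submodule.mem_sup.1 h2
        obtain ⟨c, d, rfl⟩ := Submodule.mem_span_pair.1 hb
        have h3 := hx u (Submodule.mem_sup_right (Submodule.subset_span (by simp)))
        have h4 := hx y (Submodule.mem_sup_right (Submodule.subset_span (by simp)))
        rw [hf.add_left, hf.add_left, hf.smul_left, hf.smul_left, hf.self_of huQ, hyu, hf.swap (huP a ha)] at h3
        rw [hf.add_left, hf.add_left, hf.smul_left, hf.smul_left, hf.self_of hyQ, huy, hf.swap (hy a ha)] at h4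
        have hd : d = 0 := by linear_combination h3
        have hc : c = 0 := by linear_combination h4
        rw [hc, hd, zero_smul, zero_smul, add_zero, add_zero]
        exact ha
      have h2 := Submodule.finrank_mono h1
      have h3 := finrank_perp hf (W ⊔ Submodule.span F {u, y})
      have h4 := Submodule.finrank_add_le_finrank_add_finrank W (Submodule.span F {u, y})
      have h5 := finrank_span_pair (F := F) u y
      omega
    have hw0P : w0 ∈ perp hf W := fun a ha => hw0 a (Submodule.mem_sup_left ha)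
    have hw0u : f w0 u = 0 := hw0 u (Submodule.mem_sup_right (Submodule.subset_span (by simp)))
    have hw0y : f w0 y = 0 := hw0 y (Submodule.mem_sup_right (Submodule.subset_span (by simp)))
    -- move u to a multiple of y
    set c := -(Q w0)⁻¹ with hc
    have hc0 : c ≠ 0 := neg_ne_zero.2 (inv_ne_zero hw0Q)
    set b := (-(Q w0)) • u + y + w0 with hb
    have hbP : b ∈ perp hf W := (perp hf W).add_mem ((perp hf W).add_mem ((perp hf W).smul_mem _ huP) hy) hw0P
    have hbQ : Q b = 0 := by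
      rw [hb, hf.add, hf.add, hf.smul, hf.smul_left, hf.add_left, hf.smul_left, huQ, hyQ, huy, hf.swap hw0u, hf.swap hw0y]; ring
    have hub : f u b = 1 := by
      rw [hb, hf.add_right, hf.add_right, hf.smul_right, hf.self_of huQ, huy, hf.swap hw0u]; ring
    have hyb : f (c • y) b = 1 := by
      rw [hf.smul_left, hb, hf.add_right, hf.add_right, hf.smul_right, hf.self_of hyQ, hyu, hf.swap hw0y, hc]
      field_simp; ring
    have hbd : f b (c • y - u) = 0 := by rw [← hf.symm, hf.sub_left, hyb, hub, sub_self]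
    obtain ⟨t, ht⟩ := exists_E hf hbQ hbd
    have htM : t ∈ M := hE2 b hbP hbQ _ ((perp hf W).sub_mem ((perp hf W).smul_mem _ hy) huP) hbd t ht
    have htu := move hf (by rw [hf.smul, huQ, hyQ]; ring) hbQ hub hyb ht
    have hXy : XE Q f M y := by
      have h1 := XE_map hf htM (ht.iso hf hbQ hbd) hXu
      rw [htu] at h1
      exact XE_of_smul hf hc0 h1
    -- move y out of W^⊥
    obtain ⟨w, hw, hwP⟩ := SetLike.not_le_iff_exists.1 (hnl u hu0 hgx)
    have huw := hf.swap ((mem_perp_one hf).1 hw)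
    obtain ⟨s, hs⟩ := exists_E hf huQ huw
    have hsM := hXu w s huw hs
    have hsi := hs.iso hf huQ huw
    refine hfin ⟨(s : Matrix ι ι F) *ᵥ y, by rw [hsi]; exact hyQ, ?_, XE_map hf hsM hsi hXy⟩
    intro h
    apply hwP
    rw [hs, hyu, one_smul] at h
    have h1 := (perp hf W).sub_mem ((perp hf W).add_mem h ((perp hf W).smul_mem (f y w + Q w * 1) huP)) hy
    have h2 : y + w - (f y w + Q w * 1) • u + (f y w + Q w * 1) • u - y = w := by abel
    rwa [h2] at h1

end CfsgH9.Og
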