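import Mathlib
import Cfsg.Agent.H9.Og8
import Cfsg.Agent.H9.IwaCos

set_option autoImplicit false

/-! Orthogonal groups: simplicity. -/

namespace CfsgH9.Og

open Matrix Cfsg Cfsg.Geo CfsgH9.Tv CfsgH9.Witt
open CfsgH9.MaxSymp (inv_mulVec mulVec_inv)
open CfsgH9.MaxRedSL (mem_stab_of mem_stab_iff)

variable {ι : Type} [Fintype ι] [DecidableEq ι] {F : Type*} [Field F]
variable {Q : (ι → F) → F} {f : (ι → F) → (ι → F) → F} {M : Subgroup (GL ι F)}

lemma coatom_of_max {G : Type*} [Group G] {K S : Subgroup G} (h : IsMaximalIn K (S ⊓ K)) : IsCoatom (S.subgroupOf K) := by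
  constructor
  · intro htop
    have h1 : K ≤ S := Subgroup.subgroupOf_eq_top.1 htop
    have h2 := h.1
    rw [inf_eq_right.2 h1] at h2
    exact lt_irrefl _ h2
  · intro H hH
    rcases h.2 (H.map K.subtype) (by
      rw [← Subgroup.subgroupOf_map_subtype]
      exact Subgroup.map_mono hH.le) (by
      rintro _ ⟨y, -, rfl⟩
      exact y.2) with h1 | h1
    · exfalso
      have h2 : H = S.subgroupOf K := by
        have h3 : H.map K.subtype = (S.subgroupOf K).map K.subtype := by
          rw [h1, Subgroup.subgroupOf_map_subtype]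
        exact Subgroup.map_injective K.subtype_injective h3
      rw [h2] at hH
      exact lt_irrefl _ hH
    · rw [eq_top_iff]
      intro x _
      have h2 : (x : G) ∈ H.map K.subtype := by rw [h1]; exact x.2
      obtain ⟨y, hy, hyx⟩ := h2
      have : y = x := Subtype.ext hyx
      rw [← this]; exact hy

lemma commutator_top {G : Type*} [Group G] {K : Subgroup G} (h : K ≤ ⁅K, K⁆) : commutator K = ⊤ := by
  have h1 : (commutator K).map K.subtype = ⁅K, K⁆ := by
    rw [commutator_def, Subgroup.map_commutator, ← MonoidHom.range_eq_map, Subgroup.range_subtype]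
  rw [eq_top_iff]
  intro x _
  have h2 : (x : G) ∈ (commutator K).map K.subtype := by rw [h1]; exact h x.2
  obtain ⟨y, hy, hyx⟩ := h2
  have : y = x := Subtype.ext hyx
  rw [← this]; exact hy

theorem simple_GL [Finite F] (hf : Qf Q f) (hn : 5 ≤ Fintype.card ι) :
    IsSimpleGroup (omegaGL Q ⧸ Subgroup.center (omegaGL Q)) := by
  obtain ⟨u, -, hu0, hu⟩ := exists_sing hf (E := ⊤) (by rw [finrank_top, Module.finrank_fintype_fun_eq_card]; omega)
  have hW0 : Submodule.span F {u} ≠ ⊥ := by rwa [Ne, Submodule.span_singleton_eq_bot]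
  have hW : ∀ x ∈ Submodule.span F {u}, Q x = 0 := by
    intro x hx
    obtain ⟨c, rfl⟩ := Submodule.mem_span_singleton.1 hx
    rw [hf.smul, hu, mul_zero]
  have hmax := par_max hf hn hW0 hW (fun h => by rw [finrank_span_singleton hu0] at h; omega)
  have hTK : ∀ {g : GL ι F}, g ∈ Tg Q f → g ∈ omegaGL Q := fun h => T_le_omega hf hn h
  let A : Subgroup (omegaGL Q) :=
    { carrier := {g | ∃ w, f u w = 0 ∧ IsE Q f (g : GL ι F) u w}
      mul_mem' := by
        rintro g h ⟨w, hw, hg⟩ ⟨w', hw', hh⟩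
        exact ⟨w + w', by rw [hf.add_right, hw, hw', add_zero], hg.mul hf hu hw hw' hh⟩
      one_mem' := ⟨0, hf.zero_right u, IsE.of_one hf u⟩
      inv_mem' := by
        rintro g ⟨w, hw, hg⟩
        exact ⟨-w, by rw [hf.neg_right, hw, neg_zero], hg.inv hf hu hw⟩ }
  have hnt : Nontrivial (omegaGL Q) := by
    obtain ⟨y, hy⟩ := exists_avoid hf ⊤ (Submodule.span F {u}) (k := 0) Fin.elim0 (by
      rw [finrank_span_singleton hu0, finrank_top, Module.finrank_fintype_fun_eq_card]; omega)
    obtain ⟨v, hv, huv⟩ := exists_partner hf hu0 hu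
    obtain ⟨z, hz, hz0, hzQ⟩ := exists_sing hf (E := perp hf (Submodule.span F {u, v})) (perp_pair_props hf hu hv huv hn).1
    obtain ⟨t, ht, htu⟩ := trans_T hf hn hu0 hz0 (by rw [hu, hzQ])
    refine ⟨⟨⟨t, hTK ht⟩, 1, ?_⟩⟩
    intro h
    have h1 : t = 1 := congrArg Subtype.val h
    rw [h1, Units.val_one, one_mulVec] at htu
    have h2 := ((mem_perp_pair hf).1 hz).2
    rw [← htu, huv] at h2
    exact one_ne_zero h2
  refine IwaCos.simple (coatom_of_max hmax) (A := A) ?_ ?_ ?_ ?_ ?_
  · rintro a ⟨w, hw, ha⟩ b ⟨w', hw', hb⟩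
    apply Subtype.ext
    have h1 := ha.mul hf hu hw hw' hb
    have h2 := hb.mul hf hu hw' hw ha
    rw [add_comm] at h2
    exact h1.unique h2
  · rintro ⟨h, hh⟩ hhS ⟨a, haK⟩ ⟨w, hw, ha⟩
    have hhi : Iso Q h := (mem_omega.1 hh).1
    have h1 := ((mem_stab_iff _ _).1 (Subgroup.mem_subgroupOf.1 hhS) u).1 (Submodule.mem_span_singleton_self u)
    obtain ⟨c, hc⟩ := Submodule.mem_span_singleton.1 h1
    have hc' : c • u = (h : Matrix ι ι F) *ᵥ u := hc
    have h2 := ha.conj hf hhi
    rw [← hc'] at h2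
    refine ⟨_, ?_, h2.smul hf⟩
    rw [hf.smul_right, ← hf.smul_left, hc', hhi.form hf, hw]
  · rw [eq_top_iff]
    have key : Tg Q f ≤ (Subgroup.normalClosure (A : Set (omegaGL Q))).map (omegaGL Q).subtype := by
      rw [Tg, Subgroup.closure_le]
      rintro g ⟨u', w, hu', huw, hg⟩
      by_cases hu'0 : u' = 0
      · rw [hu'0] at hg
        rw [E_zero hf hg]; exact Subgroup.one_mem _
      obtain ⟨t, ht, htu⟩ := trans_T hf hn hu0 hu'0 (by rw [hu, hu'])
      have hti := Tg_iso hf ht
      rw [← htu] at hg huw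
      have h1 := E_conj_inv hf hti hg
      have h2 : f u (((t⁻¹ : GL ι F) : Matrix ι ι F) *ᵥ w) = 0 := by
        rw [← hti.form hf, mulVec_inv]; exact huw
      have h3 : t⁻¹ * g * t ∈ omegaGL Q := hTK (E_mem hu h2 h1)
      have h4 : (⟨t⁻¹ * g * t, h3⟩ : omegaGL Q) ∈ Subgroup.normalClosure (A : Set (omegaGL Q)) :=
        Subgroup.subset_normalClosure ⟨_, h2, h1⟩
      have h5 := (Subgroup.normalClosure_normal (s := (A : Set (omegaGL Q)))).conj_mem _ h4 ⟨t, hTK ht⟩
      refine ⟨_, h5, ?_⟩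
      show t * (t⁻¹ * g * t) * t⁻¹ = g
      group
    intro x _
    have hx : (x : GL ι F) ∈ Tg Q f := omega_le_T hf hn x.2
    obtain ⟨y, hy, hyx⟩ := key hx
    have : y = x := Subtype.ext hyx
    rw [← this]; exact hy
  · apply commutator_top
    rw [omega_eq hf hn]
    exact T_perfect hf hn
  · intro g hg
    have h1 : ∀ y, Q y = 0 → ((g : GL ι F) : Matrix ι ι F) *ᵥ y ∈ Submodule.span F {y} := by
      intro y hy
      by_cases hy0 : y = 0
      · rw [hy0, mulVec_zero]; exact Submodule.zero_mem _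
      obtain ⟨t, ht, htu⟩ := trans_T hf hn hu0 hy0 (by rw [hu, hy])
      have h2 := hg (⟨t, hTK ht⟩ : omegaGL Q)⁻¹
      have h3 := ((mem_stab_iff _ _).1 (Subgroup.mem_subgroupOf.1 h2) u).1 (Submodule.mem_span_singleton_self u)
      obtain ⟨c, hc⟩ := Submodule.mem_span_singleton.1 h3
      have hc' : c • u = ((t⁻¹ * (g : GL ι F) * t⁻¹⁻¹ : GL ι F) : Matrix ι ι F) *ᵥ u := hc
      rw [inv_inv, Units.val_mul, Units.val_mul, ← mulVec_mulVec, ← mulVec_mulVec, htu] at hc'
      have h4 := congrArg (fun z => (t : Matrix ι ι F) *ᵥ z) hc'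
      rw [mulVec_inv, mulVec_smul, htu] at h4
      rw [← h4]
      exact Submodule.smul_mem _ _ (Submodule.mem_span_singleton_self y)
    obtain ⟨c, hc⟩ := scalar_of_pts hf hn h1
    rw [Subgroup.mem_center_iff]
    intro h
    apply Subtype.ext
    apply ext_mulVec
    intro x
    show (((h : GL ι F) * (g : GL ι F) : GL ι F) : Matrix ι ι F) *ᵥ x = (((g : GL ι F) * (h : GL ι F) : GL ι F) : Matrix ι ι F) *ᵥ x
    rw [Units.val_mul, Units.val_mul, ← mulVec_mulVec, ← mulVec_mulVec, hc, hc, mulVec_smul]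

/-- the two versions of Omega -/
noncomputable def omegaEquiv (Q : (ι → F) → F) : Omega F Q ≃* omegaGL Q :=
  (Omega F Q).equivMapOfInjective _ (isometryGroup F Q).subtype_injective

lemma simple_of_equiv {G H : Type*} [Group G] [Group H] (e : G ≃* H) [IsSimpleGroup (H ⧸ Subgroup.center H)] :
    IsSimpleGroup (G ⧸ Subgroup.center G) := by
  have e' : G ⧸ Subgroup.center G ≃* H ⧸ Subgroup.center H :=
    QuotientGroup.congr _ _ e (by
      ext x
      constructor
      · rintro ⟨y, hy, rfl⟩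
        rw [Subgroup.mem_center_iff]
        intro h
        obtain ⟨z, rfl⟩ := e.surjective h
        show e z * e y = e y * e z
        rw [← map_mul, ← map_mul, (Subgroup.mem_center_iff.1 hy) z]
      · intro hx
        refine ⟨e.symm x, ?_, by simp⟩
        show e.symm x ∈ Subgroup.center G
        rw [Subgroup.mem_center_iff]
        intro g
        apply e.injective
        rw [map_mul, map_mul, MulEquiv.apply_symm_apply]
        exact (Subgroup.mem_center_iff.1 hx) (e g))
  haveI : Nontrivial (G ⧸ Subgroup.center G) := e'.toEquiv.nontrivial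
  exact IsSimpleGroup.isSimpleGroup_of_surjective e'.symm.toMonoidHom e'.symm.surjective

theorem simple_POmega [Finite F] (hf : Qf Q f) (hn : 5 ≤ Fintype.card ι) : IsSimpleGroup (POmega F Q) := by
  haveI := simple_GL hf hn
  exact simple_of_equiv (omegaEquiv Q)

end CfsgH9.Og
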