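import Mathlib
import Cfsg.Agent.H9.Og9

set_option autoImplicit false

/-! Orthogonal groups: the scalar -1, centres, orders. -/

namespace CfsgH9.Og

open Matrix Cfsg Cfsg.Geo CfsgH9.Tv CfsgH9.Witt
open CfsgH9.MaxSymp (inv_mulVec mulVec_inv)
open CfsgH9.MaxRedSL (mem_stab_of mem_stab_iff)

variable {ι : Type} [Fintype ι] [DecidableEq ι] {F : Type*} [Field F]
variable {Q : (ι → F) → F} {f : (ι → F) → (ι → F) → F} {M : Subgroup (GL ι F)}

omit [DecidableEq ι] [Fintype ι] in
lemma sum_left (hf : Qf Q f) {κ : Type*} (s : Finset κ) (c : κ → F) (v : κ → ι → F) (y : ι → F) :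
    f (∑ k ∈ s, c k • v k) y = ∑ k ∈ s, c k * f (v k) y := by
  classical
  induction s using Finset.induction_on with
  | empty => simp [hf.zero_left]
  | insert k s hk ih => rw [Finset.sum_insert hk, Finset.sum_insert hk, hf.add_left, hf.smul_left, ih]

lemma exists_prod (hf : Qf Q f) {κ : Type*} [DecidableEq κ] (v : κ → ι → F) (hv : ∀ k, Q (v k) ≠ 0)
    (ho : ∀ k l, k ≠ l → f (v k) (v l) = 0) {A : Type*} [CommGroup A] (χ : isometryGroup F Q →* A) (a : κ → A)
    (ha : ∀ k r, IsR Q f ((r : isometryGroup F Q) : GL ι F) (v k) → χ r = a k) (s : Finset κ) :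
    ∃ g : isometryGroup F Q, (∀ x, ((g : GL ι F) : Matrix ι ι F) *ᵥ x = x - ∑ k ∈ s, ((Q (v k))⁻¹ * f x (v k)) • v k) ∧
      χ g = ∏ k ∈ s, a k := by
  induction s using Finset.induction_on with
  | empty => exact ⟨1, by intro x; simp, by simp⟩
  | insert k s hk ih =>
    obtain ⟨g, hg, hχ⟩ := ih
    obtain ⟨r, -, hr⟩ := exists_R_mem hf (hv k)
    refine ⟨r * g, ?_, ?_⟩
    · intro x
      have h0 : f (∑ l ∈ s, ((Q (v l))⁻¹ * f x (v l)) • v l) (v k) = 0 := by
        rw [sum_left hf]
        refine Finset.sum_eq_zero fun l hl => ?_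
        rw [ho l k (by rintro rfl; exact hk hl), mul_zero]
      rw [Subgroup.coe_mul, Units.val_mul, ← mulVec_mulVec, hg, hr, Finset.sum_insert hk, hf.sub_left, h0, sub_zero]
      module
    · rw [map_mul, Finset.prod_insert hk, ha k r hr, hχ]

lemma two_c {h2 : (2 : F) ≠ 0} : ∃ c : F, c ≠ 0 ∧ c ≠ 1 := by
  refine ⟨-1, by simp, fun h => h2 ?_⟩
  linear_combination -h

/-- when `-1` lies in `Ω` -/
theorem neg_one_mem [Fintype F] (hf : Qf Q f) (h2 : (2 : F) ≠ 0) (hn : 2 ≤ Fintype.card ι)
    {κ : Type*} [Fintype κ] [DecidableEq κ] (v : κ → ι → F) (hv : ∀ k, Q (v k) ≠ 0)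
    (ho : ∀ k l, k ≠ l → f (v k) (v l) = 0) (hs : ∀ x, ∑ k, ((Q (v k))⁻¹ * f x (v k)) • v k = (2 : F) • x)
    (hk : Even (Fintype.card κ)) :
    (∃ g : isometryGroup F Q, g ∈ commutator (isometryGroup F Q) ∧ ((g : GL ι F) : Matrix ι ι F) = -1) ↔
      IsSquare (∏ k, Q (v k)) := by
  classical
  have h4 : (∃ c : F, c ≠ 0 ∧ c ≠ 1) ∨ Fintype.card ι ≠ 4 := Or.inl (two_c (h2 := h2))
  obtain ⟨v0, a0, r0, s0, hB⟩ := exists_base hf h2 hn
  set ε := sHom Q 1 r0 with hε
  have hs0 : sHom Q 1 s0 = - ε := by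
    have := hB.sgn
    rw [← hε] at this
    rcases Int.units_eq_one_or ε with h | h <;> rw [h] at this ⊢
    · rw [one_mul] at this; exact this
    · rw [neg_one_mul] at this; rw [neg_neg]; exact neg_injective this
  obtain ⟨g, hg, hχ⟩ := exists_prod hf v hv ho (pHom hf h4)
    (fun k => ((-1 : ℤˣ), ε * (if IsSquare (Q (v k) * Q v0) then 1 else -1))) (by
      intro k t ht
      refine Prod.ext (dHom_R hf h4 ⟨_, hv k, ht⟩) ?_
      show sHom Q 1 t = _
      split_ifs with h
      · obtain ⟨c, hc⟩ := h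
        rw [mul_one]
        refine R_image hf (sHom Q 1) (hv k) (t := c * (Q v0)⁻¹) ?_ ht hB.hr
        have := hB.hv
        field_simp
        rw [pow_two, ← hc]
      · have h5 : IsSquare (Q (v k) * Q a0) := by
          have h6 := hB.nsq
          have h7 : quadraticChar F (Q (v k) * Q v0) = -1 := quadraticChar_neg_one_iff_not_isSquare.2 h
          have h8 : quadraticChar F (Q v0 * Q a0) = -1 := quadraticChar_neg_one_iff_not_isSquare.2 h6
          rw [← quadraticChar_one_iff_isSquare (mul_ne_zero (hv k) hB.ha)]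
          rw [map_mul] at h7 h8 ⊢
          rcases quadraticChar_dichotomy hB.hv with h9 | h9 <;> rw [h9] at h7 h8 <;> nlinarith
        obtain ⟨c, hc⟩ := h5
        rw [mul_neg, mul_one, ← hs0]
        refine R_image hf (sHom Q 1) (hv k) (t := c * (Q a0)⁻¹) ?_ ht hB.hs
        have := hB.ha
        field_simp
        rw [pow_two, ← hc]) Finset.univ
  have hg1 : ((g : GL ι F) : Matrix ι ι F) = -1 := by
    apply Matrix.ext_of_mulVec_single
    intro i
    rw [hg, hs, neg_mulVec, one_mulVec]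
    module
  have hg2 : (∃ g : isometryGroup F Q, g ∈ commutator (isometryGroup F Q) ∧ ((g : GL ι F) : Matrix ι ι F) = -1) ↔
      pHom hf h4 g = 1 := by
    rw [comm_odd hf h2 h4 hn]
    constructor
    · rintro ⟨g', hg', h⟩
      have : g' = g := Subtype.ext (Units.ext (h.trans hg1.symm))
      rw [← this]; exact hg'
    · intro h
      exact ⟨g, h, hg1⟩
  rw [hg2, hχ, ← quadraticChar_one_iff_isSquare (Finset.prod_ne_zero_iff.2 fun k _ => hv k)]
  rw [Prod.ext_iff, Prod.fst_prod, Prod.snd_prod]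
  simp only [Finset.prod_const, Finset.card_univ, Finset.prod_mul_distrib, Prod.fst_one, Prod.snd_one]
  have he : ∀ u : ℤˣ, u ^ Fintype.card κ = 1 := by
    intro u
    obtain ⟨j, hj⟩ := hk
    rw [hj, ← two_mul, pow_mul, pow_two, Int.units_mul_self, one_pow]
  rw [he, he, one_mul]
  have h5 : (((∏ k, (if IsSquare (Q (v k) * Q v0) then 1 else -1 : ℤˣ)) : ℤˣ) : ℤ) = quadraticChar F (∏ k, Q (v k)) := by
    rw [Units.coe_prod, map_prod]
    have h6 : ∀ k, (((if IsSquare (Q (v k) * Q v0) then 1 else -1 : ℤˣ)) : ℤ) = quadraticChar F (Q (v k)) * quadraticChar F (Q v0) := by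
      intro k
      rw [← map_mul]
      split_ifs with h
      · exact ((quadraticChar_one_iff_isSquare (mul_ne_zero (hv k) hB.hv)).2 h).symm
      · exact (quadraticChar_neg_one_iff_not_isSquare.2 h).symm
    rw [Finset.prod_congr rfl fun k _ => h6 k, Finset.prod_mul_distrib, Finset.prod_const, Finset.card_univ]
    have h7 : quadraticChar F (Q v0) ^ Fintype.card κ = 1 := by
      obtain ⟨j, hj⟩ := hk
      rw [hj, ← two_mul, pow_mul, quadraticChar_sq_one hB.hv, one_pow]
    rw [h7, mul_one]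
  constructor
  · rintro ⟨-, h⟩
    rw [← h5, h]; rfl
  · intro h
    refine ⟨rfl, ?_⟩
    apply Units.ext
    rw [h5, h]; rfl

lemma center_scalar [Finite F] (hf : Qf Q f) (hn : 5 ≤ Fintype.card ι) {z : Omega F Q} (hz : z ∈ Subgroup.center (Omega F Q)) :
    ∃ c : F, c * c = 1 ∧ ∀ x, (((z : isometryGroup F Q) : GL ι F) : Matrix ι ι F) *ᵥ x = c • x := by
  obtain ⟨c, hc⟩ := scalar_of_comm hf hn (iso_of (z : isometryGroup F Q)) (by
    intro g hg
    obtain ⟨hgi, hg'⟩ := mem_omega.1 (T_le_omega hf hn hg)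
    have h1 := (Subgroup.mem_center_iff.1 hz) ⟨mkO hgi, hg'⟩
    have h2 := congrArg (fun t : Omega F Q => ((t : isometryGroup F Q) : GL ι F)) h1
    exact h2.symm)
  refine ⟨c, ?_, hc⟩
  obtain ⟨e, he⟩ := exists_nonsing hf (by omega)
  have h1 := iso_of (z : isometryGroup F Q) e
  rw [hc, hf.smul] at h1
  exact mul_right_cancel₀ he (by rw [h1, one_mul])

lemma center_bot [Finite F] (hf : Qf Q f) (hn : 5 ≤ Fintype.card ι)
    (h : (2 : F) = 0 ∨ ¬ ∃ g : isometryGroup F Q, g ∈ commutator (isometryGroup F Q) ∧ ((g : GL ι F) : Matrix ι ι F) = -1) :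
    Subgroup.center (Omega F Q) = ⊥ := by
  rw [eq_bot_iff]
  intro z hz
  obtain ⟨c, hc, hz'⟩ := center_scalar hf hn hz
  have key : c = 1 := by
    rcases h with h | h
    · have h1 : (c - 1) * (c - 1) = 0 := by linear_combination hc - (c - 1) * h
      exact sub_eq_zero.1 (mul_self_eq_zero.1 h1)
    · rcases mul_self_eq_one_iff.1 hc with h1 | h1
      · exact h1
      · exfalso
        refine h ⟨z, z.2, ?_⟩
        apply Matrix.ext_of_mulVec_single
        intro i
        rw [hz', h1, neg_mulVec, one_mulVec, neg_one_smul]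
  rw [Subgroup.mem_bot]
  apply Subtype.ext
  apply Subtype.ext
  apply ext_mulVec
  intro x
  rw [hz', key, one_smul]
  show x = ((1 : GL ι F) : Matrix ι ι F) *ᵥ x
  rw [Units.val_one, one_mulVec]

lemma center_two [Finite F] (hf : Qf Q f) (hn : 5 ≤ Fintype.card ι) (h2 : (2 : F) ≠ 0)
    (h : ∃ g : isometryGroup F Q, g ∈ commutator (isometryGroup F Q) ∧ ((g : GL ι F) : Matrix ι ι F) = -1) :
    Nat.card (Subgroup.center (Omega F Q)) = 2 := by
  obtain ⟨g, hg, hg1⟩ := h
  haveI : Nonempty ι := Fintype.card_pos_iff.1 (by omega)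
  have hne : (⟨g, hg⟩ : Omega F Q) ≠ 1 := by
    intro h
    have h1 : ((g : GL ι F) : Matrix ι ι F) = 1 := by
      have := congrArg (fun t : Omega F Q => (((t : isometryGroup F Q) : GL ι F) : Matrix ι ι F)) h
      exact this
    rw [hg1] at h1
    obtain ⟨i⟩ := (inferInstance : Nonempty ι)
    have h3 := congrFun (congrFun h1 i) i
    rw [neg_apply, one_apply_eq] at h3
    apply h2
    linear_combination -h3
  have hset : (Subgroup.center (Omega F Q) : Set (Omega F Q)) = {1, ⟨g, hg⟩} := by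
    ext z
    rw [Set.mem_insert_iff, Set.mem_singleton_iff]
    constructor
    · intro hz
      obtain ⟨c, hc, hz'⟩ := center_scalar hf hn hz
      rcases mul_self_eq_one_iff.1 hc with h1 | h1
      · left
        apply Subtype.ext
        apply Subtype.ext
        apply ext_mulVec
        intro x
        rw [hz', h1, one_smul]
        show x = ((1 : GL ι F) : Matrix ι ι F) *ᵥ x
        rw [Units.val_one, one_mulVec]
      · right
        apply Subtype.ext
        apply Subtype.ext
        apply ext_mulVec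
        intro x
        rw [hz', h1, hg1, neg_mulVec, one_mulVec, neg_one_smul]
    · rintro (rfl | rfl)
      · exact Subgroup.one_mem _
      · show (⟨g, hg⟩ : Omega F Q) ∈ Subgroup.center (Omega F Q)
        rw [Subgroup.mem_center_iff]
        intro k
        apply Subtype.ext
        apply Subtype.ext
        apply Units.ext
        show (((k : isometryGroup F Q) : GL ι F) : Matrix ι ι F) * ((g : GL ι F) : Matrix ι ι F) = ((g : GL ι F) : Matrix ι ι F) * (((k : isometryGroup F Q) : GL ι F) : Matrix ι ι F)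
        rw [hg1, mul_neg, mul_one, neg_mul, one_mul]
  have h5 : Nat.card (Subgroup.center (Omega F Q)) = (Subgroup.center (Omega F Q) : Set (Omega F Q)).ncard :=
    Nat.card_coe_set_eq _
  rw [h5, hset, Set.ncard_pair hne.symm]

theorem card_POmega_odd [Fintype F] (hf : Qf Q f) (hn : 5 ≤ Fintype.card ι) (h2 : (2 : F) ≠ 0) :
    4 * (Nat.card (POmega F Q) * Nat.card (Subgroup.center (Omega F Q))) = Nat.card (isometryGroup F Q) := by
  rw [← Subgroup.card_eq_card_quotient_mul_card_subgroup, mul_comm,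
    ← index_odd hf h2 (Or.inl (two_c (h2 := h2))) (by omega), Subgroup.card_mul_index]

theorem card_POmega_even [Fintype F] (hf : Qf Q f) (hn : 5 ≤ Fintype.card ι) (h2 : (2 : F) = 0) :
    2 * Nat.card (POmega F Q) = Nat.card (isometryGroup F Q) := by
  have h1 := Subgroup.card_eq_card_quotient_mul_card_subgroup (Subgroup.center (Omega F Q))
  have h3 : Nat.card (Subgroup.center (Omega F Q)) = 1 := by
    rw [center_bot hf hn (Or.inl h2), Subgroup.card_bot]
  rw [h3, mul_one] at h1
  rw [← h1, mul_comm, ← index_even hf h2 (Or.inr (by omega)) (by omega), Subgroup.card_mul_index]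

end CfsgH9.Og
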