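import Mathlib
import Cfsg.Agent.H9.Og10
import Cfsg.Agent.H9.ClCount

set_option autoImplicit false

/-! Orthogonal groups: the standard forms and the scalar -1. -/

namespace CfsgH9.Og

open Matrix Cfsg Cfsg.Geo CfsgH9.Tv CfsgH9.Witt CfsgH9.ClForms

section
variable {F : Type*} [Field F]

/-- orthogonal basis of the plus form -/
def vPlus (m : ℕ) (F : Type*) [Field F] : Fin m ⊕ Fin m → (Fin m ⊕ Fin m → F)
  | Sum.inl i => Pi.single (Sum.inl i) 1 + Pi.single (Sum.inr i) 1
  | Sum.inr i => Pi.single (Sum.inl i) 1 - Pi.single (Sum.inr i) 1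

lemma polar_vPlus_inl (m : ℕ) (x : Fin m ⊕ Fin m → F) (i : Fin m) :
    QuadraticMap.polar (qPlus m F) x (vPlus m F (Sum.inl i)) = x (Sum.inl i) + x (Sum.inr i) := by
  rw [polar_plus]
  simp [vPlus, Pi.single_apply, Finset.sum_add_distrib]

lemma polar_vPlus_inr (m : ℕ) (x : Fin m ⊕ Fin m → F) (i : Fin m) :
    QuadraticMap.polar (qPlus m F) x (vPlus m F (Sum.inr i)) = x (Sum.inr i) - x (Sum.inl i) := by
  rw [polar_plus]
  simp [vPlus, Pi.single_apply, Finset.sum_add_distrib]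
  ring

lemma q_vPlus_inl (m : ℕ) (i : Fin m) : quadFormPlus m F (vPlus m F (Sum.inl i)) = 1 := by
  simp [quadFormPlus, vPlus, Pi.single_apply]

lemma q_vPlus_inr (m : ℕ) (i : Fin m) : quadFormPlus m F (vPlus m F (Sum.inr i)) = -1 := by
  simp [quadFormPlus, vPlus, Pi.single_apply]

theorem neg_one_plus [Fintype F] (h2 : (2 : F) ≠ 0) (m : ℕ) (hm : 1 ≤ m) :
    (∃ g : isometryGroup F (quadFormPlus m F), g ∈ commutator (isometryGroup F (quadFormPlus m F)) ∧
      ((g : GL (Fin m ⊕ Fin m) F) : Matrix (Fin m ⊕ Fin m) (Fin m ⊕ Fin m) F) = -1) ↔ IsSquare ((-1 : F) ^ m) := by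
  have hf := qf_of_quad (qPlus m F) (nondeg_plus m F)
  rw [qPlus_coe] at hf
  have hP : ∀ x y, QuadraticMap.polar (quadFormPlus m F) x y = QuadraticMap.polar (qPlus m F) x y := by
    intro x y; rw [qPlus_coe]
  rw [neg_one_mem hf h2 (by rw [Fintype.card_sum, Fintype.card_fin]; omega) (vPlus m F)]
  · rw [Fintype.prod_sum_type]
    simp only [q_vPlus_inl, q_vPlus_inr, Finset.prod_const_one, one_mul, Finset.prod_const, Finset.card_univ, Fintype.card_fin]
  · rintro (i | i)
    · rw [q_vPlus_inl]; exact one_ne_zero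
    · rw [q_vPlus_inr]; exact neg_ne_zero.2 one_ne_zero
  · rintro k (j | j) hkj <;> rcases k with i | i <;> rw [hP] <;> first | rw [polar_vPlus_inl] | rw [polar_vPlus_inr]
    · have : j ≠ i := fun h => hkj (by rw [h])
      simp [vPlus, Pi.single_apply, this]
    · simp [vPlus, Pi.single_apply]
    · simp [vPlus, Pi.single_apply]
    · have : j ≠ i := fun h => hkj (by rw [h])
      simp [vPlus, Pi.single_apply, this]
  · intro x
    rw [Fintype.sum_sum_type]
    simp only [q_vPlus_inl, q_vPlus_inr, hP, polar_vPlus_inl, polar_vPlus_inr]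
    ext j
    rcases j with j | j <;> simp [vPlus, Pi.single_apply, Finset.sum_apply] <;> ring
  · rw [Fintype.card_sum]; exact ⟨_, rfl⟩

/-- orthogonal basis of the minus form -/
def vMinus (m : ℕ) (a : F) : (Fin m ⊕ Fin m) ⊕ Fin 2 → ((Fin m ⊕ Fin m) ⊕ Fin 2 → F)
  | Sum.inl (Sum.inl i) => Pi.single (Sum.inl (Sum.inl i)) 1 + Pi.single (Sum.inl (Sum.inr i)) 1
  | Sum.inl (Sum.inr i) => Pi.single (Sum.inl (Sum.inl i)) 1 - Pi.single (Sum.inl (Sum.inr i)) 1
  | Sum.inr i => if i = 0 then Pi.single (Sum.inr 0) 1 else Pi.single (Sum.inr 1) 1 - (a / 2) • Pi.single (Sum.inr 0) 1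

lemma polar_vMinus_inl (m : ℕ) (a b : F) (x : (Fin m ⊕ Fin m) ⊕ Fin 2 → F) (i : Fin m) :
    QuadraticMap.polar (qMinus m a b) x (vMinus m a (Sum.inl (Sum.inl i))) = x (Sum.inl (Sum.inl i)) + x (Sum.inl (Sum.inr i)) := by
  rw [polar_minus]
  simp [vMinus, Pi.single_apply, Finset.sum_add_distrib]

lemma polar_vMinus_inr (m : ℕ) (a b : F) (x : (Fin m ⊕ Fin m) ⊕ Fin 2 → F) (i : Fin m) :
    QuadraticMap.polar (qMinus m a b) x (vMinus m a (Sum.inl (Sum.inr i))) = x (Sum.inl (Sum.inr i)) - x (Sum.inl (Sum.inl i)) := by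
  rw [polar_minus]
  simp [vMinus, Pi.single_apply, Finset.sum_add_distrib]
  ring

lemma polar_vMinus_zero (m : ℕ) (a b : F) (x : (Fin m ⊕ Fin m) ⊕ Fin 2 → F) :
    QuadraticMap.polar (qMinus m a b) x (vMinus m a (Sum.inr 0)) = 2 * x (Sum.inr 0) + a * x (Sum.inr 1) := by
  rw [polar_minus]
  simp [vMinus, Pi.single_apply]

lemma polar_vMinus_one (h2 : (2 : F) ≠ 0) (m : ℕ) (a b : F) (x : (Fin m ⊕ Fin m) ⊕ Fin 2 → F) :
    QuadraticMap.polar (qMinus m a b) x (vMinus m a (Sum.inr 1)) = 2 * (b - a ^ 2 / 4) * x (Sum.inr 1) := by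
  rw [polar_minus]
  have h4 : (4 : F) ≠ 0 := by
    have : (4 : F) = 2 * 2 := by norm_num
    rw [this]; exact mul_ne_zero h2 h2
  simp [vMinus, Pi.single_apply]
  field_simp
  ring

lemma q_vMinus_inl (m : ℕ) (a b : F) (i : Fin m) : quadFormMinus m F a b (vMinus m a (Sum.inl (Sum.inl i))) = 1 := by
  simp [quadFormMinus, vMinus, Pi.single_apply]

lemma q_vMinus_inr (m : ℕ) (a b : F) (i : Fin m) : quadFormMinus m F a b (vMinus m a (Sum.inl (Sum.inr i))) = -1 := by
  simp [quadFormMinus, vMinus, Pi.single_apply]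

lemma q_vMinus_zero (m : ℕ) (a b : F) : quadFormMinus m F a b (vMinus m a (Sum.inr 0)) = 1 := by
  simp [quadFormMinus, vMinus, Pi.single_apply]

lemma q_vMinus_one (h2 : (2 : F) ≠ 0) (m : ℕ) (a b : F) : quadFormMinus m F a b (vMinus m a (Sum.inr 1)) = b - a ^ 2 / 4 := by
  have h4 : (4 : F) ≠ 0 := by
    have : (4 : F) = 2 * 2 := by norm_num
    rw [this]; exact mul_ne_zero h2 h2
  simp [quadFormMinus, vMinus, Pi.single_apply]
  field_simp
  ring

lemma disc_nonsq (h2 : (2 : F) ≠ 0) {a b : F} (hab : ∀ z₁ z₂ : F, z₁ ^ 2 + a * z₁ * z₂ + b * z₂ ^ 2 = 0 → z₁ = 0 ∧ z₂ = 0) :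
    ¬ IsSquare (-(b - a ^ 2 / 4)) := by
  have h4 : (4 : F) ≠ 0 := by
    have : (4 : F) = 2 * 2 := by norm_num
    rw [this]; exact mul_ne_zero h2 h2
  rintro ⟨s, hs⟩
  have := (hab (s - a / 2) 1 (by
    have h5 : b = a ^ 2 / 4 - s * s := by linear_combination -hs
    rw [h5]; field_simp; ring)).2
  exact one_ne_zero this

theorem neg_one_minus [Fintype F] (h2 : (2 : F) ≠ 0) (m : ℕ) {a b : F}
    (hab : ∀ z₁ z₂ : F, z₁ ^ 2 + a * z₁ * z₂ + b * z₂ ^ 2 = 0 → z₁ = 0 ∧ z₂ = 0) :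
    (∃ g : isometryGroup F (quadFormMinus m F a b), g ∈ commutator (isometryGroup F (quadFormMinus m F a b)) ∧
      ((g : GL ((Fin m ⊕ Fin m) ⊕ Fin 2) F) : Matrix ((Fin m ⊕ Fin m) ⊕ Fin 2) ((Fin m ⊕ Fin m) ⊕ Fin 2) F) = -1) ↔
      ¬ IsSquare ((-1 : F) ^ (m + 1)) := by
  have hf := qf_of_quad (qMinus m a b) (nondeg_minus m hab)
  rw [qMinus_coe] at hf
  have hP : ∀ x y, QuadraticMap.polar (quadFormMinus m F a b) x y = QuadraticMap.polar (qMinus m a b) x y := by
    intro x y; rw [qMinus_coe]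
  have hd := disc_nonsq h2 hab
  have hd0 : b - a ^ 2 / 4 ≠ 0 := by
    intro h; apply hd; rw [h, neg_zero]; exact ⟨0, by simp⟩
  rw [neg_one_mem hf h2 (by rw [Fintype.card_sum, Fintype.card_sum, Fintype.card_fin, Fintype.card_fin]; omega) (vMinus m a)]
  · rw [Fintype.prod_sum_type, Fintype.prod_sum_type, Fin.prod_univ_two]
    simp only [q_vMinus_inl, q_vMinus_inr, q_vMinus_zero, q_vMinus_one h2, Finset.prod_const_one, one_mul, Finset.prod_const,
      Finset.card_univ, Fintype.card_fin]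
    have h1 : (-1 : F) ^ m * (b - a ^ 2 / 4) = (-1) ^ (m + 1) * (-(b - a ^ 2 / 4)) := by ring
    rw [h1]
    have hm0 : (-1 : F) ^ (m + 1) ≠ 0 := pow_ne_zero _ (neg_ne_zero.2 one_ne_zero)
    have hd1 : -(b - a ^ 2 / 4) ≠ 0 := neg_ne_zero.2 hd0
    classical
    rw [← quadraticChar_neg_one_iff_not_isSquare, ← quadraticChar_one_iff_isSquare (mul_ne_zero hm0 hd1), map_mul,
      quadraticChar_neg_one_iff_not_isSquare.2 hd]
    constructor <;> intro h <;> linarith
  · rintro ((i | i) | i)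
    · rw [q_vMinus_inl]; exact one_ne_zero
    · rw [q_vMinus_inr]; exact neg_ne_zero.2 one_ne_zero
    · fin_cases i
      · show quadFormMinus m F a b (vMinus m a (Sum.inr 0)) ≠ 0
        rw [q_vMinus_zero]; exact one_ne_zero
      · show quadFormMinus m F a b (vMinus m a (Sum.inr 1)) ≠ 0
        rw [q_vMinus_one h2]; exact hd0
  · have hp0 : ∀ x, QuadraticMap.polar (quadFormMinus m F a b) x (vMinus m a (Sum.inr 0)) = 2 * x (Sum.inr 0) + a * x (Sum.inr 1) :=
      fun x => by rw [hP, polar_vMinus_zero]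
    have hp1 : ∀ x, QuadraticMap.polar (quadFormMinus m F a b) x (vMinus m a (Sum.inr 1)) = 2 * (b - a ^ 2 / 4) * x (Sum.inr 1) :=
      fun x => by rw [hP, polar_vMinus_one h2]
    rintro k ((j | j) | j) hkj
    · rw [hP, polar_vMinus_inl]
      rcases k with (i | i) | i
      · have : j ≠ i := fun h => hkj (by rw [h])
        simp [vMinus, Pi.single_apply, this]
      · simp [vMinus, Pi.single_apply]
      · fin_cases i <;> simp [vMinus, Pi.single_apply]
    · rw [hP, polar_vMinus_inr]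
      rcases k with (i | i) | i
      · simp [vMinus, Pi.single_apply]
      · have : j ≠ i := fun h => hkj (by rw [h])
        simp [vMinus, Pi.single_apply, this]
      · fin_cases i <;> simp [vMinus, Pi.single_apply]
    · fin_cases j
      · show QuadraticMap.polar (quadFormMinus m F a b) (vMinus m a k) (vMinus m a (Sum.inr 0)) = 0
        rw [hp0]
        rcases k with (i | i) | i
        · simp [vMinus, Pi.single_apply]
        · simp [vMinus, Pi.single_apply]
        · fin_cases i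
          · exact absurd rfl hkj
          · simp [vMinus, Pi.single_apply]
            field_simp
            ring
      · show QuadraticMap.polar (quadFormMinus m F a b) (vMinus m a k) (vMinus m a (Sum.inr 1)) = 0
        rw [hp1]
        rcases k with (i | i) | i
        · simp [vMinus, Pi.single_apply]
        · simp [vMinus, Pi.single_apply]
        · fin_cases i
          · simp [vMinus, Pi.single_apply]
          · exact absurd rfl hkj
  · intro x
    rw [Fintype.sum_sum_type, Fintype.sum_sum_type, Fin.sum_univ_two]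
    simp only [q_vMinus_inl, q_vMinus_inr, q_vMinus_zero, q_vMinus_one h2, hP, polar_vMinus_inl, polar_vMinus_inr,
      polar_vMinus_zero, polar_vMinus_one h2]
    ext j
    rcases j with (j | j) | j
    · simp [vMinus, Pi.single_apply, Finset.sum_apply]; ring
    · simp [vMinus, Pi.single_apply, Finset.sum_apply]; ring
    · fin_cases j
      · simp [vMinus, Pi.single_apply, Finset.sum_apply]
        field_simp
        ring
      · simp [vMinus, Pi.single_apply, Finset.sum_apply]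
        field_simp
  · rw [Fintype.card_sum, Fintype.card_sum, Fintype.card_fin, Fintype.card_fin]; exact ⟨m + 1, by ring⟩

lemma pow_mod_four {q : ℕ} (hodd : Odd q) (m : ℕ) : (Even m → q ^ m % 4 = 1) ∧ (Odd m → q ^ m % 4 = q % 4) := by
  have h1 : q % 4 = 1 ∨ q % 4 = 3 := by
    obtain ⟨k, hk⟩ := hodd; omega
  have h2 : ∀ k, q ^ (2 * k) % 4 = 1 := by
    intro k
    have h3 : q ^ 2 % 4 = 1 := by
      rcases h1 with h | h <;> rw [Nat.pow_mod, h]
    rw [pow_mul, Nat.pow_mod, h3, one_pow]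
    rfl
  constructor
  · rintro ⟨k, rfl⟩
    rw [← two_mul]; exact h2 k
  · rintro ⟨k, rfl⟩
    rw [pow_succ, Nat.mul_mod, h2, one_mul, Nat.mod_mod]

lemma sq_neg_one [Fintype F] (hodd : Odd (Fintype.card F)) (m : ℕ) : IsSquare ((-1 : F) ^ m) ↔ Fintype.card F ^ m % 4 = 1 := by
  rcases Nat.even_or_odd m with hm | hm
  · rw [(pow_mod_four hodd m).1 hm, hm.neg_one_pow]
    exact ⟨fun _ => rfl, fun _ => ⟨1, by simp⟩⟩
  · rw [(pow_mod_four hodd m).2 hm, hm.neg_one_pow, FiniteField.isSquare_neg_one_iff]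
    obtain ⟨k, hk⟩ := hodd; omega

lemma two_ne [Fintype F] (hodd : Odd (Fintype.card F)) : (2 : F) ≠ 0 := by
  intro h
  haveI : CharP F 2 := CharTwo.of_one_ne_zero_of_two_eq_zero one_ne_zero h
  obtain ⟨n, hp, hn⟩ := FiniteField.card F 2
  rw [hn] at hodd
  exact (Nat.not_even_iff_odd.2 hodd) (Nat.even_pow.2 ⟨even_two, n.ne_zero⟩)

lemma two_eq [Fintype F] (hodd : ¬ Odd (Fintype.card F)) : (2 : F) = 0 := by
  by_contra h
  apply hodd
  have hF : ringChar F ≠ 2 := by
    intro h'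
    apply h
    have h1 : ((2 : ℕ) : F) = 0 := by rw [← h']; exact ringChar.Nat.cast_ringChar
    exact_mod_cast h1
  exact Nat.odd_iff.2 (FiniteField.odd_card_of_char_ne_two hF)

lemma gcd_two {x : ℕ} (h : x % 4 = 2) : Nat.gcd 4 x = 2 := by
  rw [Nat.gcd_rec, h]; rfl

theorem card_plus_odd [Fintype F] (hodd : Odd (Fintype.card F)) (m : ℕ) (hm : 3 ≤ m) :
    2 * (Nat.gcd 4 (Fintype.card F ^ m - 1) * Nat.card (POmega F (quadFormPlus m F))) = Nat.card (isometryGroup F (quadFormPlus m F)) := by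
  have h2 := two_ne hodd
  have hf := qf_of_quad (qPlus m F) (nondeg_plus m F)
  rw [qPlus_coe] at hf
  have hn : 5 ≤ Fintype.card (Fin m ⊕ Fin m) := by rw [Fintype.card_sum, Fintype.card_fin]; omega
  have h1 := card_POmega_odd hf hn h2
  have h3 := neg_one_plus h2 m (by omega)
  rw [sq_neg_one hodd] at h3
  have hqo : Odd (Fintype.card F ^ m) := hodd.pow
  have hpos : 0 < Fintype.card F ^ m := pow_pos Fintype.card_pos _
  rw [← h1]
  by_cases h : Fintype.card F ^ m % 4 = 1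
  · rw [center_two hf hn h2 (h3.2 h)]
    have : Nat.gcd 4 (Fintype.card F ^ m - 1) = 4 := Nat.gcd_eq_left (by omega)
    rw [this]; ring
  · rw [center_bot hf hn (Or.inr fun h' => h (h3.1 h')), Subgroup.card_bot]
    rw [gcd_two (by obtain ⟨k, hk⟩ := hqo; omega)]; ring

theorem card_minus_odd [Fintype F] (hodd : Odd (Fintype.card F)) (m : ℕ) (hm : 3 ≤ m) {a b : F}
    (hab : ∀ z₁ z₂ : F, z₁ ^ 2 + a * z₁ * z₂ + b * z₂ ^ 2 = 0 → z₁ = 0 ∧ z₂ = 0) :
    2 * (Nat.gcd 4 (Fintype.card F ^ m + 1) * Nat.card (POmega F (quadFormMinus (m - 1) F a b))) =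
      Nat.card (isometryGroup F (quadFormMinus (m - 1) F a b)) := by
  have h2 := two_ne hodd
  have hf := qf_of_quad (qMinus (m - 1) a b) (nondeg_minus (m - 1) hab)
  rw [qMinus_coe] at hf
  have hn : 5 ≤ Fintype.card ((Fin (m - 1) ⊕ Fin (m - 1)) ⊕ Fin 2) := by
    rw [Fintype.card_sum, Fintype.card_sum, Fintype.card_fin, Fintype.card_fin]; omega
  have h1 := card_POmega_odd hf hn h2
  have h3 := neg_one_minus h2 (m - 1) hab
  rw [sq_neg_one hodd, Nat.sub_add_cancel (by omega)] at h3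
  have hqo : Odd (Fintype.card F ^ m) := hodd.pow
  have hpos : 0 < Fintype.card F ^ m := pow_pos Fintype.card_pos _
  rw [← h1]
  by_cases h : Fintype.card F ^ m % 4 = 1
  · rw [center_bot hf hn (Or.inr fun h' => (h3.1 h') h), Subgroup.card_bot]
    rw [gcd_two (by obtain ⟨k, hk⟩ := hqo; omega)]; ring
  · rw [center_two hf hn h2 (h3.2 h)]
    have : Nat.gcd 4 (Fintype.card F ^ m + 1) = 4 := Nat.gcd_eq_left (by obtain ⟨k, hk⟩ := hqo; omega)
    rw [this]; ring

theorem card_oddDim [Fintype F] (hodd : Odd (Fintype.card F)) (m : ℕ) (hm : 2 ≤ m) :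
    4 * Nat.card (POmega F (quadFormOdd m F)) = Nat.card (isometryGroup F (quadFormOdd m F)) := by
  have h2 := two_ne hodd
  have hf := qf_of_quad (qOdd m F) (nondeg_odd m F h2)
  rw [qOdd_coe] at hf
  have hc : Fintype.card (Unit ⊕ (Fin m ⊕ Fin m)) = 2 * m + 1 := by
    rw [Fintype.card_sum, Fintype.card_sum, Fintype.card_fin, Fintype.card_unit]; omega
  have hn : 5 ≤ Fintype.card (Unit ⊕ (Fin m ⊕ Fin m)) := by rw [hc]; omega
  have h1 := card_POmega_odd hf hn h2
  rw [center_bot hf hn (Or.inr ?_), Subgroup.card_bot, mul_one] at h1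
  · exact h1
  · rintro ⟨g, hg, hg1⟩
    have h4 := det_eq hf (Or.inl (two_c (h2 := h2))) g
    have h5 : dHom hf (Or.inl (two_c (h2 := h2))) g = 1 := comm_le_ker _ hg
    rw [h5, hg1, det_neg, det_one, hc, mul_one, (show Odd (2 * m + 1) from ⟨m, rfl⟩).neg_one_pow, Units.val_one, Int.cast_one] at h4
    apply h2
    linear_combination -h4

end

end CfsgH9.Og
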