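import Mathlib
import Cfsg.Agent.H9.Og11

set_option autoImplicit false

/-! Orthogonal groups: orthonormal families, involutions. -/

namespace CfsgH9.Og

open Matrix Cfsg Cfsg.Geo CfsgH9.Tv CfsgH9.Witt

variable {ι : Type} [Fintype ι] [DecidableEq ι] {F : Type*} [Field F]
variable {Q : (ι → F) → F} {f : (ι → F) → (ι → F) → F} {M : Subgroup (GL ι F)}

omit [DecidableEq ι] [Fintype ι] in
lemma linInd (hf : Qf Q f) (h2 : (2 : F) ≠ 0) {κ : Type*} (v : κ → ι → F) (hv : ∀ k, Q (v k) ≠ 0)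
    (ho : ∀ k l, k ≠ l → f (v k) (v l) = 0) : LinearIndependent F v := by
  rw [linearIndependent_iff']
  intro s c hs i hi
  have h1 : f (∑ k ∈ s, c k • v k) (v i) = 0 := by rw [hs, hf.zero_left]
  rw [sum_left hf, Finset.sum_eq_single i, hf.self] at h1
  · rcases mul_eq_zero.1 h1 with h | h
    · exact h
    · exact absurd h (mul_ne_zero h2 (hv i))
  · intro k _ hk; rw [ho k i hk, mul_zero]
  · intro h; exact absurd hi h

omit [DecidableEq ι] in
lemma nonsing_perp (hf : Qf Q f) (h2 : (2 : F) ≠ 0) {κ : Type*} [Fintype κ] (v : κ → ι → F) (hv : ∀ k, Q (v k) ≠ 0)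
    (ho : ∀ k l, k ≠ l → f (v k) (v l) = 0) (hk : Fintype.card κ < Fintype.card ι) : ∃ e, Q e ≠ 0 ∧ ∀ k, f e (v k) = 0 := by
  classical
  have hmem : ∀ {z}, z ∈ perp hf (Submodule.span F (Set.range v)) ↔ ∀ k, f z (v k) = 0 := by
    intro z
    constructor
    · intro h k; exact h _ (Submodule.subset_span ⟨k, rfl⟩)
    · intro h w hw
      induction hw using Submodule.span_induction with
      | mem w hw => obtain ⟨k, rfl⟩ := hw; exact h k
      | zero => exact hf.zero_right z
      | add a b _ _ ha hb => rw [hf.add_right, ha, hb, add_zero]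
      | smul c a _ ha => rw [hf.smul_right, ha, mul_zero]
  have hne : perp hf (Submodule.span F (Set.range v)) ≠ ⊥ := by
    intro h
    have h1 := finrank_perp hf (Submodule.span F (Set.range v))
    rw [h, finrank_bot, zero_add] at h1
    have h3 : Module.finrank F (Submodule.span F (Set.range v)) ≤ Fintype.card κ := finrank_range_le_card v
    omega
  obtain ⟨z, hz, hz0⟩ := (Submodule.ne_bot_iff _).1 hne
  obtain ⟨y, hy⟩ := hf.nondeg z hz0
  have hy' : y - ∑ k, ((2 * Q (v k))⁻¹ * f y (v k)) • v k ∈ perp hf (Submodule.span F (Set.range v)) := by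
    rw [hmem]
    intro k
    rw [hf.sub_left, sum_left hf, Finset.sum_eq_single k, hf.self]
    · have hq := hv k
      field_simp
      ring
    · intro l _ hl; rw [ho l k hl, mul_zero]
    · intro h; exact absurd (Finset.mem_univ k) h
  have hzy : f z (y - ∑ k, ((2 * Q (v k))⁻¹ * f y (v k)) • v k) ≠ 0 := by
    rw [hf.symm, hf.sub_left, sum_left hf, Finset.sum_eq_zero, sub_zero, hf.symm]
    · exact hy
    · intro k _
      have := hmem.1 hz k
      rw [hf.symm] at this
      rw [this, mul_zero]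
  obtain ⟨e, he, heQ⟩ := exists_nonsing_in hf ⟨z, hz, _, hy', hzy⟩
  exact ⟨e, heQ, hmem.1 he⟩

omit [DecidableEq ι] in
lemma exists_onb [Finite F] (hf : Qf Q f) (h2 : (2 : F) ≠ 0) (k : ℕ) (hk : k + 1 ≤ Fintype.card ι) :
    ∃ v : Fin k → ι → F, (∀ i, Q (v i) = 1) ∧ ∀ i j, i ≠ j → f (v i) (v j) = 0 := by
  induction k with
  | zero => exact ⟨Fin.elim0, fun i => i.elim0, fun i => i.elim0⟩
  | succ k ih =>
    obtain ⟨v, hv, ho⟩ := ih (by omega)
    have hv' : ∀ i, Q (v i) ≠ 0 := fun i => by rw [hv]; exact one_ne_zero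
    obtain ⟨e, he, heo⟩ := nonsing_perp hf h2 v hv' ho (by rw [Fintype.card_fin]; omega)
    obtain ⟨e', he', heo'⟩ := nonsing_perp hf h2 (Fin.cons e v : Fin (k + 1) → ι → F) (by
      intro i; refine Fin.cases ?_ (fun i => ?_) i
      · exact he
      · exact hv' i) (by
      intro i j; refine Fin.cases ?_ (fun i => ?_) i <;> refine Fin.cases ?_ (fun j => ?_) j
      · intro h; exact absurd rfl h
      · intro _; exact heo j
      · intro _; rw [Fin.cons_succ, Fin.cons_zero, hf.symm]; exact heo i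
      · intro h; rw [Fin.cons_succ, Fin.cons_succ]; exact ho i j (fun h' => h (by rw [h']))) (by rw [Fintype.card_fin]; omega)
    obtain ⟨α, β, hαβ⟩ := Ort.binary_repr h2 he he' 1
    have hee' : f e e' = 0 := by
      have := heo' 0
      rw [Fin.cons_zero] at this
      rw [hf.symm]; exact this
    refine ⟨Fin.cons (α • e + β • e') v, ?_, ?_⟩
    · intro i; refine Fin.cases ?_ (fun i => ?_) i
      · rw [Fin.cons_zero, hf.add, hf.smul, hf.smul, hf.smul_left, hf.smul_right, hee']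
        linear_combination hαβ
      · exact hv i
    · have key : ∀ j, f (α • e + β • e') (v j) = 0 := by
        intro j
        have := heo' j.succ
        rw [Fin.cons_succ] at this
        rw [hf.add_left, hf.smul_left, hf.smul_left, heo j, this]; ring
      intro i j; refine Fin.cases ?_ (fun i => ?_) i <;> refine Fin.cases ?_ (fun j => ?_) j
      · intro h; exact absurd rfl h
      · intro _; exact key j
      · intro _; rw [Fin.cons_succ, Fin.cons_zero, hf.symm]; exact key i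
      · intro h; rw [Fin.cons_succ, Fin.cons_succ]; exact ho i j (fun h' => h (by rw [h']))

lemma finrank_Vg_prod (hf : Qf Q f) (h2 : (2 : F) ≠ 0) {κ : Type*} [DecidableEq κ] (v : κ → ι → F) (hv : ∀ k, Q (v k) ≠ 0)
    (ho : ∀ k l, k ≠ l → f (v k) (v l) = 0) (s : Finset κ) {g : GL ι F}
    (hg : ∀ x, (g : Matrix ι ι F) *ᵥ x = x - ∑ k ∈ s, ((Q (v k))⁻¹ * f x (v k)) • v k) :
    Module.finrank F (Vg g) = s.card := by
  have h1 : Vg g = Submodule.span F (Set.range fun k : s => v k) := by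
    apply le_antisymm
    · rintro w ⟨y, rfl⟩
      show y - (g : Matrix ι ι F) *ᵥ y ∈ _
      rw [hg, sub_sub_cancel]
      exact Submodule.sum_mem _ fun k hk => Submodule.smul_mem _ _ (Submodule.subset_span ⟨⟨k, hk⟩, rfl⟩)
    · rw [Submodule.span_le]
      rintro _ ⟨⟨k, hk⟩, rfl⟩
      refine mem_Vg.2 ⟨(2 : F)⁻¹ • v k, ?_⟩
      rw [hg, sub_sub_cancel, Finset.sum_eq_single k]
      · rw [hf.smul_left, hf.self]
        have : (Q (v k))⁻¹ * ((2 : F)⁻¹ * (2 * Q (v k))) = 1 := by
          have := hv k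
          field_simp
        rw [this, one_smul]
      · intro l _ hl; rw [hf.smul_left, ho k l (Ne.symm hl), mul_zero, mul_zero, zero_smul]
      · intro h; exact absurd hk h
  rw [h1, finrank_span_eq_card (linInd hf h2 (fun k : s => v k) (fun k => hv k) (fun k l hkl => ho k l (fun h => hkl (Subtype.ext h)))),
    Fintype.card_coe]

lemma finrank_Vg_conj (g h : GL ι F) : Module.finrank F (Vg (h * g * h⁻¹)) = Module.finrank F (Vg g) := by
  have key : ∀ g h : GL ι F, Module.finrank F (Vg (h * g * h⁻¹)) ≤ Module.finrank F (Vg g) := by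
    intro g h
    have h1 : Vg (h * g * h⁻¹) ≤ (Vg g).map (mulVecLin (h : Matrix ι ι F)) := by
      rintro w hw
      obtain ⟨y, rfl⟩ := mem_Vg.1 hw
      refine ⟨_, mem_Vg.2 ⟨((h⁻¹ : GL ι F) : Matrix ι ι F) *ᵥ y, rfl⟩, ?_⟩
      show (h : Matrix ι ι F) *ᵥ (_ - _) = _
      rw [mulVec_sub, mulVec_mulVec, mulVec_mulVec, mulVec_mulVec, ← Units.val_mul, mul_inv_cancel, Units.val_one, one_mulVec,
        Units.val_mul, Units.val_mul, Matrix.mul_assoc]
    exact (Submodule.finrank_mono h1).trans (Submodule.finrank_map_le _ _)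
  apply le_antisymm (key g h)
  have := key (h * g * h⁻¹) h⁻¹
  rwa [show h⁻¹ * (h * g * h⁻¹) * h⁻¹⁻¹ = g by group] at this

theorem exists_involutions [Fintype F] (hf : Qf Q f) (h2 : (2 : F) ≠ 0) (k : ℕ) (hk : 2 * k + 1 ≤ Fintype.card ι)
    (hn : 2 ≤ Fintype.card ι) (a : ℕ) (ha : a ≤ k) : ∃ g : Omega F Q, g * g = 1 ∧
      Module.finrank F (Vg ((g : isometryGroup F Q) : GL ι F)) = 2 * a := by
  have h4 : (∃ c : F, c ≠ 0 ∧ c ≠ 1) ∨ Fintype.card ι ≠ 4 := Or.inl (two_c (h2 := h2))
  obtain ⟨v, hv, ho⟩ := exists_onb hf h2 (2 * k) hk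
  have hv' : ∀ i, Q (v i) ≠ 0 := fun i => by rw [hv]; exact one_ne_zero
  by_cases hk0 : k = 0
  · refine ⟨1, by simp, ?_⟩
    have : a = 0 := by omega
    rw [this]
    show Module.finrank F (Vg (1 : GL ι F)) = 0
    have h1 : Vg (1 : GL ι F) = ⊥ := by
      rw [eq_bot_iff]
      rintro _ ⟨y, rfl⟩
      show y - ((1 : GL ι F) : Matrix ι ι F) *ᵥ y ∈ _
      rw [Units.val_one, one_mulVec, sub_self]; exact Submodule.zero_mem _
    rw [h1, finrank_bot]
  obtain ⟨r0, -, hr0⟩ := exists_R_mem hf (hv' ⟨0, by omega⟩)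
  obtain ⟨g, hg, hχ⟩ := exists_prod hf v hv' ho (pHom hf h4) (fun _ => pHom hf h4 r0) (by
    intro i r hr
    exact R_image hf _ (hv' i) (t := 1) (by rw [hv, hv]; ring) hr hr0) (Finset.univ.filter fun i : Fin (2 * k) => (i : ℕ) < 2 * a)
  have hcard : (Finset.univ.filter fun i : Fin (2 * k) => (i : ℕ) < 2 * a).card = 2 * a := by
    rw [Fin.card_filter_val_lt]; omega
  have hsq : ∀ u : ℤˣ × ℤˣ, u * u = 1 := fun u => Prod.ext (Int.units_mul_self _) (Int.units_mul_self _)
  have hg1 : pHom hf h4 g = 1 := by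
    rw [hχ, Finset.prod_const, hcard, pow_mul, pow_two, hsq, one_pow]
  have hgc : g ∈ commutator (isometryGroup F Q) := by rw [comm_odd hf h2 h4 hn]; exact hg1
  refine ⟨⟨g, hgc⟩, ?_, ?_⟩
  · apply Subtype.ext
    apply Subtype.ext
    apply ext_mulVec
    intro x
    show (((g : GL ι F) * (g : GL ι F) : GL ι F) : Matrix ι ι F) *ᵥ x = ((1 : GL ι F) : Matrix ι ι F) *ᵥ x
    rw [Units.val_mul, ← mulVec_mulVec, hg, hg x, Units.val_one, one_mulVec]
    have h5 : ∀ j ∈ (Finset.univ.filter fun i : Fin (2 * k) => (i : ℕ) < 2 * a),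
        f (x - ∑ i ∈ Finset.univ.filter fun i : Fin (2 * k) => (i : ℕ) < 2 * a, ((Q (v i))⁻¹ * f x (v i)) • v i) (v j) = - f x (v j) := by
      intro j hj
      rw [hf.sub_left, sum_left hf, Finset.sum_eq_single j, hf.self]
      · have := hv' j
        field_simp
        ring
      · intro l _ hl; rw [ho l j hl, mul_zero]
      · intro h; exact absurd hj h
    have h6 : (∑ j ∈ Finset.univ.filter fun i : Fin (2 * k) => (i : ℕ) < 2 * a, ((Q (v j))⁻¹ *
        f (x - ∑ i ∈ Finset.univ.filter fun i : Fin (2 * k) => (i : ℕ) < 2 * a, ((Q (v i))⁻¹ * f x (v i)) • v i) (v j)) • v j) =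
        - ∑ j ∈ Finset.univ.filter fun i : Fin (2 * k) => (i : ℕ) < 2 * a, ((Q (v j))⁻¹ * f x (v j)) • v j := by
      rw [← Finset.sum_neg_distrib]
      refine Finset.sum_congr rfl fun j hj => ?_
      rw [h5 j hj, mul_neg, neg_smul]
    rw [h6]
    abel
  · rw [← hcard]
    exact finrank_Vg_prod hf h2 v hv' ho _ hg

end CfsgH9.Og
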