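import Mathlib
import Cfsg.Agent.H9.Og12

set_option autoImplicit false

/-! Orthogonal groups: similarity of forms in odd dimension. -/

namespace CfsgH9.Og

open Matrix Cfsg Cfsg.Geo CfsgH9.Tv CfsgH9.Witt

variable {ι : Type} [Fintype ι] [DecidableEq ι] {F : Type*} [Field F]
variable {Q : (ι → F) → F} {f : (ι → F) → (ι → F) → F}

omit [DecidableEq ι] [Fintype ι] in
lemma Q_sum (hf : Qf Q f) {κ : Type*} (v : κ → ι → F) (ho : ∀ k l, k ≠ l → f (v k) (v l) = 0) (c : κ → F) (s : Finset κ) :
    Q (∑ k ∈ s, c k • v k) = ∑ k ∈ s, c k * c k * Q (v k) := by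
  classical
  induction s using Finset.induction_on with
  | empty => simp [hf.Q_zero]
  | insert k s hk ih =>
    have h0 : ∑ l ∈ s, c l * f (v l) (v k) = 0 := by
      refine Finset.sum_eq_zero fun l hl => ?_
      rw [ho l k (by rintro rfl; exact hk hl), mul_zero]
    rw [Finset.sum_insert hk, Finset.sum_insert hk, hf.add, hf.smul, ih, hf.smul_left, ← hf.symm, sum_left hf, h0,
      mul_zero, add_zero]

/-- an orthogonal basis with all norms but one equal to 1 -/
lemma exists_basis1 [Finite F] (hf : Qf Q f) (h2 : (2 : F) ≠ 0) (k : ℕ) (hk : Fintype.card ι = 2 * k + 1) :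
    ∃ (v : (Fin k ⊕ Fin k) ⊕ Unit → ι → F), (∀ i, Q (v (Sum.inl i)) = 1) ∧ Q (v (Sum.inr ())) ≠ 0 ∧
      ∀ i j, i ≠ j → f (v i) (v j) = 0 := by
  obtain ⟨v, hv, ho⟩ := exists_onb hf h2 (2 * k) (by omega)
  obtain ⟨e, he, heo⟩ := nonsing_perp hf h2 v (fun i => by rw [hv]; exact one_ne_zero) ho (by rw [Fintype.card_fin]; omega)
  let φ : Fin k ⊕ Fin k ≃ Fin (2 * k) := finSumFinEquiv.trans (finCongr (by ring))
  refine ⟨Sum.elim (fun i => v (φ i)) (fun _ => e), fun i => hv _, he, ?_⟩
  rintro (i | i) (j | j) hij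
  · exact ho _ _ (fun h => hij (by rw [φ.injective h]))
  · show f (v (φ i)) e = 0
    rw [hf.symm]; exact heo _
  · exact heo _
  · exact absurd rfl hij

theorem similar [Finite F] (h2 : (2 : F) ≠ 0) {Q' : (ι → F) → F} {f' : (ι → F) → (ι → F) → F} (hf : Qf Q f) (hf' : Qf Q' f')
    (k : ℕ) (hk : Fintype.card ι = 2 * k + 1) :
    ∃ (g : (ι → F) ≃ₗ[F] (ι → F)) (c : F), c ≠ 0 ∧ ∀ v, Q' (g v) = c * Q v := by
  classical
  obtain ⟨v, hv, hv0, ho⟩ := exists_basis1 hf h2 k hk
  obtain ⟨w, hw, hw0, ho'⟩ := exists_basis1 hf' h2 k hk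
  set d := Q (v (Sum.inr ())) with hd
  set d' := Q' (w (Sum.inr ())) with hd'
  obtain ⟨a, b, hab⟩ := Ort.binary_repr h2 (one_ne_zero (α := F)) (one_ne_zero (α := F)) (d * d')
  have hab' : a * a + b * b = d * d' := by linear_combination hab
  have hc : d * d' ≠ 0 := mul_ne_zero hv0 hw0
  let z : (Fin k ⊕ Fin k) ⊕ Unit → ι → F := fun i => match i with
    | Sum.inl (Sum.inl i) => a • w (Sum.inl (Sum.inl i)) + b • w (Sum.inl (Sum.inr i))
    | Sum.inl (Sum.inr i) => a • w (Sum.inl (Sum.inr i)) - b • w (Sum.inl (Sum.inl i))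
    | Sum.inr _ => d • w (Sum.inr ())
  have hzl : ∀ i, z (Sum.inl (Sum.inl i)) = a • w (Sum.inl (Sum.inl i)) + b • w (Sum.inl (Sum.inr i)) := fun _ => rfl
  have hzr : ∀ i, z (Sum.inl (Sum.inr i)) = a • w (Sum.inl (Sum.inr i)) - b • w (Sum.inl (Sum.inl i)) := fun _ => rfl
  have hzu : ∀ i, z (Sum.inr i) = d • w (Sum.inr ()) := fun _ => rfl
  have hself : ∀ i, f' (w (Sum.inl i)) (w (Sum.inl i)) = 2 := by
    intro i; rw [hf'.self, hw, mul_one]
  have hsub : ∀ x y, Q' (x - y) = Q' x + Q' y - f' x y := by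
    intro x y
    rw [sub_eq_add_neg, hf'.add, hf'.neg_right, ← neg_one_smul F y, hf'.smul]; ring
  have hzQ : ∀ i, Q' (z i) = d * d' * Q (v i) := by
    rintro ((i | i) | i)
    · rw [hzl, hf'.add, hf'.smul, hf'.smul, hf'.smul_left, hf'.smul_right, hw, hw, hv, ho' _ _ (by simp)]
      linear_combination hab'
    · rw [hzr, hsub, hf'.smul, hf'.smul, hf'.smul_left, hf'.smul_right, hw, hw, hv, ho' _ _ (by simp)]
      linear_combination hab'
    · rw [hzu i, hf'.smul, ← hd']
      show d * d * d' = d * d' * d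
      ring
  have hzo : ∀ i j, i ≠ j → f' (z i) (z j) = 0 := by
    rintro ((i | i) | i) ((j | j) | j) hij
    · have hne : i ≠ j := fun h => hij (by rw [h])
      rw [hzl, hzl, hf'.add_left, hf'.add_right, hf'.add_right]
      simp only [hf'.smul_left, hf'.smul_right]
      rw [ho' _ _ (by simpa using hne), ho' _ _ (by simp), ho' _ _ (by simp), ho' _ _ (by simpa using hne)]
      ring
    · rw [hzl, hzr, hf'.add_left, hf'.sub_right, hf'.sub_right]
      simp only [hf'.smul_left, hf'.smul_right]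
      by_cases hne : i = j
      · subst hne
        rw [hself, hself, ho' _ _ (by simp), ho' _ _ (by simp)]
        ring
      · rw [ho' _ _ (by simp), ho' _ _ (by simpa using hne), ho' _ _ (by simpa using hne), ho' _ _ (by simp)]
        ring
    · rw [hzl, hzu j, hf'.add_left]
      simp only [hf'.smul_left, hf'.smul_right]
      rw [ho' _ _ (by simp), ho' _ _ (by simp)]
      ring
    · rw [hzl, hzr, hf'.sub_left, hf'.add_right, hf'.add_right]
      simp only [hf'.smul_left, hf'.smul_right]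
      by_cases hne : i = j
      · subst hne
        rw [hself, hself, ho' _ _ (by simp), ho' _ _ (by simp)]
        ring
      · rw [ho' _ _ (by simp), ho' _ _ (by simpa using hne), ho' _ _ (by simpa using hne), ho' _ _ (by simp)]
        ring
    · have hne : i ≠ j := fun h => hij (by rw [h])
      rw [hzr, hzr, hf'.sub_left, hf'.sub_right, hf'.sub_right]
      simp only [hf'.smul_left, hf'.smul_right]
      rw [ho' _ _ (by simpa using hne), ho' _ _ (by simp), ho' _ _ (by simp), ho' _ _ (by simpa using hne)]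
      ring
    · rw [hzr, hzu j, hf'.sub_left]
      simp only [hf'.smul_left, hf'.smul_right]
      rw [ho' _ _ (by simp), ho' _ _ (by simp)]
      ring
    · rw [hzl, hzu i, hf'.add_right]
      simp only [hf'.smul_left, hf'.smul_right]
      rw [ho' _ _ (by simp), ho' _ _ (by simp)]
      ring
    · rw [hzr, hzu i, hf'.sub_right]
      simp only [hf'.smul_left, hf'.smul_right]
      rw [ho' _ _ (by simp), ho' _ _ (by simp)]
      ring
    · exact absurd rfl hij
  have hvQ : ∀ i, Q (v i) ≠ 0 := by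
    rintro (i | i)
    · rw [hv]; exact one_ne_zero
    · exact hv0
  have hcard : Fintype.card ((Fin k ⊕ Fin k) ⊕ Unit) = Module.finrank F (ι → F) := by
    rw [Module.finrank_fintype_fun_eq_card, hk, Fintype.card_sum, Fintype.card_sum, Fintype.card_fin, Fintype.card_unit]; ring
  haveI : Nonempty ((Fin k ⊕ Fin k) ⊕ Unit) := ⟨Sum.inr ()⟩
  let B := basisOfLinearIndependentOfCardEqFinrank (linInd hf h2 v hvQ ho) hcard
  let B' := basisOfLinearIndependentOfCardEqFinrank (linInd hf' h2 z (fun i => by rw [hzQ]; exact mul_ne_zero hc (hvQ i)) hzo) hcard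
  refine ⟨B.equiv B' (Equiv.refl _), d * d', hc, ?_⟩
  intro x
  have hx : x = ∑ i, B.repr x i • v i := by
    conv_lhs => rw [← B.sum_repr x]
    simp [B]
  have hgx : (B.equiv B' (Equiv.refl _)) x = ∑ i, B.repr x i • z i := by
    conv_lhs => rw [← B.sum_repr x, map_sum]
    refine Finset.sum_congr rfl fun i _ => ?_
    rw [map_smul, Module.Basis.equiv_apply]
    simp [B']
  rw [hgx, Q_sum hf' z hzo]
  conv_rhs => rw [hx, Q_sum hf v ho, Finset.mul_sum]
  refine Finset.sum_congr rfl fun i _ => ?_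
  rw [hzQ]; ring

end CfsgH9.Og
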