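import Mathlib
import Cfsg.Agent.H9.Og13

set_option autoImplicit false

/-! Orthogonal groups: the subgroups generated by the reflections of one square class. -/

namespace CfsgH9.Og

open Matrix Cfsg Cfsg.Geo CfsgH9.Tv CfsgH9.Witt

variable {ι : Type} [Fintype ι] [DecidableEq ι] {F : Type*} [Field F]
variable {Q : (ι → F) → F} {f : (ι → F) → (ι → F) → F}

/-- isometries with one dimensional residual space are reflections -/
lemma refl_of_one (hf : Qf Q f) {h : GL ι F} (hh : Iso Q h) (h1 : Module.finrank F (Vg h) = 1) :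
    ∃ b, Q b ≠ 0 ∧ IsR Q f h b := by
  obtain ⟨b, hb, hbs⟩ := finrank_eq_one_iff'.1 h1
  have hspan : Vg h = Submodule.span F {(b : ι → F)} := by
    apply le_antisymm
    · intro x hx
      obtain ⟨c, hc⟩ := hbs ⟨x, hx⟩
      exact Submodule.mem_span_singleton.2 ⟨c, congrArg Subtype.val hc⟩
    · rw [Submodule.span_singleton_le_iff_mem]; exact b.2
  have hb0 : (b : ι → F) ≠ 0 := fun h => hb (Subtype.ext h)
  obtain ⟨y, hy⟩ := hf.nondeg _ hb0
  rw [hf.symm] at hy
  have hyK : y ∉ Kg h := by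
    rw [Kg_eq hf hh, hspan, mem_perp_one]
    rw [hf.symm] at hy
    rw [hf.symm]; exact hy
  have h2 : y - (h : Matrix ι ι F) *ᵥ y ∈ Vg h := ⟨y, rfl⟩
  rw [hspan] at h2
  obtain ⟨c, hc⟩ := Submodule.mem_span_singleton.1 h2
  have hc0 : c ≠ 0 := by
    rintro rfl
    rw [zero_smul] at hc
    exact hyK (mem_Kg.2 (sub_eq_zero.1 hc.symm).symm)
  have h3 : Q (y - (h : Matrix ι ι F) *ᵥ y) = f y (y - (h : Matrix ι ι F) *ᵥ y) := by
    rw [hf.Q_sub, hh, hf.sub_right, hf.self]; ring
  have hyb : f y b ≠ 0 := by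
    intro h'; apply hy; rw [hf.symm] at h'; first | exact h' | (rw [hf.symm] at h'; exact h')
  have hQb : Q (b : ι → F) ≠ 0 := by
    intro h'
    rw [← hc, hf.smul, h', mul_zero, hf.smul_right] at h3
    exact (mul_ne_zero hc0 hyb) h3.symm
  refine ⟨b, hQb, ?_⟩
  obtain ⟨r, hr⟩ := exists_R hf hQb
  have h4 := rk_mem hf hh hQb hr b.2
  have h5 : Vg (r * h) = ⊥ := Submodule.finrank_eq_zero.1 (by omega)
  have h6 := Vg_eq_bot h5
  have h7 : h = r := by
    rw [← hr.inv_eq hf hQb]
    exact eq_inv_of_mul_eq_one_right h6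
  intro x
  rw [show (h : Matrix ι ι F) = (r : Matrix ι ι F) from congrArg Units.val h7]
  exact hr x

section odd

variable [Fintype F]

lemma sHom_R (hf : Qf Q f) (h2 : (2 : F) ≠ 0) {v0 a0 : ι → F} {r0 s0 : isometryGroup F Q} (hB : Base Q f v0 a0 r0 s0)
    {t : isometryGroup F Q} {u : ι → F} (hu : Q u ≠ 0) (ht : IsR Q f (t : GL ι F) u) :
    (IsSquare (Q u * Q v0) → sHom Q 1 t = sHom Q 1 r0) ∧ (¬ IsSquare (Q u * Q v0) → sHom Q 1 t = - sHom Q 1 r0) := by
  classical
  have hs0 : sHom Q 1 s0 = - sHom Q 1 r0 := by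
    have := hB.sgn
    rcases Int.units_eq_one_or (sHom Q 1 r0) with h | h <;> rw [h] at this ⊢
    · rw [one_mul] at this; exact this
    · rw [neg_one_mul] at this; rw [neg_neg]; exact neg_injective this
  constructor
  · rintro ⟨c, hc⟩
    refine R_image hf (sHom Q 1) hu (t := c * (Q v0)⁻¹) ?_ ht hB.hr
    have := hB.hv
    field_simp
    rw [pow_two, ← hc]
  · intro h
    have h5 : IsSquare (Q u * Q a0) := by
      have h6 := hB.nsq
      have h7 : quadraticChar F (Q u * Q v0) = -1 := quadraticChar_neg_one_iff_not_isSquare.2 h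
      have h8 : quadraticChar F (Q v0 * Q a0) = -1 := quadraticChar_neg_one_iff_not_isSquare.2 h6
      rw [← quadraticChar_one_iff_isSquare (mul_ne_zero hu hB.ha)]
      rw [map_mul] at h7 h8 ⊢
      rcases quadraticChar_dichotomy hB.hv with h9 | h9 <;> rw [h9] at h7 h8 <;> nlinarith
    obtain ⟨c, hc⟩ := h5
    rw [← hs0]
    refine R_image hf (sHom Q 1) hu (t := c * (Q a0)⁻¹) ?_ ht hB.hs
    have := hB.ha
    field_simp
    rw [pow_two, ← hc]

lemma sHom_eq_iff (hf : Qf Q f) (h2 : (2 : F) ≠ 0) (hn : 2 ≤ Fintype.card ι) {t s : isometryGroup F Q} {u v : ι → F}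
    (hu : Q u ≠ 0) (hv : Q v ≠ 0) (ht : IsR Q f (t : GL ι F) u) (hs : IsR Q f (s : GL ι F) v) :
    sHom Q 1 t = sHom Q 1 s ↔ IsSquare (Q u * Q v) := by
  classical
  obtain ⟨v0, a0, r0, s0, hB⟩ := exists_base hf h2 hn
  have hA := sHom_R hf h2 hB hu ht
  have hA' := sHom_R hf h2 hB hv hs
  have hne : sHom Q 1 r0 ≠ - sHom Q 1 r0 := by
    rcases Int.units_eq_one_or (sHom Q 1 r0) with h | h <;> rw [h] <;> decide
  have hq : quadraticChar F (Q u * Q v) = quadraticChar F (Q u * Q v0) * quadraticChar F (Q v * Q v0) := by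
    rw [map_mul, map_mul, map_mul]
    rcases quadraticChar_dichotomy hB.hv with h9 | h9 <;> rw [h9] <;> ring
  rw [← quadraticChar_one_iff_isSquare (mul_ne_zero hu hv), hq]
  by_cases h1 : IsSquare (Q u * Q v0) <;> by_cases h3 : IsSquare (Q v * Q v0)
  · rw [hA.1 h1, hA'.1 h3, (quadraticChar_one_iff_isSquare (mul_ne_zero hu hB.hv)).2 h1,
      (quadraticChar_one_iff_isSquare (mul_ne_zero hv hB.hv)).2 h3]
    simp
  · rw [hA.1 h1, hA'.2 h3, (quadraticChar_one_iff_isSquare (mul_ne_zero hu hB.hv)).2 h1,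
      quadraticChar_neg_one_iff_not_isSquare.2 h3]
    exact ⟨fun h => absurd h hne, fun h => absurd h (by decide)⟩
  · rw [hA.2 h1, hA'.1 h3, (quadraticChar_one_iff_isSquare (mul_ne_zero hv hB.hv)).2 h3,
      quadraticChar_neg_one_iff_not_isSquare.2 h1]
    exact ⟨fun h => absurd h.symm hne, fun h => absurd h (by decide)⟩
  · rw [hA.2 h1, hA'.2 h3, quadraticChar_neg_one_iff_not_isSquare.2 h1,
      quadraticChar_neg_one_iff_not_isSquare.2 h3]
    simp

/-- the generating set -/
def Cs (Q : (ι → F) → F) (f : (ι → F) → (ι → F) → F) (c : F) : Set (isometryGroup F Q) :=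
  {g | ∃ (v : ι → F) (t : F), t ≠ 0 ∧ Q v = c * t ^ 2 ∧ IsR Q f (g : GL ι F) v}

lemma mem_Cs {c : F} (hc : c ≠ 0) {g : isometryGroup F Q} {v : ι → F} (hv : Q v ≠ 0) (hg : IsR Q f (g : GL ι F) v)
    (h : IsSquare (c * Q v)) : g ∈ Cs Q f c := by
  obtain ⟨s, hs⟩ := h
  refine ⟨v, s / c, ?_, ?_, hg⟩
  · intro h'
    rcases div_eq_zero_iff.1 h' with h' | h'
    · rw [h', mul_zero] at hs
      exact (mul_ne_zero hc hv) hs
    · exact hc h'
  · field_simp
    rw [pow_two, ← hs]; ring

/-- nondegenerate planes -/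
lemma caseA (hf : Qf Q f) (h2 : (2 : F) ≠ 0) (hn : 2 ≤ Fintype.card ι) {c : F} (hc : c ≠ 0) {r s : isometryGroup F Q} {w w' : ι → F}
    (hw : Q w ≠ 0) (hw' : Q w' ≠ 0) (hr : IsR Q f (r : GL ι F) w) (hs : IsR Q f (s : GL ι F) w') (hsq : IsSquare (Q w * Q w'))
    (hnd : f w' w * f w' w ≠ 4 * Q w * Q w') : r * s ∈ Subgroup.closure (Cs Q f c) := by
  -- a vector of class c
  set e := w' - (f w' w / (2 * Q w)) • w with he
  have hew : f e w = 0 := by
    rw [he, hf.sub_left, hf.smul_left, hf.self]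
    field_simp
    ring
  have hQe : Q e ≠ 0 := by
    have h1 : Q e * (4 * Q w) = 4 * Q w * Q w' - f w' w * f w' w := by
      rw [he, hf.Q_sub, hf.smul, hf.smul_right]
      field_simp
      ring
    intro h
    rw [h, zero_mul] at h1
    exact hnd (sub_eq_zero.1 h1.symm).symm
  obtain ⟨α, β, hαβ⟩ := Ort.binary_repr h2 hw hQe c
  set a := α • w + β • e with ha
  have hQa : Q a = c := by
    rw [ha, hf.add, hf.smul, hf.smul, hf.smul_left, hf.smul_right, ← hf.symm, hew]
    linear_combination hαβ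
  have hQa0 : Q a ≠ 0 := by rw [hQa]; exact hc
  have hind : w ∉ Submodule.span F {w'} := by
    intro h
    obtain ⟨t, ht⟩ := Submodule.mem_span_singleton.1 h
    apply hnd
    rw [← ht, hf.smul, hf.smul_right, hf.self]; ring
  have hVr : w ∈ Vg ((r * s : isometryGroup F Q) : GL ι F) := Vg_two hf hw hw' hr hs hind
  have hK := K_notMem hf (hs.iso hf hw') hw hr (fun h' => hind (Vg_R_le hs h'))
  have hVs : w' ∈ Vg ((r * s : isometryGroup F Q) : GL ι F) := by
    show w' ∈ Vg ((r : GL ι F) * (s : GL ι F))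
    rw [hK]
    exact Submodule.mem_sup_left (mem_Vg_R hf hw' hs)
  have haV : a ∈ Vg ((r * s : isometryGroup F Q) : GL ι F) := by
    rw [ha, he]
    exact Submodule.add_mem _ (Submodule.smul_mem _ _ hVr) (Submodule.smul_mem _ _ (Submodule.sub_mem _ hVs (Submodule.smul_mem _ _ hVr)))
  have hrank : Module.finrank F (Vg ((r * s : isometryGroup F Q) : GL ι F)) = 2 := by
    have h1 := rk_notMem hf (hs.iso hf hw') hw hr (fun h' => hind (Vg_R_le hs h'))
    have h3 : Module.finrank F (Vg (s : GL ι F)) = 1 := by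
      have h4 : Vg (s : GL ι F) = Submodule.span F {w'} := by
        apply le_antisymm (Vg_R_le hs)
        rw [Submodule.span_singleton_le_iff_mem]; exact mem_Vg_R hf hw' hs
      rw [h4, finrank_span_singleton (by rintro rfl; exact hw' hf.Q_zero)]
    show Module.finrank F (Vg ((r : GL ι F) * (s : GL ι F))) = 2
    rw [h1, h3]
  obtain ⟨ra, -, hra⟩ := exists_R_mem hf hQa0
  have h5 := rk_mem hf (iso_of (r * s)) hQa0 hra haV
  obtain ⟨b, hb, hRb⟩ := refl_of_one hf ((hra.iso hf hQa0).mul (iso_of (r * s))) (by omega)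
  have hRb' : IsR Q f ((ra * (r * s) : isometryGroup F Q) : GL ι F) b := hRb
  have hsig : sHom Q 1 (ra * (r * s)) = sHom Q 1 ra := by
    rw [map_mul, map_mul, (sHom_eq_iff hf h2 hn hw hw' hr hs).2 hsq, Int.units_mul_self, mul_one]
  have hcls := (sHom_eq_iff hf h2 hn hb hQa0 hRb' hra).1 hsig
  rw [hQa, mul_comm] at hcls
  have h6 : ra * (r * s) ∈ Subgroup.closure (Cs Q f c) := Subgroup.subset_closure (mem_Cs hc hb hRb' hcls)
  have h7 : ra ∈ Subgroup.closure (Cs Q f c) := Subgroup.subset_closure (mem_Cs hc hQa0 hra (by rw [hQa]; exact ⟨c, rfl⟩))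
  have := Subgroup.mul_mem _ (Subgroup.inv_mem _ h7) h6
  rwa [inv_mul_cancel_left] at this

/-- an auxiliary vector for degenerate planes -/
lemma exists_aux (hf : Qf Q f) (h2 : (2 : F) ≠ 0) (hn : 3 ≤ Fintype.card ι) (hcond : 5 ≤ Fintype.card F ∨ 6 ≤ Fintype.card ι)
    {w u : ι → F} (hw : Q w ≠ 0) (hu : Q u = 0) (hu0 : u ≠ 0) (huw : f u w = 0) (d : F) (hd : d ≠ 0) :
    ∃ z, Q z = Q w ∧ f z w = 0 ∧ f z u * f z u ≠ d := by
  rcases hcond with hq | hn6
  · have hnu : u ∉ Submodule.span F {w} := by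
      intro h
      obtain ⟨t, ht⟩ := Submodule.mem_span_singleton.1 h
      rw [← ht, hf.smul] at hu
      have : t = 0 := by
        rcases mul_eq_zero.1 hu with h | h
        · exact mul_self_eq_zero.1 h
        · exact absurd h hw
      rw [this, zero_smul] at ht
      exact hu0 ht.symm
    obtain ⟨v, hv, hvu⟩ := exists_perp hf hnu
    rw [mem_perp_one] at hv
    obtain ⟨β, hβ0, hβ⟩ : ∃ β : F, β ≠ 0 ∧ β * β ≠ d := by
      classical
      by_contra hcon
      push Not at hcon
      have h1 : (Finset.univ : Finset F) ⊆ insert 0 (Finset.univ.filter fun β : F => β ^ 2 = d) := by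
        intro β _
        rw [Finset.mem_insert]
        by_cases h : β = 0
        · exact Or.inl h
        · right; rw [Finset.mem_filter]; exact ⟨Finset.mem_univ _, by rw [pow_two]; exact hcon β h⟩
      have h3 := Finset.card_le_card h1
      have h4 : (Finset.univ.filter fun β : F => β ^ 2 = d).card ≤ 2 := by
        by_cases he : ∃ β : F, β ^ 2 = d
        · obtain ⟨β, hβ⟩ := he
          have : (Finset.univ.filter fun x : F => x ^ 2 = d) ⊆ {β, -β} := by
            intro x hx
            rw [Finset.mem_filter] at hx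
            have h5 : x ^ 2 = β ^ 2 := by rw [hx.2, hβ]
            rw [Finset.mem_insert, Finset.mem_singleton]
            exact sq_eq_sq_iff_eq_or_eq_neg.1 h5
          exact (Finset.card_le_card this).trans (Finset.card_le_two)
        · push Not at he
          rw [Finset.filter_false_of_mem (fun x _ => he x)]
          simp
      have h5 := (Finset.card_insert_le (0 : F) (Finset.univ.filter fun β : F => β ^ 2 = d))
      rw [Finset.card_univ] at h3
      omega
    refine ⟨((Q w - β * β * Q v) / β) • u + β • v, ?_, ?_, ?_⟩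
    · rw [hf.add, hf.smul, hf.smul, hf.smul_left, hf.smul_right, hu]
      have : f u v = 1 := by rw [← hf.symm]; exact hvu
      rw [this]
      field_simp
      ring
    · rw [hf.add_left, hf.smul_left, hf.smul_left, huw, hv]; ring
    · rw [hf.add_left, hf.smul_left, hf.smul_left, hf.self, hu, hvu]
      simpa using hβ
  · -- large dimension: choose z orthogonal to u and w
    have key : ∀ W : Submodule F (ι → F), w ∈ W → Module.finrank F W ≤ 3 → ∃ e ∈ perp hf W, Q e ≠ 0 := by
      intro W hwW hW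
      by_contra hcon
      push Not at hcon
      have h1 : ∀ x ∈ perp hf W, ∀ y ∈ perp hf W, f x y = 0 := fun x hx y hy => ts_iso hf hcon hx hy
      have h3 : perp hf W ≤ perp hf (perp hf W) := fun x hx y hy => h1 x hx y hy
      rw [perp_perp] at h3
      have h4 := finrank_perp hf W
      have h5 := Submodule.finrank_mono h3
      have h6 : perp hf W = W := Submodule.eq_of_le_of_finrank_le h3 (by omega)
      exact hw (hcon w (by rw [h6]; exact hwW))
    obtain ⟨e, he, heQ⟩ := key (Submodule.span F {w, u}) (Submodule.subset_span (by simp))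
      ((finrank_span_pair w u).trans (by norm_num))
    rw [mem_perp_pair] at he
    obtain ⟨e', he', heQ'⟩ := key (Submodule.span F {w, u, e}) (Submodule.subset_span (by simp)) (finrank_span_triple w u e)
    have h1 : f e' w = 0 := he' w (Submodule.subset_span (by simp))
    have h3 : f e' u = 0 := he' u (Submodule.subset_span (by simp))
    have h4 : f e' e = 0 := he' e (Submodule.subset_span (by simp))
    obtain ⟨α, β, hαβ⟩ := Ort.binary_repr h2 heQ heQ' (Q w)
    refine ⟨α • e + β • e', ?_, ?_, ?_⟩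
    · rw [hf.add, hf.smul, hf.smul, hf.smul_left, hf.smul_right, ← hf.symm, h4]
      linear_combination hαβ
    · rw [hf.add_left, hf.smul_left, hf.smul_left, he.1, h1]; ring
    · rw [hf.add_left, hf.smul_left, hf.smul_left, he.2, h3]
      simpa using hd.symm

lemma claimA (hf : Qf Q f) (h2 : (2 : F) ≠ 0) (hn : 2 ≤ Fintype.card ι)
    (hcond : Fintype.card ι = 2 ∨ 5 ≤ Fintype.card F ∨ 6 ≤ Fintype.card ι) {c : F} (hc : c ≠ 0)
    {r s : isometryGroup F Q} {w w' : ι → F}
    (hw : Q w ≠ 0) (hw' : Q w' ≠ 0) (hr : IsR Q f (r : GL ι F) w) (hs : IsR Q f (s : GL ι F) w') (hsq : IsSquare (Q w * Q w')) :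
    r * s ∈ Subgroup.closure (Cs Q f c) := by
  by_cases hnd : f w' w * f w' w ≠ 4 * Q w * Q w'
  · exact caseA hf h2 hn hc hw hw' hr hs hsq hnd
  push Not at hnd
  set u := w' - (f w' w / (2 * Q w)) • w with hu
  have huw : f u w = 0 := by
    rw [hu, hf.sub_left, hf.smul_left, hf.self]
    field_simp
    ring
  have hQu : Q u = 0 := by
    have h1 : Q u * (4 * Q w) = 4 * Q w * Q w' - f w' w * f w' w := by
      rw [hu, hf.Q_sub, hf.smul, hf.smul_right]
      field_simp
      ring
    rw [hnd, sub_self] at h1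
    have h4 : (4 : F) ≠ 0 := by
      have : (4 : F) = 2 * 2 := by norm_num
      rw [this]; exact mul_ne_zero h2 h2
    exact (mul_eq_zero.1 h1).resolve_right (mul_ne_zero h4 hw)
  set l := f w' w / (2 * Q w) with hl
  have hw'e : w' = l • w + u := by rw [hu]; abel
  have hl2 : l * l * Q w = Q w' := by
    rw [hw'e, hf.add, hf.smul, hQu, hf.smul_left, ← hf.symm, huw]; ring
  have hl0 : l ≠ 0 := by
    intro h; rw [h] at hl2; apply hw'; rw [← hl2]; ring
  by_cases hu0 : u = 0
  · -- proportional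
    have h3 : r = s := by
      apply Subtype.ext
      apply ext_mulVec
      intro x
      rw [hr, hs, hw'e, hu0, add_zero, hf.smul, hf.smul_right, smul_smul]
      congr 2
      field_simp
    rw [h3, (show s * s = 1 from Subtype.ext (hs.sq hf hw'))]
    exact Subgroup.one_mem _
  have hn3 : 3 ≤ Fintype.card ι := by
    by_contra hlt
    -- in dimension two `u` is orthogonal to everything
    have h1 : Submodule.span F {w, u} = ⊤ := by
      have hnu : u ∉ Submodule.span F {w} := by
        intro h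
        obtain ⟨t, ht⟩ := Submodule.mem_span_singleton.1 h
        rw [← ht, hf.smul] at hQu
        have : t = 0 := by
          rcases mul_eq_zero.1 hQu with h | h
          · exact mul_self_eq_zero.1 h
          · exact absurd h hw
        rw [this, zero_smul] at ht
        exact hu0 ht.symm
      have h3 : Module.finrank F (Submodule.span F {w, u} : Submodule F (ι → F)) = 2 := by
        rw [Set.insert_eq, Submodule.span_union, finrank_sup_span_eq hnu,
          finrank_span_singleton (by rintro rfl; exact hw hf.Q_zero)]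
      apply Submodule.eq_top_of_finrank_eq
      rw [h3, Module.finrank_fintype_fun_eq_card]; omega
    obtain ⟨y, hy⟩ := hf.nondeg u hu0
    have h3 : u ∈ perp hf (Submodule.span F {w, u}) := mem_perp_pair hf |>.2 ⟨huw, by rw [hf.self, hQu, mul_zero]⟩
    rw [h1] at h3
    exact hy (h3 y trivial)
  obtain ⟨z, hz, hzw, hzu⟩ := exists_aux hf h2 hn3 (hcond.resolve_left (by omega)) hw hQu hu0 huw (4 * Q w' * Q w) (by
    have h4 : (4 : F) ≠ 0 := by
      have : (4 : F) = 2 * 2 := by norm_num
      rw [this]; exact mul_ne_zero h2 h2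
    exact mul_ne_zero (mul_ne_zero h4 hw') hw)
  have hz0 : Q z ≠ 0 := by rw [hz]; exact hw
  obtain ⟨t, -, ht⟩ := exists_R_mem hf hz0
  have h4 : (4 : F) ≠ 0 := by
    have : (4 : F) = 2 * 2 := by norm_num
    rw [this]; exact mul_ne_zero h2 h2
  have e1 : r * t ∈ Subgroup.closure (Cs Q f c) := caseA hf h2 hn hc hw hz0 hr ht ⟨Q w, by rw [hz]⟩ (by
    rw [hzw, mul_zero]; exact (mul_ne_zero (mul_ne_zero h4 hw) hz0).symm)
  have e2 : t * s ∈ Subgroup.closure (Cs Q f c) := caseA hf h2 hn hc hz0 hw' ht hs (by rw [hz]; exact hsq) (by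
    have h5 : f w' z = f z u := by
      rw [hw'e, hf.add_left, hf.smul_left]
      have : f w z = 0 := by rw [← hf.symm]; exact hzw
      rw [this, mul_zero, zero_add, ← hf.symm]
    rw [h5, hz]
    intro h; apply hzu; rw [h]; ring)
  have h6 := Subgroup.mul_mem _ e1 e2
  have h7 : r * t * (t * s) = r * s := by
    rw [mul_assoc, ← mul_assoc t, (show t * t = 1 from Subtype.ext (ht.sq hf hz0)), one_mul]
  rwa [h7] at h6

theorem index_class (hf : Qf Q f) (h2 : (2 : F) ≠ 0) (hn : 2 ≤ Fintype.card ι)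
    (hcond : Fintype.card ι = 2 ∨ 5 ≤ Fintype.card F ∨ 6 ≤ Fintype.card ι) {c : F} (hc : c ≠ 0) :
    (Subgroup.closure (Cs Q f c)).index = 2 := by
  classical
  have h4 : (∃ c : F, c ≠ 0 ∧ c ≠ 1) ∨ Fintype.card ι ≠ 4 := Or.inl (two_c (h2 := h2))
  obtain ⟨v0, a0, r0, s0, hB⟩ := exists_base hf h2 hn
  -- reflections in class c and not in class c
  obtain ⟨v, v', hv, hv', hvv'⟩ := exists_pair hf h2 hn
  obtain ⟨d, hd⟩ := exists_nonsq (F := F) h2
  have hex : ∀ e : F, e ≠ 0 → ∃ x, Q x = e := by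
    intro e _
    obtain ⟨α, β, hαβ⟩ := Ort.binary_repr h2 hv hv' e
    exact ⟨α • v + β • v', by
      rw [hf.add, hf.smul, hf.smul, hf.smul_left, hf.smul_right, hvv']
      linear_combination hαβ⟩
  have hd0 : d ≠ 0 := by rintro rfl; exact hd ⟨0, by simp⟩
  obtain ⟨x, hx⟩ := hex c hc
  obtain ⟨y, hy⟩ := hex (d * c) (mul_ne_zero hd0 hc)
  have hx0 : Q x ≠ 0 := by rw [hx]; exact hc
  have hy0 : Q y ≠ 0 := by rw [hy]; exact mul_ne_zero hd0 hc
  obtain ⟨rx, -, hrx⟩ := exists_R_mem hf hx0
  obtain ⟨ry, hryR, hry⟩ := exists_R_mem hf hy0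
  -- the homomorphism
  let χ : isometryGroup F Q →* ℤˣ := if sHom Q 1 rx = 1 then sHom Q 1 else (dHom hf h4) * (sHom Q 1)
  have hχ : ∀ t : isometryGroup F Q, ∀ u, Q u ≠ 0 → IsR Q f (t : GL ι F) u → (χ t = 1 ↔ IsSquare (c * Q u)) := by
    intro t u hu ht
    have h5 := sHom_eq_iff hf h2 hn hu hx0 ht hrx
    rw [hx, mul_comm] at h5
    rw [← h5]
    show (if sHom Q 1 rx = 1 then sHom Q 1 else (dHom hf h4) * (sHom Q 1)) t = 1 ↔ _
    split_ifs with h
    · rw [h]
    · have h6 : sHom Q 1 rx = -1 := (Int.units_eq_one_or _).resolve_left h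
      rw [h6, MonoidHom.mul_apply, dHom_R hf h4 ⟨u, hu, ht⟩]
      rcases Int.units_eq_one_or (sHom Q 1 t) with h7 | h7 <;> rw [h7] <;> decide
  have hle : Subgroup.closure (Cs Q f c) ≤ χ.ker := by
    rw [Subgroup.closure_le]
    rintro g ⟨u, t, ht, hu, hg⟩
    refine (hχ g u ?_ hg).2 ?_
    · rw [hu]; exact mul_ne_zero hc (pow_ne_zero _ ht)
    · rw [hu]; exact ⟨c * t, by ring⟩
  have hnorm : ∀ n ∈ Subgroup.closure (Cs Q f c), ∀ g : isometryGroup F Q, g * n * g⁻¹ ∈ Subgroup.closure (Cs Q f c) := by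
    intro n hn' g
    induction hn' using Subgroup.closure_induction with
    | mem n hn' =>
      obtain ⟨u, t, ht, hu, hg⟩ := hn'
      exact Subgroup.subset_closure ⟨_, t, ht, by rw [iso_of g u]; exact hu, hg.conj hf (iso_of g)⟩
    | one => rw [mul_one, mul_inv_cancel]; exact Subgroup.one_mem _
    | mul a b _ _ ha hb =>
      have : g * (a * b) * g⁻¹ = (g * a * g⁻¹) * (g * b * g⁻¹) := by group
      rw [this]; exact Subgroup.mul_mem _ ha hb
    | inv a _ ha =>
      have : g * a⁻¹ * g⁻¹ = (g * a * g⁻¹)⁻¹ := by group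
      rw [this]; exact Subgroup.inv_mem _ ha
  have hry2 : ry * ry = 1 := Subtype.ext (hry.sq hf hy0)
  have hryc : ¬ IsSquare (c * Q y) := by
    rw [hy]
    rintro ⟨t, ht⟩
    apply hd
    exact ⟨t / c, by field_simp; linear_combination ht⟩
  have hcos : ∀ g : isometryGroup F Q, g ∈ Subgroup.closure (Cs Q f c) ∨ ry * g ∈ Subgroup.closure (Cs Q f c) := by
    intro g
    refine refl_induction hf h4 (P := fun g => g ∈ Subgroup.closure (Cs Q f c) ∨ ry * g ∈ Subgroup.closure (Cs Q f c)) ?_ ?_ g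
    · exact Or.inl (Subgroup.one_mem _)
    · rintro r ⟨u, hu, hr⟩ g hg
      by_cases hcls : IsSquare (c * Q u)
      · have hrm : r ∈ Subgroup.closure (Cs Q f c) := Subgroup.subset_closure (mem_Cs hc hu hr hcls)
        rcases hg with hg | hg
        · exact Or.inl (Subgroup.mul_mem _ hrm hg)
        · right
          have := Subgroup.mul_mem _ (hnorm r hrm ry) hg
          rwa [show ry * r * ry⁻¹ * (ry * g) = ry * (r * g) by group] at this
      · have hsq : IsSquare (Q y * Q u) := by
          have h5 : quadraticChar F (c * Q u) = -1 := quadraticChar_neg_one_iff_not_isSquare.2 hcls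
          have h6 : quadraticChar F (c * Q y) = -1 := quadraticChar_neg_one_iff_not_isSquare.2 hryc
          rw [← quadraticChar_one_iff_isSquare (mul_ne_zero hy0 hu)]
          rw [map_mul] at h5 h6 ⊢
          rcases quadraticChar_dichotomy hc with h9 | h9 <;> rw [h9] at h5 h6 <;> nlinarith
        rcases hg with hg | hg
        · right
          rw [← mul_assoc]
          exact Subgroup.mul_mem _ (claimA hf h2 hn hcond hc hy0 hu hry hr hsq) hg
        · left
          have h7 := Subgroup.mul_mem _ (claimA hf h2 hn hcond hc hu hy0 hr hry (by rw [mul_comm]; exact hsq)) hg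
          have h8 : r * ry * (ry * g) = r * g := by rw [mul_assoc, ← mul_assoc ry, hry2, one_mul]
          rwa [h8] at h7
  have heq : Subgroup.closure (Cs Q f c) = χ.ker := by
    apply le_antisymm hle
    intro g hg
    rcases hcos g with h | h
    · exact h
    · exfalso
      have h5 : χ (ry * g) = 1 := hle h
      rw [map_mul, (hg : χ g = 1), mul_one] at h5
      exact hryc ((hχ ry y hy0 hry).1 h5)
  rw [heq, Subgroup.index_ker]
  have h6 : χ.range = ⊤ := by
    rw [eq_top_iff]
    rintro z -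
    rcases Int.units_eq_one_or z with rfl | rfl
    · exact Subgroup.one_mem _
    · refine ⟨ry, ?_⟩
      exact (Int.units_eq_one_or _).resolve_left (fun h => hryc ((hχ ry y hy0 hry).1 h))
  rw [h6, Subgroup.card_top, Nat.card_eq_fintype_card]
  rfl

end odd

end CfsgH9.Og
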