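import Mathlib
import Cfsg.Prelude.Def_GeometricClasses
import Cfsg.Agent.H9.Transv
import Cfsg.Agent.H9.MaxSymp
import Cfsg.Agent.H9.MaxImpSp
import Cfsg.Agent.H9.Og14

set_option autoImplicit false

/-! Decompositions over small fields: counting non-zero components. -/

namespace CfsgH9.NDec

open Matrix Cfsg Cfsg.Geo
open CfsgH9.MaxImpSp (glOf glOf_mulVec mem_decomp_of)
open CfsgH9.MaxSymp (inv_mulVec mulVec_inv)

variable {ι : Type} [Fintype ι] [DecidableEq ι] {F : Type*} [Field F] {t k : ℕ} {D : Fin t → Submodule F (ι → F)}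

omit [Fintype ι] [DecidableEq ι] in
lemma exists_cmp (hD : IsMDecomposition k D) (x : ι → F) : ∃ c : Fin t → (ι → F), (∀ i, c i ∈ D i) ∧ ∑ i, c i = x := by
  have h1 : x ∈ iSup D := by rw [hD.iSup_eq_top]; trivial
  obtain ⟨c, hc, hs⟩ := (Submodule.mem_iSup_iff_exists_finsupp _ _).1 h1
  refine ⟨c, hc, ?_⟩
  rw [← hs, Finsupp.sum_fintype _ _ (fun _ => rfl)]

/-- the components -/
noncomputable def cmp (hD : IsMDecomposition k D) (x : ι → F) : Fin t → (ι → F) := (exists_cmp hD x).choose

omit [Fintype ι] [DecidableEq ι] in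
lemma cmp_mem (hD : IsMDecomposition k D) (x : ι → F) (i : Fin t) : cmp hD x i ∈ D i := (exists_cmp hD x).choose_spec.1 i

omit [Fintype ι] [DecidableEq ι] in
lemma cmp_sum (hD : IsMDecomposition k D) (x : ι → F) : ∑ i, cmp hD x i = x := (exists_cmp hD x).choose_spec.2

omit [Fintype ι] [DecidableEq ι] in
lemma cmp_unique (hD : IsMDecomposition k D) {x : ι → F} {c : Fin t → (ι → F)} (hc : ∀ i, c i ∈ D i) (hs : ∑ i, c i = x) :
    cmp hD x = c := by
  funext i
  have := (iSupIndep_iff_finsetSum_eq_zero_imp_eq_zero D).1 hD.indep Finset.univ (fun i => cmp hD x i - c i)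
    (fun i _ => (D i).sub_mem (cmp_mem hD x i) (hc i)) (by rw [Finset.sum_sub_distrib, cmp_sum, hs, sub_self]) i (Finset.mem_univ i)
  exact sub_eq_zero.1 this

omit [Fintype ι] [DecidableEq ι] in
lemma cmp_add (hD : IsMDecomposition k D) (x y : ι → F) : cmp hD (x + y) = cmp hD x + cmp hD y :=
  cmp_unique hD (fun i => (D i).add_mem (cmp_mem hD x i) (cmp_mem hD y i)) (by
    simp only [Pi.add_apply, Finset.sum_add_distrib, cmp_sum])

omit [Fintype ι] [DecidableEq ι] in
lemma cmp_smul (hD : IsMDecomposition k D) (c : F) (x : ι → F) : cmp hD (c • x) = c • cmp hD x :=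
  cmp_unique hD (fun i => (D i).smul_mem c (cmp_mem hD x i)) (by
    simp only [Pi.smul_apply, ← Finset.smul_sum, cmp_sum])

omit [Fintype ι] [DecidableEq ι] in
lemma cmp_of_mem (hD : IsMDecomposition k D) {j : Fin t} {x : ι → F} (hx : x ∈ D j) : cmp hD x = Pi.single j x := by
  classical
  refine cmp_unique hD ?_ ?_
  · intro i
    by_cases h : i = j
    · subst h; rw [Pi.single_eq_same]; exact hx
    · rw [Pi.single_eq_of_ne h]; exact (D i).zero_mem
  · rw [Finset.sum_eq_single j]
    · rw [Pi.single_eq_same]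
    · intro i _ h; rw [Pi.single_eq_of_ne h]
    · intro h; exact absurd (Finset.mem_univ j) h

/-- component as a linear map -/
noncomputable def pr (hD : IsMDecomposition k D) (i : Fin t) : (ι → F) →ₗ[F] (ι → F) where
  toFun x := cmp hD x i
  map_add' x y := by rw [cmp_add]; rfl
  map_smul' c x := by rw [cmp_smul]; rfl

open Classical in
/-- the number of non-zero components -/
noncomputable def N (hD : IsMDecomposition k D) (x : ι → F) : F := ∑ i, if cmp hD x i = 0 then 0 else 1

lemma mulVec_eq_zero_iff (g : GL ι F) (x : ι → F) : (g : Matrix ι ι F) *ᵥ x = 0 ↔ x = 0 := by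
  constructor
  · intro h
    rw [← inv_mulVec g x, h, mulVec_zero]
  · rintro rfl; exact mulVec_zero _

lemma N_stab (hD : IsMDecomposition k D) {g : GL ι F} (hg : g ∈ decompositionStabilizer D) (x : ι → F) :
    N hD ((g : Matrix ι ι F) *ᵥ x) = N hD x := by
  classical
  obtain ⟨σ, hσ⟩ := hg
  have h1 : cmp hD ((g : Matrix ι ι F) *ᵥ x) = fun i => (g : Matrix ι ι F) *ᵥ cmp hD x (σ.symm i) := by
    refine cmp_unique hD ?_ ?_
    · intro i
      have h2 := hσ (σ.symm i)
      rw [Equiv.apply_symm_apply] at h2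
      rw [← h2]
      exact ⟨_, cmp_mem hD x _, by rw [toLin'_apply]⟩
    · rw [Equiv.sum_comp σ.symm (fun i => (g : Matrix ι ι F) *ᵥ cmp hD x i), ← mulVec_sum, cmp_sum]
  rw [N, h1, N]
  simp only [mulVec_eq_zero_iff]
  exact Equiv.sum_comp σ.symm (fun i => if cmp hD x i = 0 then (0 : F) else 1)

/-- the stabiliser of a function -/
def stabF (q : (ι → F) → F) : Subgroup (GL ι F) where
  carrier := {g | ∀ x, q ((g : Matrix ι ι F) *ᵥ x) = q x}
  mul_mem' {a b} ha hb := by
    intro x
    rw [Units.val_mul, ← mulVec_mulVec, ha, hb]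
  one_mem' := by intro x; rw [Units.val_one, one_mulVec]
  inv_mem' {a} ha := by
    intro x
    rw [← ha, mulVec_inv]

lemma N_add_of (hD : IsMDecomposition k D) {φ : (ι → F) → F} (hφ : ∀ x, φ x = ∑ i, φ (cmp hD x i)) {v : ι → F}
    (h : ∀ i, ∀ u ∈ D i, N hD (u + cmp hD v i) = N hD u + N hD (cmp hD v i) + φ u) (x : ι → F) :
    N hD (x + v) = N hD x + N hD v + φ x := by
  classical
  have h1 : ∀ y, N hD y = ∑ i, N hD (cmp hD y i) := by
    intro y
    rw [N]
    apply Finset.sum_congr rfl
    intro i _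
    rw [N, cmp_of_mem hD (cmp_mem hD y i), Finset.sum_eq_single i]
    · rw [Pi.single_eq_same]
    · intro j _ hj; rw [Pi.single_eq_of_ne hj, if_pos rfl]
    · intro h; exact absurd (Finset.mem_univ i) h
  rw [h1 (x + v), h1 x, h1 v, hφ x, ← Finset.sum_add_distrib, ← Finset.sum_add_distrib]
  apply Finset.sum_congr rfl
  intro i _
  rw [cmp_add, Pi.add_apply]
  exact h i _ (cmp_mem hD x i)

open Classical in
lemma N_of_mem (hD : IsMDecomposition k D) {j : Fin t} {x : ι → F} (hx : x ∈ D j) : N hD x = if x = 0 then 0 else 1 := by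
  rw [N, cmp_of_mem hD hx, Finset.sum_eq_single j]
  · rw [Pi.single_eq_same]
  · intro i _ hi; rw [Pi.single_eq_of_ne hi, if_pos rfl]
  · intro h; exact absurd (Finset.mem_univ j) h

/-- an element with two non-zero components is not in a member -/
lemma not_mem_of_two (hD : IsMDecomposition k D) {i j l : Fin t} {x : ι → F} (hij : i ≠ j) (hi : cmp hD x i ≠ 0)
    (hj : cmp hD x j ≠ 0) : x ∉ D l := by
  classical
  intro hx
  rw [cmp_of_mem hD hx] at hi hj
  apply hij
  rw [show i = l by by_contra h; exact hi (Pi.single_eq_of_ne h _), show j = l by by_contra h; exact hj (Pi.single_eq_of_ne h _)]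

/-- a transvection-like element -/
lemma exists_dil (φ : (ι → F) →ₗ[F] F) (v : ι → F) (h : 1 + φ v ≠ 0) :
    ∃ g : GL ι F, (∀ x, (g : Matrix ι ι F) *ᵥ x = x + φ x • v) ∧ (g : Matrix ι ι F).det = 1 + φ v := by
  set r : ι → F := fun i => φ (Pi.single i 1) with hr
  have hφ : ∀ x, φ x = r ⬝ᵥ x := by
    intro x
    conv_lhs => rw [pi_eq_sum_univ' x]
    rw [map_sum, dotProduct]
    apply Finset.sum_congr rfl
    intro i _
    rw [map_smul, smul_eq_mul, mul_comm]
  have hdet : (1 + vecMulVec v r : Matrix ι ι F).det = 1 + φ v := by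
    rw [hφ, ← det_one_add_replicateCol_mul_replicateRow (ι := Unit) v r]
    congr 2
    ext i j
    simp [vecMulVec, Matrix.mul_apply]
  refine ⟨Matrix.GeneralLinearGroup.mkOfDetNeZero (1 + vecMulVec v r) (by rw [hdet]; exact h), ?_, hdet⟩
  intro x
  show (1 + vecMulVec v r) *ᵥ x = _
  rw [add_mulVec, one_mulVec, vecMulVec_mulVec, hφ x]
  simp

lemma card_eq (hD : IsMDecomposition k D) : Fintype.card ι = t * k := by
  have hint := DirectSum.isInternal_submodule_of_iSupIndep_of_iSup_eq_top hD.indep hD.iSup_eq_top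
  have h1 := LinearEquiv.finrank_eq (LinearEquiv.ofBijective (DirectSum.coeLinearMap D) hint)
  rw [Module.finrank_directSum, Module.finrank_fintype_fun_eq_card] at h1
  rw [← h1]
  simp [hD.finrank_eq]

omit [Fintype ι] [DecidableEq ι] in
lemma exists_ne (hD : IsMDecomposition k D) (i : Fin t) : ∃ x ∈ D i, x ≠ 0 := by
  have h1 : D i ≠ ⊥ := by
    intro h
    have := hD.finrank_eq i
    have h2 := hD.pos
    rw [h, finrank_bot] at this
    omega
  exact (Submodule.ne_bot_iff _).1 h1

lemma el2 {F : Type*} [Field F] [Fintype F] (h : Fintype.card F = 2) (c : F) : c = 0 ∨ c = 1 := by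
  by_cases hc : c = 0
  · exact Or.inl hc
  · right
    have := FiniteField.pow_card_sub_one_eq_one c hc
    rwa [h, pow_one] at this

lemma char2 {F : Type*} [Field F] (h : ∀ c : F, c = 0 ∨ c = 1) : (1 : F) + 1 = 0 := by
  rcases h (1 + 1) with h1 | h1
  · exact h1
  · exact absurd (add_eq_left.1 h1) one_ne_zero

/-- planes over the field with two elements -/
lemma plane_span [Finite ι] {W : Submodule F (ι → F)} (h2 : ∀ c : F, c = 0 ∨ c = 1) (hW : Module.finrank F W = 2) {a u : ι → F} (ha : a ∈ W)
    (hu : u ∈ W) (ha0 : a ≠ 0) (hu0 : u ≠ 0) (hua : u ≠ a) {x : ι → F} (hx : x ∈ W) : ∃ s r : F, x = s • a + r • u := by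
  have hn : u ∉ Submodule.span F {a} := by
    intro hmem
    obtain ⟨c, hc⟩ := Submodule.mem_span_singleton.1 hmem
    rcases h2 c with rfl | rfl
    · rw [zero_smul] at hc; exact hu0 hc.symm
    · rw [one_smul] at hc; exact hua hc.symm
  have h3 : Submodule.span F {a} ⊔ Submodule.span F {u} = W := by
    apply Submodule.eq_of_le_of_finrank_eq
    · apply sup_le
      · rw [Submodule.span_singleton_le_iff_mem]; exact ha
      · rw [Submodule.span_singleton_le_iff_mem]; exact hu
    · rw [CfsgH9.Og.finrank_sup_span_eq hn, finrank_span_singleton ha0, hW]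
  rw [← h3] at hx
  obtain ⟨y, hy, z, hz, rfl⟩ := Submodule.mem_sup.1 hx
  obtain ⟨s, rfl⟩ := Submodule.mem_span_singleton.1 hy
  obtain ⟨r, rfl⟩ := Submodule.mem_span_singleton.1 hz
  exact ⟨s, r, rfl⟩

lemma add_self2 {F : Type*} [Field F] (h2 : ∀ c : F, c = 0 ∨ c = 1) {ι : Type} (u : ι → F) : u + u = 0 := by
  funext i
  have := char2 h2
  show u i + u i = 0
  linear_combination (u i) * this

section sp2

variable {f : (ι → F) → (ι → F) → F}

lemma toB_add (hf : IsSymplecticForm f) (x y z : ι → F) : f (x + y) z = f x z + f y z := hf.bilinear.add_left x y z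

/-- the quadratic form of the decomposition into planes -/
lemma N_polar (hf : IsSymplecticForm f) (h2 : ∀ c : F, c = 0 ∨ c = 1) {D : Fin t → Submodule F (ι → F)}
    (hD : IsNondegenerateMDecomposition f 2 D) (x v : ι → F) :
    N hD.decomp (x + v) = N hD.decomp x + N hD.decomp v + f x v := by
  classical
  have hb := hf.bilinear
  have hc2 := char2 h2
  have hsum : ∀ (c : Fin t → (ι → F)) (v : ι → F), f (∑ i, c i) v = ∑ i, f (c i) v := by
    intro c v
    have := map_sum ((CfsgH9.MaxRedSp.toB hb).flip v) c Finset.univ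
    exact this
  have hsum' : ∀ (c : Fin t → (ι → F)) (v : ι → F), f v (∑ i, c i) = ∑ i, f v (c i) := by
    intro c v
    have := map_sum (CfsgH9.MaxRedSp.toB hb v) c Finset.univ
    exact this
  refine N_add_of hD.decomp (φ := fun x => f x v) ?_ ?_ x
  · intro x
    show f x v = ∑ i, f (cmp hD.decomp x i) v
    rw [← hsum, cmp_sum]
  · intro i u hu
    have e1 : f u v = f u (cmp hD.decomp v i) := by
      conv_lhs => rw [← cmp_sum hD.decomp v]
      rw [hsum', Finset.sum_eq_single i]
      · intro j _ hj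
        exact hD.orthogonal i j (Ne.symm hj) u hu _ (cmp_mem hD.decomp v j)
      · intro h; exact absurd (Finset.mem_univ i) h
    show _ = _ + _ + f u v
    rw [e1]
    obtain ⟨a, ha⟩ : ∃ a, cmp hD.decomp v i = a := ⟨_, rfl⟩
    have haD : a ∈ D i := by rw [← ha]; exact cmp_mem hD.decomp v i
    rw [ha, N_of_mem hD.decomp ((D i).add_mem hu haD), N_of_mem hD.decomp hu, N_of_mem hD.decomp haD]
    by_cases hu0 : u = 0
    · rw [hu0, zero_add, if_pos rfl, zero_add, show f 0 a = 0 from by
        have := hb.smul_left 0 0 a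
        rwa [zero_smul, zero_mul] at this, add_zero]
    · by_cases ha0 : a = 0
      · rw [ha0, add_zero, if_pos rfl, add_zero, show f u 0 = 0 from by
          have := hb.smul_right 0 u 0
          rwa [zero_smul, zero_mul] at this, add_zero]
      · by_cases hua : u = a
        · rw [hua, if_pos (add_self2 h2 a), if_neg ha0, hf.alternating, hc2, add_zero]
        · have hne : u + a ≠ 0 := by
            intro h
            apply hua
            have := add_self2 h2 a
            rw [← h] at this
            exact (add_right_cancel this).symm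
          rw [if_neg hne, if_neg hu0, if_neg ha0]
          have h5 : f u a ≠ 0 := by
            intro h0
            obtain ⟨⟨x, hx, hxa⟩, -⟩ := hD.nondegenerate i a haD ha0
            obtain ⟨s, r, rfl⟩ := plane_span h2 (hD.decomp.finrank_eq i) haD hu ha0 hu0 hua hx
            apply hxa
            rw [hb.add_left, hb.smul_left, hb.smul_left, hf.alternating, h0, mul_zero, mul_zero, add_zero]
          rw [(h2 (f u a)).resolve_left h5, hc2, zero_add]

end sp2

end CfsgH9.NDec
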