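import Mathlib
import Cfsg.Prelude.Def_GeometricClasses
import Cfsg.Agent.H9.Transv
import Cfsg.Agent.H9.MaxSymp
import Cfsg.Agent.H9.NDec

set_option autoImplicit false

/-! Tensor product subgroups. -/

namespace CfsgH9.NTen

open Matrix Cfsg Cfsg.Geo
open scoped Kronecker
open CfsgH9.MaxSymp (inv_mulVec mulVec_inv)

variable {ι : Type} [Fintype ι] [DecidableEq ι] {F : Type*} [Field F] {n₁ n₂ : ℕ} {e : ι ≃ Fin n₁ × Fin n₂} {P : GL ι F}

/-- pure tensors -/
def T (e : ι ≃ Fin n₁ × Fin n₂) (P : GL ι F) (x : Fin n₁ → F) (y : Fin n₂ → F) : ι → F :=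
  (P : Matrix ι ι F) *ᵥ ((fun a : Fin n₁ × Fin n₂ => x a.1 * y a.2) ∘ e)

lemma T_add_left (x x' : Fin n₁ → F) (y : Fin n₂ → F) : T e P (x + x') y = T e P x y + T e P x' y := by
  rw [T, T, T, ← mulVec_add]
  congr 1
  funext i
  simp [add_mul]

lemma T_add_right (x : Fin n₁ → F) (y y' : Fin n₂ → F) : T e P x (y + y') = T e P x y + T e P x y' := by
  rw [T, T, T, ← mulVec_add]
  congr 1
  funext i
  simp [mul_add]

lemma T_smul_left (c : F) (x : Fin n₁ → F) (y : Fin n₂ → F) : T e P (c • x) y = c • T e P x y := by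
  rw [T, T, ← mulVec_smul]
  congr 1
  funext i
  simp [mul_assoc]

lemma T_smul_right (c : F) (x : Fin n₁ → F) (y : Fin n₂ → F) : T e P x (c • y) = c • T e P x y := by
  rw [T, T, ← mulVec_smul]
  congr 1
  funext i
  simp [mul_left_comm]

lemma T_inj {x x' : Fin n₁ → F} {y y' : Fin n₂ → F} (h : T e P x y = T e P x' y') (i : Fin n₁) (j : Fin n₂) :
    x i * y j = x' i * y' j := by
  have h1 := congrArg (fun v => ((P⁻¹ : GL ι F) : Matrix ι ι F) *ᵥ v) h
  simp only [T, inv_mulVec] at h1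
  have h2 := congrFun h1 (e.symm (i, j))
  simpa using h2

lemma T_eq_zero {x : Fin n₁ → F} {y : Fin n₂ → F} (h : T e P x y = 0) (hx : x ≠ 0) : y = 0 := by
  have h0 : T e P x y = T e P x 0 := by
    rw [h]
    have := T_smul_right (e := e) (P := P) 0 x y
    rw [zero_smul, zero_smul] at this
    exact this.symm
  obtain ⟨i, hi⟩ := Function.ne_iff.1 hx
  funext j
  have := T_inj h0 i j
  rw [Pi.zero_apply, mul_zero] at this
  exact (mul_eq_zero.1 this).resolve_left hi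

/-- elements of the tensor product subgroup act on pure tensors -/
lemma exists_of_mem {g : GL ι F} (hg : g ∈ tensorProductSubgroup n₁ n₂ e P) : ∃ (a : GL (Fin n₁) F) (b : GL (Fin n₂) F),
    ∀ x y, (g : Matrix ι ι F) *ᵥ T e P x y = T e P ((a : Matrix _ _ F) *ᵥ x) ((b : Matrix _ _ F) *ᵥ y) := by
  obtain ⟨g1, ⟨k, ⟨a, b, hk⟩, rfl⟩, rfl⟩ := hg
  refine ⟨a, b, ?_⟩
  intro x y
  have h1 : (((MulAut.conj P).toMonoidHom ((glReindex e.symm).toMonoidHom k) : GL ι F) : Matrix ι ι F) =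
      (P : Matrix ι ι F) * (Matrix.reindex e.symm e.symm (k : Matrix _ _ F)) * ((P⁻¹ : GL ι F) : Matrix ι ι F) := rfl
  rw [h1, T, T, ← mulVec_mulVec, ← mulVec_mulVec, inv_mulVec]
  congr 1
  funext i
  rw [hk]
  simp only [mulVec, dotProduct, reindex_apply, Equiv.symm_symm, submatrix_apply, Function.comp_apply]
  rw [Equiv.sum_comp e (fun p : Fin n₁ × Fin n₂ => ((a : Matrix _ _ F) ⊗ₖ (b : Matrix _ _ F)) (e i) p * (x p.1 * y p.2))]
  rw [Fintype.sum_prod_type, Finset.sum_mul_sum]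
  apply Finset.sum_congr rfl
  intro i' _
  apply Finset.sum_congr rfl
  intro j' _
  rw [kroneckerMap_apply]
  ring

/-- expansion of a sesquilinear form -/
lemma expand {κ : Type} [Fintype κ] [DecidableEq κ] {σ : F → F} {f : (κ → F) → (κ → F) → F}
    (h1 : ∀ x y z, f (x + y) z = f x z + f y z) (h2 : ∀ (c : F) x y, f (c • x) y = c * f x y)
    (h3 : ∀ x y z, f x (y + z) = f x y + f x z) (h4 : ∀ (c : F) x y, f x (c • y) = σ c * f x y) (x y : κ → F) :
    f x y = ∑ a, ∑ b, x a * f (Pi.single a 1) (Pi.single b 1) * σ (y b) := by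
  have e1 : ∀ (s : Finset κ) (g : κ → (κ → F)) z, f (∑ i ∈ s, g i) z = ∑ i ∈ s, f (g i) z := by
    intro s g z
    have h0 : f 0 z = 0 := by have := h2 0 0 z; rwa [zero_smul, zero_mul] at this
    let φ : (κ → F) →+ F := { toFun := fun x => f x z, map_zero' := h0, map_add' := fun x y => h1 x y z }
    exact map_sum φ g s
  have e2 : ∀ (s : Finset κ) (g : κ → (κ → F)) z, f z (∑ i ∈ s, g i) = ∑ i ∈ s, f z (g i) := by
    intro s g z
    have h0 : f z 0 = 0 := by have := h3 z 0 0; rw [add_zero] at this; exact (add_eq_left.1 this.symm)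
    let φ : (κ → F) →+ F := { toFun := fun x => f z x, map_zero' := h0, map_add' := fun x y => h3 z x y }
    exact map_sum φ g s
  conv_lhs => rw [pi_eq_sum_univ' x, pi_eq_sum_univ' y]
  rw [e1]
  apply Finset.sum_congr rfl
  intro a _
  rw [e2]
  apply Finset.sum_congr rfl
  intro b _
  rw [h2, h4]; ring

/-- the form on pure tensors -/
lemma T_form {σ : F → F} (hσ : ∀ a b, σ (a * b) = σ a * σ b) {f : (ι → F) → (ι → F) → F} {f₁ : (Fin n₁ → F) → (Fin n₁ → F) → F}
    {f₂ : (Fin n₂ → F) → (Fin n₂ → F) → F}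
    (h1 : ∀ x y, f₁ x y = ∑ a, ∑ b, x a * f₁ (Pi.single a 1) (Pi.single b 1) * σ (y b))
    (h2 : ∀ x y, f₂ x y = ∑ a, ∑ b, x a * f₂ (Pi.single a 1) (Pi.single b 1) * σ (y b))
    (hT : IsTensorFormStructure σ f f₁ f₂ e P) : ∃ c : F, c ≠ 0 ∧ ∀ x y x' y', f (T e P x y) (T e P x' y') = c * (f₁ x x' * f₂ y y') := by
  obtain ⟨c, hc, h⟩ := hT
  refine ⟨c, hc, ?_⟩
  intro x y x' y'
  rw [T, T, h, h1 x x', h2 y y', formOfGram]
  congr 1
  rw [Finset.sum_mul_sum, Fintype.sum_prod_type]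
  apply Finset.sum_congr rfl
  intro i _
  apply Finset.sum_congr rfl
  intro j _
  rw [Finset.sum_mul_sum, Fintype.sum_prod_type]
  apply Finset.sum_congr rfl
  intro i' _
  apply Finset.sum_congr rfl
  intro j' _
  rw [hσ, kroneckerMap_apply, gramMatrix, gramMatrix]
  ring

end CfsgH9.NTen
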