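import Mathlib
import Cfsg.Prelude.Def_GeometricClasses
import Cfsg.Agent.H9.MaxRedSp
import Cfsg.Agent.H9.NTen

set_option autoImplicit false

/-! The orthogonal frame of a three-dimensional quadratic space over the field with three elements. -/

namespace CfsgH9.Frame3

open Matrix Cfsg Cfsg.Geo

variable {F : Type*} [Field F]

lemma three [Fintype F] (hq : Fintype.card F = 3) : (3 : F) = 0 := by
  have h1 : ((Fintype.card F : ℕ) : F) = 0 := FiniteField.cast_card_eq_zero F
  rw [hq] at h1
  exact_mod_cast h1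

lemma sq_one [Fintype F] (hq : Fintype.card F = 3) {c : F} (hc : c ≠ 0) : c * c = 1 := by
  have := FiniteField.pow_card_sub_one_eq_one c hc
  rw [hq] at this
  rw [← this]; ring

lemma eq_pm [Fintype F] (hq : Fintype.card F = 3) {c : F} (hc : c ≠ 0) : c = 1 ∨ c = -1 := by
  have h := sq_one hq hc
  have h1 : (c - 1) * (c + 1) = 0 := by linear_combination h
  rcases mul_eq_zero.1 h1 with h2 | h2
  · left; linear_combination h2
  · right; linear_combination h2

/-- an orthogonal frame with equal values -/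
structure Fr (g : (Fin 3 → F) → (Fin 3 → F) → F) (ε : F) (a : Fin 3 → (Fin 3 → F)) : Prop where
  ne : ε ≠ 0
  val : ∀ i j, g (a i) (a j) = if i = j then ε else 0

lemma mk_frame {g : (Fin 3 → F) → (Fin 3 → F) → F} (hg : IsSymmetricForm g) (h3 : (3 : F) = 0) {x y z : Fin 3 → F} {d : F} (hd : d ≠ 0)
    (hx : g x x = d) (hy : g y y = d) (hz : g z z = -d) (hxy : g x y = 0) (hxz : g x z = 0) (hyz : g y z = 0) :
    ∃ ε a, Fr g ε a := by
  have hb := hg.bilinear
  have hyx : g y x = 0 := by rw [hg.symm]; exact hxy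
  have hzx : g z x = 0 := by rw [hg.symm]; exact hxz
  have hzy : g z y = 0 := by rw [hg.symm]; exact hyz
  refine ⟨-d, ![x + y, x + (-1 : F) • y, z], neg_ne_zero.2 hd, ?_⟩
  intro i j
  fin_cases i <;> fin_cases j <;>
    simp [hb.add_left, hb.add_right, hx, hy, hz, hxy, hxz, hyz, hyx, hzx, hzy, ← neg_one_smul F y, hb.smul_left, hb.smul_right, -neg_smul, -one_smul] <;>
    first | linear_combination d * h3 | ring

theorem exists_frame [Fintype F] (hq : Fintype.card F = 3) {g : (Fin 3 → F) → (Fin 3 → F) → F} (hg : IsSymmetricForm g) :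
    ∃ ε a, Fr g ε a := by
  have h3 := three hq
  have hb := hg.bilinear
  have h2 : (2 : F) ≠ 0 := by
    intro h
    apply one_ne_zero (α := F)
    linear_combination h3 - h
  haveI : Invertible (2 : F) := invertibleOfNonzero h2
  obtain ⟨v, hv⟩ := LinearMap.BilinForm.exists_orthogonal_basis (B := CfsgH9.MaxRedSp.toB hb) ⟨fun x y => hg.symm x y⟩
  have hfr : Module.finrank F (Fin 3 → F) = 3 := by rw [Module.finrank_fintype_fun_eq_card, Fintype.card_fin]
  obtain ⟨w, hw⟩ : ∃ w : Module.Basis (Fin 3) F (Fin 3 → F), ∀ i j, i ≠ j → g (w i) (w j) = 0 := by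
    refine ⟨v.reindex (finCongr hfr), ?_⟩
    intro i j hij
    rw [Module.Basis.reindex_apply, Module.Basis.reindex_apply]
    exact hv (fun h => hij (by simpa using h))
  have hne : ∀ i, g (w i) (w i) ≠ 0 := by
    intro i h0
    obtain ⟨-, x, hx⟩ := hg.nondegenerate (w i) (w.ne_zero i)
    apply hx
    have h1 : (CfsgH9.MaxRedSp.toB hb (w i)) = 0 := by
      apply w.ext
      intro j
      show g (w i) (w j) = 0
      by_cases hij : i = j
      · rw [← hij]; exact h0
      · exact hw i j hij
    have h2 := congrArg (fun φ => φ x) h1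
    exact h2
  have w01 := hw 0 1 (by decide)
  have w02 := hw 0 2 (by decide)
  have w12 := hw 1 2 (by decide)
  have w10 := hw 1 0 (by decide)
  have w20 := hw 2 0 (by decide)
  have w21 := hw 2 1 (by decide)
  obtain ⟨d, hd⟩ : ∃ d, g (w 0) (w 0) = d := ⟨_, rfl⟩
  have hd0 : d ≠ 0 := by rw [← hd]; exact hne 0
  have hpm : ∀ i, g (w i) (w i) = d ∨ g (w i) (w i) = -d := by
    intro i
    rcases eq_pm hq (hne i) with h1 | h1 <;> rcases eq_pm hq hd0 with h2 | h2 <;> rw [h1, h2]
    · left; rfl
    · right; rw [neg_neg]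
    · right; rfl
    · left; rfl
  rcases hpm 1 with h1 | h1
  · rcases hpm 2 with h2' | h2'
    · refine ⟨d, w, hd0, ?_⟩
      intro i j
      by_cases hij : i = j
      · subst hij
        rw [if_pos rfl]
        fin_cases i
        · exact hd
        · exact h1
        · exact h2'
      · rw [if_neg hij]; exact hw i j hij
    · exact mk_frame hg h3 hd0 hd h1 h2' w01 w02 w12
  · rcases hpm 2 with h2' | h2'
    · exact mk_frame hg h3 hd0 hd h2' h1 w02 w01 w21
    · exact mk_frame (x := w 1) (y := w 2) (z := w 0) (d := -d) hg h3 (neg_ne_zero.2 hd0) h1 h2' (by rw [hd, neg_neg]) w12 w10 w20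

namespace Fr

variable {g : (Fin 3 → F) → (Fin 3 → F) → F} {ε : F} {a : Fin 3 → (Fin 3 → F)}

lemma sum_left (hg : IsSymmetricForm g) (c : Fin 3 → F) (b : Fin 3 → (Fin 3 → F)) (y : Fin 3 → F) :
    g (∑ i, c i • b i) y = ∑ i, c i * g (b i) y := by
  have hb := hg.bilinear
  have := map_sum ((CfsgH9.MaxRedSp.toB hb).flip y) (fun i => c i • b i) Finset.univ
  refine Eq.trans this ?_
  apply Finset.sum_congr rfl
  intro i _
  exact hb.smul_left _ _ _

lemma span (hg : IsSymmetricForm g) (h : Fr g ε a) (x : Fin 3 → F) : ∃ c : Fin 3 → F, x = ∑ i, c i • a i := by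
  have hli : LinearIndependent F a := by
    rw [Fintype.linearIndependent_iff]
    intro c hc i
    have h1 := sum_left hg c a (a i)
    rw [hc] at h1
    have h0 : g 0 (a i) = 0 := by
      have := hg.bilinear.smul_left 0 0 (a i)
      rwa [zero_smul, zero_mul] at this
    rw [h0] at h1
    simp only [h.val] at h1
    rw [Finset.sum_eq_single i (by intro j _ hj; rw [if_neg hj, mul_zero]) (by intro h; exact absurd (Finset.mem_univ i) h), if_pos rfl] at h1
    exact (mul_eq_zero.1 h1.symm).resolve_right h.ne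
  let b := basisOfLinearIndependentOfCardEqFinrank hli (by rw [Module.finrank_fintype_fun_eq_card])
  refine ⟨fun i => b.repr x i, ?_⟩
  conv_lhs => rw [← b.sum_repr x]
  apply Finset.sum_congr rfl
  intro i _
  rw [show b i = a i from by simp [b]]

lemma val_sum (hg : IsSymmetricForm g) (h : Fr g ε a) (c d : Fin 3 → F) :
    g (∑ i, c i • a i) (∑ i, d i • a i) = ε * ∑ i, c i * d i := by
  rw [sum_left hg, Finset.mul_sum]
  apply Finset.sum_congr rfl
  intro i _
  rw [hg.symm, sum_left hg]
  simp only [h.val]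
  rw [Finset.sum_eq_single i (by intro j _ hj; rw [if_neg hj, mul_zero]) (by intro h; exact absurd (Finset.mem_univ i) h), if_pos rfl]
  ring

lemma classify [Fintype F] (hq : Fintype.card F = 3) (hg : IsSymmetricForm g) (h : Fr g ε a) {x : Fin 3 → F} (hx : g x x = ε) :
    ∃ i, ∃ r : F, x = r • a i := by
  have h3 := three hq
  obtain ⟨c, rfl⟩ := h.span hg x
  rw [h.val_sum hg] at hx
  have h1 : c 0 * c 0 + c 1 * c 1 + c 2 * c 2 = 1 := by
    have : ε * (c 0 * c 0 + c 1 * c 1 + c 2 * c 2 - 1) = 0 := by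
      rw [Fin.sum_univ_three] at hx
      linear_combination hx
    exact sub_eq_zero.1 ((mul_eq_zero.1 this).resolve_left h.ne)
  have hc : ∀ i, c i = 0 ∨ c i * c i = 1 := fun i => by
    by_cases h : c i = 0
    · exact Or.inl h
    · exact Or.inr (sq_one hq h)
  have hone := one_ne_zero (α := F)
  rcases hc 0 with h0 | h0 <;> rcases hc 1 with h1' | h1' <;> rcases hc 2 with h2 | h2
  · exfalso; apply hone; rw [← h1, h0, h1', h2]; ring
  · exact ⟨2, c 2, by rw [Fin.sum_univ_three, h0, h1', zero_smul, zero_smul, zero_add, zero_add]⟩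
  · exact ⟨1, c 1, by rw [Fin.sum_univ_three, h0, h2, zero_smul, zero_smul, zero_add, add_zero]⟩
  · exfalso; apply hone; rw [h0, h1', h2] at h1; linear_combination h1
  · exact ⟨0, c 0, by rw [Fin.sum_univ_three, h1', h2, zero_smul, zero_smul, add_zero, add_zero]⟩
  · exfalso; apply hone; rw [h0, h1', h2] at h1; linear_combination h1
  · exfalso; apply hone; rw [h0, h1', h2] at h1; linear_combination h1
  · exfalso; apply hone; rw [h0, h1', h2] at h1; linear_combination h3 - h1

/-- similarities of the three-space permute the frame -/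
theorem perm [Fintype F] (hq : Fintype.card F = 3) (hg : IsSymmetricForm g) (h : Fr g ε a) {A : GL (Fin 3) F} {κ : F} (hκ : κ ≠ 0)
    (hA : ∀ x y, g ((A : Matrix _ _ F) *ᵥ x) ((A : Matrix _ _ F) *ᵥ y) = κ * g x y) (i : Fin 3) :
    ∃ j, ∃ r : F, (A : Matrix _ _ F) *ᵥ a i = r • a j := by
  have hC : ∀ i, ∃ c : Fin 3 → F, (A : Matrix _ _ F) *ᵥ a i = ∑ j, c j • a j := fun i => h.span hg _
  choose C hC using hC
  have h1 : (Matrix.of C) * (Matrix.of C)ᵀ = κ • (1 : Matrix (Fin 3) (Fin 3) F) := by
    ext i j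
    rw [Matrix.mul_apply]
    simp only [Matrix.transpose_apply, Matrix.of_apply, Matrix.smul_apply, smul_eq_mul]
    have h2 := hA (a i) (a j)
    rw [hC, hC, h.val_sum hg, h.val] at h2
    rw [Matrix.one_apply]
    by_cases hij : i = j
    · rw [if_pos hij] at h2 ⊢
      have : ε * (∑ l, C i l * C j l - κ) = 0 := by linear_combination h2
      rw [mul_one]
      exact sub_eq_zero.1 ((mul_eq_zero.1 this).resolve_left h.ne)
    · rw [if_neg hij] at h2 ⊢
      rw [mul_zero] at h2 ⊢
      exact (mul_eq_zero.1 h2).resolve_left h.ne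
  have h2 := congrArg Matrix.det h1
  rw [det_mul, det_transpose, det_smul, det_one, Fintype.card_fin, mul_one] at h2
  have h3 : κ ^ 3 = κ := by
    have := sq_one hq hκ
    calc κ ^ 3 = κ * (κ * κ) := by ring
      _ = κ := by rw [this, mul_one]
  rw [h3] at h2
  have hdet : (Matrix.of C).det ≠ 0 := by
    intro h0
    rw [h0, zero_mul] at h2
    exact hκ h2.symm
  rw [sq_one hq hdet] at h2
  apply h.classify hq hg
  rw [hA, h.val, if_pos rfl, ← h2, one_mul]

end Fr

end CfsgH9.Frame3
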