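import Mathlib
import Cfsg.Agent.H9.CountIsom

set_option autoImplicit false

/-! Counting totally singular frames in formed spaces over finite fields. -/

namespace CfsgH9.Frames

open CfsgH9.Witt CfsgH9.CountHyp

variable {F V : Type*} [Field F] [AddCommGroup V] [Module F V] {σ : F →+* F}

/-- totally singular frames -/
structure IsFr (β : V →ₛₗ[σ] V →ₗ[F] F) (N : V → F) {k : ℕ} (x : Fin k → V) : Prop where
  li : LinearIndependent F x
  sing : ∀ i, N (x i) = 0
  orth : ∀ i j, β (x i) (x j) = 0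

/-- totally singular frames -/
abbrev Fr (β : V →ₛₗ[σ] V →ₗ[F] F) (N : V → F) (k : ℕ) : Type _ := {x : Fin k → V // IsFr β N x}

variable {β : V →ₛₗ[σ] V →ₗ[F] F} {N : V → F} {τ : F →+ F} {ν : F → F} {ε : F}

/-- the frames with a given first vector -/
noncomputable def fibEquiv (h : Fm β N τ ν ε) {u v : V} (hp : IsPair β N u v) (k : ℕ) :
    {x : Fr β N (k + 1) // x.1 0 = u} ≃ (Fin k → F) × Fr (res β (pperp β u v)) (fun w => N w) k := by
  have he := eps_ne h hp
  have hvu := pair_swap h hp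
  have huu := beta_self h hp.1
  have hvv := beta_self h hp.2.1
  have hux : ∀ (x : {x : Fr β N (k + 1) // x.1 0 = u}) (i : Fin k), β u (x.1.1 i.succ) = 0 := by
    intro x i
    have h0 := x.1.2.orth 0 i.succ
    rw [x.2] at h0
    exact h0
  have hmem : ∀ (x : {x : Fr β N (k + 1) // x.1 0 = u}) (i : Fin k),
      x.1.1 i.succ - (ε⁻¹ * β v (x.1.1 i.succ)) • u ∈ pperp β u v := by
    intro x i
    have h1 := pair_decomp h hp (x.1.1 i.succ)
    rwa [hux, zero_smul, sub_zero] at h1
  have hNu : ∀ c : F, N (c • u) = 0 := fun c => by rw [h.smul, hp.1, mul_zero]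
  have hsu : ∀ c : F, β (c • u) = σ c • β u := fun c => LinearMap.map_smulₛₗ _ _ _
  have e1 : ∀ (a b : F) (y z : V), β y u = 0 → β u z = 0 → β (y - a • u) (z - b • u) = β y z := by
    intro a b y z hy hz
    rw [map_sub β, hsu, LinearMap.sub_apply, LinearMap.smul_apply, map_sub, map_sub, map_smul, map_smul, hy, hz, huu]
    simp
  have e2 : ∀ (a b : F) (y z : V), β y u = 0 → β u z = 0 → β (a • u + y) (b • u + z) = β y z := by
    intro a b y z hy hz
    rw [map_add β, hsu, LinearMap.add_apply, LinearMap.smul_apply, map_add, map_add, map_smul, map_smul, hy, hz, huu]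
    simp
  refine
    { toFun := fun x => (fun i => ε⁻¹ * β v (x.1.1 i.succ), ⟨fun i => ⟨_, hmem x i⟩, ?_, ?_, ?_⟩)
      invFun := fun p => ⟨⟨Fin.cons u (fun i => p.1 i • u + (p.2.1 i : V)), ?_, ?_, ?_⟩, rfl⟩
      left_inv := ?_
      right_inv := ?_ }
  · -- linear independence of the projections
    have h1 := x.1.2.li
    rw [Fintype.linearIndependent_iff] at h1 ⊢
    intro c hc i
    have h2 := h1 (Fin.cons (-(∑ j, c j * (ε⁻¹ * β v (x.1.1 j.succ)))) c) (by
      rw [Fin.sum_univ_succ, Fin.cons_zero]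
      simp only [Fin.cons_succ]
      rw [x.2]
      have h3 := congrArg Subtype.val hc
      simp only [Submodule.coe_sum, Submodule.coe_smul, Submodule.coe_zero, smul_sub, Finset.sum_sub_distrib, smul_smul] at h3
      rw [← Finset.sum_smul, sub_eq_zero] at h3
      rw [h3]
      module) i.succ
    rw [Fin.cons_succ] at h2
    exact h2
  · intro i
    have h1 : β (x.1.1 i.succ) u = 0 := h.refl (hux x i)
    show N (x.1.1 i.succ - (ε⁻¹ * β v (x.1.1 i.succ)) • u) = 0
    rw [sub_eq_add_neg, ← neg_smul, h.add, x.1.2.sing, hNu, map_smul, h1]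
    simp
  · intro i j
    have h1 : β (x.1.1 i.succ) u = 0 := h.refl (hux x i)
    show β (x.1.1 i.succ - (ε⁻¹ * β v (x.1.1 i.succ)) • u) (x.1.1 j.succ - (ε⁻¹ * β v (x.1.1 j.succ)) • u) = 0
    rw [e1 _ _ _ _ h1 (hux x j), x.1.2.orth]
  · -- linear independence of the frame
    have hpp : ∀ i, β v (p.2.1 i : V) = 0 := fun i => (p.2.1 i).2.2
    rw [Fintype.linearIndependent_iff]
    intro c hc
    rw [Fin.sum_univ_succ, Fin.cons_zero] at hc
    simp only [Fin.cons_succ] at hc
    have h1 := congrArg (β v) hc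
    simp only [map_add, map_sum, map_smul, hvu, hpp, map_zero, smul_eq_mul, add_zero] at h1
    have h2 : c 0 + ∑ i, c i.succ * p.1 i = 0 := by
      have h3 : (c 0 + ∑ i, c (Fin.succ i) * p.1 i) * ε = 0 := by
        rw [← h1, add_mul, Finset.sum_mul]
        congr 1
        exact Finset.sum_congr rfl fun i _ => by ring
      exact (mul_eq_zero.1 h3).resolve_right he
    have h4 : ∑ i, c (Fin.succ i) • (p.2.1 i : V) = 0 := by
      simp only [smul_add, Finset.sum_add_distrib, smul_smul] at hc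
      rw [← Finset.sum_smul, ← add_assoc, ← add_smul, h2, zero_smul, zero_add] at hc
      exact hc
    have h5 := Fintype.linearIndependent_iff.1 p.2.2.li (fun i => c i.succ) (by
      apply Subtype.ext
      simpa using h4)
    have h6 : c 0 = 0 := by
      rw [Finset.sum_eq_zero (fun i _ => by rw [h5 i, zero_mul]), add_zero] at h2
      exact h2
    intro i
    refine Fin.cases h6 (fun i => h5 i) i
  · intro i
    refine Fin.cases ?_ (fun i => ?_) i
    · exact hp.1
    · have hu0 : β u (p.2.1 i : V) = 0 := (p.2.1 i).2.1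
      show N (p.1 i • u + (p.2.1 i : V)) = 0
      have h7 : N (p.2.1 i : V) = 0 := p.2.2.sing i
      rw [h.add, hNu, h7, hsu, LinearMap.smul_apply, hu0]
      simp
  · have hu0 : ∀ i, β u (p.2.1 i : V) = 0 := fun i => (p.2.1 i).2.1
    have hu1 : ∀ i, β (p.2.1 i : V) u = 0 := fun i => h.refl (hu0 i)
    have hoo : ∀ i j, β (p.2.1 i : V) (p.2.1 j : V) = 0 := fun i j => p.2.2.orth i j
    intro i j
    refine Fin.cases ?_ (fun i => ?_) i <;> refine Fin.cases ?_ (fun j => ?_) j
    · exact huu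
    · show β u (p.1 j • u + (p.2.1 j : V)) = 0
      rw [map_add, map_smul, huu, hu0]; simp
    · show β (p.1 i • u + (p.2.1 i : V)) u = 0
      rw [map_add, hsu, LinearMap.add_apply, LinearMap.smul_apply, huu, hu1]; simp
    · show β (p.1 i • u + (p.2.1 i : V)) (p.1 j • u + (p.2.1 j : V)) = 0
      rw [e2 _ _ _ _ (hu1 i) (hu0 j), hoo]
  · intro x
    apply Subtype.ext
    apply Subtype.ext
    funext i
    refine Fin.cases ?_ (fun i => ?_) i
    · exact x.2.symm
    · show (ε⁻¹ * β v (x.1.1 i.succ)) • u + (x.1.1 i.succ - (ε⁻¹ * β v (x.1.1 i.succ)) • u) = x.1.1 i.succ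
      abel
  · rintro ⟨a, y⟩
    have hpp : ∀ i, β v (y.1 i : V) = 0 := fun i => (y.1 i).2.2
    have h1 : ∀ i, ε⁻¹ * β v (a i • u + (y.1 i : V)) = a i := by
      intro i
      rw [map_add, map_smul, hvu, hpp, smul_eq_mul]
      field_simp
      ring
    refine Prod.ext ?_ ?_
    · funext i; exact h1 i
    · apply Subtype.ext
      funext i
      apply Subtype.ext
      show a i • u + (y.1 i : V) - (ε⁻¹ * β v (a i • u + (y.1 i : V))) • u = (y.1 i : V)
      rw [h1]; abel

lemma card_Fr_zero : Nat.card (Fr β N 0) = 1 := by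
  rw [Nat.card_eq_one_iff_unique]
  refine ⟨⟨fun a b => Subtype.ext (Subsingleton.elim _ _)⟩, ⟨⟨Fin.elim0, ?_, fun i => i.elim0, fun i => i.elim0⟩⟩⟩
  exact linearIndependent_empty_type

lemma card_sing [Finite V] (h : Fm β N τ ν ε) : Nat.card {u : V // u ≠ 0 ∧ N u = 0} + 1 = zc N := by
  classical
  haveI := Fintype.ofFinite V
  rw [zc, Nat.card_eq_fintype_card, Nat.card_eq_fintype_card, Fintype.card_subtype, Fintype.card_subtype]
  have h1 : (Finset.univ.filter fun v : V => N v = 0) = insert 0 (Finset.univ.filter fun u : V => u ≠ 0 ∧ N u = 0) := by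
    ext v
    simp only [Finset.mem_filter, Finset.mem_univ, true_and, Finset.mem_insert]
    constructor
    · intro hv
      by_cases h0 : v = 0
      · exact Or.inl h0
      · exact Or.inr ⟨h0, hv⟩
    · rintro (rfl | ⟨-, hv⟩)
      · exact Fm.zero' h
      · exact hv
  rw [h1, Finset.card_insert_of_notMem (by simp)]

theorem card_Fr_succ [Finite F] [Finite V] (h : Fm β N τ ν ε) (k c : ℕ)
    (hc : ∀ u v, IsPair β N u v → Nat.card (Fr (res β (pperp β u v)) (fun w => N w) k) = c) :
    Nat.card (Fr β N (k + 1)) = (zc N - 1) * (Nat.card F ^ k * c) := by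
  haveI : Module.Finite F V := Module.Finite.of_finite
  have e : Fr β N (k + 1) ≃ Σ u : {u : V // u ≠ 0 ∧ N u = 0}, {x : Fr β N (k + 1) // x.1 0 = u} :=
    (Equiv.sigmaFiberEquiv (fun x : Fr β N (k + 1) => (⟨x.1 0, x.2.li.ne_zero 0, x.2.sing 0⟩ : {u : V // u ≠ 0 ∧ N u = 0}))).symm.trans
      (Equiv.sigmaCongrRight fun u => Equiv.subtypeEquivRight fun x => by
        constructor
        · intro h; exact congrArg Subtype.val h
        · intro h; exact Subtype.ext h)
  rw [Nat.card_congr e, card_sigma_const (fun _ => inferInstance) (Nat.card F ^ k * c), ← card_sing h, Nat.add_sub_cancel]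
  intro u
  obtain ⟨v, hp⟩ := exists_pair h u.2.1 u.2.2
  rw [Nat.card_congr (fibEquiv h hp k), Nat.card_prod, hc _ _ hp, Nat.card_fun, Nat.card_eq_fintype_card (α := Fin k), Fintype.card_fin]

/-- transitivity on frames -/
theorem trans_fr [FiniteDimensional F V] (h : Fm β N τ ν ε) {k : ℕ} (x y : Fr β N k) : ∃ g : G β N, ∀ i, g.1 (x.1 i) = y.1 i := by
  let bx := Module.Basis.span x.2.li
  let by' := Module.Basis.span y.2.li
  have hts : ∀ (z : Fr β N k) (c d : Fin k → F), β (∑ i, c i • z.1 i) (∑ i, d i • z.1 i) = 0 := by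
    intro z c d
    have h1 : ∀ j, β (∑ i, c i • z.1 i) (z.1 j) = 0 := by
      intro j
      apply h.refl
      rw [map_sum]
      refine Finset.sum_eq_zero fun i _ => ?_
      rw [map_smul, z.2.orth, smul_zero]
    rw [map_sum]
    refine Finset.sum_eq_zero fun i _ => ?_
    rw [map_smul, h1, smul_zero]
  have hN : ∀ (z : Fr β N k) (s : Finset (Fin k)) (c : Fin k → F), N (∑ i ∈ s, c i • z.1 i) = 0 := by
    intro z s c
    classical
    induction s using Finset.induction_on with
    | empty => rw [Finset.sum_empty]; exact Fm.zero' h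
    | insert i s hi ih =>
      rw [Finset.sum_insert hi, h.add, ih, h.smul, z.2.sing, mul_zero]
      have h2 : β (c i • z.1 i) (∑ j ∈ s, c j • z.1 j) = 0 := by
        rw [map_sum]
        refine Finset.sum_eq_zero fun j _ => ?_
        rw [map_smul, LinearMap.map_smulₛₗ, LinearMap.smul_apply, z.2.orth]
        simp
      rw [h2, map_zero, add_zero, add_zero]
  have hrepr : ∀ (z : Fr β N k) (w : Submodule.span F (Set.range z.1)),
      (w : V) = ∑ i, (Module.Basis.span z.2.li).repr w i • z.1 i := by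
    intro z w
    have h3 := congrArg Subtype.val ((Module.Basis.span z.2.li).sum_repr w)
    rw [← h3]
    simp [Submodule.coe_sum, Module.Basis.span_apply]
  let φ : Submodule.span F (Set.range x.1) ≃ₗ[F] Submodule.span F (Set.range y.1) := bx.equiv by' (Equiv.refl _)
  obtain ⟨g, hg, hgφ⟩ := h.witt _ _ φ (by
    intro w w'
    rw [hrepr x w, hrepr x w', hrepr y (φ w), hrepr y (φ w'), hts, hts]) (by
    intro w
    rw [hrepr x w, hrepr y (φ w), hN, hN])
  refine ⟨⟨g, hg⟩, fun i => ?_⟩
  have h4 := hgφ (bx i)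
  have h5 : (bx i : V) = x.1 i := by simp [bx, Module.Basis.span_apply]
  have h6 : (φ (bx i) : V) = y.1 i := by
    show ((bx.equiv by' (Equiv.refl _)) (bx i) : V) = y.1 i
    rw [Module.Basis.equiv_apply]
    simp [by', Module.Basis.span_apply]
  rw [h5, h6] at h4
  exact h4

/-- all the fibres of the orbit map have the same size -/
lemma card_fibre [FiniteDimensional F V] (h : Fm β N τ ν ε) {k : ℕ} (x0 x : Fr β N k) :
    Nat.card {g : G β N // ∀ i, g.1 (x0.1 i) = x.1 i} = Nat.card {g : G β N // ∀ i, g.1 (x0.1 i) = x0.1 i} := by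
  obtain ⟨t, ht⟩ := trans_fr h x0 x
  refine Nat.card_congr
    { toFun := fun g => ⟨⟨g.1.1.trans t.1.symm, isom_trans g.1.2 (isom_symm t.2)⟩, fun i => ?_⟩
      invFun := fun g => ⟨⟨g.1.1.trans t.1, isom_trans g.1.2 t.2⟩, fun i => ?_⟩
      left_inv := fun g => ?_
      right_inv := fun g => ?_ }
  · rw [LinearEquiv.trans_apply, g.2, ← ht, LinearEquiv.symm_apply_apply]
  · rw [LinearEquiv.trans_apply, g.2, ht]
  · apply Subtype.ext
    apply Subtype.ext
    ext1 v
    simp
  · apply Subtype.ext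
    apply Subtype.ext
    ext1 v
    simp

/-- sets of group elements cut out by the image of a frame -/
theorem card_image_mem [Finite V] [FiniteDimensional F V] (h : Fm β N τ ν ε) {k : ℕ} (x0 : Fr β N k) (S : Set (Fr β N k)) :
    Nat.card {g : G β N // ∃ x ∈ S, ∀ i, g.1 (x0.1 i) = x.1 i} * Nat.card (Fr β N k) = Nat.card (G β N) * Nat.card S := by
  have key : ∀ S : Set (Fr β N k), Nat.card {g : G β N // ∃ x ∈ S, ∀ i, g.1 (x0.1 i) = x.1 i} =
      Nat.card S * Nat.card {g : G β N // ∀ i, g.1 (x0.1 i) = x0.1 i} := by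
    intro S
    have e : {g : G β N // ∃ x ∈ S, ∀ i, g.1 (x0.1 i) = x.1 i} ≃ Σ x : S, {g : G β N // ∀ i, g.1 (x0.1 i) = x.1.1 i} :=
      { toFun := fun g => ⟨⟨g.2.choose, g.2.choose_spec.1⟩, g.1, g.2.choose_spec.2⟩
        invFun := fun p => ⟨p.2.1, p.1.1, p.1.2, p.2.2⟩
        left_inv := fun g => rfl
        right_inv := fun p => by
          obtain ⟨⟨x, hx⟩, g, hg⟩ := p
          have hex : ∃ y ∈ S, ∀ i, g.1 (x0.1 i) = y.1 i := ⟨x, hx, hg⟩
          have h1 : hex.choose = x := by
            apply Subtype.ext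
            funext i
            rw [← hex.choose_spec.2 i]; exact hg i
          have h2 : (⟨hex.choose, hex.choose_spec.1⟩ : S) = ⟨x, hx⟩ := Subtype.ext h1
          refine Sigma.ext h2 ?_
          show HEq (⟨g, _⟩ : {g : G β N // ∀ i, g.1 (x0.1 i) = hex.choose.1 i}) (⟨g, hg⟩ : {g : G β N // ∀ i, g.1 (x0.1 i) = x.1 i})
          congr! }
    rw [Nat.card_congr e]
    exact card_sigma_const (fun _ => inferInstance) _ (fun x : S => card_fibre h x0 x.1)
  have h1 := key S
  have h2 := key Set.univ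
  have h3 : Nat.card {g : G β N // ∃ x ∈ (Set.univ : Set (Fr β N k)), ∀ i, g.1 (x0.1 i) = x.1 i} = Nat.card (G β N) := by
    refine Nat.card_congr (Equiv.subtypeUnivEquiv fun g => ?_)
    refine ⟨⟨fun i => g.1 (x0.1 i), ?_, ?_, ?_⟩, trivial, fun i => rfl⟩
    · exact x0.2.li.map' (g.1 : V →ₗ[F] V) (LinearEquiv.ker _)
    · intro i; rw [g.2.2]; exact x0.2.sing i
    · intro i j; rw [g.2.1]; exact x0.2.orth i j
  rw [h3] at h2
  rw [h1, h2, Nat.card_univ]
  ring

/-- bases of a totally singular subspace -/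
lemma card_bases [Finite F] [Finite V] (h : Fm β N τ ν ε) {k : ℕ} (W : Submodule F V) (hW : Module.finrank F W = k) (hN : ∀ x ∈ W, N x = 0)
    (hβ : ∀ x ∈ W, ∀ y ∈ W, β x y = 0) :
    Nat.card {x : Fr β N k | ∀ i, x.1 i ∈ W} = ∏ i : Fin k, (Nat.card F ^ k - Nat.card F ^ (i : ℕ)) := by
  haveI := Fintype.ofFinite F
  haveI : Module.Finite F V := Module.Finite.of_finite
  have h1 := card_linearIndependent (K := F) (V := W) (k := k) (by rw [hW])
  rw [hW] at h1
  rw [Nat.card_eq_fintype_card (α := F), ← h1]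
  refine Nat.card_congr
    { toFun := fun x => ⟨fun i => ⟨x.1.1 i, x.2 i⟩, ?_⟩
      invFun := fun s => ⟨⟨fun i => (s.1 i : V), ?_, fun i => hN _ (s.1 i).2, fun i j => hβ _ (s.1 i).2 _ (s.1 j).2⟩, fun i => (s.1 i).2⟩
      left_inv := fun x => rfl
      right_inv := fun s => rfl }
  · exact LinearIndependent.of_comp W.subtype x.1.2.li
  · exact s.2.map' W.subtype (Submodule.ker_subtype W)

/-- the number of elements stabilising a totally singular subspace -/
theorem card_stab [Finite F] [Finite V] (h : Fm β N τ ν ε) {k : ℕ} (W : Submodule F V) (hW : Module.finrank F W = k) (hN : ∀ x ∈ W, N x = 0)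
    (hβ : ∀ x ∈ W, ∀ y ∈ W, β x y = 0) :
    Nat.card {g : G β N // ∀ x ∈ W, g.1 x ∈ W} * Nat.card (Fr β N k) =
      Nat.card (G β N) * ∏ i : Fin k, (Nat.card F ^ k - Nat.card F ^ (i : ℕ)) := by
  haveI : Module.Finite F V := Module.Finite.of_finite
  let b := Module.finBasisOfFinrankEq F W hW
  let x0 : Fr β N k := ⟨fun i => (b i : V), b.linearIndependent.map' W.subtype (Submodule.ker_subtype W),
    fun i => hN _ (b i).2, fun i j => hβ _ (b i).2 _ (b j).2⟩
  rw [← card_bases h W hW hN hβ, ← card_image_mem h x0]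
  congr 1
  refine Nat.card_congr (Equiv.subtypeEquivRight fun g => ?_)
  constructor
  · intro hg
    refine ⟨⟨fun i => g.1 (x0.1 i), ?_, ?_, ?_⟩, fun i => hg _ (b i).2, fun i => rfl⟩
    · exact x0.2.li.map' (g.1 : V →ₗ[F] V) (LinearEquiv.ker _)
    · intro i; rw [g.2.2]; exact x0.2.sing i
    · intro i j; rw [g.2.1]; exact x0.2.orth i j
  · rintro ⟨x, hx, hgx⟩ w hw
    have h1 := congrArg Subtype.val (b.sum_repr ⟨w, hw⟩)
    simp only [Submodule.coe_sum, Submodule.coe_smul] at h1
    rw [← h1, map_sum]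
    refine Submodule.sum_mem _ fun i _ => ?_
    rw [map_smul]
    have h2 : g.1 (b i : V) = x.1 i := hgx i
    rw [h2]
    exact Submodule.smul_mem _ _ (hx i)

lemma span_ts (h : Fm β N τ ν ε) {k : ℕ} (z : Fr β N k) :
    (∀ w ∈ Submodule.span F (Set.range z.1), N w = 0) ∧
      ∀ a ∈ Submodule.span F (Set.range z.1), ∀ b ∈ Submodule.span F (Set.range z.1), β a b = 0 := by
  classical
  have hts : ∀ (c d : Fin k → F), β (∑ i, c i • z.1 i) (∑ i, d i • z.1 i) = 0 := by
    intro c d
    have h1 : ∀ j, β (∑ i, c i • z.1 i) (z.1 j) = 0 := by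
      intro j
      apply h.refl
      rw [map_sum]
      refine Finset.sum_eq_zero fun i _ => ?_
      rw [map_smul, z.2.orth, smul_zero]
    rw [map_sum]
    refine Finset.sum_eq_zero fun i _ => ?_
    rw [map_smul, h1, smul_zero]
  have hN : ∀ (s : Finset (Fin k)) (c : Fin k → F), N (∑ i ∈ s, c i • z.1 i) = 0 := by
    intro s c
    induction s using Finset.induction_on with
    | empty => rw [Finset.sum_empty]; exact Fm.zero' h
    | insert i s hi ih =>
      rw [Finset.sum_insert hi, h.add, ih, h.smul, z.2.sing, mul_zero]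
      have h2 : β (c i • z.1 i) (∑ j ∈ s, c j • z.1 j) = 0 := by
        rw [map_sum]
        refine Finset.sum_eq_zero fun j _ => ?_
        rw [map_smul, LinearMap.map_smulₛₗ, LinearMap.smul_apply, z.2.orth]
        simp
      rw [h2, map_zero, add_zero, add_zero]
  constructor
  · intro w hw
    obtain ⟨c, rfl⟩ := (Submodule.mem_span_range_iff_exists_fun F).1 hw
    exact hN _ _
  · intro a ha b hb
    obtain ⟨c, rfl⟩ := (Submodule.mem_span_range_iff_exists_fun F).1 ha
    obtain ⟨d, rfl⟩ := (Submodule.mem_span_range_iff_exists_fun F).1 hb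
    exact hts _ _

/-- the number of totally singular subspaces -/
theorem card_ts [Finite F] [Finite V] (h : Fm β N τ ν ε) (k : ℕ) :
    Nat.card {W : Submodule F V // Module.finrank F W = k ∧ (∀ x ∈ W, N x = 0) ∧ ∀ x ∈ W, ∀ y ∈ W, β x y = 0} *
      ∏ i : Fin k, (Nat.card F ^ k - Nat.card F ^ (i : ℕ)) = Nat.card (Fr β N k) := by
  haveI : Module.Finite F V := Module.Finite.of_finite
  haveI : Finite (Submodule F V) := Finite.of_injective (fun W : Submodule F V => (W : Set V)) SetLike.coe_injective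
  let φ : Fr β N k → {W : Submodule F V // Module.finrank F W = k ∧ (∀ x ∈ W, N x = 0) ∧ ∀ x ∈ W, ∀ y ∈ W, β x y = 0} :=
    fun x => ⟨Submodule.span F (Set.range x.1), by rw [finrank_span_eq_card x.2.li, Fintype.card_fin], (span_ts h x).1, (span_ts h x).2⟩
  rw [Nat.card_congr (Equiv.sigmaFiberEquiv φ).symm]
  refine (card_sigma_const (fun _ => inferInstance) _ fun W => ?_).symm
  rw [← card_bases h W.1 W.2.1 W.2.2.1 W.2.2.2]
  refine Nat.card_congr (Equiv.subtypeEquivRight fun x => ?_)
  constructor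
  · intro hx i
    rw [← hx]
    exact Submodule.subset_span ⟨i, rfl⟩
  · intro hx
    apply Subtype.ext
    apply Submodule.eq_of_le_of_finrank_eq
    · rw [Submodule.span_le]
      rintro _ ⟨i, rfl⟩
      exact hx i
    · rw [finrank_span_eq_card x.2.li, Fintype.card_fin, W.2.1]

end CfsgH9.Frames
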