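import Mathlib
import Cfsg.Agent.H9.Frames
import Cfsg.Agent.H9.HermOrd

set_option autoImplicit false

/-! Counting totally singular frames in symplectic and unitary spaces. -/

universe u v

namespace CfsgH9.Frames

open CfsgH9.Witt CfsgH9.CountHyp CfsgH9.HermF

lemma mem_iff_of_stab {F V : Type*} [Field F] [AddCommGroup V] [Module F V] [FiniteDimensional F V] {W : Submodule F V}
    {g : V ≃ₗ[F] V} (hg : ∀ x ∈ W, g x ∈ W) (v : V) : v ∈ W ↔ g v ∈ W := by
  refine ⟨hg v, fun hv => ?_⟩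
  have h1 : W.map (g : V →ₗ[F] V) ≤ W := by
    rintro _ ⟨x, hx, rfl⟩; exact hg x hx
  have h2 : W.map (g : V →ₗ[F] V) = W := Submodule.eq_of_le_of_finrank_eq h1 (LinearEquiv.finrank_map_eq g W)
  rw [← h2] at hv
  obtain ⟨x, hx, hxv⟩ := hv
  have : x = v := g.injective hxv
  rw [← this]; exact hx

/-- symplectic frames -/
def cfS (q : ℕ) : ℕ → ℕ → ℕ
  | _, 0 => 1
  | 0, _ + 1 => 0
  | m + 1, k + 1 => (q ^ (2 * (m + 1)) - 1) * (q ^ k * cfS q m k)

theorem card_Fr_alt {F : Type u} [Field F] [Finite F] (k : ℕ) : ∀ (m : ℕ)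
    {V : Type v} [AddCommGroup V] [Module F V] [Finite V] {β : V →ₛₗ[RingHom.id F] V →ₗ[F] F} {ε : F},
      Fm β (fun _ => (0 : F)) 0 (fun _ => 0) ε → Module.finrank F V = 2 * m →
      Nat.card (Fr β (fun _ => (0 : F)) k) = cfS (Nat.card F) m k := by
  induction k with
  | zero =>
    intro m V _ _ _ β ε h hV
    rw [card_Fr_zero]; cases m <;> rfl
  | succ k ih =>
    intro m V _ _ _ β ε h hV
    haveI : Module.Finite F V := Module.Finite.of_finite
    have hz : zc (fun _ : V => (0 : F)) = Nat.card V := by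
      rw [zc]
      exact Nat.card_congr (Equiv.subtypeUnivEquiv (fun x => rfl))
    cases m with
    | zero =>
      rw [card_Fr_succ h k (cfS (Nat.card F) 0 k) (fun u v hp => by
        have := finrank_perp h hp; omega), hz, card_eq_pow (F := F) (V := V), hV]
      simp [cfS]
    | succ m =>
      rw [card_Fr_succ h k (cfS (Nat.card F) m k) (fun u v hp => ih m (fm_perp h hp) (by
        have := finrank_perp h hp; omega)), hz, card_eq_pow (F := F) (V := V), hV]
      rfl

/-- number of non-zero isotropic vectors of a unitary space -/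
def zu (q n : ℕ) : ℕ := (if Even n then q ^ n - 1 else q ^ n + 1) * (if Even n then q ^ (n - 1) + 1 else q ^ (n - 1) - 1)

/-- unitary frames -/
def cfU (q : ℕ) : ℕ → ℕ → ℕ
  | 0, _ => 1
  | k + 1, n => zu q n * ((q ^ 2) ^ k * cfU q k (n - 2))

lemma zu_of_zrel {q n z : ℕ} (hq : 1 < q) (hn : 1 ≤ n) (h : zrel q n z) : z = zu q n + 1 := by
  obtain ⟨n, rfl⟩ : ∃ k, n = k + 1 := ⟨n - 1, by omega⟩
  have hq0' : (q : ℤ) ≠ 0 := by exact_mod_cast (by omega : q ≠ 0)
  have hp1 : 1 ≤ q ^ n := Nat.one_le_pow _ _ (by omega)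
  have hp2 : 1 ≤ q ^ (n + 1) := Nat.one_le_pow _ _ (by omega)
  rw [zrel] at h
  have : ((z : ℕ) : ℤ) = ((zu q (n + 1) + 1 : ℕ) : ℤ) := by
    apply mul_left_cancel₀ hq0'
    rw [h, zu, Nat.add_sub_cancel]
    by_cases he : Even (n + 1)
    · rw [if_pos he, if_pos he, he.neg_one_pow]
      push_cast [Nat.cast_sub hp2]
      ring
    · rw [if_neg he, if_neg he, (Nat.not_even_iff_odd.1 he).neg_one_pow]
      push_cast [Nat.cast_sub hp1]
      ring
  exact_mod_cast this

theorem card_Fr_herm {F : Type u} [Field F] [Fintype F] {q : ℕ} {σ : F →+* F} (hF : Fintype.card F = q ^ 2) (hσ : ∀ x, σ x = x ^ q)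
    (hσ1 : σ ≠ RingHom.id F) (hσ2 : ∀ x, σ (σ x) = x)
    (k : ℕ) : ∀ (n : ℕ) {V : Type v} [AddCommGroup V] [Module F V] [Finite V] (B : V →ₛₗ[σ] V →ₗ[F] F), B.IsSymm →
      B.Nondegenerate → Module.finrank F V = n → zrel q n (zc (fun x => B x x)) → 2 * k ≤ n + 1 →
      Nat.card (Fr B (fun x => B x x) k) = cfU q k n := by
  induction k with
  | zero => intro n V _ _ _ B hS hB hV hz hk; rw [card_Fr_zero]; rfl
  | succ k ih =>
    intro n V _ _ _ B hS hB hV hz hk
    haveI : Module.Finite F V := Module.Finite.of_finite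
    have hq0 := q_pos hF
    have hq1 := one_lt_q hF
    have h := fm_herm σ hσ1 hσ2 B hS hB
    have hF' : Nat.card F = q ^ 2 := by rw [Nat.card_eq_fintype_card, hF]
    rw [card_Fr_succ h k (cfU q k (n - 2)) ?_, hF', zu_of_zrel hq1 (by omega) hz, Nat.add_sub_cancel]
    · rfl
    · intro u v hp
      have hW := finrank_perp h hp
      obtain ⟨n, rfl⟩ : ∃ j, n = j + 2 := ⟨n - 2, by omega⟩
      have hWn : Module.finrank F (pperp B u v) = n := by omega
      have hcW : Nat.card (pperp B u v) = q ^ (2 * n) := by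
        rw [card_eq_pow (F := F) (V := pperp B u v), hWn, hF', ← pow_mul]
      have hfp := fm_perp h hp
      refine ih n (V := pperp B u v) (res B (pperp B u v)) ⟨fun x y => hS.eq x y⟩
        ⟨hfp.nondeg, fun x hx => hfp.nondeg x (fun y => hfp.refl (hx y))⟩ hWn ?_ (by omega)
      have h2 := zc_split h hp
      rw [kap_herm hF hσ hσ1 hσ2, hcW, hF'] at h2
      rw [zrel] at hz ⊢
      have hq0' : (q : ℤ) ≠ 0 := by exact_mod_cast hq0.ne'
      have hq2 : 1 ≤ q ^ 2 := Nat.one_le_pow _ _ hq0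
      rw [h2] at hz
      push_cast [Nat.cast_sub hq2] at hz
      apply mul_left_cancel₀ (pow_ne_zero 2 hq0')
      have h3 : (-1 : ℤ) ^ (n + 1 + 1) = (-1) ^ n := by ring
      rw [h3] at hz
      have h4 : ((zc fun x : pperp B u v => (res B (pperp B u v)) x x : ℕ) : ℤ) =
        ((zc fun w : pperp B u v => B (w : V) (w : V) : ℕ) : ℤ) := rfl
      rw [h4]
      linear_combination hz

end CfsgH9.Frames
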