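import Cfsg.Agent.H3.Rank2
import Cfsg.Agent.H2.CopGen

set_option autoImplicit false

open MulAction

namespace CfsgH9.HalfTr

section
variable {P E : Type*} [Group P] [Finite P] [AddCommGroup E] [DistribMulAction P E]

open Classical in
/-- the norm map of a subgroup -/
noncomputable def nm (B : Subgroup P) (v : E) : E :=
  letI := Fintype.ofFinite P
  ∑ b ∈ Finset.univ.filter (· ∈ B), b • v

theorem nm_add (B : Subgroup P) (v w : E) : nm B (v + w) = nm B v + nm B w := by
  classical
  simp only [nm, smul_add, Finset.sum_add_distrib]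

theorem nm_conj {B B' : Subgroup P} (g : P) (h : ∀ b, b ∈ B ↔ g * b * g⁻¹ ∈ B') (v : E) :
    g • nm B v = nm B' (g • v) := by
  classical
  letI := Fintype.ofFinite P
  rw [nm, nm, Finset.smul_sum]
  refine Finset.sum_nbij' (fun b => g * b * g⁻¹) (fun b => g⁻¹ * b * g) ?_ ?_ ?_ ?_ ?_
  · intro b hb
    simp only [Finset.mem_filter, Finset.mem_univ, true_and] at hb ⊢
    exact (h b).1 hb
  · intro b hb
    simp only [Finset.mem_filter, Finset.mem_univ, true_and] at hb ⊢
    rw [h]
    convert hb using 1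
    group
  · intro b _
    group
  · intro b _
    group
  · intro b _
    rw [← mul_smul, ← mul_smul]
    congr 1
    group

theorem smul_nm {B : Subgroup P} {b : P} (hb : b ∈ B) (v : E) : b • nm B v = nm B v := by
  classical
  letI := Fintype.ofFinite P
  rw [nm, Finset.smul_sum]
  refine Finset.sum_nbij' (fun c => b * c) (fun c => b⁻¹ * c) ?_ ?_ ?_ ?_ ?_
  · intro c hc
    simp only [Finset.mem_filter, Finset.mem_univ, true_and] at hc ⊢
    exact B.mul_mem hb hc
  · intro c hc
    simp only [Finset.mem_filter, Finset.mem_univ, true_and] at hc ⊢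
    exact B.mul_mem (B.inv_mem hb) hc
  · intro c _
    group
  · intro c _
    group
  · intro c _
    rw [← mul_smul]

theorem nm_smul {B : Subgroup P} {b : P} (hb : b ∈ B) (v : E) : nm B (b • v) = nm B v := by
  rw [← nm_conj (B := B) b (fun c => ?_) v, smul_nm hb]
  constructor
  · intro hc
    exact B.mul_mem (B.mul_mem hb hc) (B.inv_mem hb)
  · intro hc
    have := B.mul_mem (B.mul_mem (B.inv_mem hb) hc) hb
    convert this using 1
    group

theorem nm_fix {B : Subgroup P} {v : E} (h : ∀ b ∈ B, b • v = v) : nm B v = Nat.card B • v := by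
  classical
  letI := Fintype.ofFinite P
  rw [nm, Finset.sum_congr rfl (g := fun _ => v) (fun b hb => h b (by simpa using hb)), Finset.sum_const]
  congr 1
  rw [Nat.card_eq_fintype_card, Fintype.card_subtype]

theorem nm_neg (B : Subgroup P) (v : E) : nm B (-v) = - nm B v := by
  classical
  simp only [nm, smul_neg, Finset.sum_neg_distrib]

theorem smul_cancel {n q : ℕ} (hE : ∀ e : E, q • e = 0) (hn : n.Coprime q) {v w : E} (h : n • v = n • w) : v = w := by
  have h1 : n • (v - w) = 0 := by rw [smul_sub, h, sub_self]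
  have h2 : v - w = 0 := by
    have h3 : (Nat.gcd n q : ℤ) • (v - w) = 0 := by
      rw [Nat.gcd_eq_gcd_ab, add_smul, mul_comm, mul_smul, natCast_zsmul, h1, smul_zero, mul_comm, mul_smul, natCast_zsmul, hE,
        smul_zero, add_zero]
    rw [hn] at h3
    simpa using h3
  exact sub_eq_zero.1 h2

variable (hconst : ∀ a b : E, a ≠ 0 → b ≠ 0 → Nat.card (MulAction.stabilizer P a) = Nat.card (MulAction.stabilizer P b))
include hconst

theorem stab_eq {a b : E} (ha : a ≠ 0) (hb : b ≠ 0) (hab : a + b ≠ 0)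
    (h : MulAction.stabilizer P (a + b) ≤ MulAction.stabilizer P a) : MulAction.stabilizer P a = MulAction.stabilizer P b := by
  have h1 : MulAction.stabilizer P (a + b) = MulAction.stabilizer P a :=
    Subgroup.eq_of_le_of_card_ge h (le_of_eq (hconst _ _ ha hab))
  apply Subgroup.eq_of_le_of_card_ge ?_ (le_of_eq (hconst _ _ hb ha))
  intro g hg
  have h2 : g • (a + b) = a + b := by
    have : g ∈ MulAction.stabilizer P (a + b) := by rw [h1]; exact hg
    exact this
  have h3 : g • a = a := hg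
  rw [smul_add, h3] at h2
  exact add_left_cancel h2

/-- nontrivial normal subgroups of order prime to `q` have no nonzero fixed vectors -/
theorem fix_normal [FaithfulSMul P E] {q : ℕ} (hE : ∀ e : E, q • e = 0) {A : Subgroup P} (hA : A.Normal) (hA1 : A ≠ ⊥)
    (hcop : (Nat.card A).Coprime q) {a : E} (ha : ∀ x ∈ A, x • a = a) : a = 0 := by
  by_contra ha0
  obtain ⟨x, hx, hx1⟩ := A.bot_or_exists_ne_one.resolve_left hA1
  obtain ⟨v, hv⟩ : ∃ v : E, x • v ≠ v := by
    by_contra hcon
    push Not at hcon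
    exact hx1 (FaithfulSMul.eq_of_smul_eq_smul (α := E) (fun v => by rw [hcon, one_smul]))
  set b := x • v - v with hbdef
  have hb0 : b ≠ 0 := sub_ne_zero.2 hv
  have hnb : nm A b = 0 := by
    rw [hbdef, sub_eq_add_neg, nm_add, nm_neg, nm_smul hx, add_neg_cancel]
  have hab : a + b ≠ 0 := by
    intro h
    have h1 : nm A (a + b) = 0 := by
      rw [h]
      have := nm_add A (0 : E) 0
      rw [add_zero] at this
      simpa using this
    rw [nm_add, hnb, add_zero, nm_fix ha] at h1
    apply ha0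
    apply smul_cancel hE hcop
    rw [h1, smul_zero]
  have h := stab_eq hconst ha0 hb0 hab (by
    intro g hg
    have hg' : g • (a + b) = a + b := hg
    have h1 : g • nm A (a + b) = nm A (g • (a + b)) := nm_conj g (fun c => ⟨fun hc => hA.conj_mem c hc g, fun hc => by
      have := hA.conj_mem _ hc g⁻¹
      convert this using 1
      group⟩) _
    rw [hg', nm_add, hnb, add_zero, nm_fix ha, smul_comm] at h1
    exact smul_cancel hE hcop h1)
  have h2 : nm A b = Nat.card A • b := nm_fix (fun y hy => by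
    have : y ∈ MulAction.stabilizer P b := by rw [← h]; exact ha y hy
    exact this)
  apply hb0
  apply smul_cancel hE hcop
  rw [← h2, hnb, smul_zero]


end

section
variable {P E : Type*} [Group P] [Finite P] [AddCommGroup E] [DistribMulAction P E]

theorem zp_fix {x : P} {v : E} (h : x • v = v) : ∀ b ∈ Subgroup.zpowers x, b • v = v := by
  intro b hb
  have : Subgroup.zpowers x ≤ MulAction.stabilizer P v := by rw [Subgroup.zpowers_le]; exact h
  exact this hb

variable {p : ℕ} [hp : Fact p.Prime] {A : Subgroup P}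

/-- two independent elements generate -/
theorem gen_sq (hAe : ∀ a ∈ A, a ^ p = 1) (hA : Nat.card A = p ^ 2) {x y : P} (hx : x ∈ A) (hy : y ∈ A) (hx1 : x ≠ 1)
    (hxy : y ∉ Subgroup.zpowers x) {H : Subgroup P} (hxH : x ∈ H) (hyH : y ∈ H) : A ≤ H := by
  have h1 : Nat.card (Subgroup.zpowers x) = p := by rw [Nat.card_zpowers, orderOf_eq_prime (hAe x hx) hx1]
  have h2 : Subgroup.zpowers x ≤ H ⊓ A := by
    rw [Subgroup.zpowers_le]
    exact ⟨hxH, hx⟩
  have h3 : Nat.card ↥(H ⊓ A) ∣ p ^ 2 := hA ▸ Subgroup.card_dvd_of_le inf_le_right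
  obtain ⟨i, hi, h4⟩ := (Nat.dvd_prime_pow hp.out).1 h3
  have h5 : Nat.card ↥(H ⊓ A) ≠ p := by
    intro h
    apply hxy
    have h6 : Subgroup.zpowers x = H ⊓ A := Subgroup.eq_of_le_of_card_ge h2 (by rw [h, h1])
    rw [h6]
    exact ⟨hyH, hy⟩
  have h7 : p ∣ Nat.card ↥(H ⊓ A) := h1 ▸ Subgroup.card_dvd_of_le h2
  have h8 : i = 2 := by
    interval_cases i
    · rw [h4, pow_zero] at h7
      exact absurd (Nat.dvd_one.1 h7) hp.out.one_lt.ne'
    · rw [pow_one] at h4
      exact absurd h4 h5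
    · rfl
  rw [h8] at h4
  have h9 : H ⊓ A = A := Subgroup.eq_of_le_of_card_ge inf_le_right (by rw [h4, hA])
  rw [← h9]
  exact inf_le_left

theorem nm_zero (hAe : ∀ a ∈ A, a ^ p = 1) (hAc : ∀ x ∈ A, ∀ y ∈ A, x * y = y * x) (hA : Nat.card A = p ^ 2)
    (hfix : ∀ v : E, (∀ x ∈ A, x • v = v) → v = 0) {B : Subgroup P} (hB : B ≤ A) {y x : P} (hy : y ∈ B) (hy1 : y ≠ 1)
    (hx : x ∈ A) (hxy : x ∉ Subgroup.zpowers y)
    {a : E} (ha : x • a = a) : nm B a = 0 := by
  apply hfix
  have h1 : x ∈ MulAction.stabilizer P (nm B a) := by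
    rw [MulAction.mem_stabilizer_iff, nm_conj (B' := B) x _ a, ha]
    intro b
    constructor
    · intro hb
      rw [hAc x hx b (hB hb), mul_inv_cancel_right]
      exact hb
    · intro hb
      have h2 := hB hb
      have h3 : x * b * x⁻¹ = b := by
        have h4 := hAc x hx _ h2
        have h5 : x * b * x⁻¹ = x⁻¹ * (x * (x * b * x⁻¹)) := by group
        rw [h5, h4]
        group
      rw [h3] at hb
      exact hb
  have h2 : y ∈ MulAction.stabilizer P (nm B a) := smul_nm hy a
  have h3 := gen_sq hAe hA (hB hy) hx hy1 hxy h2 h1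
  exact fun z hz => h3 hz

theorem zp_eq (hAe : ∀ a ∈ A, a ^ p = 1) {x y : P} (hx : x ∈ A) (hy : y ∈ A) (hx1 : x ≠ 1)
    (hy1 : y ≠ 1) (hxy : y ∈ Subgroup.zpowers x) : Subgroup.zpowers y = Subgroup.zpowers x := by
  apply Subgroup.eq_of_le_of_card_ge (Subgroup.zpowers_le.2 hxy)
  rw [Nat.card_zpowers, Nat.card_zpowers, orderOf_eq_prime (hAe x hx) hx1, orderOf_eq_prime (hAe y hy) hy1]

/-- the action as a multiplicative endomorphism -/
def mE (E : Type*) [AddCommGroup E] [DistribMulAction P E] (x : P) : Monoid.End (Multiplicative E) :=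
  AddMonoidHom.toMultiplicative (DistribSMul.toAddMonoidHom E x)

omit [Finite P] in
theorem mE_apply (x : P) (v : Multiplicative E) : mE E x v = Multiplicative.ofAdd (x • Multiplicative.toAdd v) := rfl

omit [Finite P] in
theorem mE_one : mE E (1 : P) = 1 := by
  ext v
  rw [mE_apply, one_smul]
  rfl

omit [Finite P] in
theorem mE_mul (x y : P) : mE E (x * y) = mE E x * mE E y := by
  ext v
  rw [mE_apply, mul_smul]
  rfl

omit [Finite P] in
theorem mE_pow (x : P) (n : ℕ) : mE E (x ^ n) = mE E x ^ n := by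
  induction n with
  | zero => rw [pow_zero, pow_zero, mE_one]
  | succ n ih => rw [pow_succ, pow_succ, mE_mul, ih]

theorem mem_zpowers_sq {G : Type*} [Group G] {g : G} (h : Odd (orderOf g)) : g ∈ Subgroup.zpowers (g ^ 2) := by
  obtain ⟨m, hm⟩ := h
  have h1 : g ^ (2 * m + 1) = 1 := by rw [← hm, pow_orderOf_eq_one]
  have h2 : g * (g ^ 2) ^ m = 1 := by rw [← pow_mul, ← pow_succ', h1]
  have h3 : ((g ^ 2) ^ m)⁻¹ ∈ Subgroup.zpowers (g ^ 2) := Subgroup.inv_mem _ (Subgroup.pow_mem _ (Subgroup.mem_zpowers _) _)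
  rwa [← eq_inv_of_mul_eq_one_left h2] at h3

omit [Finite P] in
theorem mem_conj_zp (g z c : P) : c ∈ Subgroup.zpowers (g⁻¹ * z * g) ↔ g * c * g⁻¹ ∈ Subgroup.zpowers z := by
  rw [Subgroup.mem_zpowers_iff, Subgroup.mem_zpowers_iff]
  refine exists_congr (fun n => ?_)
  have h2 : (g⁻¹ * z * g) ^ n = g⁻¹ * z ^ n * g := by
    have := conj_zpow (i := n) (a := g⁻¹) (b := z)
    rwa [inv_inv] at this
  rw [h2]
  constructor
  · rintro rfl
    group
  · intro h
    rw [h]
    group

theorem no_sq [FaithfulSMul P E] {q : ℕ} (hE : ∀ e : E, q • e = 0) (hpq : p.Coprime q) (hp2 : p ≠ 2) (hP : IsPGroup p P)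
    (hconst : ∀ a b : E, a ≠ 0 → b ≠ 0 → Nat.card (MulAction.stabilizer P a) = Nat.card (MulAction.stabilizer P b))
    (hAn : A.Normal) (hAc : ∀ x ∈ A, ∀ y ∈ A, x * y = y * x) (hAe : ∀ a ∈ A, a ^ p = 1) (hA : Nat.card A = p ^ 2) : False := by
  have hA1 : A ≠ ⊥ := by
    rintro rfl
    rw [Subgroup.card_bot] at hA
    have := hp.out.one_lt
    nlinarith
  have hfix : ∀ v : E, (∀ x ∈ A, x • v = v) → v = 0 := fun v hv =>
    fix_normal hconst hE hAn hA1 (by rw [hA]; exact Nat.Coprime.pow_left 2 hpq) hv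
  obtain ⟨x₀, hx₀, hx₀1⟩ := A.bot_or_exists_ne_one.resolve_left hA1
  obtain ⟨y₀, hy₀, hy₀x⟩ : ∃ y ∈ A, y ∉ Subgroup.zpowers x₀ := by
    by_contra hcon
    push Not at hcon
    have h1 : A ≤ Subgroup.zpowers x₀ := hcon
    have h2 := Subgroup.card_le_of_le h1
    rw [hA, Nat.card_zpowers, orderOf_eq_prime (hAe _ hx₀) hx₀1] at h2
    have := hp.out.one_lt
    nlinarith
  have key : ∀ W : AddSubgroup E, (∀ x ∈ A, x ≠ 1 → ∀ v : E, x • v = v → v ∈ W) → W = ⊤ := by
    intro W hW
    rw [eq_top_iff]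
    intro v _
    have h1 := CfsgH2.pow_mem_of_fixed (V := Multiplicative E) hp.out (mE E x₀) (mE E y₀)
      (by rw [Commute, SemiconjBy, ← mE_mul, ← mE_mul, hAc x₀ hx₀ y₀ hy₀])
      (by rw [← mE_pow, hAe x₀ hx₀, mE_one]) (by rw [← mE_pow, hAe y₀ hy₀, mE_one]) (AddSubgroup.toSubgroup W)
      (fun w hw => hW x₀ hx₀ hx₀1 _ hw) (fun i w hw => by
        rw [← mE_pow, ← mE_mul] at hw
        refine hW (y₀ * x₀ ^ i) (A.mul_mem hy₀ (A.pow_mem hx₀ i)) ?_ _ hw
        intro h
        apply hy₀x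
        rw [mul_eq_one_iff_eq_inv] at h
        rw [h]
        exact Subgroup.inv_mem _ (Subgroup.pow_mem _ (Subgroup.mem_zpowers _) _)) (Multiplicative.ofAdd v)
    have h2 : p • v ∈ W := h1
    have h3 : (Nat.gcd p q : ℤ) • v ∈ W := by
      rw [Nat.gcd_eq_gcd_ab, add_smul, mul_comm, mul_smul, natCast_zsmul, mul_comm, mul_smul, natCast_zsmul, hE, smul_zero,
        add_zero]
      exact W.zsmul_mem h2 _
    rw [hpq] at h3
    simpa using h3
  obtain ⟨x, hx, hx1, a, hxa, ha0⟩ : ∃ x ∈ A, x ≠ 1 ∧ ∃ a : E, x • a = a ∧ a ≠ 0 := by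
    by_contra hcon
    push Not at hcon
    have h1 := key ⊥ (fun x hx hx1 v hv => by
      rw [AddSubgroup.mem_bot]
      exact hcon x hx hx1 v hv)
    apply hx₀1
    refine FaithfulSMul.eq_of_smul_eq_smul (α := E) (fun v => ?_)
    have h2 : ∀ w : E, w = 0 := fun w => by
      rw [← AddSubgroup.mem_bot, h1]
      exact AddSubgroup.mem_top _
    rw [h2 (x₀ • v), h2 ((1 : P) • v)]
  obtain ⟨y, hy, hyx, b, hyb, hb0⟩ : ∃ y ∈ A, y ∉ Subgroup.zpowers x ∧ ∃ b : E, y • b = b ∧ b ≠ 0 := by
    by_contra hcon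
    push Not at hcon
    have h1 := key (DistribSMul.toAddMonoidHom E x - AddMonoidHom.id E).ker (fun y hy hy1 v hv => by
      rw [AddMonoidHom.mem_ker, AddMonoidHom.sub_apply, AddMonoidHom.id_apply, sub_eq_zero]
      change x • v = v
      by_cases hyx : y ∈ Subgroup.zpowers x
      · have h2 := zp_eq hAe hx hy hx1 hy1 hyx
        have h3 : x ∈ Subgroup.zpowers y := by rw [h2]; exact Subgroup.mem_zpowers x
        exact zp_fix hv x h3
      · rw [hcon y hy hyx v hv, smul_zero])
    apply hx1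
    refine FaithfulSMul.eq_of_smul_eq_smul (α := E) (fun v => ?_)
    have h2 : v ∈ (DistribSMul.toAddMonoidHom E x - AddMonoidHom.id E).ker := by rw [h1]; trivial
    rw [AddMonoidHom.mem_ker, AddMonoidHom.sub_apply, AddMonoidHom.id_apply, sub_eq_zero] at h2
    rw [one_smul]
    exact h2
  have hy1 : y ≠ 1 := by
    rintro rfl
    exact hyx (Subgroup.one_mem _)
  have hxy : x ∉ Subgroup.zpowers y := by
    intro h
    apply hyx
    rw [zp_eq hAe hy hx hy1 hx1 h]
    exact Subgroup.mem_zpowers y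
  have hcard : ∀ z ∈ A, z ≠ 1 → Nat.card (Subgroup.zpowers z) = p := fun z hz hz1 => by
    rw [Nat.card_zpowers, orderOf_eq_prime (hAe z hz) hz1]
  -- norms
  have hBx : nm (Subgroup.zpowers x) (a + b) = p • a := by
    rw [nm_add, nm_fix (zp_fix hxa), hcard x hx hx1,
      nm_zero hAe hAc hA hfix (Subgroup.zpowers_le.2 hx) (Subgroup.mem_zpowers x) hx1 hy hyx hyb, add_zero]
  have hBy : nm (Subgroup.zpowers y) (a + b) = p • b := by
    rw [nm_add, nm_fix (zp_fix hyb), hcard y hy hy1,
      nm_zero hAe hAc hA hfix (Subgroup.zpowers_le.2 hy) (Subgroup.mem_zpowers y) hy1 hx hxy hxa, zero_add]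
  have hpa : p • a ≠ 0 := fun h => ha0 (smul_cancel hE hpq (by rw [h, smul_zero]))
  have hpb : p • b ≠ 0 := fun h => hb0 (smul_cancel hE hpq (by rw [h, smul_zero]))
  have hab : a + b ≠ 0 := by
    intro h
    apply hpa
    rw [← hBx, h]
    have := nm_add (Subgroup.zpowers x) (0 : E) 0
    rw [add_zero] at this
    simpa using this
  -- conjugates of zpowers
  have hcj : ∀ (g z : P), z ∈ A → z ≠ 1 → g • (a + b) = a + b → nm (Subgroup.zpowers z) (a + b) ≠ 0 →
      Subgroup.zpowers (g⁻¹ * z * g) = Subgroup.zpowers x ∨ Subgroup.zpowers (g⁻¹ * z * g) = Subgroup.zpowers y := by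
    intro g z hz hz1 hg hnz
    set w := g⁻¹ * z * g with hw
    have hwA : w ∈ A := by
      have := hAn.conj_mem z hz g⁻¹
      rwa [inv_inv] at this
    have hw1 : w ≠ 1 := by
      intro h
      apply hz1
      have : z = g * w * g⁻¹ := by rw [hw]; group
      rw [this, h]; group
    have h1 : g • nm (Subgroup.zpowers w) (a + b) = nm (Subgroup.zpowers z) (g • (a + b)) := by
      exact nm_conj g (fun c => mem_conj_zp g z c) _
    rw [hg] at h1
    by_contra hcon
    push Not at hcon
    have h3 : x ∉ Subgroup.zpowers w := fun h => hcon.1 (zp_eq hAe hwA hx hw1 hx1 h).symm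
    have h4 : y ∉ Subgroup.zpowers w := fun h => hcon.2 (zp_eq hAe hwA hy hw1 hy1 h).symm
    apply hnz
    rw [← h1, nm_add, nm_zero hAe hAc hA hfix (Subgroup.zpowers_le.2 hwA) (Subgroup.mem_zpowers w) hw1 hx h3 hxa,
      nm_zero hAe hAc hA hfix (Subgroup.zpowers_le.2 hwA) (Subgroup.mem_zpowers w) hw1 hy h4 hyb, add_zero, smul_zero]
  have hst := stab_eq hconst ha0 hb0 hab (by
    intro g hg
    have hg' : g • (a + b) = a + b := hg
    have hgodd : Odd (orderOf g) := by
      obtain ⟨n, hn⟩ := (IsPGroup.iff_orderOf.1 hP) g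
      rw [hn]
      exact (hp.out.odd_of_ne_two hp2).pow
    -- g normalises zpowers x
    have hnorm : Subgroup.zpowers (g⁻¹ * x * g) = Subgroup.zpowers x := by
      rcases hcj g x hx hx1 hg' (by rw [hBx]; exact hpa) with h | h
      · exact h
      · exfalso
        rcases hcj g y hy hy1 hg' (by rw [hBy]; exact hpb) with h' | h'
        · have h1 : ∀ c, c ∈ Subgroup.zpowers x ↔ g * c * g⁻¹ ∈ Subgroup.zpowers y := fun c => by rw [← mem_conj_zp, h']
          have h2 : ∀ c, c ∈ Subgroup.zpowers y ↔ g * c * g⁻¹ ∈ Subgroup.zpowers x := fun c => by rw [← mem_conj_zp, h]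
          have h3 : g ^ 2 ∈ Subgroup.normalizer (Subgroup.zpowers x : Set P) := by
            rw [Subgroup.mem_normalizer_iff]
            intro c
            rw [h1, h2]
            have e : g * (g * c * g⁻¹) * g⁻¹ = g ^ 2 * c * (g ^ 2)⁻¹ := by rw [sq]; group
            rw [e]
          have h4 : g ∈ Subgroup.normalizer (Subgroup.zpowers x : Set P) := by
            have := (Subgroup.zpowers_le.2 h3) (mem_zpowers_sq hgodd)
            exact this
          rw [Subgroup.mem_normalizer_iff] at h4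
          apply hyx
          have h5 := (h4 y).2 ((h2 y).1 (Subgroup.mem_zpowers y))
          exact h5
        · apply hyx
          have h1 : ∀ c, c ∈ Subgroup.zpowers y ↔ g * c * g⁻¹ ∈ Subgroup.zpowers y := fun c => by rw [← mem_conj_zp, h']
          have h2 : ∀ c, c ∈ Subgroup.zpowers y ↔ g * c * g⁻¹ ∈ Subgroup.zpowers x := fun c => by rw [← mem_conj_zp, h]
          have h3 : g⁻¹ * y * g ∈ Subgroup.zpowers y := by
            rw [h1]
            have e : g * (g⁻¹ * y * g) * g⁻¹ = y := by group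
            rw [e]
            exact Subgroup.mem_zpowers y
          have h4 := (h2 _).1 h3
          have e : g * (g⁻¹ * y * g) * g⁻¹ = y := by group
          rwa [e] at h4
    rw [MulAction.mem_stabilizer_iff]
    have h1 : g • nm (Subgroup.zpowers x) (a + b) = nm (Subgroup.zpowers x) (g • (a + b)) :=
      nm_conj g (fun c => by rw [← mem_conj_zp, hnorm]) _
    rw [hg', hBx, smul_comm] at h1
    exact smul_cancel hE hpq h1)
  have h1 : A ≤ MulAction.stabilizer P b := gen_sq hAe hA hx hy hx1 hyx (by rw [← hst]; exact hxa) hyb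
  exact hb0 (hfix b (fun z hz => h1 hz))

omit [Finite P] in
theorem fixed_of_p [Finite E] [Nontrivial E] (hP : IsPGroup p P) (hE : ∀ e : E, p • e = 0) : ∃ v : E, v ≠ 0 ∧ ∀ g : P, g • v = v := by
  have h1 : p ∣ Nat.card E := by
    obtain ⟨e, he⟩ := exists_ne (0 : E)
    have h2 : addOrderOf e = p := addOrderOf_eq_prime (hE e) he
    rw [← h2]
    exact addOrderOf_dvd_natCard e
  obtain ⟨b, hb, hb0⟩ := hP.exists_fixed_point_of_prime_dvd_card_of_fixed_point E h1 (a := (0 : E)) (fun g => smul_zero g)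
  exact ⟨b, fun h => hb0 h.symm, fun g => hb g⟩

theorem main [Finite E] [FaithfulSMul P E] {q : ℕ} (hp2 : p ≠ 2) (hP : IsPGroup p P) (hq : q.Prime) (hE : ∀ e : E, q • e = 0)
    (hconst : ∀ a b : E, a ≠ 0 → b ≠ 0 →
      Nat.card (MulAction.stabilizer P a) = Nat.card (MulAction.stabilizer P b)) :
    IsCyclic P ∧ ∀ g : P, g ≠ 1 → ∀ a : E, g • a = a → a = 0 := by
  by_cases htriv : Subsingleton E
  · have h1 : ∀ g : P, g = 1 := fun g => FaithfulSMul.eq_of_smul_eq_smul (α := E) (fun v => Subsingleton.elim _ _)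
    exact ⟨⟨1, fun g => by rw [h1 g]; exact (Subgroup.zpowers (1 : P)).one_mem⟩, fun g _ a _ => Subsingleton.elim _ _⟩
  rw [not_subsingleton_iff_nontrivial] at htriv
  by_cases hpq : p = q
  · subst hpq
    obtain ⟨v, hv0, hv⟩ := fixed_of_p hP hE
    have h1 : ∀ g : P, g = 1 := fun g => by
      refine FaithfulSMul.eq_of_smul_eq_smul (α := E) (fun w => ?_)
      rw [one_smul]
      by_cases hw : w = 0
      · rw [hw, smul_zero]
      · have h2 := hconst v w hv0 hw
        have h3 : MulAction.stabilizer P v = ⊤ := by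
          rw [eq_top_iff]
          exact fun g _ => hv g
        rw [h3, Subgroup.card_top] at h2
        have h4 : MulAction.stabilizer P w = ⊤ := Subgroup.eq_top_of_card_eq _ h2.symm
        have h5 : g ∈ MulAction.stabilizer P w := by rw [h4]; trivial
        exact h5
    exact ⟨⟨1, fun g => by rw [h1 g]; exact (Subgroup.zpowers (1 : P)).one_mem⟩, fun g hg => absurd (h1 g) hg⟩
  have hcop : p.Coprime q := (Nat.coprime_primes hp.out hq).2 hpq
  have hcyc : IsCyclic P := by
    by_contra hnc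
    obtain ⟨A, hAn, hAc, hAe, hA⟩ := CfsgH3.exists_normal_sq hp2 hP hnc
    exact no_sq hE hcop hp2 hP hconst hAn hAc hAe hA
  refine ⟨hcyc, ?_⟩
  intro g hg a ha
  have hn : (Subgroup.zpowers g).Normal := by
    haveI := hcyc
    obtain ⟨x, hx⟩ := hcyc.exists_generator
    refine ⟨fun n hn y => ?_⟩
    obtain ⟨i, rfl⟩ := Subgroup.mem_zpowers_iff.1 (hx n)
    obtain ⟨j, rfl⟩ := Subgroup.mem_zpowers_iff.1 (hx y)
    rw [← zpow_neg, ← zpow_add, ← zpow_add]
    convert hn using 2
    ring
  have hpp : (Nat.card (Subgroup.zpowers g)).Coprime q := by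
    rw [Nat.card_zpowers]
    obtain ⟨n, hn⟩ := (IsPGroup.iff_orderOf.1 hP) g
    rw [hn]
    exact Nat.Coprime.pow_left n hcop
  exact fix_normal hconst hE hn (by rw [Ne, Subgroup.zpowers_eq_bot]; exact hg) hpp (zp_fix ha)

end

end CfsgH9.HalfTr
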