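import Mathlib
import Cfsg.Agent.H9.SpBridge
import Cfsg.Agent.H9.IwaSL
import Cfsg.Agent.H9.Eigen
import Cfsg.Agent.S0768

set_option autoImplicit false

/-! Perfectness and simplicity of symplectic groups. -/

namespace CfsgH9.IwaSp

open Matrix MulAction Cfsg CfsgH9.SpBridge CfsgH9.SpGen

open scoped Pointwise LinearAlgebra.Projectivization commutatorElement

variable {F : Type*} [Field F] {m : ℕ}

local notation "Sp" => Matrix.symplecticGroup (Fin m) F
local notation "V" => (Fin m ⊕ Fin m → F)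
local notation "f" => sympForm m F

/-- transvection -/
def T (w : V) (c : F) : Sp := ⟨sympTransvection m w c, transv_mem w c⟩

lemma T_mulVec (w : V) (c : F) (x : V) : (T w c : Matrix (Fin m ⊕ Fin m) (Fin m ⊕ Fin m) F) *ᵥ x = x + (c * f x w) • w :=
  transv_mulVec w c x

lemma ext' {A B : Sp} (h : ∀ x : V, (A : Matrix (Fin m ⊕ Fin m) (Fin m ⊕ Fin m) F) *ᵥ x = (B : Matrix (Fin m ⊕ Fin m) (Fin m ⊕ Fin m) F) *ᵥ x) :
    A = B := by
  apply Subtype.ext
  exact Matrix.ext_of_mulVec_single (fun i => h _)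

lemma mul_mulVec (A B : Sp) (x : V) : ((A * B : Sp) : Matrix (Fin m ⊕ Fin m) (Fin m ⊕ Fin m) F) *ᵥ x =
    (A : Matrix (Fin m ⊕ Fin m) (Fin m ⊕ Fin m) F) *ᵥ ((B : Matrix (Fin m ⊕ Fin m) (Fin m ⊕ Fin m) F) *ᵥ x) := by
  rw [mulVec_mulVec]; rfl

/-- Siegel element -/
def S (u v : V) (c : F) : Sp := T (u + v) c * T u (-c) * T v (-c)

lemma S_mulVec {u v : V} (h : f u v = 0) (c : F) (x : V) :
    (S u v c : Matrix (Fin m ⊕ Fin m) (Fin m ⊕ Fin m) F) *ᵥ x = x + (c * f x u) • v + (c * f x v) • u := by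
  have hf := sympForm_isSymplectic (F := F) m
  have hb := hf.bilinear
  have h' : f v u = 0 := by rw [hf.skew, h, neg_zero]
  rw [S, mul_mulVec, mul_mulVec]
  simp only [T_mulVec, hb.add_left, hb.add_right, hb.smul_left, hb.smul_right, hf.alternating, h, h']
  module

lemma conj_mem_comm {H : Subgroup Sp} (hH : commutator Sp ≤ H) (g A B : Sp) (h : ∀ x : V,
    ((g * A : Sp) : Matrix (Fin m ⊕ Fin m) (Fin m ⊕ Fin m) F) *ᵥ x =
      ((B * (A * g) : Sp) : Matrix (Fin m ⊕ Fin m) (Fin m ⊕ Fin m) F) *ᵥ x) : B ∈ H := by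
  have h1 : g * A = B * (A * g) := ext' h
  have h2 : B = ⁅g, A⁆ := by
    rw [commutatorElement_def, h1]; group
  rw [h2]
  exact hH (Subgroup.commutator_mem_commutator (Subgroup.mem_top _) (Subgroup.mem_top _))

lemma exists_pos {u v : V} (hu : u ≠ 0) (hv : ∀ c : F, v ≠ c • u) : ∃ a : V, f a u = 0 ∧ f a v = 1 := by
  have hf := sympForm_isSymplectic (F := F) m
  have hb := hf.bilinear
  by_contra hc
  push Not at hc
  have hc' : ∀ a : V, f a u = 0 → f a v = 0 := by
    intro a ha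
    by_contra hav
    exact hc ((f a v)⁻¹ • a) (by rw [hb.smul_left, ha, mul_zero]) (by rw [hb.smul_left, inv_mul_cancel₀ hav])
  obtain ⟨-, z, hz⟩ := hf.nondegenerate u hu
  have hz' : f z u ≠ 0 := by rw [hf.skew, neg_ne_zero]; exact hz
  have h1 : ∀ y, f y (v - ((f z u)⁻¹ * f z v) • u) = 0 := by
    intro y
    have h2 := hc' (y - (f y u * (f z u)⁻¹) • z) (by
      rw [sub_left hf, hb.smul_left, mul_assoc, inv_mul_cancel₀ hz', mul_one, sub_self])
    rw [sub_left hf, hb.smul_left, sub_eq_zero] at h2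
    rw [sub_right hf, hb.smul_right, h2]
    ring
  have h3 : v - ((f z u)⁻¹ * f z v) • u = 0 := by
    by_contra h4
    obtain ⟨⟨y, hy⟩, -⟩ := hf.nondegenerate _ h4
    exact hy (h1 y)
  exact hv _ (sub_eq_zero.1 h3)

/-- scaling -/
lemma case_scale {a : F} (ha : a ≠ 0) (ha2 : a ^ 2 ≠ 1) (w : V) (hw : w ≠ 0) (c : F) : T w c ∈ commutator Sp := by
  have hf := sympForm_isSymplectic (F := F) m
  have hb := hf.bilinear
  obtain ⟨-, v, hv⟩ := hf.nondegenerate w hw
  have h1 : f w ((f w v)⁻¹ • v) = 1 := by rw [hb.smul_right, inv_mul_cancel₀ hv]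
  have h2 : f (a • w) (a⁻¹ • (f w v)⁻¹ • v) = 1 := by
    rw [hb.smul_left, hb.smul_right, h1, mul_one, mul_inv_cancel₀ ha]
  obtain ⟨g, hg, -⟩ := exists_pair h1 h2
  have hgi := (mem_iff _).1 g.2
  refine conj_mem_comm le_rfl g (T w ((a ^ 2 - 1)⁻¹ * c)) _ ?_
  intro x
  have h3 : f ((g : Matrix (Fin m ⊕ Fin m) (Fin m ⊕ Fin m) F) *ᵥ x) (a • w) = f x w := by
    rw [← hg]; exact hgi x w
  rw [hb.smul_right] at h3
  have h4 : f x w = a * f ((g : Matrix (Fin m ⊕ Fin m) (Fin m ⊕ Fin m) F) *ᵥ x) w := h3.symm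
  simp only [mul_mulVec, T_mulVec, mulVec_add, mulVec_smul, hg, h4, hb.add_left, hb.smul_left, hf.alternating]
  have h5 : a ^ 2 - 1 ≠ 0 := sub_ne_zero.2 ha2
  obtain ⟨d, rfl⟩ : ∃ d, c = (a ^ 2 - 1) * d := ⟨(a ^ 2 - 1)⁻¹ * c, by rw [mul_inv_cancel_left₀ h5]⟩
  rw [inv_mul_cancel_left₀ h5]
  module

lemma case_odd (h2 : (2 : F) ≠ 0) {w v : V} (hw : w ≠ 0) (hv : ∀ c : F, v ≠ c • w) (hwv : f w v = 0) (c : F) :
    T w c ∈ commutator Sp := by
  have hf := sympForm_isSymplectic (F := F) m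
  have hb := hf.bilinear
  obtain ⟨a, ha, hav⟩ := exists_pos hw hv
  have haw : f w a = 0 := by rw [hf.skew, ha, neg_zero]
  have hva : f v a = -1 := by rw [hf.skew, hav]
  have hvw : f v w = 0 := by rw [hf.skew, hwv, neg_zero]
  refine conj_mem_comm le_rfl (S w a 1) (S w v (-(c / 2))) _ ?_
  intro x
  simp only [mul_mulVec, S_mulVec haw, S_mulVec hwv, T_mulVec, hb.add_left, hb.add_right, hb.smul_left, hb.smul_right,
    hf.alternating, haw, ha, hav, hwv, hvw, hva]
  have h3 : c = 2 * (c / 2) := by field_simp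
  generalize c / 2 = d at *
  subst h3
  module

lemma case_three {v u w a : V} (huv : f u v = 0) (huw : f u w = 0) (hvw : f v w = 0) (hau : f a u = 0) (hav : f a v = 0)
    (haw : f a w = 1) (c : F) : S u v c ∈ commutator Sp := by
  have hf := sympForm_isSymplectic (F := F) m
  have hb := hf.bilinear
  have hvu : f v u = 0 := by rw [hf.skew, huv, neg_zero]
  have hwu : f w u = 0 := by rw [hf.skew, huw, neg_zero]
  have hwv : f w v = 0 := by rw [hf.skew, hvw, neg_zero]
  have hua : f u a = 0 := by rw [hf.skew, hau, neg_zero]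
  have hva : f v a = 0 := by rw [hf.skew, hav, neg_zero]
  have hwa : f w a = -1 := by rw [hf.skew, haw]
  refine conj_mem_comm le_rfl (S v a 1) (S u w (-c)) _ ?_
  intro x
  simp only [mul_mulVec, S_mulVec hva, S_mulVec huw, S_mulVec huv, hb.add_left, hb.add_right, hb.smul_left, hb.smul_right,
    hf.alternating, huv, huw, hvw, hau, hav, haw, hvu, hwu, hwv, hua, hva, hwa]
  module

lemma case_three' {v u w a : V} (huv : f u v = 0) (huw : f u w = 0) (hvw : f v w = 0) (hau : f a u = 0) (hav : f a v = 0)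
    (haw : f a w = 1) (hS : ∀ c, S w v c ∈ commutator Sp) (c : F) : T v c ∈ commutator Sp := by
  have hf := sympForm_isSymplectic (F := F) m
  have hb := hf.bilinear
  have hwv : f w v = 0 := by rw [hf.skew, hvw, neg_zero]
  have hva : f v a = 0 := by rw [hf.skew, hav, neg_zero]
  have hwa : f w a = -1 := by rw [hf.skew, haw]
  have h1 : T v c * S w v (-c) ∈ commutator Sp := by
    refine conj_mem_comm le_rfl (S v a 1) (T w c) _ ?_
    intro x
    simp only [mul_mulVec, S_mulVec hva, S_mulVec hwv, T_mulVec, hb.add_left, hb.add_right, hb.smul_left, hb.smul_right,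
      hf.alternating, hvw, hav, haw, hwv, hva, hwa]
    module
  have h2 := (commutator Sp).mul_mem h1 ((commutator Sp).inv_mem (hS (-c)))
  rwa [mul_inv_cancel_right] at h2

lemma f_ll (i j : Fin m) : f (Pi.single (Sum.inl i) 1) (Pi.single (Sum.inl j) 1) = 0 := by
  simp [sympForm, J]

lemma f_rl (i j : Fin m) : f (Pi.single (Sum.inr i) 1) (Pi.single (Sum.inl j) 1) = if i = j then 1 else 0 := by
  simp [sympForm, J, Matrix.one_apply]

lemma e_ne (i : Fin m) : (Pi.single (Sum.inl i) 1 : V) ≠ 0 := Pi.single_ne_zero_iff.2 one_ne_zero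

lemma S_std {i j k : Fin m} (hij : i ≠ j) (hik : i ≠ k) (hjk : j ≠ k) (c : F) :
    S (Pi.single (Sum.inl i) 1) (Pi.single (Sum.inl j) 1) c ∈ commutator Sp := by
  refine case_three (w := Pi.single (Sum.inl k) 1) (a := Pi.single (Sum.inr k) 1) (f_ll _ _) (f_ll _ _) (f_ll _ _) ?_ ?_ ?_ c
  · rw [f_rl, if_neg hik.symm]
  · rw [f_rl, if_neg hjk.symm]
  · rw [f_rl, if_pos rfl]

theorem perfect [Finite F] (h : 3 ≤ m ∨ (m = 2 ∧ 3 ≤ Nat.card F) ∨ 4 ≤ Nat.card F) : commutator Sp = ⊤ := by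
  have hf := sympForm_isSymplectic (F := F) m
  have hb := hf.bilinear
  have : Fintype F := Fintype.ofFinite F
  rw [eq_top_iff, ← closure_eq_top, Subgroup.closure_le]
  rintro A ⟨w, c, hA⟩
  have hA' : A = T w c := Subtype.ext hA
  rw [hA']
  show T w c ∈ commutator Sp
  by_cases hw : w = 0
  · have : T w c = 1 := by
      apply ext'
      intro x
      rw [T_mulVec, hw]
      simp
    rw [this]; exact Subgroup.one_mem _
  by_cases hsc : ∃ a : F, a ≠ 0 ∧ a ^ 2 ≠ 1
  · obtain ⟨a, ha, ha2⟩ := hsc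
    exact case_scale ha ha2 w hw c
  push Not at hsc
  -- the field has at most three elements
  have h1 : ∀ a : F, a = 0 ∨ a = 1 ∨ a = -1 := by
    intro a
    by_cases ha : a = 0
    · exact Or.inl ha
    · have := hsc a ha
      rw [sq] at this
      exact Or.inr (mul_self_eq_one_iff.1 this)
  have hcard : Nat.card F ≤ 3 := by
    classical
    have h2 : (Finset.univ : Finset F) ⊆ {0, 1, -1} := by
      intro a _
      simpa using h1 a
    have h3 := Finset.card_le_card h2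
    rw [Finset.card_univ] at h3
    rw [Nat.card_eq_fintype_card]
    exact h3.trans Finset.card_le_three
  have hm2 : 2 ≤ m := by omega
  -- conjugate to the standard one
  have key : T (Pi.single (Sum.inl (⟨0, by omega⟩ : Fin m)) 1 : V) c ∈ commutator Sp := by
    by_cases hm3 : 3 ≤ m
    · refine case_three' (u := Pi.single (Sum.inl (⟨2, by omega⟩ : Fin m)) 1) (w := Pi.single (Sum.inl (⟨1, by omega⟩ : Fin m)) 1)
        (a := Pi.single (Sum.inr (⟨1, by omega⟩ : Fin m)) 1) (f_ll _ _) (f_ll _ _) (f_ll _ _) ?_ ?_ ?_ ?_ c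
      · rw [f_rl, if_neg (by simp)]
      · rw [f_rl, if_neg (by simp)]
      · rw [f_rl, if_pos rfl]
      · intro c
        exact S_std (k := ⟨2, by omega⟩) (by simp) (by simp) (by simp) c
    · have h2 : (2 : F) ≠ 0 := by
        intro h2
        classical
        have hneg : (-1 : F) = 1 := by
          rw [neg_eq_iff_add_eq_zero, one_add_one_eq_two, h2]
        have h4 : (Finset.univ : Finset F) ⊆ {0, 1} := by
          intro a _
          have := h1 a
          rw [hneg] at this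
          simp only [Finset.mem_insert, Finset.mem_singleton]
          tauto
        have h3 := Finset.card_le_card h4
        rw [Finset.card_univ] at h3
        have h5 := h3.trans Finset.card_le_two
        rw [Nat.card_eq_fintype_card] at h
        omega
      refine case_odd h2 (e_ne _) (v := Pi.single (Sum.inl (⟨1, by omega⟩ : Fin m)) 1) ?_ (f_ll _ _) c
      intro d hd
      have := congrFun hd (Sum.inl (⟨1, by omega⟩ : Fin m))
      simp at this
  have hsingle : ∀ v : V, v ≠ 0 → ∃ w, f v w = 1 := by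
    intro v hv
    obtain ⟨-, w, hw⟩ := hf.nondegenerate v hv
    exact ⟨(f v w)⁻¹ • w, by rw [hb.smul_right, inv_mul_cancel₀ hw]⟩
  obtain ⟨v1, hv1⟩ := hsingle _ (e_ne (⟨0, by omega⟩ : Fin m))
  obtain ⟨v2, hv2⟩ := hsingle w hw
  obtain ⟨g, hg, -⟩ := exists_pair hv1 hv2
  have hgi := (mem_iff _).1 g.2
  have h3 : T w c = g * T (Pi.single (Sum.inl (⟨0, by omega⟩ : Fin m)) 1 : V) c * g⁻¹ := by
    rw [eq_mul_inv_iff_mul_eq]
    apply ext'
    intro x
    rw [mul_mulVec, mul_mulVec, T_mulVec, T_mulVec, mulVec_add, mulVec_smul, hg]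
    congr 3
    rw [← hg]; exact hgi _ _
  rw [h3]
  exact (inferInstance : (commutator Sp).Normal).conj_mem _ key _

instance instAct : MulAction Sp (ℙ F V) := MulAction.compHom _ (toGL m F)

lemma act_def (A : Sp) (p : ℙ F V) : A • p = toGL m F A • p := rfl

lemma act_mk (A : Sp) {v : V} (hv : v ≠ 0) (hv' : (A : Matrix (Fin m ⊕ Fin m) (Fin m ⊕ Fin m) F) *ᵥ v ≠ 0) :
    A • Projectivization.mk F v hv = Projectivization.mk F ((A : Matrix (Fin m ⊕ Fin m) (Fin m ⊕ Fin m) F) *ᵥ v) hv' := rfl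

theorem prim [Finite F] (hm : 1 ≤ m) : IsPreprimitive Sp (ℙ F V) := by
  have h1 := Cfsg.Agent.S0768.result (F := F) m hm
  let φ : Sp →* ↥(Cfsg.spGL m F) := (toGL m F).codRestrict _ (fun A => (mem_iff _).1 A.2)
  have hφ : Function.Surjective φ := by
    rintro ⟨g, hg⟩
    refine ⟨⟨(g : Matrix (Fin m ⊕ Fin m) (Fin m ⊕ Fin m) F), (mem_iff _).2 (fun u v => hg u v)⟩, ?_⟩
    apply Subtype.ext
    apply Units.ext
    rfl
  let ff : (ℙ F V) →ₑ[φ] (ℙ F V) := { toFun := id, map_smul' := fun g x => rfl }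
  exact (isPreprimitive_congr hφ (show Function.Bijective ff from Function.bijective_id)).2 h1

/-- root group of a vector -/
def X (w : V) : Subgroup Sp where
  carrier := {A | ∃ c, A = T w c}
  one_mem' := ⟨0, by apply ext'; intro x; rw [T_mulVec]; simp⟩
  mul_mem' := by
    rintro _ _ ⟨c, rfl⟩ ⟨d, rfl⟩
    have hf := sympForm_isSymplectic (F := F) m
    refine ⟨c + d, ?_⟩
    apply ext'
    intro x
    rw [mul_mulVec, T_mulVec, T_mulVec, T_mulVec, hf.bilinear.add_left, hf.bilinear.smul_left, hf.alternating]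
    module
  inv_mem' := by
    rintro _ ⟨c, rfl⟩
    have hf := sympForm_isSymplectic (F := F) m
    refine ⟨-c, ?_⟩
    rw [inv_eq_iff_mul_eq_one]
    apply ext'
    intro x
    rw [mul_mulVec, T_mulVec, T_mulVec, hf.bilinear.add_left, hf.bilinear.smul_left, hf.alternating]
    simp

lemma X_smul {a : F} (ha : a ≠ 0) (w : V) : X (a • w) = X w := by
  have hb := (sympForm_isSymplectic (F := F) m).bilinear
  have key : ∀ (a : F) (w : V), X (a • w) ≤ X w := by
    rintro a w _ ⟨c, rfl⟩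
    refine ⟨a * c * a, ?_⟩
    apply ext'
    intro x
    rw [T_mulVec, T_mulVec, hb.smul_right]
    module
  apply le_antisymm (key a w)
  have := key a⁻¹ (a • w)
  rwa [smul_smul, inv_mul_cancel₀ ha, one_smul] at this

lemma X_conj (g : Sp) (w : V) : X ((g : Matrix (Fin m ⊕ Fin m) (Fin m ⊕ Fin m) F) *ᵥ w) = MulAut.conj g • X w := by
  have key : ∀ (g : Sp) (w : V), MulAut.conj g • X w ≤ X ((g : Matrix (Fin m ⊕ Fin m) (Fin m ⊕ Fin m) F) *ᵥ w) := by
    rintro g w _ ⟨_, ⟨c, rfl⟩, rfl⟩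
    refine ⟨c, ?_⟩
    have hgi := (mem_iff _).1 g.2
    show g * T w c * g⁻¹ = _
    rw [mul_inv_eq_iff_eq_mul]
    apply ext'
    intro x
    rw [mul_mulVec, mul_mulVec, T_mulVec, T_mulVec, mulVec_add, mulVec_smul]
    congr 3
    exact (hgi _ _).symm
  apply le_antisymm _ (key g w)
  have h1 := key g⁻¹ ((g : Matrix (Fin m ⊕ Fin m) (Fin m ⊕ Fin m) F) *ᵥ w)
  rw [← mul_mulVec, inv_mul_cancel] at h1
  have h2 : ((1 : Sp) : Matrix (Fin m ⊕ Fin m) (Fin m ⊕ Fin m) F) *ᵥ w = w := one_mulVec w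
  rw [h2] at h1
  intro x hx
  have h3 : g⁻¹ * x * g⁻¹⁻¹ ∈ X w := h1 ⟨x, hx, rfl⟩
  refine ⟨_, h3, ?_⟩
  show g * _ * g⁻¹ = x
  group

noncomputable def iwasawa [Finite F] (hm : 1 ≤ m) : IwasawaStructure Sp (ℙ F V) where
  T p := X p.rep
  is_comm p := by
    refine ⟨⟨?_⟩⟩
    rintro ⟨_, c, rfl⟩ ⟨_, d, rfl⟩
    have hf := sympForm_isSymplectic (F := F) m
    apply Subtype.ext
    apply ext'
    intro x
    show ((T p.rep c * T p.rep d : Sp) : Matrix (Fin m ⊕ Fin m) (Fin m ⊕ Fin m) F) *ᵥ x =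
      ((T p.rep d * T p.rep c : Sp) : Matrix (Fin m ⊕ Fin m) (Fin m ⊕ Fin m) F) *ᵥ x
    rw [mul_mulVec, mul_mulVec, T_mulVec, T_mulVec, T_mulVec, T_mulVec, hf.bilinear.add_left, hf.bilinear.smul_left,
      hf.bilinear.add_left, hf.bilinear.smul_left, hf.alternating]
    module
  is_conj g p := by
    rw [← X_conj]
    have hne : (g : Matrix (Fin m ⊕ Fin m) (Fin m ⊕ Fin m) F) *ᵥ p.rep ≠ 0 := by
      intro h
      have h1 : (toGL m F g) • p.rep = 0 := h
      exact p.rep_nonzero ((smul_eq_zero_iff_eq (toGL m F g)).1 h1)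
    have h1 : g • p = Projectivization.mk F _ hne := by
      conv_lhs => rw [← Projectivization.mk_rep p]
      rfl
    rw [h1]
    have h2 := Projectivization.mk_rep (Projectivization.mk F _ hne)
    rw [Projectivization.mk_eq_mk_iff'] at h2
    obtain ⟨a, ha⟩ := h2
    have ha0 : a ≠ 0 := by
      rintro rfl
      rw [zero_smul] at ha
      exact (Projectivization.mk F _ hne).rep_nonzero ha.symm
    rw [← ha, X_smul ha0]
  is_generator := by
    rw [eq_top_iff, ← closure_eq_top, Subgroup.closure_le]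
    rintro A ⟨w, c, hA⟩
    have hA' : A = T w c := Subtype.ext hA
    rw [hA']
    by_cases hw : w = 0
    · have : T w c = 1 := by
        apply ext'
        intro x
        rw [T_mulVec, hw]
        simp
      rw [this]; exact Subgroup.one_mem _
    · have h2 := Projectivization.mk_rep (Projectivization.mk F w hw)
      rw [Projectivization.mk_eq_mk_iff'] at h2
      obtain ⟨a, ha⟩ := h2
      have ha0 : a ≠ 0 := by
        rintro rfl
        rw [zero_smul] at ha
        exact (Projectivization.mk F _ hw).rep_nonzero ha.symm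
      have h3 : X (Projectivization.mk F w hw).rep = X w := by
        rw [← ha, X_smul ha0]
      have h4 : X (Projectivization.mk F w hw).rep ≤ ⨆ p : ℙ F V, X p.rep := le_iSup (fun p : ℙ F V => X p.rep) _
      apply h4
      rw [h3]
      exact ⟨c, rfl⟩

theorem simple [Finite F] (hm : 2 ≤ m) (h : m = 2 → 3 ≤ Nat.card F) : IsSimpleGroup (Cfsg.PSp m F) := by
  haveI := prim (F := F) (m := m) (by omega)
  have hf := sympForm_isSymplectic (F := F) m
  have hb := hf.bilinear
  have hcF : 2 ≤ Nat.card F := Finite.one_lt_card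
  refine IwaSL.simple_quot (X := ℙ F V) (iwasawa (by omega)) (perfect ?_) ?_ ?_
  · by_cases hm2 : m = 2
    · exact Or.inr (Or.inl ⟨hm2, h hm2⟩)
    · left; omega
  · intro g hg
    rw [Subgroup.mem_center_iff]
    intro h
    have h1 : ∀ v : V, ∃ c : F, (g : Matrix (Fin m ⊕ Fin m) (Fin m ⊕ Fin m) F) *ᵥ v = c • v := by
      intro v
      by_cases hv : v = 0
      · exact ⟨0, by rw [hv, mulVec_zero, smul_zero]⟩
      · have h2 := hg (Projectivization.mk F v hv)
        obtain ⟨c, hc⟩ := (Projectivization.mk_eq_mk_iff' F ((g : Matrix (Fin m ⊕ Fin m) (Fin m ⊕ Fin m) F) *ᵥ v) v _ hv).1 h2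
        exact ⟨c, hc.symm⟩
    haveI : Nonempty (Fin m ⊕ Fin m) := ⟨Sum.inl ⟨0, by omega⟩⟩
    obtain ⟨c, hc⟩ := Eigen.scalar_of_eigen _ h1
    apply Subtype.ext
    show (h : Matrix (Fin m ⊕ Fin m) (Fin m ⊕ Fin m) F) * (g : Matrix (Fin m ⊕ Fin m) (Fin m ⊕ Fin m) F) =
      (g : Matrix (Fin m ⊕ Fin m) (Fin m ⊕ Fin m) F) * (h : Matrix (Fin m ⊕ Fin m) (Fin m ⊕ Fin m) F)
    rw [hc]
    simp
  · intro hc
    set i0 : Fin m := ⟨0, by omega⟩
    have h1 : T (Pi.single (Sum.inl i0) 1 : V) 1 ∈ Subgroup.center Sp := by rw [hc]; trivial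
    rw [Subgroup.mem_center_iff] at h1
    have h2 := h1 (T (Pi.single (Sum.inr i0) 1 : V) 1)
    have h3 := congrArg (fun A : Sp => (A : Matrix (Fin m ⊕ Fin m) (Fin m ⊕ Fin m) F) *ᵥ (Pi.single (Sum.inl i0) 1 : V)) h2
    have h4 : f (Pi.single (Sum.inl i0) 1) (Pi.single (Sum.inr i0) 1) = -1 := by
      rw [hf.skew, f_rl, if_pos rfl]
    simp only [mul_mulVec, T_mulVec, hf.alternating, hb.add_left, hb.smul_left, h4, f_rl, if_true] at h3
    have h5 := congrFun h3 (Sum.inl i0)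
    simp at h5

end CfsgH9.IwaSp
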