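import Mathlib
import Cfsg.Prelude.Def_GeometricClasses
import Cfsg.Agent.H9.Transv
import Cfsg.Agent.H9.MaxSymp
import Cfsg.Agent.H9.SpGen

set_option autoImplicit false

/-! Maximality of the orthogonal group in the symplectic group in characteristic two. -/

namespace CfsgH9.MaxOrth2

open Matrix Cfsg Cfsg.Geo CfsgH9.Tv CfsgH9.MaxSymp CfsgH9.SpGen

variable {ι : Type} [Fintype ι] [DecidableEq ι] {F : Type*} [Field F]
variable {f : (ι → F) → (ι → F) → F}

/-- vectors orthogonal to `w i` but not to `x` -/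
lemma exists_sep (hf : IsSymplecticForm f) {k : ℕ} (w : Fin k → (ι → F)) {x : ι → F}
    (hx : x ∉ Submodule.span F (Set.range w)) : ∃ y, (∀ i, f y (w i) = 0) ∧ f y x ≠ 0 := by
  have hb := hf.bilinear
  by_contra hcon
  push Not at hcon
  apply hx
  let B : (ι → F) →ₗ[F] Module.Dual F (ι → F) :=
    { toFun := fun w =>
        { toFun := fun y => f y w
          map_add' := fun a b => hb.add_left _ _ _
          map_smul' := fun c a => hb.smul_left _ _ _ }
      map_add' := by intro a b; ext y; exact hb.add_right _ _ _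
      map_smul' := by intro c a; ext y; exact hb.smul_right _ _ _ }
  have hBinj : Function.Injective B := by
    rw [injective_iff_map_eq_zero]
    intro a ha
    by_contra hne
    obtain ⟨⟨y, hy⟩, -⟩ := hf.nondegenerate a hne
    apply hy
    have := congrArg (fun φ => φ y) ha
    exact this
  have h1 : B x ∈ Submodule.span F (Set.range (fun i => B (w i))) := by
    apply mem_span_of_iInf_ker_le_ker
    intro y hy
    rw [Submodule.mem_iInf] at hy
    exact hcon y (fun i => hy i)
  have h2 : Submodule.span F (Set.range (fun i => B (w i))) = (Submodule.span F (Set.range w)).map B := by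
    rw [Submodule.map_span]
    congr 1
    ext z
    constructor
    · rintro ⟨i, rfl⟩; exact ⟨w i, ⟨i, rfl⟩, rfl⟩
    · rintro ⟨_, ⟨i, rfl⟩, rfl⟩; exact ⟨i, rfl⟩
  rw [h2] at h1
  obtain ⟨z, hz, hzx⟩ := h1
  rw [← hBinj hzx]
  exact hz

lemma exists_perp_vec (hf : IsSymplecticForm f) {k : ℕ} (w : Fin k → (ι → F)) (hk : 2 * k < Fintype.card ι) :
    ∃ x, x ∉ Submodule.span F (Set.range w) ∧ ∀ i, f x (w i) = 0 := by
  have hb := hf.bilinear
  let L : (ι → F) →ₗ[F] (Fin k → F) :=
    { toFun := fun x i => f x (w i)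
      map_add' := by intro x y; ext i; exact hb.add_left _ _ _
      map_smul' := by intro c x; ext i; exact hb.smul_left _ _ _ }
  by_contra hcon
  push Not at hcon
  have hle : LinearMap.ker L ≤ Submodule.span F (Set.range w) := by
    intro x hx
    by_contra hxn
    obtain ⟨i, hi⟩ := hcon x hxn
    exact hi (congrFun hx i)
  have h1 := Submodule.finrank_mono hle
  have h2 : Module.finrank F (Submodule.span F (Set.range w)) ≤ k := by
    have := finrank_range_le_card (R := F) w
    rwa [Fintype.card_fin] at this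
  have h3 := LinearMap.finrank_range_add_finrank_ker L
  have h4 : Module.finrank F (LinearMap.range L) ≤ k := by
    have := Submodule.finrank_le (LinearMap.range L)
    rwa [Module.finrank_fintype_fun_eq_card, Fintype.card_fin] at this
  rw [Module.finrank_fintype_fun_eq_card] at h3
  omega

/-- the standing hypotheses: `f` symplectic, `Q` with polar form `f`, square roots exist, `2 = 0` -/
structure Data (f : (ι → F) → (ι → F) → F) (Q : (ι → F) → F) : Prop where
  symp : IsSymplecticForm f
  smul : ∀ (c : F) (v : ι → F), Q (c • v) = c ^ 2 * Q v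
  polar : ∀ u v, Q (u + v) = Q u + Q v + f u v
  two : (2 : F) = 0
  sqrt : ∀ a : F, ∃ b : F, b ^ 2 = a
  dim : 9 ≤ Fintype.card ι

variable {Q : (ι → F) → F} (D : Data f Q)

include D

lemma add_self' (a : F) : a + a = 0 := by
  have := D.two; linear_combination a * this

lemma neg_eq (a : F) : -a = a := by
  have := D.two; linear_combination -a * this

lemma f_comm (u v : ι → F) : f u v = f v u := by rw [D.symp.skew, neg_eq D]

/-- prescribed value of Q with prescribed products -/
lemma exists_adjust {k : ℕ} (w : Fin k → (ι → F)) (e : ι → F) (hk : 2 * (k + 1) < Fintype.card ι) (a : F) :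
    ∃ x, (∀ i, f x (w i) = f e (w i)) ∧ Q x = a := by
  have hb := D.symp.bilinear
  -- z orthogonal to e, w with Q z ≠ 0
  set cw : Fin (k+1) → (ι → F) := Fin.cons e w with hcw
  obtain ⟨z, hz, hQz⟩ : ∃ z, (∀ i, f z (cw i) = 0) ∧ Q z ≠ 0 := by
    obtain ⟨x, hx, hxw⟩ := exists_perp_vec D.symp cw hk
    obtain ⟨y, hy, hyx⟩ := exists_sep D.symp _ hx
    by_cases h1 : Q x = 0
    · by_cases h2 : Q y = 0
      · refine ⟨y + x, fun i => by rw [hb.add_left, hy, hxw, add_zero], ?_⟩
        rw [D.polar, h1, h2]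
        simpa using hyx
      · exact ⟨y, hy, h2⟩
    · exact ⟨x, hxw, h1⟩
  obtain ⟨c, hc⟩ := D.sqrt ((a + Q e) / Q z)
  have hze : f z e = 0 := by simpa [hcw] using hz 0
  have hzw : ∀ i, f z (w i) = 0 := fun i => by simpa [hcw] using hz i.succ
  refine ⟨e + c • z, ?_, ?_⟩
  · intro i
    rw [hb.add_left, hb.smul_left, hzw, mul_zero, add_zero]
  · rw [D.polar, D.smul, hc, hb.smul_right, f_comm D e z, hze, mul_zero, add_zero, div_mul_cancel₀ _ hQz]
    have := add_self' D (Q e)
    linear_combination this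

/-- if all transvections `t_w`, `Q w = 1` lie in `M`, then a set of `w` with `t_w ∈ M` is stable -/
theorem all_transv {M : Subgroup (GL ι F)} (hM : ∀ g : GL ι F, (∀ v, Q ((g : Matrix ι ι F) *ᵥ v) = Q v) → g ∈ M)
    {w : ι → F} (hw0 : w ≠ 0) (hQw : Q w ≠ 1) (hw : ∃ g ∈ M, IsT f g w w) (v : ι → F) : ∃ g ∈ M, IsT f g v v := by
  have hf := D.symp
  have hb := hf.bilinear
  have hQ0 : Q 0 = 0 := by
    have := D.smul 0 0
    simpa using this
  have hdim := D.dim
  -- orthogonal transvections
  have hO : ∀ u, Q u = 1 → ∃ g ∈ M, IsT f g u u ∧ (∀ x, Q ((g : Matrix ι ι F) *ᵥ x) = Q x) := by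
    intro u hu
    obtain ⟨g, hg, -⟩ := exists_IsT hb u u (hf.alternating u)
    have hq : ∀ x, Q ((g : Matrix ι ι F) *ᵥ x) = Q x := by
      intro x
      rw [hg x, D.polar, D.smul, hu, hb.smul_right]
      have := add_self' D (f x u ^ 2)
      linear_combination this
    exact ⟨g, hM g hq, hg, hq⟩
  have hconj : ∀ h ∈ M, (∀ x y, f ((h : Matrix ι ι F) *ᵥ x) ((h : Matrix ι ι F) *ᵥ y) = f x y) →
      ∀ u, (∃ g ∈ M, IsT f g u u) → ∃ g ∈ M, IsT f g ((h : Matrix ι ι F) *ᵥ u) ((h : Matrix ι ι F) *ᵥ u) := by
    rintro h hh hiso u ⟨g, hg, hgT⟩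
    exact ⟨_, M.mul_mem (M.mul_mem hh hg) (M.inv_mem hh), conj_IsT hiso hgT⟩
  -- t_u w' for u in the set
  have hstep : ∀ u, (∃ g ∈ M, IsT f g u u) → ∀ w', (∃ g ∈ M, IsT f g w' w') →
      ∃ g ∈ M, IsT f g (w' + f w' u • u) (w' + f w' u • u) := by
    rintro u ⟨g, hg, hgT⟩ w' hw'
    have h1 := hconj g hg (isom_IsT hf (c := 1) (by rw [one_smul]; exact hgT)) w' hw'
    rwa [hgT w'] at h1
  -- move by reflections
  have hmove : ∀ u u', Q u = Q u' → f u u' ≠ 0 → (∃ g ∈ M, IsT f g u u) → ∃ g ∈ M, IsT f g u' u' := by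
    intro u u' hQ hne hu
    -- scale d = u + u' to norm one
    obtain ⟨c, hc⟩ := D.sqrt (f u u')⁻¹
    have hd : Q (c • (u + u')) = 1 := by
      rw [D.smul, D.polar, hQ, hc, add_self' D, zero_add, inv_mul_cancel₀ hne]
    obtain ⟨g, hg, hgT, -⟩ := hO _ hd
    have h1 := hstep _ ⟨g, hg, hgT⟩ u hu
    have h2 : u + f u (c • (u + u')) • c • (u + u') = u' := by
      rw [hb.smul_right, hb.add_right, hf.alternating, zero_add, smul_smul]
      have : c * f u u' * c = 1 := by
        have : c * f u u' * c = c ^ 2 * f u u' := by ring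
        rw [this, hc, inv_mul_cancel₀ hne]
      rw [this, one_smul, ← add_assoc]
      have h3 : u + u = 0 := by
        ext i; exact add_self' D (u i)
      rw [h3, zero_add]
    rwa [h2] at h1
  have hmove2 : ∀ u u', u ≠ 0 → u' ≠ 0 → Q u = Q u' → (∃ g ∈ M, IsT f g u u) → ∃ g ∈ M, IsT f g u' u' := by
    intro u u' hu0 hu'0 hQ hu
    obtain ⟨e, he1, he2⟩ := exists_common hf hu0 hu'0
    obtain ⟨x, hx, hQx⟩ := exists_adjust D ![u, u'] e (by omega) (Q u)
    have hx1 : f x u = f e u := by simpa using hx 0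
    have hx2 : f x u' = f e u' := by simpa using hx 1
    have h1 := hmove u x hQx.symm (by rw [f_comm D u x, hx1, f_comm D e u]; exact he1) hu
    exact hmove x u' (by rw [hQx, hQ]) (by rw [hx2, f_comm D e u']; exact he2) h1
  by_cases hv : v = 0
  · subst hv
    exact ⟨1, M.one_mem, fun x => by simp⟩
  -- target value
  have hne : Q w + 1 ≠ 0 := by
    intro h
    apply hQw
    have := add_self' D (1 : F)
    linear_combination h - this
  obtain ⟨c, hc⟩ := D.sqrt ((Q v + 1) / (Q w + 1))
  obtain ⟨⟨e0, he0⟩, -⟩ := hf.nondegenerate w hw0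
  obtain ⟨x, hx, hQx⟩ := exists_adjust D ![w] ((c / f e0 w) • e0) (by omega) 1
  have hxw : f x w = c := by
    have := hx 0
    simp only [cons_val_zero] at this
    rw [this, hb.smul_left, div_mul_cancel₀ _ he0]
  have h1 := hstep w hw x (by
    obtain ⟨g, hg, hgT, -⟩ := hO x hQx
    exact ⟨g, hg, hgT⟩)
  rw [hxw] at h1
  have hQ : Q (x + c • w) = Q v := by
    rw [D.polar, D.smul, hb.smul_right, hxw, hQx]
    have h2 : c ^ 2 * (Q w + 1) = Q v + 1 := by rw [hc, div_mul_cancel₀ _ hne]
    have h3 := add_self' D (1 : F)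
    linear_combination h2 + h3
  refine hmove2 _ v ?_ hv hQ h1
  intro h0
  have h2 : f (x + c • w) w = 0 := by rw [h0]; have := hb.smul_left 0 0 w; simpa using this
  rw [hb.add_left, hb.smul_left, hf.alternating, mul_zero, add_zero, hxw] at h2
  rw [h2, zero_smul, add_zero] at h0
  rw [h0, hQ0] at hQx
  exact zero_ne_one hQx

/-- maximality -/
theorem isMaximal {K : Subgroup (GL ι F)} (hK : ∀ g : GL ι F, g ∈ K ↔
      ∀ x y, f ((g : Matrix ι ι F) *ᵥ x) ((g : Matrix ι ι F) *ᵥ y) = f x y) :
    IsMaximalIn K (quadSimilarityGroup Q ⊓ K) := by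
  have hf := D.symp
  have hb := hf.bilinear
  have hdim := D.dim
  have hι : Nonempty ι := by rw [← Fintype.card_pos_iff]; omega
  obtain ⟨i0⟩ := hι
  have he0 : (Pi.single i0 1 : ι → F) ≠ 0 := by
    intro h
    have := congrFun h i0
    simp at this
  -- elements of the intersection are isometries of Q
  have hiso : ∀ g : GL ι F, g ∈ quadSimilarityGroup Q ⊓ K ↔ ∀ v, Q ((g : Matrix ι ι F) *ᵥ v) = Q v := by
    intro g
    constructor
    · rintro ⟨⟨c, hc⟩, hgK⟩
      have hgf := (hK g).1 hgK
      obtain ⟨-, y, hy⟩ := hf.nondegenerate _ he0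
      have h1 := D.polar ((g : Matrix ι ι F) *ᵥ (Pi.single i0 1)) ((g : Matrix ι ι F) *ᵥ y)
      rw [← mulVec_add, hc, hc, hc, hgf, D.polar] at h1
      have h2 : (c : F) = 1 := by
        have h3 : ((c : F) - 1) * f (Pi.single i0 1) y = 0 := by linear_combination h1
        rcases mul_eq_zero.1 h3 with h | h
        · linear_combination h
        · exact absurd h hy
      intro v
      rw [hc, h2, one_mul]
    · intro h
      refine ⟨⟨1, fun v => by rw [h, Units.val_one, one_mul]⟩, (hK g).2 ?_⟩
      intro x y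
      have h1 := D.polar ((g : Matrix ι ι F) *ᵥ x) ((g : Matrix ι ι F) *ᵥ y)
      rw [← mulVec_add, h, h, h, D.polar] at h1
      linear_combination -h1
  constructor
  · refine lt_of_le_of_ne inf_le_right ?_
    intro heq
    -- a transvection t_w with Q w = 0, w ≠ 0 is not in O(Q)
    obtain ⟨x, hx, hQx⟩ := exists_adjust D ![] (Pi.single i0 1) (by omega) 0
    -- choose nonzero w with Q w = 0
    obtain ⟨⟨e, he⟩, -⟩ := hf.nondegenerate _ he0
    obtain ⟨w, hw, hQw⟩ := exists_adjust D ![Pi.single i0 1] e (by omega) 0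
    have hwe : f w (Pi.single i0 1) ≠ 0 := by
      have := hw 0
      simp only [cons_val_zero] at this
      rw [this]; exact he
    obtain ⟨g, hg, -⟩ := exists_IsT hb w w (hf.alternating w)
    have hgK : g ∈ K := (hK g).2 (isom_IsT hf (c := 1) (by rw [one_smul]; exact hg))
    rw [← heq, hiso] at hgK
    have h1 := hgK (Pi.single i0 1)
    rw [hg, D.polar, D.smul, hQw, mul_zero, add_zero, hb.smul_right, f_comm D _ w] at h1
    have h2 : f w (Pi.single i0 1) * f w (Pi.single i0 1) = 0 := by linear_combination h1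
    exact hwe (mul_self_eq_zero.1 h2)
  · intro M hM hMK
    by_cases hsub : ∀ g ∈ M, ∀ v, Q ((g : Matrix ι ι F) *ᵥ v) = Q v
    · left
      exact le_antisymm (fun g hg => (hiso g).2 (hsub g hg)) hM
    · right
      refine le_antisymm hMK ?_
      push Not at hsub
      obtain ⟨g, hg, v, hv⟩ := hsub
      have hgf := (hK g).1 (hMK hg)
      -- we want v with Q v ≠ 0 and Q(gv) ≠ Q v
      obtain ⟨v, hv0, hv⟩ : ∃ v, Q v ≠ 0 ∧ Q ((g : Matrix ι ι F) *ᵥ v) ≠ Q v := by
        by_cases h0 : Q v = 0
        · -- E(x) = Q(gx) + Q x is additive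
          have hE : ∀ x y, Q ((g : Matrix ι ι F) *ᵥ (x + y)) + Q (x + y) =
              (Q ((g : Matrix ι ι F) *ᵥ x) + Q x) + (Q ((g : Matrix ι ι F) *ᵥ y) + Q y) := by
            intro x y
            rw [mulVec_add, D.polar, D.polar, hgf]
            have := add_self' D (f x y)
            linear_combination this
          by_contra hcon
          push Not at hcon
          obtain ⟨u, huv, hu⟩ := exists_adjust D ![v] 0 (by omega) 1
          have hu' : f u v = 0 := by
            have h3 := huv 0
            simp only [cons_val_zero] at h3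
            rw [h3]
            have := hb.smul_left 0 0 v
            simpa using this
          have h4 := hE u v
          have h5 := hcon u (by rw [hu]; exact one_ne_zero)
          have h6 := hcon (u + v) (by rw [D.polar, hu, h0, hu']; simp)
          rw [h5, h6, add_self' D, add_self' D, zero_add, h0, add_zero] at h4
          exact hv (by rw [h0]; exact h4.symm)
        · exact ⟨v, h0, hv⟩
      obtain ⟨c, hc⟩ := D.sqrt (Q v)⁻¹
      have hu : Q (c • v) = 1 := by rw [D.smul, hc, inv_mul_cancel₀ hv0]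
      have hu0 : c • v ≠ 0 := by
        intro h
        have hQ0 : Q 0 = 0 := by
          have := D.smul 0 0
          simpa using this
        rw [h, hQ0] at hu
        exact zero_ne_one hu
      obtain ⟨t, htT, -⟩ := exists_IsT hb (c • v) (c • v) (hf.alternating _)
      have ht : t ∈ M := by
        apply hM
        rw [hiso]
        have hgen : ∀ u, Q u = 1 → ∀ x, Q (x + f x u • u) = Q x := by
          intro u hu x
          rw [D.polar, D.smul, hu, hb.smul_right]
          have := add_self' D (f x u ^ 2)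
          linear_combination this
        intro x
        rw [htT x, hgen _ hu]
      have hall := all_transv D (M := M) (fun g hg => hM ((hiso g).2 hg)) (w := (g : Matrix ι ι F) *ᵥ (c • v))
        (mulVec_ne_zero g hu0) (by
          rw [mulVec_smul, D.smul, hc]
          intro h
          apply hv
          field_simp at h
          exact h) ⟨_, M.mul_mem (M.mul_mem hg ht) (M.inv_mem hg), conj_IsT hgf htT⟩
      intro s hs
      refine mem_of_isometry hf ?_ s ((hK s).1 hs)
      intro u a
      obtain ⟨d, hd⟩ := D.sqrt a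
      obtain ⟨g', hg', hgT⟩ := hall (d • u)
      refine ⟨g', hg', ?_⟩
      intro x
      rw [hgT x, hb.smul_right, hb.smul_right, smul_smul, ← hd]
      congr 2
      ring

end CfsgH9.MaxOrth2
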