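import Mathlib
import Cfsg.Prelude.Def_GeometricClasses
import Cfsg.Agent.H9.Transv
import Cfsg.Agent.H9.MaxSymp
import Cfsg.Agent.H9.SpGen
import Cfsg.Agent.H9.MaxRedSL
import Cfsg.Agent.H9.MaxRedSp
import Cfsg.Agent.H9.MaxImpSp

set_option autoImplicit false

/-! Maximality of the stabiliser of a pair of complementary totally isotropic subspaces. -/

namespace CfsgH9.MaxSingSp

open Matrix Cfsg Cfsg.Geo CfsgH9.Tv CfsgH9.MaxSymp CfsgH9.SpGen CfsgH9.MaxRedSp CfsgH9.MaxImpSp
open CfsgH9.MaxRedSL (mem_stab_of mem_stab_iff)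

variable {ι : Type} [Fintype ι] [DecidableEq ι] {F : Type*} [Field F]
variable {f : (ι → F) → (ι → F) → F}

/-- Siegel elements -/
def IsS (f : (ι → F) → (ι → F) → F) (g : GL ι F) (u v : ι → F) : Prop :=
  ∀ x, (g : Matrix ι ι F) *ᵥ x = x + f x v • u + f x u • v

def SS (f : (ι → F) → (ι → F) → F) (M : Subgroup (GL ι F)) (u v : ι → F) : Prop :=
  ∀ g : GL ι F, IsS f g u v → g ∈ M

variable {M : Subgroup (GL ι F)}

lemma exists_IsS (hf : IsSymplecticForm f) {u v : ι → F} (h : f u v = 0) :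
    ∃ g : GL ι F, IsS f g u v ∧ ∀ x y, f ((g : Matrix ι ι F) *ᵥ x) ((g : Matrix ι ι F) *ᵥ y) = f x y := by
  have hb := hf.bilinear
  have h' := MaxSymp.swap_zero hf h
  obtain ⟨g1, hg1, -⟩ := exists_IsT hb (u + v) ((1 : F) • (u + v)) (by rw [one_smul]; exact hf.alternating _)
  obtain ⟨g2, hg2, -⟩ := exists_IsT hb u ((-1 : F) • u) (by rw [hb.smul_right, hf.alternating, mul_zero])
  obtain ⟨g3, hg3, -⟩ := exists_IsT hb v ((-1 : F) • v) (by rw [hb.smul_right, hf.alternating, mul_zero])
  refine ⟨g1 * (g2 * g3), ?_, ?_⟩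
  · intro x
    rw [Units.val_mul, Units.val_mul, ← mulVec_mulVec, ← mulVec_mulVec, hg3 x, hg2, hg1]
    simp only [hb.smul_right, hb.add_left, hb.add_right, hb.smul_left, hf.alternating, h, h', mul_zero, add_zero,
      mul_one, one_mul, zero_mul, zero_add, neg_mul, neg_zero]
    module
  · intro x y
    rw [Units.val_mul, Units.val_mul, ← mulVec_mulVec, ← mulVec_mulVec, ← mulVec_mulVec, ← mulVec_mulVec,
      isom_IsT hf hg1, isom_IsT hf hg2, isom_IsT hf hg3]

lemma SS_map (hf : IsSymplecticForm f) {h : GL ι F} (hh : h ∈ M)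
    (hiso : ∀ x y, f ((h : Matrix ι ι F) *ᵥ x) ((h : Matrix ι ι F) *ᵥ y) = f x y) {u v : ι → F} (hu : SS f M u v) :
    SS f M ((h : Matrix ι ι F) *ᵥ u) ((h : Matrix ι ι F) *ᵥ v) := by
  intro g hg
  have h1 : IsS f (h⁻¹ * g * h) u v := by
    intro x
    rw [Units.val_mul, Units.val_mul, ← mulVec_mulVec, ← mulVec_mulVec, hg, mulVec_add, mulVec_add, mulVec_smul,
      mulVec_smul, inv_mulVec, inv_mulVec, inv_mulVec, hiso, hiso]
  have h2 := M.mul_mem (M.mul_mem hh (hu _ h1)) (M.inv_mem hh)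
  have h3 : h * (h⁻¹ * g * h) * h⁻¹ = g := by group
  rwa [h3] at h2

lemma SS_sub (hf : IsSymplecticForm f) {u v w : ι → F} (huv : f u v = 0) (huw : f u w = 0) (hvw : f v w = 0)
    (h1 : SS f M u (v + w)) (h2 : SS f M u v) : SS f M u w := by
  intro g hg
  have hb := hf.bilinear
  obtain ⟨g2, hg2, -⟩ := exists_IsS hf huv
  have h3 : IsS f (g * g2) u (v + w) := by
    intro x
    rw [Units.val_mul, ← mulVec_mulVec, hg2 x, hg]
    have hvu := MaxSymp.swap_zero hf huv
    simp only [hb.smul_right, hb.add_left, hb.add_right, hb.smul_left, hf.alternating, huv, huw, hvw, hvu, mul_zero, add_zero,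
      mul_one, one_mul, zero_mul, zero_add]
    module
  have h4 := M.mul_mem (h1 _ h3) (M.inv_mem (h2 _ hg2))
  rwa [mul_inv_cancel_right] at h4

lemma SS_symm {u v : ι → F} (h : SS f M u v) : SS f M v u := by
  intro g hg
  apply h g
  intro x
  rw [hg x]
  module

lemma SS_smul (hf : IsSymplecticForm f) {u v : ι → F} {c : F} (h : SS f M (c • u) v) : SS f M u (c • v) := by
  intro g hg
  apply h g
  intro x
  rw [hg x, hf.bilinear.smul_right, hf.bilinear.smul_right]
  module

lemma exists_avoid (hb : IsBilinearForm f) (C S : Submodule F (ι → F)) {k : ℕ} (w : Fin k → (ι → F))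
    (h : k + Module.finrank F S < Module.finrank F C) : ∃ y ∈ C, (∀ i, f y (w i) = 0) ∧ y ∉ S := by
  let L : C →ₗ[F] (Fin k → F) := LinearMap.pi fun i => ((toB hb).flip (w i)).comp C.subtype
  have h1 := LinearMap.finrank_range_add_finrank_ker L
  have h2 : Module.finrank F (LinearMap.range L) ≤ k := by
    have := Submodule.finrank_le (LinearMap.range L)
    simpa using this
  have h3 : ¬ ((LinearMap.ker L).map C.subtype ≤ S) := by
    intro hle
    have h4 := Submodule.finrank_mono hle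
    rw [← LinearEquiv.finrank_eq (Submodule.equivMapOfInjective _ C.injective_subtype (LinearMap.ker L))] at h4
    omega
  obtain ⟨y, hy, hyn⟩ := SetLike.not_le_iff_exists.1 h3
  obtain ⟨z, hz, rfl⟩ := hy
  refine ⟨z, z.2, ?_, hyn⟩
  intro i
  have := congrFun (show L z = 0 from hz) i
  exact this

lemma isom_IsS (hf : IsSymplecticForm f) {u v : ι → F} (h : f u v = 0) {g : GL ι F} (hg : IsS f g u v) (x y : ι → F) :
    f ((g : Matrix ι ι F) *ᵥ x) ((g : Matrix ι ι F) *ᵥ y) = f x y := by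
  obtain ⟨g', hg', hiso⟩ := exists_IsS hf h
  have : g = g' := by
    apply ext_mulVec
    intro x
    rw [hg x, hg' x]
  rw [this]
  exact hiso x y

/-- complementary maximal isotropic subspaces -/
structure Pr (f : (ι → F) → (ι → F) → F) (A B : Submodule F (ι → F)) : Prop where
  isoA : ∀ x ∈ A, ∀ y ∈ A, f x y = 0
  isoB : ∀ x ∈ B, ∀ y ∈ B, f x y = 0
  maxA : ∀ x, (∀ y ∈ A, f y x = 0) → x ∈ A
  maxB : ∀ x, (∀ y ∈ B, f y x = 0) → x ∈ B
  disj : ∀ x ∈ A, x ∈ B → x = 0
  sup : ∀ x, ∃ a ∈ A, ∃ b ∈ B, x = a + b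
  dimA : 6 ≤ Module.finrank F A
  dimB : 6 ≤ Module.finrank F B

lemma Pr.symm {A B : Submodule F (ι → F)} (h : Pr f A B) : Pr f B A :=
  ⟨h.isoB, h.isoA, h.maxB, h.maxA, fun x hx hx' => h.disj x hx' hx, fun x => by
    obtain ⟨a, ha, b, hb, h⟩ := h.sup x
    exact ⟨b, hb, a, ha, by rw [h, add_comm]⟩, h.dimB, h.dimA⟩

lemma exists_fun (hf : IsSymplecticForm f) {U : Submodule F (ι → F)} {b : ι → F} (hbU : b ∉ U) :
    ∃ a, f b a = 1 ∧ ∀ y ∈ U, f y a = 0 := by
  obtain ⟨φ, hφ, hφU⟩ := Submodule.exists_dual_map_eq_bot_of_notMem hbU inferInstance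
  obtain ⟨a, ha⟩ := cov_surj hf.bilinear hf.nondegenerate (fun i => φ (Pi.single i 1))
  have hfa : ∀ x, f x a = φ x := by
    intro x
    rw [← cov_dot hf.bilinear, ha]
    conv_rhs => rw [← Finset.univ_sum_single x]
    rw [map_sum, dotProduct]
    refine Finset.sum_congr rfl fun i _ => ?_
    have : (Pi.single i (x i) : ι → F) = x i • Pi.single i 1 := by
      rw [← Pi.single_smul, smul_eq_mul, mul_one]
    rw [this, map_smul, smul_eq_mul, mul_comm]
  refine ⟨(φ b)⁻¹ • a, ?_, ?_⟩
  · rw [hf.bilinear.smul_right, hfa, inv_mul_cancel₀ hφ]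
  · intro y hy
    rw [hf.bilinear.smul_right, hfa]
    have h1 : φ y ∈ U.map φ := ⟨y, hy, rfl⟩
    rw [hφU, Submodule.mem_bot] at h1
    rw [h1, mul_zero]

lemma Pr.exA (hf : IsSymplecticForm f) {A B : Submodule F (ι → F)} (h : Pr f A B) {W : Submodule F (ι → F)}
    (hW : W ≤ B) {b : ι → F} (hb : b ∈ B) (hbW : b ∉ W) : ∃ a ∈ A, f b a = 1 ∧ ∀ w ∈ W, f w a = 0 := by
  obtain ⟨a, ha, haU⟩ := exists_fun hf (U := W ⊔ A) (b := b) (by
    intro hmem
    obtain ⟨w, hw, a, ha, hwa⟩ := Submodule.mem_sup.1 hmem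
    apply hbW
    have h1 : a = b - w := by rw [← hwa]; abel
    have h2 := h.disj a ha (h1 ▸ B.sub_mem hb (hW hw))
    rw [h2, add_zero] at hwa
    rw [← hwa]; exact hw)
  refine ⟨a, h.maxA a (fun y hy => haU y (Submodule.mem_sup_right hy)), ha, fun w hw => haU w (Submodule.mem_sup_left hw)⟩

/-- from a Siegel element with independent components to transvections -/
lemma Pr.spread (hf : IsSymplecticForm f) {A B : Submodule F (ι → F)} (h : Pr f A B) (h2 : (2 : F) ≠ 0)
    (hM : ∀ a ∈ A, ∀ b ∈ B, f a b = 0 → SS f M a b) {a1 b1 a2 b2 : ι → F} (ha1 : a1 ∈ A) (hb1 : b1 ∈ B)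
    (ha2 : a2 ∈ A) (hb2 : b2 ∈ B) (huv : f (a1 + b1) (a2 + b2) = 0)
    (hS : ∀ c : F, SS f M (c • (a1 + b1)) (a2 + b2)) (hb10 : b1 ≠ 0) (hind : b2 ∉ Submodule.span F {b1}) :
    ∃ b ∈ B, b ≠ 0 ∧ XS f M b := by
  have hb := hf.bilinear
  have hspan : ∀ x y : ι → F, Module.finrank F (Submodule.span F {x, y}) ≤ 2 := by
    intro x y
    classical
    have h1 := finrank_span_finset_le_card (R := F) ({x, y} : Finset (ι → F))
    rw [Finset.coe_insert, Finset.coe_singleton] at h1
    refine h1.trans ?_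
    exact Finset.card_le_two
  obtain ⟨b, hbB, hba, hbn⟩ := exists_avoid hb B (Submodule.span F {b1, b2}) ![a1, a2] (by
    have := hspan b1 b2
    have := h.dimB
    omega)
  have hba1 : f b a1 = 0 := hba 0
  have hba2 : f b a2 = 0 := hba 1
  have ha1b := MaxSymp.swap_zero hf hba1
  have ha2b := MaxSymp.swap_zero hf hba2
  -- a ∈ A
  obtain ⟨a, haA, hab2, haW⟩ := h.exA hf (W := Submodule.span F {b1, b}) (b := b2) (by
    rw [Submodule.span_le]
    intro x hx
    rcases hx with rfl | hx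
    · exact hb1
    · rw [Set.mem_singleton_iff.1 hx]; exact hbB) hb2 (by
    intro hmem
    obtain ⟨s, t, hst⟩ := Submodule.mem_span_pair.1 hmem
    by_cases ht : t = 0
    · apply hind
      rw [Submodule.mem_span_singleton]
      exact ⟨s, by rw [← hst, ht, zero_smul, add_zero]⟩
    · apply hbn
      rw [Submodule.mem_span_pair]
      refine ⟨- (t⁻¹ * s), t⁻¹, ?_⟩
      rw [← hst, smul_add, smul_smul, smul_smul, inv_mul_cancel₀ ht]
      module)
  have hab1 : f b1 a = 0 := haW b1 (Submodule.subset_span (by simp))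
  have habb : f b a = 0 := haW b (Submodule.subset_span (by simp))
  have hab := MaxSymp.swap_zero hf habb
  -- step 2
  have hSu : ∀ c : F, SS f M (a1 + b1) (c • b) := by
    intro c
    obtain ⟨g, hg, hiso⟩ := exists_IsS hf hab
    have hgM : g ∈ M := hM a haA b hbB hab g hg
    have h3 := SS_map hf hgM hiso (hS c)
    have e1 : (g : Matrix ι ι F) *ᵥ (a1 + b1) = a1 + b1 := by
      rw [hg, hb.add_left, hb.add_left, ha1b, h.isoB b1 hb1 b hbB, hab1, h.isoA a1 ha1 a haA]
      module
    have e2 : (g : Matrix ι ι F) *ᵥ (a2 + b2) = (a2 + b2) + b := by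
      rw [hg, hb.add_left, hb.add_left, ha2b, h.isoB b2 hb2 b hbB, hab2, h.isoA a2 ha2 a haA]
      module
    rw [mulVec_smul, e1, e2] at h3
    have h4 := SS_smul hf h3
    have h5 := SS_smul hf (hS c)
    rw [smul_add] at h4
    refine SS_sub hf ?_ ?_ ?_ h4 h5
    · rw [hb.smul_right, huv, mul_zero]
    · rw [hb.smul_right, hb.add_left, ha1b, h.isoB b1 hb1 b hbB, add_zero, mul_zero]
    · rw [hb.smul_left, hb.smul_right, hb.add_left, ha2b, h.isoB b2 hb2 b hbB]; simp
  -- step 3
  have hb0 : b ≠ 0 := by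
    rintro rfl
    exact hbn (Submodule.zero_mem _)
  have hbb1 : b1 ∉ Submodule.span F {b} := by
    intro hmem
    obtain ⟨s, hs⟩ := Submodule.mem_span_singleton.1 hmem
    apply hbn
    have hs0 : s ≠ 0 := by
      rintro rfl
      rw [zero_smul] at hs
      exact hb10 hs.symm
    rw [Submodule.mem_span_pair]
    refine ⟨s⁻¹, 0, ?_⟩
    rw [zero_smul, add_zero, ← hs, smul_smul, inv_mul_cancel₀ hs0, one_smul]
  obtain ⟨a', ha'A, ha'1, ha'W⟩ := h.exA hf (W := Submodule.span F {b}) (b := b1) (by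
    rw [Submodule.span_le]
    intro x hx
    rw [Set.mem_singleton_iff.1 hx]; exact hbB) hb1 hbb1
  have ha'b : f b a' = 0 := ha'W b (Submodule.mem_span_singleton_self b)
  have hba' := MaxSymp.swap_zero hf ha'b
  refine ⟨b, hbB, hb0, ?_⟩
  intro c g hg
  obtain ⟨s, hs, hiso⟩ := exists_IsS hf hba'
  have hsM : s ∈ M := hM a' ha'A b hbB hba' s hs
  have e1 : (s : Matrix ι ι F) *ᵥ (a1 + b1) = (a1 + b1) + b := by
    rw [hs, hb.add_left, hb.add_left, ha1b, h.isoB b1 hb1 b hbB, ha'1, h.isoA a1 ha1 a' ha'A]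
    module
  have e2 : (s : Matrix ι ι F) *ᵥ b = b := by
    rw [hs, h.isoB b hbB b hbB, ha'b]
    module
  have h3 := SS_map hf hsM hiso (hSu (c / 2))
  rw [mulVec_smul, e1, e2] at h3
  have h4 : SS f M ((c / 2) • b) b := by
    refine SS_sub hf ?_ ?_ ?_ (SS_symm h3) (SS_symm (hSu (c / 2)))
    · rw [hb.smul_left, hb.add_right, hba1, h.isoB b hbB b1 hb1]; simp
    · rw [hb.smul_left, h.isoB b hbB b hbB, mul_zero]
    · rw [hb.add_left, ha1b, h.isoB b1 hb1 b hbB, add_zero]
  apply h4 g
  intro x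
  rw [hg x, hb.smul_right, hb.smul_right]
  have : c = c / 2 + c / 2 := by field_simp; ring
  conv_lhs => rw [this]
  module

lemma Pr.spreadB (hf : IsSymplecticForm f) {A B : Submodule F (ι → F)} (h : Pr f A B)
    (hM : ∀ a ∈ A, ∀ b ∈ B, f a b = 0 → SS f M a b) {b : ι → F} (hbB : b ∈ B) (hb0 : b ≠ 0) (hX : XS f M b) :
    ∀ b' ∈ B, XS f M b' := by
  have hb := hf.bilinear
  have key : ∀ b ∈ B, ∀ b' ∈ B, b ∉ Submodule.span F {b' - b} → XS f M b → XS f M b' := by
    intro b hbB b' hb'B hn hX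
    obtain ⟨a, haA, ha1, haW⟩ := h.exA hf (W := Submodule.span F {b' - b}) (b := b) (by
      rw [Submodule.span_le]
      intro x hx
      rw [Set.mem_singleton_iff.1 hx]; exact B.sub_mem hb'B hbB) hbB hn
    have h1 : f (b' - b) a = 0 := haW _ (Submodule.mem_span_singleton_self _)
    have h1' := MaxSymp.swap_zero hf h1
    obtain ⟨s, hs, hiso⟩ := exists_IsS hf h1'
    have hsM : s ∈ M := hM a haA _ (B.sub_mem hb'B hbB) h1' s hs
    have h3 := XS_map hf hsM hiso hX
    have e1 : (s : Matrix ι ι F) *ᵥ b = b' := by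
      rw [hs, h.isoB b hbB _ (B.sub_mem hb'B hbB), ha1]
      module
    rwa [e1] at h3
  intro b' hb'B
  by_cases hb'0 : b' = 0
  · subst hb'0; exact XS_zero
  by_cases hdep : b' ∈ Submodule.span F {b}
  · obtain ⟨c, rfl⟩ := Submodule.mem_span_singleton.1 hdep
    exact XS_smul hf hX c
  · apply key b hbB b' hb'B _ hX
    intro hmem
    obtain ⟨s, hs⟩ := Submodule.mem_span_singleton.1 hmem
    have hs0 : s ≠ 0 := by
      rintro rfl
      rw [zero_smul] at hs
      exact hb0 hs.symm
    apply hdep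
    rw [Submodule.mem_span_singleton]
    refine ⟨s⁻¹ + 1, ?_⟩
    have h1 : s⁻¹ • b = b' - b := by
      calc s⁻¹ • b = s⁻¹ • (s • (b' - b)) := by rw [hs]
        _ = b' - b := by rw [smul_smul, inv_mul_cancel₀ hs0, one_smul]
    rw [add_smul, one_smul, h1, sub_add_cancel]

/-- the swapping isometry -/
lemma Pr.exists_swap (hf : IsSymplecticForm f) {A B : Submodule F (ι → F)} (h : Pr f A B) :
    ∃ g : GL ι F, (∀ x y, f ((g : Matrix ι ι F) *ᵥ x) ((g : Matrix ι ι F) *ᵥ y) = f x y) ∧
      (∀ x ∈ A, (g : Matrix ι ι F) *ᵥ x ∈ B) ∧ (∀ x ∈ B, (g : Matrix ι ι F) *ᵥ x ∈ A) := by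
  classical
  have hb := hf.bilinear
  -- B ≃ Dual A
  let P : B →ₗ[F] Module.Dual F A :=
    { toFun := fun b => ((toB hb).flip (b : ι → F)).comp A.subtype
      map_add' := by
        intro x y; ext a
        exact hb.add_right _ _ _
      map_smul' := by
        intro c x; ext a
        exact hb.smul_right _ _ _ }
  have hPapp : ∀ (b : B) (a : A), P b a = f a b := fun b a => rfl
  have hPinj : Function.Injective P := by
    rw [injective_iff_map_eq_zero]
    intro b hb0
    have h1 : (b : ι → F) ∈ A := h.maxA b (fun y hy => by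
      have := LinearMap.congr_fun hb0 ⟨y, hy⟩
      exact this)
    exact Subtype.ext (h.disj _ h1 b.2)
  have hPsurj : Function.Surjective P := by
    intro φ
    -- extend φ to V by zero on B
    have hcompl : IsCompl A B := by
      constructor
      · rw [disjoint_iff, eq_bot_iff]
        rintro x ⟨hx, hx'⟩
        exact h.disj x hx hx'
      · rw [codisjoint_iff, eq_top_iff]
        intro x _
        obtain ⟨a, ha, b, hb, rfl⟩ := h.sup x
        exact Submodule.add_mem_sup ha hb
    let ψ : (ι → F) →ₗ[F] F := φ.comp (Submodule.projectionOnto A B hcompl)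
    obtain ⟨w, hw⟩ := cov_surj hb hf.nondegenerate (fun i => ψ (Pi.single i 1))
    have hfw : ∀ x, f x w = ψ x := by
      intro x
      rw [← cov_dot hb, hw]
      conv_rhs => rw [← Finset.univ_sum_single x]
      rw [map_sum, dotProduct]
      refine Finset.sum_congr rfl fun i _ => ?_
      have : (Pi.single i (x i) : ι → F) = x i • Pi.single i 1 := by
        rw [← Pi.single_smul, smul_eq_mul, mul_one]
      rw [this, map_smul, smul_eq_mul, mul_comm]
    have hwB : w ∈ B := h.maxB w (fun y hy => by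
      rw [hfw]
      show φ (Submodule.projectionOnto A B hcompl y) = 0
      rw [(Submodule.projectionOnto_apply_eq_zero_iff hcompl).2 hy, map_zero])
    refine ⟨⟨w, hwB⟩, ?_⟩
    ext a
    rw [hPapp, hfw]
    show φ (Submodule.projectionOnto A B hcompl a) = φ a
    rw [Submodule.projectionOnto_apply_left]
  let e := LinearEquiv.ofBijective P ⟨hPinj, hPsurj⟩
  have heapp : ∀ b, e b = P b := fun b => rfl
  let bA := Module.finBasis F A
  let d := bA.toDualEquiv
  have hdapp : ∀ x y, d x y = bA.toDual x y := fun x y => rfl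
  have hdsymm : ∀ x y, d x y = d y x := by
    intro x y
    have : (bA.toDual : A →ₗ[F] Module.Dual F A) = bA.toDual.flip := by
      refine bA.ext fun i => bA.ext fun j => ?_
      rw [LinearMap.flip_apply, Module.Basis.toDual_apply, Module.Basis.toDual_apply]
      by_cases hij : i = j
      · subst hij; rfl
      · rw [if_neg hij, if_neg (Ne.symm hij)]
    rw [hdapp, hdapp]
    have h1 := LinearMap.congr_fun (LinearMap.congr_fun this x) y
    rw [h1]; rfl
  let β : A ≃ₗ[F] B := d.trans e.symm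
  have hβ : ∀ a a' : A, f a (β a') = d a' a := by
    intro a a'
    rw [← hPapp, ← heapp]
    show e (e.symm (d a')) a = _
    rw [LinearEquiv.apply_symm_apply]
  have hcompl : IsCompl A B := by
    constructor
    · rw [disjoint_iff, eq_bot_iff]
      rintro x ⟨hx, hx'⟩
      exact h.disj x hx hx'
    · rw [codisjoint_iff, eq_top_iff]
      intro x _
      obtain ⟨a, ha, b, hb, rfl⟩ := h.sup x
      exact Submodule.add_mem_sup ha hb
  let E := Submodule.prodEquivOfIsCompl A B hcompl
  let σ : (A × B) ≃ₗ[F] (A × B) :=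
    { toFun := fun x => (- β.symm x.2, β x.1)
      invFun := fun x => (β.symm x.2, - β x.1)
      map_add' := by
        intro x y; ext1
        · simp only [Prod.fst_add, Prod.snd_add, map_add, neg_add]
        · simp only [Prod.fst_add, Prod.snd_add, map_add]
      map_smul' := by
        intro c x; ext1
        · simp
        · simp
      left_inv := by intro x; simp
      right_inv := by intro x; simp }
  let φ := (E.symm.trans σ).trans E
  have hφ : ∀ (a : A) (b : B), φ ((a : ι → F) + b) = (- β.symm b : A) + ((β a : B) : ι → F) := by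
    intro a b
    have h1 : E (a, b) = (a : ι → F) + b := Submodule.coe_prodEquivOfIsCompl' A B hcompl (a, b)
    rw [← h1]
    show E (σ (E.symm (E (a, b)))) = _
    rw [LinearEquiv.symm_apply_apply]
    exact Submodule.coe_prodEquivOfIsCompl' A B hcompl _
  refine ⟨glOf φ, ?_, ?_, ?_⟩
  · intro x y
    obtain ⟨a, ha, b, hbB, rfl⟩ := h.sup x
    obtain ⟨a', ha', b', hb'B, rfl⟩ := h.sup y
    rw [glOf_mulVec, glOf_mulVec]
    have h1 := hφ ⟨a, ha⟩ ⟨b, hbB⟩
    have h2 := hφ ⟨a', ha'⟩ ⟨b', hb'B⟩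
    simp only at h1 h2
    rw [h1, h2]
    simp only [hb.add_left, hb.add_right]
    rw [h.isoA _ (SetLike.coe_mem _) _ (SetLike.coe_mem _), h.isoB _ (SetLike.coe_mem _) _ (SetLike.coe_mem _),
      h.isoA a ha a' ha', h.isoB b hbB b' hb'B, hβ]
    have h3 : ∀ (b : B) (a : A), f a (β (β.symm b)) = f a b := by
      intro b a; rw [LinearEquiv.apply_symm_apply]
    have h4 : d ⟨a', ha'⟩ (-β.symm ⟨b, hbB⟩) = - f a' b := by
      rw [map_neg, hdsymm, ← hβ, h3]
    have h5 : f ((β ⟨a, ha⟩ : B) : ι → F) ((- β.symm ⟨b', hb'B⟩ : A) : ι → F) = f a b' := by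
      rw [hf.skew, hβ, map_neg, hdsymm, ← hβ, h3, neg_neg]
    rw [h4, h5, hf.skew b a']
    ring
  · intro x hx
    rw [glOf_mulVec]
    have h1 := hφ ⟨x, hx⟩ 0
    simp only [ZeroMemClass.coe_zero, add_zero, map_zero, neg_zero, zero_add] at h1
    rw [h1]; exact SetLike.coe_mem _
  · intro x hx
    rw [glOf_mulVec]
    have h1 := hφ 0 ⟨x, hx⟩
    simp only [ZeroMemClass.coe_zero, add_zero, map_zero, zero_add] at h1
    rw [h1]; exact SetLike.coe_mem _

theorem sing_max (hf : IsSymplecticForm f) (h2 : (2 : F) ≠ 0) {K : Subgroup (GL ι F)}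
    (hK : ∀ g : GL ι F, g ∈ K ↔ ∀ x y, f ((g : Matrix ι ι F) *ᵥ x) ((g : Matrix ι ι F) *ᵥ y) = f x y)
    {m : ℕ} (hm : 6 ≤ m) (hcard : Fintype.card ι = 2 * m) {D : Fin 2 → Submodule F (ι → F)}
    (hD : IsMDecomposition m D) (hiso : ∀ i, ∀ x ∈ D i, ∀ y ∈ D i, f x y = 0) :
    IsMaximalIn K (decompositionStabilizer D ⊓ K) := by
  have hb := hf.bilinear
  have hmax : ∀ i, ∀ x, (∀ y ∈ D i, f y x = 0) → x ∈ D i := by
    intro i x hx
    have h1 : D i = perp hb (D i) := by
      apply Submodule.eq_of_le_of_finrank_eq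
      · intro y hy z hz; exact hiso i y hy z hz
      · rw [finrank_perp hf, hD.finrank_eq, hcard]; omega
    rw [h1]
    intro y hy
    exact MaxSymp.swap_zero hf (hx y hy)
  have hind := hD.indep
  have hdisj : Disjoint (D 0) (D 1) := hind.pairwiseDisjoint (by decide : (0 : Fin 2) ≠ 1)
  have hsup : ∀ x, ∃ a ∈ D 0, ∃ b ∈ D 1, x = a + b := by
    intro x
    have h1 : x ∈ iSup D := by rw [hD.iSup_eq_top]; trivial
    have h3 : iSup D = D 0 ⊔ D 1 := by
      apply le_antisymm
      · apply iSup_le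
        intro i
        fin_cases i
        · exact le_sup_left
        · exact le_sup_right
      · exact sup_le (le_iSup D 0) (le_iSup D 1)
    rw [h3] at h1
    obtain ⟨a, ha, b, hb, rfl⟩ := Submodule.mem_sup.1 h1
    exact ⟨a, ha, b, hb, rfl⟩
  have hP : Pr f (D 0) (D 1) :=
    { isoA := hiso 0, isoB := hiso 1, maxA := hmax 0, maxB := hmax 1
      disj := fun x hx hx' => by
        have := Submodule.disjoint_def.1 hdisj x hx hx'
        exact this
      sup := hsup
      dimA := by rw [hD.finrank_eq]; exact hm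
      dimB := by rw [hD.finrank_eq]; exact hm }
  have hne : ∀ i, ∃ x ∈ D i, x ≠ 0 := by
    intro i
    have h1 : D i ≠ ⊥ := by
      intro h
      have := hD.finrank_eq i
      rw [h, finrank_bot] at this
      omega
    exact (Submodule.ne_bot_iff _).1 h1
  have hΓ : ∀ a ∈ D 0, ∀ b ∈ D 1, f a b = 0 → ∀ g, IsS f g a b → g ∈ decompositionStabilizer D := by
    intro a ha b hbB hab g hg
    refine mem_decomp_of hD 1 ?_
    intro i x hx
    rw [Equiv.Perm.one_apply, hg x]
    fin_cases i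
    · have h1 : f x a = 0 := hiso 0 x hx a ha
      rw [h1, zero_smul, add_zero]
      exact (D 0).add_mem hx ((D 0).smul_mem _ ha)
    · have h1 : f x b = 0 := hiso 1 x hx b hbB
      rw [h1, zero_smul, add_zero]
      exact (D 1).add_mem hx ((D 1).smul_mem _ hbB)
  obtain ⟨sw, hsiso, hs01, hs10⟩ := hP.exists_swap hf
  have hsw : sw ∈ decompositionStabilizer D ⊓ K := by
    refine ⟨mem_decomp_of hD (Equiv.swap 0 1) ?_, (hK _).2 hsiso⟩
    intro i x hx
    fin_cases i
    · exact hs01 x hx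
    · exact hs10 x hx
  constructor
  · refine lt_of_le_of_ne inf_le_right ?_
    intro heq
    obtain ⟨a, ha, ha0⟩ := hne 0
    obtain ⟨b, hbB, hab, -⟩ := hP.symm.exA hf (W := ⊥) bot_le ha (by simpa using ha0)
    obtain ⟨g, hg, -⟩ := exists_IsT hb (a + b) ((1 : F) • (a + b)) (by rw [one_smul]; exact hf.alternating _)
    have hgK : g ∈ K := isT_mem_K hf hK hg
    rw [← heq] at hgK
    obtain ⟨σ, hσ⟩ := hgK.1
    have h1 : (g : Matrix ι ι F) *ᵥ a ∈ D (σ 0) := by
      rw [← hσ 0]
      exact ⟨a, ha, by rw [toLin'_apply]⟩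
    rw [hg a, one_smul, hb.add_right, hf.alternating, zero_add, hab, one_smul] at h1
    have hσ0 : σ 0 = 0 ∨ σ 0 = 1 := by
      generalize σ 0 = j
      fin_cases j
      · left; rfl
      · right; rfl
    rcases hσ0 with h3 | h3
    · rw [h3] at h1
      have h4 : b ∈ D 0 := by
        have h5 := (D 0).sub_mem ((D 0).sub_mem h1 ha) ha
        have h6 : a + (a + b) - a - a = b := by abel
        rwa [h6] at h5
      have h5 := hP.disj b h4 hbB
      rw [h5] at hab
      have h6 := hb.smul_right 0 a 0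
      rw [zero_smul, zero_mul] at h6
      rw [h6] at hab
      exact zero_ne_one hab
    · rw [h3] at h1
      have h4 : (2 : F) • a ∈ D 1 := by
        have h5 := (D 1).sub_mem h1 hbB
        have h6 : a + (a + b) - b = (2 : F) • a := by rw [two_smul]; abel
        rwa [h6] at h5
      have h5 := hP.disj _ ((D 0).smul_mem _ ha) h4
      exact (smul_ne_zero h2 ha0) h5
  · intro M hM hMK
    by_cases hsub : M ≤ decompositionStabilizer D
    · left
      exact le_antisymm (le_inf hsub hMK) hM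
    right
    refine le_antisymm hMK ?_
    obtain ⟨g, hg, hgn⟩ : ∃ g ∈ M, g ∉ decompositionStabilizer D := by
      by_contra hcon
      push Not at hcon
      exact hsub hcon
    have hgiso := (hK g).1 (hMK hg)
    have hSS : ∀ a ∈ D 0, ∀ b ∈ D 1, f a b = 0 → SS f M a b := fun a ha b hbB hab g hg =>
      hM ⟨hΓ a ha b hbB hab g hg, (hK g).2 (isom_IsS hf hab hg)⟩
    have hSS' : ∀ a ∈ D 1, ∀ b ∈ D 0, f a b = 0 → SS f M a b := fun a ha b hbB hab =>
      SS_symm (hSS b hbB a ha (MaxSymp.swap_zero hf hab))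
    have hmain : ∀ x : ι → F, ∀ C : Submodule F (ι → F), Module.finrank F C = m →
        (∀ y ∈ C, f y x = 0 → ∀ c : F, SS f M (c • x) y) → x ∉ D 0 → x ∉ D 1 → ∃ i, ∃ b ∈ D i, b ≠ 0 ∧ XS f M b := by
      intro x C hC hxC hx0 hx1
      obtain ⟨a1, ha1, b1, hb1, rfl⟩ := hsup x
      have ha10 : a1 ≠ 0 := by
        rintro rfl
        rw [zero_add] at hx1
        exact hx1 hb1
      have hb10 : b1 ≠ 0 := by
        rintro rfl
        rw [add_zero] at hx0
        exact hx0 ha1
      obtain ⟨y, hyC, hyx, hyn⟩ := exists_avoid hb C (Submodule.span F {a1, b1}) ![a1 + b1] (by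
        classical
        have h1 := finrank_span_finset_le_card (R := F) ({a1, b1} : Finset (ι → F))
        rw [Finset.coe_insert, Finset.coe_singleton] at h1
        have h2 : Module.finrank F (Submodule.span F {a1, b1}) ≤ 2 := h1.trans Finset.card_le_two
        omega)
      have hyx0 : f y (a1 + b1) = 0 := hyx 0
      obtain ⟨a2, ha2, b2, hb2, rfl⟩ := hsup y
      by_cases h1 : b2 ∈ Submodule.span F {b1}
      · by_cases h3 : a2 ∈ Submodule.span F {a1}
        · exfalso
          apply hyn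
          obtain ⟨s, rfl⟩ := Submodule.mem_span_singleton.1 h1
          obtain ⟨t, rfl⟩ := Submodule.mem_span_singleton.1 h3
          rw [Submodule.mem_span_pair]
          exact ⟨t, s, rfl⟩
        · obtain ⟨b, hb', hb0, hX⟩ := hP.symm.spread hf h2 hSS' hb1 ha1 hb2 ha2
            (by rw [add_comm b1, add_comm b2]; exact MaxSymp.swap_zero hf hyx0)
            (by rw [add_comm b1, add_comm b2]; exact hxC _ hyC hyx0) ha10 h3
          exact ⟨0, b, hb', hb0, hX⟩
      · obtain ⟨b, hb', hb0, hX⟩ := hP.spread hf h2 hSS ha1 hb1 ha2 hb2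
            (MaxSymp.swap_zero hf hyx0) (hxC _ hyC hyx0) hb10 h1
        exact ⟨1, b, hb', hb0, hX⟩
    have hex : ∃ i, ∃ b ∈ D i, b ≠ 0 ∧ XS f M b := by
      by_contra hcon
      apply hgn
      have h0 : ∀ x ∈ im g (D 0), x ∈ D 0 ∨ x ∈ D 1 := by
        rintro _ ⟨x, hx, rfl⟩
        by_contra hc
        push Not at hc
        refine hcon (hmain _ (im g (D 1)) (by rw [finrank_im, hD.finrank_eq]) ?_ hc.1 hc.2)
        rintro _ ⟨y, hy, rfl⟩ hyx c
        have hyx' : f y x = 0 := by rw [← hgiso]; exact hyx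
        have h1 := SS_map hf hg hgiso (u := c • x) (v := y) (hSS _ ((D 0).smul_mem _ hx) _ hy (by
          rw [hb.smul_left, MaxSymp.swap_zero hf hyx', mul_zero]))
        rw [mulVec_smul] at h1
        exact h1
      have h1 : ∀ x ∈ im g (D 1), x ∈ D 0 ∨ x ∈ D 1 := by
        rintro _ ⟨x, hx, rfl⟩
        by_contra hc
        push Not at hc
        refine hcon (hmain _ (im g (D 0)) (by rw [finrank_im, hD.finrank_eq]) ?_ hc.1 hc.2)
        rintro _ ⟨y, hy, rfl⟩ hyx c
        have hyx' : f y x = 0 := by rw [← hgiso]; exact hyx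
        have h1 := SS_map hf hg hgiso (u := c • x) (v := y) (hSS' _ ((D 1).smul_mem _ hx) _ hy (by
          rw [hb.smul_left, MaxSymp.swap_zero hf hyx', mul_zero]))
        rw [mulVec_smul] at h1
        exact h1
      have hinj : ∀ {x y : ι → F}, (g : Matrix ι ι F) *ᵥ x = (g : Matrix ι ι F) *ᵥ y → x = y := by
        intro x y h
        rw [← inv_mulVec g x, h, inv_mulVec]
      have hnot : ∀ j, im g (D 0) ≤ D j → im g (D 1) ≤ D j → False := by
        intro j hj0 hj1
        have e0 : im g (D 0) = D j := Submodule.eq_of_le_of_finrank_eq hj0 (by rw [finrank_im, hD.finrank_eq, hD.finrank_eq])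
        have e1 : im g (D 1) = D j := Submodule.eq_of_le_of_finrank_eq hj1 (by rw [finrank_im, hD.finrank_eq, hD.finrank_eq])
        obtain ⟨x, hx, hx0⟩ := hne 0
        have h3 : (g : Matrix ι ι F) *ᵥ x ∈ im g (D 1) := by rw [e1, ← e0]; exact mem_im hx
        obtain ⟨y, hy, hyx⟩ := h3
        have h4 : y = x := hinj hyx
        exact hx0 (hP.disj x hx (h4 ▸ hy))
      rcases union_sub h0 with h00 | h01 <;> rcases union_sub h1 with h10 | h11
      · exact absurd (hnot 0 h00 h10) id
      · refine mem_decomp_of hD 1 ?_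
        intro i x hx
        fin_cases i
        · exact h00 (mem_im hx)
        · exact h11 (mem_im hx)
      · refine mem_decomp_of hD (Equiv.swap 0 1) ?_
        intro i x hx
        fin_cases i
        · exact h01 (mem_im hx)
        · exact h10 (mem_im hx)
      · exact absurd (hnot 1 h01 h11) id
    -- all vectors of D 0 and D 1
    have hall : (∀ x ∈ D 0, XS f M x) ∧ (∀ x ∈ D 1, XS f M x) := by
      have key01 : (∀ x ∈ D 0, XS f M x) → (∀ x ∈ D 1, XS f M x) := by
        intro h x hx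
        have h1 := hs10 x hx
        have hsw' := M.inv_mem (hM hsw)
        have h3 := XS_map hf hsw' (fun x y => by rw [← hsiso, mulVec_inv, mulVec_inv]) (h _ h1)
        rwa [inv_mulVec] at h3
      have key10 : (∀ x ∈ D 1, XS f M x) → (∀ x ∈ D 0, XS f M x) := by
        intro h x hx
        have h1 := hs01 x hx
        have hsw' := M.inv_mem (hM hsw)
        have h3 := XS_map hf hsw' (fun x y => by rw [← hsiso, mulVec_inv, mulVec_inv]) (h _ h1)
        rwa [inv_mulVec] at h3
      obtain ⟨i, b, hbi, hb0, hX⟩ := hex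
      have hi : i = 0 ∨ i = 1 := by
        fin_cases i
        · left; rfl
        · right; rfl
      rcases hi with rfl | rfl
      · have h3 := hP.symm.spreadB hf hSS' hbi hb0 hX
        exact ⟨h3, key01 h3⟩
      · have h3 := hP.spreadB hf hSS hbi hb0 hX
        exact ⟨key10 h3, h3⟩
    refine le_of_all_XS hf hK ?_
    intro u
    obtain ⟨a, ha, b, hbB, rfl⟩ := hsup u
    by_cases ha0 : a = 0
    · rw [ha0, zero_add]; exact hall.2 b hbB
    by_cases hab : f a b = 0
    · obtain ⟨b', hb'B, hab', -⟩ := hP.symm.exA hf (W := ⊥) bot_le ha (by simpa using ha0)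
      have h1 : XS f M (a + b') := XS_add hf (hall.2 b' hb'B) (hall.1 a ha) (by rw [hab']; exact one_ne_zero)
      have h3 : XS f M (a + b' + (b - b')) := by
        refine XS_add hf (hall.2 _ ((D 1).sub_mem hbB hb'B)) h1 ?_
        rw [hb.add_left, hiso 1 b' hb'B _ ((D 1).sub_mem hbB hb'B), sub_right hf, hab, hab', add_zero, zero_sub]
        exact neg_ne_zero.2 one_ne_zero
      have h4 : a + b' + (b - b') = a + b := by abel
      rwa [h4] at h3
    · exact XS_add hf (hall.2 b hbB) (hall.1 a ha) hab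

end CfsgH9.MaxSingSp
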