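import Mathlib
import Cfsg.Prelude.Def_GeometricClasses
import Cfsg.Agent.H9.Transv
import Cfsg.Agent.H9.SigmaField
import Cfsg.Agent.H9.MaxSymp

set_option autoImplicit false

/-! Maximality of the similarity group of a unitary form in SL. -/

namespace CfsgH9.MaxUnit

open Matrix Cfsg Cfsg.Geo CfsgH9.Tv CfsgH9.SF
open CfsgH9.MaxSymp (two_nonzero inv_mulVec mulVec_inv mulVec_ne_zero)

variable {ι : Type} [Fintype ι] [DecidableEq ι] {F : Type*} [Field F] {σ : F ≃+* F}
variable {f : (ι → F) → (ι → F) → F} (hf : IsUnitaryForm σ f)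

include hf

lemma add_right (v x y : ι → F) : f v (x + y) = f v x + f v y := by
  rw [hf.herm, hf.add_left, map_add, ← hf.herm, ← hf.herm]

lemma smul_right (c : F) (v x : ι → F) : f v (c • x) = σ c * f v x := by
  rw [hf.herm, hf.smul_left, map_mul, ← hf.herm]

lemma zero_left (v : ι → F) : f 0 v = 0 := by
  have := hf.smul_left 0 0 v
  simpa using this

lemma zero_right (v : ι → F) : f v 0 = 0 := by
  rw [hf.herm, zero_left hf, map_zero]

lemma swap_zero {u v : ι → F} (h : f u v = 0) : f v u = 0 := by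
  rw [hf.herm, h, map_zero]

lemma swap_ne {u v : ι → F} (h : f u v ≠ 0) : f v u ≠ 0 := fun h' => h (swap_zero hf h')

lemma sum_left (x w : ι → F) : f x w = ∑ i, x i * f (Pi.single i 1) w := by
  have hsum : ∀ (s : Finset ι) (y : ι → ι → F), f (∑ i ∈ s, y i) w = ∑ i ∈ s, f (y i) w := by
    classical
    intro s y
    induction s using Finset.induction_on with
    | empty => simpa using zero_left hf w
    | insert a s ha ih => rw [Finset.sum_insert ha, Finset.sum_insert ha, hf.add_left, ih]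
  conv_lhs => rw [← Finset.univ_sum_single x]
  rw [hsum]
  refine Finset.sum_congr rfl fun i _ => ?_
  have : (Pi.single i (x i) : ι → F) = x i • Pi.single i 1 := by
    rw [← Pi.single_smul, smul_eq_mul, mul_one]
  rw [this, hf.smul_left]

omit hf in
/-- the covector of `f(·, w)` -/
def cov (f : (ι → F) → (ι → F) → F) (w : ι → F) : ι → F := fun i => f (Pi.single i 1) w

lemma cov_dot (w x : ι → F) : cov f w ⬝ᵥ x = f x w := by
  rw [sum_left hf x w, dotProduct]
  exact Finset.sum_congr rfl fun i _ => mul_comm _ _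

lemma form_right_inj {w w' : ι → F} (h : ∀ x, f x w = f x w') : w = w' := by
  by_contra hne
  obtain ⟨⟨x, hx⟩, -⟩ := hf.nondegenerate (w - w') (sub_ne_zero.2 hne)
  apply hx
  have h1 := add_right hf x (w - w') w'
  rw [sub_add_cancel, h x] at h1
  exact right_eq_add.1 h1

omit [DecidableEq ι] in
/-- linear functional `x ↦ f x w` -/
lemma exists_perp_vec {k : ℕ} (w : Fin k → (ι → F)) (hk : k < Fintype.card ι) : ∃ x, x ≠ 0 ∧ ∀ i, f x (w i) = 0 := by
  let L : (ι → F) →ₗ[F] (Fin k → F) :=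
    { toFun := fun x i => f x (w i)
      map_add' := by intro x y; ext i; exact hf.add_left _ _ _
      map_smul' := by intro c x; ext i; exact hf.smul_left _ _ _ }
  have h := LinearMap.ker_ne_bot_of_finrank_lt (f := L) (by
    rw [Module.finrank_fintype_fun_eq_card, Module.finrank_fintype_fun_eq_card, Fintype.card_fin]; exact hk)
  obtain ⟨x, hx, hx0⟩ := (Submodule.ne_bot_iff _).1 h
  exact ⟨x, hx0, fun i => congrFun hx i⟩

lemma cov_surj (a : ι → F) : ∃ w, cov f w = a := by
  -- the map x ↦ f · x is semilinear; use surjectivity by duality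
  let L : (ι → F) →ₗ[F] (ι → F) :=
    { toFun := fun x i => f x (Pi.single i 1)
      map_add' := by intro x y; ext i; exact hf.add_left _ _ _
      map_smul' := by intro c x; ext i; exact hf.smul_left _ _ _ }
  have hinj : Function.Injective L := by
    rw [injective_iff_map_eq_zero]
    intro w hw
    by_contra hne
    obtain ⟨⟨x, hx⟩, -⟩ := hf.nondegenerate w hne
    apply hx
    rw [sum_left hf]
    apply Finset.sum_eq_zero
    intro i _
    have : f w (Pi.single i 1) = 0 := congrFun hw i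
    rw [swap_zero hf this, mul_zero]
  obtain ⟨w, hw⟩ := (LinearMap.injective_iff_surjective.1 hinj) (fun i => σ (a i))
  refine ⟨w, ?_⟩
  ext i
  have h1 : f w (Pi.single i 1) = σ (a i) := congrFun hw i
  rw [cov, hf.herm, h1, hf.involutive]

lemma trace_fix (v : ι → F) : σ (f v v) = f v v := (hf.herm v v).symm

/-- correct `x` by a multiple of the isotropic `u` to make it isotropic -/
lemma exists_iso_corr {x u : ι → F} (hu : f u u = 0) (hxu : f x u ≠ 0) : ∃ c : F, f (x + c • u) (x + c • u) = 0 := by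
  obtain ⟨d, hd⟩ := trace_surj hf.ne_refl hf.involutive (b := -f x x) (by rw [map_neg, trace_fix hf])
  refine ⟨d / f u x, ?_⟩
  have hux : f u x ≠ 0 := swap_ne hf hxu
  simp only [hf.add_left, add_right hf, hf.smul_left, smul_right hf, hu, map_div₀]
  rw [← hf.herm x u]
  field_simp
  linear_combination (f x u * f u x) * hd

/-- a submodule-like set closed under addition containing the isotropic vectors of `E` contains `E` -/
lemma iso_span (E : (ι → F) → Prop) (hEadd : ∀ x y, E x → E y → E (x + y)) (hEsmul : ∀ (c : F) x, E x → E (c • x))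
    {u y : ι → F} (hu : E u) (hy : E y) (huu : f u u = 0) (hyu : f y u ≠ 0) (S : (ι → F) → Prop)
    (hSadd : ∀ x y, S x → S y → S (x + y)) (hS : ∀ v, E v → f v v = 0 → S v) : ∀ x, E x → S x := by
  have h1 : ∀ x, E x → f x u ≠ 0 → S x := by
    intro x hx hxu
    obtain ⟨c, hc⟩ := exists_iso_corr hf huu hxu
    have h2 : x = (x + c • u) + (-c) • u := by rw [neg_smul]; abel
    rw [h2]
    refine hSadd _ _ (hS _ (hEadd _ _ hx (hEsmul _ _ hu)) hc) (hS _ (hEsmul _ _ hu) ?_)
    rw [hf.smul_left, smul_right hf, huu]; ring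
  intro x hx
  by_cases hxu : f x u = 0
  · have h2 : x = (x + y) + (-1 : F) • y := by rw [neg_smul, one_smul]; abel
    rw [h2]
    refine hSadd _ _ (h1 _ (hEadd _ _ hx hy) ?_) (h1 _ (hEsmul _ _ hy) ?_)
    · rw [hf.add_left, hxu, zero_add]; exact hyu
    · rw [hf.smul_left]; exact mul_ne_zero (by simp) hyu
  · exact h1 x hx hxu

omit [DecidableEq ι] in
/-- isotropic vectors in subspaces of dimension at least two -/
lemma exists_iso [Finite F] {k : ℕ} (w : Fin k → (ι → F)) (hk : k + 1 < Fintype.card ι) :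
    ∃ x, x ≠ 0 ∧ f x x = 0 ∧ ∀ i, f x (w i) = 0 := by
  obtain ⟨x, hx0, hx⟩ := exists_perp_vec hf w (by omega)
  by_cases hxx : f x x = 0
  · exact ⟨x, hx0, hxx, hx⟩
  obtain ⟨y, hy0, hy⟩ := exists_perp_vec hf (Fin.cons x w : Fin (k+1) → (ι → F)) hk
  have hyx : f y x = 0 := by simpa using hy 0
  have hyw : ∀ i, f y (w i) = 0 := fun i => by simpa using hy i.succ
  by_cases hyy : f y y = 0
  · exact ⟨y, hy0, hyy, hyw⟩
  obtain ⟨a, ha⟩ := norm_surj hf.ne_refl hf.involutive (b := - f x x / f y y) (by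
    rw [map_div₀, map_neg]
    have h1 : σ (f x x) = f x x := (hf.herm x x).symm
    have h2 : σ (f y y) = f y y := (hf.herm y y).symm
    rw [h1, h2])
  have hxy : f x y = 0 := by rw [hf.herm, hyx, map_zero]
  have hadd : ∀ v x y : ι → F, f v (x + y) = f v x + f v y := by
    intro v x y; rw [hf.herm, hf.add_left, map_add, ← hf.herm, ← hf.herm]
  have hsmul : ∀ (c : F) (v x : ι → F), f v (c • x) = σ c * f v x := by
    intro c v x; rw [hf.herm, hf.smul_left, map_mul, ← hf.herm]
  refine ⟨x + a • y, ?_, ?_, ?_⟩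
  · intro h
    apply hxx
    have h1 : f (x + a • y) x = 0 := by
      rw [h]
      have := hf.smul_left 0 0 x
      simpa using this
    rw [hf.add_left, hf.smul_left, hyx, mul_zero, add_zero] at h1
    exact h1
  · rw [hf.add_left, hf.smul_left, hadd, hadd, hsmul, hsmul, hxy, hyx]
    have h3 : a * (0 + σ a * f y y) = (a * σ a) * f y y := by ring
    rw [h3, ha]
    field_simp
    ring
  · intro i
    rw [hf.add_left, hf.smul_left, hx, hyw]; ring

lemma isotropic_add {y s : ι → F} (hy : f y y = 0) (hs : f s s = 0) (hys : f y s = 0) : f (y + s) (y + s) = 0 := by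
  rw [hf.add_left, add_right hf, add_right hf, hy, hs, hys, swap_zero hf hys]; ring

/-- `z^⊥⊥ = ⟨z⟩` -/
lemma exists_perp {z x : ι → F} (hz : z ≠ 0) (hx : ∀ c : F, x ≠ c • z) : ∃ e, f e z = 0 ∧ f e x ≠ 0 := by
  by_contra hcon
  push Not at hcon
  obtain ⟨⟨y, hy⟩, -⟩ := hf.nondegenerate z hz
  apply hx (σ (f y x / f y z))
  apply form_right_inj hf
  intro e
  rw [smul_right hf, hf.involutive]
  have h1 := hcon (e + (-(f e z / f y z)) • y) (by
    rw [hf.add_left, hf.smul_left]; field_simp; ring)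
  rw [hf.add_left, hf.smul_left] at h1
  have h2 : f e x = f e z / f y z * f y x := by linear_combination h1
  rw [h2]; ring

/-- key lemma: additive subgroups of `z^⊥` invariant under unitary transvections -/
theorem key [Finite F] (hn : 6 ≤ Fintype.card ι) {z : ι → F} (hz : z ≠ 0) (X : (ι → F) → Prop)
    (hadd : ∀ x y, X x → X y → X (x + y)) (hneg : ∀ x, X x → X (-x))
    (hinv : ∀ v, f v z = 0 → f v v = 0 → ∀ c : F, σ c = -c → ∀ x, X x → X (x + (c * f x v) • v))
    {x0 : ι → F} (hx0 : X x0) (hx0z : f x0 z = 0) (hx0n : ∀ c : F, x0 ≠ c • z) :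
    ∀ x, f x z = 0 → X x := by
  obtain ⟨κ, hκ0, hκ⟩ := exists_kappa hf.ne_refl hf.involutive
  obtain ⟨⟨z', hz'⟩, -⟩ := hf.nondegenerate z hz
  have hEadd : ∀ x y, f x z = 0 → f y z = 0 → f (x + y) z = 0 := by
    intro x y h1 h2; rw [hf.add_left, h1, h2, add_zero]
  have hEsmul : ∀ (c : F) x, f x z = 0 → f (c • x) z = 0 := by
    intro c x h1; rw [hf.smul_left, h1, mul_zero]
  have hinv' : ∀ v, f v z = 0 → f v v = 0 → ∀ x, X x → X ((κ * f x v) • v) := by
    intro v hv hvv x hx
    have h1 := hadd _ _ (hinv v hv hvv κ hκ x hx) (hneg _ hx)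
    have h2 : x + (κ * f x v) • v + -x = (κ * f x v) • v := by abel
    rwa [h2] at h1
  -- not multiples of z
  have hnot : ∀ y, y ≠ 0 → f y z' = 0 → ∀ c : F, y ≠ c • z := by
    intro y hy0 hy c hc
    rw [hc, hf.smul_left] at hy
    rcases mul_eq_zero.1 hy with h | h
    · apply hy0; rw [hc, h, zero_smul]
    · exact swap_ne hf hz' h
  -- isotropic span of E
  obtain ⟨u1, hu10, hu11, hu1w⟩ := exists_iso hf ![z, z'] (by omega)
  have hu1z : f u1 z = 0 := by simpa using hu1w 0
  have hu1z' : f u1 z' = 0 := by simpa using hu1w 1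
  obtain ⟨y1, hy1z, hy1u⟩ := exists_perp hf hz (hnot u1 hu10 hu1z')
  have hspan := iso_span hf (fun x => f x z = 0) hEadd hEsmul hu1z hy1z hu11 hy1u
  -- step a
  obtain ⟨v, hvz, hvv, hv⟩ : ∃ v, f v z = 0 ∧ f v v = 0 ∧ f x0 v ≠ 0 := by
    by_contra hcon
    push Not at hcon
    obtain ⟨e, hez, hex⟩ := exists_perp hf hz hx0n
    apply hex
    have := hspan (fun v => f v x0 = 0) (by
      intro x y h1 h2
      show f (x + y) x0 = 0
      rw [hf.add_left, h1, h2, add_zero]) (by
      intro v hvz hvv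
      exact swap_zero hf (hcon v hvz hvv)) e hez
    exact this
  have hbv := hinv' v hvz hvv x0 hx0
  set b := κ * f x0 v with hb
  have hb0 : b ≠ 0 := mul_ne_zero hκ0 hv
  have hvn : ∀ c : F, v ≠ c • z := by
    intro c hc
    apply hv
    rw [hc, smul_right hf, hx0z, mul_zero]
  -- v'
  obtain ⟨v', hv'z, hv'v, hc1⟩ : ∃ v', f v' z = 0 ∧ f v v' ≠ 0 ∧ f v' v' = 0 := by
    obtain ⟨e, hez, hev⟩ := exists_perp hf hz hvn
    obtain ⟨c1, hc1⟩ := exists_iso_corr hf hvv hev
    refine ⟨e + c1 • v, hEadd _ _ hez (hEsmul _ _ hvz), ?_, hc1⟩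
    rw [add_right hf, smul_right hf, hvv, mul_zero, add_zero]
    exact swap_ne hf hev
  -- y
  obtain ⟨y, hy0, hyy, hyw⟩ := exists_iso hf ![z, z', v, v'] (by omega)
  have hyz : f y z = 0 := by simpa using hyw 0
  have hyz' : f y z' = 0 := by simpa using hyw 1
  have hyv : f y v = 0 := by simpa using hyw 2
  have hyv' : f y v' = 0 := by simpa using hyw 3
  have hyn := hnot y hy0 hyz'
  have hXy : ∀ d : F, X (d • y) := by
    have h1 : ∀ d : F, X ((κ * (b * f v v')) • (v' + d • y)) := by
      intro d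
      have hs : f (v' + d • y) (v' + d • y) = 0 := by
        refine isotropic_add hf hc1 ?_ ?_
        · rw [hf.smul_left, smul_right hf, hyy]; ring
        · rw [smul_right hf, swap_zero hf hyv', mul_zero]
      have h2 := hinv' (v' + d • y) (hEadd _ _ hv'z (hEsmul _ _ hyz)) hs _ hbv
      rw [hf.smul_left, add_right hf, smul_right hf, swap_zero hf hyv, mul_zero, add_zero] at h2
      exact h2
    intro d
    set K := κ * (b * f v v') with hK
    have hK0 : K ≠ 0 := mul_ne_zero hκ0 (mul_ne_zero hb0 hv'v)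
    have h3 := hadd _ _ (h1 (d / K)) (hneg _ (h1 0))
    have h4 : K • (v' + (d / K) • y) + -(K • (v' + (0 : F) • y)) = d • y := by
      rw [zero_smul, add_zero, smul_add, smul_smul, mul_div_cancel₀ _ hK0]
      abel
    rwa [h4] at h3
  -- step c
  have hc : ∀ s, f s z = 0 → f s s = 0 → f y s ≠ 0 → ∀ d : F, X (d • s) := by
    intro s hsz hss hys d
    have h1 := hinv' s hsz hss _ (hXy (d / (κ * f y s)))
    rw [hf.smul_left] at h1
    have h2 : κ * (d / (κ * f y s) * f y s) = d := by field_simp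
    rwa [h2] at h1
  -- step d
  have hd : ∀ s, f s z = 0 → f s s = 0 → (∀ c : F, s ≠ c • z) → X s := by
    intro s hsz hss hsn
    by_cases hys : f y s = 0
    · obtain ⟨e, hez, hey, hes⟩ := two_nonzero (fun e => f e y) (fun e => f e s) (fun x y => hf.add_left _ _ _)
        (fun x y => hf.add_left _ _ _) (fun e => f e z = 0) hEadd (exists_perp hf hz hyn) (exists_perp hf hz hsn)
      obtain ⟨c, hcc⟩ := exists_iso_corr hf hyy hey
      have hrz : f (e + c • y) z = 0 := hEadd _ _ hez (hEsmul _ _ hyz)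
      have hry : f y (e + c • y) ≠ 0 := by
        rw [add_right hf, smul_right hf, hyy, mul_zero, add_zero]
        exact swap_ne hf hey
      have hrs : f (e + c • y) s ≠ 0 := by
        rw [hf.add_left, hf.smul_left, hys, mul_zero, add_zero]
        exact hes
      have hr := hc _ hrz hcc hry (1 / (κ * f (e + c • y) s))
      have h1 := hinv' s hsz hss _ hr
      rw [hf.smul_left] at h1
      have h2 : κ * (1 / (κ * f (e + c • y) s) * f (e + c • y) s) = 1 := by field_simp
      rw [h2, one_smul] at h1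
      exact h1
    · have := hc s hsz hss hys 1
      rwa [one_smul] at this
  -- step e
  refine hspan X hadd ?_
  intro s hsz hss
  by_cases hsn : ∀ c : F, s ≠ c • z
  · exact hd s hsz hss hsn
  · push Not at hsn
    obtain ⟨c, hc⟩ := hsn
    have hys : f y s = 0 := by rw [hc, smul_right hf, hyz, mul_zero]
    have h1 : X (y + s) := by
      refine hd _ (hEadd _ _ hyz hsz) (isotropic_add hf hyy hss hys) ?_
      intro c' hc'
      apply hyn (c' - c)
      rw [sub_smul, ← hc', ← hc]
      abel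
    have h2 : X (-y) := by
      have := hXy (-1)
      rwa [neg_smul, one_smul] at this
    have h3 : s = (y + s) + -y := by abel
    rw [h3]
    exact hadd _ _ h1 h2

/-! ### transvections -/

omit hf in
/-- `g` acts as `x ↦ x + f(x,w) u` -/
def IsT (f : (ι → F) → (ι → F) → F) (g : GL ι F) (u w : ι → F) : Prop :=
  ∀ x, (g : Matrix ι ι F) *ᵥ x = x + f x w • u

lemma exists_IsT (u w : ι → F) (h : f u w = 0) :
    ∃ g : GL ι F, IsT f g u w ∧ (g : Matrix ι ι F).det = 1 := by
  refine ⟨tv u (cov f w) (by rw [cov_dot hf, h]), ?_, det_tv _ _ _⟩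
  intro x
  rw [tv_mulVec, cov_dot hf]

lemma mem_of_IsT {M : Subgroup (GL ι F)}
    (hM : ∀ u w, f u w = 0 → ∃ g ∈ M, IsT f g u w) (g : GL ι F) (hg : (g : Matrix ι ι F).det = 1) : g ∈ M := by
  refine mem_of_tv ?_ g hg
  intro u a h
  obtain ⟨w, rfl⟩ := cov_surj hf a
  obtain ⟨g, hg, hgT⟩ := hM u w (by rw [← cov_dot hf]; exact h)
  have : tv u (cov f w) h = g := by
    apply ext_mulVec
    intro x
    rw [tv_mulVec, cov_dot hf, hgT x]
  rw [this]
  exact hg

/-- unitary transvections are isometries -/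
lemma isom_IsT {u : ι → F} (hu : f u u = 0) {c : F} (hc : σ c = -c) {g : GL ι F} (h : IsT f g u (c • u)) (x y : ι → F) :
    f ((g : Matrix ι ι F) *ᵥ x) ((g : Matrix ι ι F) *ᵥ y) = f x y := by
  rw [h x, h y]
  simp only [hf.add_left, add_right hf, hf.smul_left, smul_right hf, hu, map_mul, map_neg, hc, ← hf.herm u y]
  ring

variable {M : Subgroup (GL ι F)} (hM : similarityGroup f ⊓ specialLinear ι F ≤ M)

include hM

lemma utransv_mem {u : ι → F} (hu : f u u = 0) {c : F} (hc : σ c = -c) : ∃ g ∈ M, IsT f g u (c • u) ∧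
    (∀ x y, f ((g : Matrix ι ι F) *ᵥ x) ((g : Matrix ι ι F) *ᵥ y) = f x y) := by
  obtain ⟨g, hg, hdet⟩ := exists_IsT hf u (c • u) (by rw [smul_right hf, hu, mul_zero])
  have hiso := isom_IsT hf hu hc hg
  refine ⟨g, hM ⟨⟨1, ?_⟩, ?_⟩, hg, hiso⟩
  · intro x y
    rw [hiso, Units.val_one, one_mul]
  · apply Units.ext
    exact hdet

omit hf hM in
lemma conj_IsT {g h : GL ι F} (hh : ∀ x y, f ((h : Matrix ι ι F) *ᵥ x) ((h : Matrix ι ι F) *ᵥ y) = f x y)
    {u w : ι → F} (hg : IsT f g u w) :
    IsT f (h * g * h⁻¹) ((h : Matrix ι ι F) *ᵥ u) ((h : Matrix ι ι F) *ᵥ w) := by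
  intro x
  have h1 := hg (((h⁻¹ : GL ι F) : Matrix ι ι F) *ᵥ x)
  rw [Units.val_mul, Units.val_mul, ← mulVec_mulVec, ← mulVec_mulVec, h1, mulVec_add, mulVec_smul, mulVec_inv]
  congr 2
  rw [← hh, mulVec_inv]

/-- all axes for a given centre -/
lemma all_axes [Finite F] (hn : 6 ≤ Fintype.card ι) {u w : ι → F} (hu : u ≠ 0) (huw : f u w = 0) (hwn : ∀ c : F, w ≠ c • u)
    (h : ∃ g ∈ M, IsT f g u w) : ∀ w', f u w' = 0 → ∃ g ∈ M, IsT f g u w' := by
  have hk := key hf hn hu (fun w' => f u w' = 0 ∧ ∃ g ∈ M, IsT f g u w') ?_ ?_ ?_ ⟨huw, h⟩ (swap_zero hf huw) hwn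
  · intro w' hw'
    exact (hk w' (swap_zero hf hw')).2
  · rintro x y ⟨hx, g, hg, hgT⟩ ⟨hy, g', hg', hgT'⟩
    refine ⟨by rw [add_right hf, hx, hy, add_zero], g * g', M.mul_mem hg hg', ?_⟩
    intro v
    rw [Units.val_mul, ← mulVec_mulVec, hgT' v, hgT, hf.add_left, hf.smul_left, hx, add_right hf]
    simp only [mul_zero, add_zero, add_smul]
    abel
  · rintro x ⟨hx, g, hg, hgT⟩
    have h0 : f u (-x) = 0 := by rw [← neg_one_smul F, smul_right hf, hx, mul_zero]
    refine ⟨h0, g⁻¹, M.inv_mem hg, ?_⟩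
    intro v
    have h1 := hgT (v + f v (-x) • u)
    have h2 : f v (-x) = - f v x := by rw [← neg_one_smul F, smul_right hf]; simp
    rw [hf.add_left, hf.smul_left, hx, mul_zero, add_zero, h2, neg_smul, neg_add_cancel_right] at h1
    rw [h2, neg_smul]
    have h3 := congrArg (fun z => ((g⁻¹ : GL ι F) : Matrix ι ι F) *ᵥ z) h1
    simp only [inv_mulVec] at h3
    exact h3.symm
  · rintro v hvu hvv c hc x ⟨hx, g, hg, hgT⟩
    obtain ⟨t, ht, htT, hiso⟩ := utransv_mem hf hM hvv (c := -c) (by rw [map_neg, hc])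
    have hu' : (t : Matrix ι ι F) *ᵥ u = u := by
      rw [htT u, smul_right hf, swap_zero hf hvu]; simp
    have hx' : (t : Matrix ι ι F) *ᵥ x = x + (c * f x v) • v := by
      rw [htT x, smul_right hf, map_neg, hc, neg_neg]
    have h1 := conj_IsT hiso hgT
    rw [hu', hx'] at h1
    refine ⟨?_, _, M.mul_mem (M.mul_mem ht hg) (M.inv_mem ht), h1⟩
    rw [add_right hf, smul_right hf, hx, swap_zero hf hvu]; simp

/-- all centres for a given axis -/
lemma all_centres [Finite F] (hn : 6 ≤ Fintype.card ι) {u w : ι → F} (hw : w ≠ 0) (huw : f u w = 0) (hwn : ∀ c : F, u ≠ c • w)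
    (h : ∃ g ∈ M, IsT f g u w) : ∀ u', f u' w = 0 → ∃ g ∈ M, IsT f g u' w := by
  have hk := key hf hn hw (fun u' => f u' w = 0 ∧ ∃ g ∈ M, IsT f g u' w) ?_ ?_ ?_ ⟨huw, h⟩ huw hwn
  · intro u' hu'
    exact (hk u' hu').2
  · rintro x y ⟨hx, g, hg, hgT⟩ ⟨hy, g', hg', hgT'⟩
    refine ⟨by rw [hf.add_left, hx, hy, add_zero], g * g', M.mul_mem hg hg', ?_⟩
    intro v
    rw [Units.val_mul, ← mulVec_mulVec, hgT' v, hgT, hf.add_left, hf.smul_left, hy]
    simp only [mul_zero, add_zero, smul_add]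
    abel
  · rintro x ⟨hx, g, hg, hgT⟩
    have h0 : f (-x) w = 0 := by rw [← neg_one_smul F, hf.smul_left, hx, mul_zero]
    refine ⟨h0, g⁻¹, M.inv_mem hg, ?_⟩
    intro v
    have h1 := hgT (v + f v w • (-x))
    rw [hf.add_left, hf.smul_left, h0, mul_zero, add_zero, smul_neg, neg_add_cancel_right] at h1
    rw [smul_neg]
    have h3 := congrArg (fun z => ((g⁻¹ : GL ι F) : Matrix ι ι F) *ᵥ z) h1
    simp only [inv_mulVec] at h3
    exact h3.symm
  · rintro v hvu hvv c hc x ⟨hx, g, hg, hgT⟩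
    obtain ⟨t, ht, htT, hiso⟩ := utransv_mem hf hM hvv (c := -c) (by rw [map_neg, hc])
    have hw' : (t : Matrix ι ι F) *ᵥ w = w := by
      rw [htT w, smul_right hf, swap_zero hf hvu]; simp
    have hx' : (t : Matrix ι ι F) *ᵥ x = x + (c * f x v) • v := by
      rw [htT x, smul_right hf, map_neg, hc, neg_neg]
    have h1 := conj_IsT hiso hgT
    rw [hw', hx'] at h1
    refine ⟨?_, _, M.mul_mem (M.mul_mem ht hg) (M.inv_mem ht), h1⟩
    rw [hf.add_left, hf.smul_left, hx, hvu]; simp

omit hM in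
lemma indep_symm {u w : ι → F} (hu : u ≠ 0) (h : ∀ c : F, w ≠ c • u) : ∀ c : F, u ≠ c • w := by
  intro c hc
  by_cases hc0 : c = 0
  · rw [hc0, zero_smul] at hc; exact hu hc
  · apply h c⁻¹
    rw [hc, smul_smul, inv_mul_cancel₀ hc0, one_smul]

omit hM in
/-- a vector orthogonal to both `u, u'` and proportional to neither -/
lemma exists_common_perp [Finite F] (hn : 6 ≤ Fintype.card ι) {u u' : ι → F} (hu : u ≠ 0) (hu' : u' ≠ 0) :
    ∃ w, w ≠ 0 ∧ f u w = 0 ∧ f u' w = 0 ∧ (∀ c : F, w ≠ c • u) ∧ (∀ c : F, w ≠ c • u') := by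
  obtain ⟨⟨z, hz⟩, -⟩ := hf.nondegenerate u hu
  obtain ⟨⟨z', hz'⟩, -⟩ := hf.nondegenerate u' hu'
  obtain ⟨w, hw0, hw⟩ := exists_perp_vec hf ![u, u', z, z'] (by omega)
  have h1 : f w u = 0 := by simpa using hw 0
  have h2 : f w u' = 0 := by simpa using hw 1
  have h3 : f w z = 0 := by simpa using hw 2
  have h4 : f w z' = 0 := by simpa using hw 3
  refine ⟨w, hw0, swap_zero hf h1, swap_zero hf h2, ?_, ?_⟩
  · intro c hc
    rw [hc, hf.smul_left] at h3
    rcases mul_eq_zero.1 h3 with h | h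
    · apply hw0; rw [hc, h, zero_smul]
    · exact swap_ne hf hz h
  · intro c hc
    rw [hc, hf.smul_left] at h4
    rcases mul_eq_zero.1 h4 with h | h
    · apply hw0; rw [hc, h, zero_smul]
    · exact swap_ne hf hz' h

theorem all_IsT [Finite F] (hn : 6 ≤ Fintype.card ι) {u0 w0 : ι → F} (h : ∃ g ∈ M, IsT f g u0 w0) (hu0 : u0 ≠ 0)
    (huw0 : f u0 w0 = 0) (hwc0 : ∀ c : F, w0 ≠ c • u0) (u w : ι → F) (huw : f u w = 0) : ∃ g ∈ M, IsT f g u w := by
  by_cases hu : u = 0
  · subst hu
    refine ⟨1, M.one_mem, ?_⟩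
    intro x
    simp
  have h1 := all_axes hf hM hn hu0 huw0 hwc0 h
  obtain ⟨w1, hw10, hw1, hw2, hw3, hw4⟩ := exists_common_perp hf hn hu0 hu
  have h2 := all_centres hf hM hn hw10 hw1 (indep_symm hf hu0 hw3) (h1 w1 hw1) u hw2
  exact all_axes hf hM hn hu hw2 hw4 h2 w huw

omit hM in
/-- similarity criterion -/
lemma similarity_of_prop [Finite F] (hn : 6 ≤ Fintype.card ι) {g : GL ι F}
    (h : ∀ u, f u u = 0 → ∃ l : F, ∀ v, f v u = l * f ((g : Matrix ι ι F) *ᵥ v) ((g : Matrix ι ι F) *ᵥ u)) :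
    g ∈ similarityGroup f := by
  obtain ⟨κ, hκ0, hκ⟩ := exists_kappa hf.ne_refl hf.involutive
  -- reformulate
  have h' : ∀ u, f u u = 0 → u ≠ 0 → ∃ m : F, m ≠ 0 ∧ ∀ v, f ((g : Matrix ι ι F) *ᵥ v) ((g : Matrix ι ι F) *ᵥ u) = m * f v u := by
    intro u hu hu0
    obtain ⟨l, hl⟩ := h u hu
    have hl0 : l ≠ 0 := by
      rintro rfl
      obtain ⟨⟨x, hx⟩, -⟩ := hf.nondegenerate u hu0
      apply hx
      rw [hl x, zero_mul]
    refine ⟨l⁻¹, inv_ne_zero hl0, fun v => ?_⟩
    rw [hl v, inv_mul_cancel_left₀ hl0]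
  obtain ⟨u0, hu00, hu0, -⟩ := exists_iso hf (k := 0) ![] (by omega)
  obtain ⟨m, hm0, hm⟩ := h' u0 hu0 hu00
  have hiso : ∀ v, f v v = 0 → ∀ x, f ((g : Matrix ι ι F) *ᵥ x) ((g : Matrix ι ι F) *ᵥ v) = m * f x v := by
    intro v hv x
    by_cases hv0 : v = 0
    · subst hv0
      rw [mulVec_zero, zero_right hf, zero_right hf, mul_zero]
    by_cases hvn : ∀ c : F, v ≠ c • u0
    · obtain ⟨m', hm'0, hm'⟩ := h' v hv hv0
      -- a with u0 + a v isotropic
      obtain ⟨a, ha0, ha⟩ : ∃ a : F, a ≠ 0 ∧ f (u0 + a • v) (u0 + a • v) = 0 := by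
        by_cases huv : f v u0 = 0
        · refine ⟨1, one_ne_zero, ?_⟩
          rw [one_smul]
          exact isotropic_add hf hu0 hv (swap_zero hf huv)
        · refine ⟨κ / f v u0, div_ne_zero hκ0 huv, ?_⟩
          have h3 : σ (f v u0) = f u0 v := (hf.herm u0 v).symm
          have h4 : f u0 v ≠ 0 := swap_ne hf huv
          simp only [hf.add_left, add_right hf, hf.smul_left, smul_right hf, hu0, hv, map_div₀, hκ, h3]
          field_simp
          ring
      have hw0 : u0 + a • v ≠ 0 := by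
        intro h0
        apply hvn (-a⁻¹)
        have h1 : u0 = -(a • v) := eq_neg_of_add_eq_zero_left h0
        rw [h1, neg_smul, smul_neg, neg_neg, smul_smul, inv_mul_cancel₀ ha0, one_smul]
      obtain ⟨m'', hm''0, hm''⟩ := h' _ ha hw0
      -- compare
      have h5 : ∀ y, f y (σ (m'' - m) • u0 + (a * σ (m'' - m')) • v) = f y 0 := by
        intro y
        have h6 := hm'' y
        rw [mulVec_add, mulVec_smul, add_right hf, smul_right hf, hm y, hm' y, add_right hf, smul_right hf] at h6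
        rw [add_right hf, smul_right hf, smul_right hf, hf.involutive, map_mul, hf.involutive, zero_right hf]
        linear_combination -h6
      have h7 := form_right_inj hf h5
      have h8 : m'' - m' = 0 := by
        by_contra hne
        have hne' : a * σ (m'' - m') ≠ 0 := mul_ne_zero ha0 ((map_ne_zero σ).2 hne)
        apply hvn (-((a * σ (m'' - m'))⁻¹ * σ (m'' - m)))
        have h9 : (a * σ (m'' - m')) • v = -(σ (m'' - m) • u0) := eq_neg_of_add_eq_zero_right h7
        rw [neg_smul, mul_smul, ← smul_neg, ← h9, smul_smul, inv_mul_cancel₀ hne', one_smul]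
      have h10 : m'' - m = 0 := by
        rw [h8, map_zero, mul_zero, zero_smul, add_zero] at h7
        rcases smul_eq_zero.1 h7 with h11 | h11
        · exact (map_eq_zero σ).1 h11
        · exact absurd h11 hu00
      rw [hm' x]
      have : m' = m := by linear_combination h10 - h8
      rw [this]
    · push Not at hvn
      obtain ⟨c, rfl⟩ := hvn
      rw [mulVec_smul, smul_right hf, smul_right hf, hm x]; ring
  obtain ⟨⟨y, hy⟩, -⟩ := hf.nondegenerate u0 hu00
  refine ⟨Units.mk0 m hm0, ?_⟩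
  intro x v
  rw [Units.val_mk0]
  exact iso_span hf (fun _ => True) (fun _ _ _ _ => trivial) (fun _ _ _ => trivial) (u := u0) (y := y) trivial trivial
    hu0 hy (fun v => ∀ x, f ((g : Matrix ι ι F) *ᵥ x) ((g : Matrix ι ι F) *ᵥ v) = m * f x v) (by
      intro a b h1 h2 x
      rw [mulVec_add, add_right hf, h1, h2, add_right hf, mul_add]) (fun v _ hv => hiso v hv) v trivial x

omit hM in
/-- the similarity group of a unitary form is maximal in SL -/
theorem isMaximalIn [Finite F] (hn : 6 ≤ Fintype.card ι) :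
    IsMaximalIn (specialLinear ι F) (similarityGroup f ⊓ specialLinear ι F) := by
  obtain ⟨κ, hκ0, hκ⟩ := exists_kappa hf.ne_refl hf.involutive
  constructor
  · refine lt_of_le_of_ne inf_le_right ?_
    intro heq
    obtain ⟨u, hu0, hu, -⟩ := exists_iso hf (k := 0) ![] (by omega)
    obtain ⟨w, hw0, hw, -, hwc, -⟩ := exists_common_perp hf hn hu0 hu0
    obtain ⟨g, hgT, hdet⟩ := exists_IsT hf u w hw
    have hgS : g ∈ similarityGroup f ⊓ specialLinear ι F := by
      rw [heq]
      apply Units.ext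
      exact hdet
    obtain ⟨c, hc⟩ := hgS.1
    obtain ⟨-, y, hy⟩ := hf.nondegenerate u hu0
    have hwu : f w u = 0 := swap_zero hf hw
    have key : ∀ x y, σ (f y w) * f x u + f x w * f u y = (c - 1) * f x y := by
      intro x y
      have := hc x y
      rw [hgT x, hgT y] at this
      simp only [hf.add_left, add_right hf, hf.smul_left, smul_right hf, hu] at this
      linear_combination this
    have hc1 : (c : F) - 1 = 0 := by
      have := key u y
      rw [hu, hw, mul_zero, zero_mul, zero_add] at this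
      exact (mul_eq_zero.1 this.symm).resolve_right hy
    apply hwc (σ (-σ (f y w) / f u y))
    apply form_right_inj hf
    intro x
    rw [smul_right hf, hf.involutive]
    have := key x y
    rw [hc1, zero_mul] at this
    field_simp
    linear_combination this
  · intro M hM hMS
    by_cases hsub : M ≤ similarityGroup f
    · left
      exact le_antisymm (le_inf hsub hMS) hM
    · right
      refine le_antisymm hMS ?_
      obtain ⟨g, hg, hgn⟩ : ∃ g ∈ M, g ∉ similarityGroup f := by
        by_contra hcon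
        push Not at hcon
        exact hsub hcon
      have h1 : ∃ u, f u u = 0 ∧ ∀ l : F, ∃ v, f v u ≠ l * f ((g : Matrix ι ι F) *ᵥ v) ((g : Matrix ι ι F) *ᵥ u) := by
        by_contra hcon
        push Not at hcon
        exact hgn (similarity_of_prop hf hn hcon)
      obtain ⟨u, huu, hu⟩ := h1
      have hu0 : u ≠ 0 := by
        rintro rfl
        obtain ⟨v, hv⟩ := hu 0
        apply hv
        rw [zero_right hf, zero_mul]
      -- the transvection
      obtain ⟨t, ht, htT, -⟩ := utransv_mem hf hM huu hκ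
      obtain ⟨w, hw⟩ := cov_surj hf (fun i => f (((g⁻¹ : GL ι F) : Matrix ι ι F) *ᵥ (Pi.single i 1)) (κ • u))
      have hw' : ∀ x, f x w = f (((g⁻¹ : GL ι F) : Matrix ι ι F) *ᵥ x) (κ • u) := by
        intro x
        rw [← cov_dot hf, hw, dotProduct]
        have hsum : ∀ (s : Finset ι) (y : ι → ι → F), f (((g⁻¹ : GL ι F) : Matrix ι ι F) *ᵥ (∑ i ∈ s, y i)) (κ • u)
            = ∑ i ∈ s, f (((g⁻¹ : GL ι F) : Matrix ι ι F) *ᵥ (y i)) (κ • u) := by
          classical
          intro s y
          induction s using Finset.induction_on with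
          | empty => simp [zero_left hf]
          | insert a s ha ih => rw [Finset.sum_insert ha, Finset.sum_insert ha, mulVec_add, hf.add_left, ih]
        conv_rhs => rw [← Finset.univ_sum_single x, hsum]
        refine Finset.sum_congr rfl fun i _ => ?_
        have : (Pi.single i (x i) : ι → F) = x i • Pi.single i 1 := by
          rw [← Pi.single_smul, smul_eq_mul, mul_one]
        rw [this, mulVec_smul, hf.smul_left, mul_comm]
      have hT : IsT f (g * t * g⁻¹) ((g : Matrix ι ι F) *ᵥ u) w := by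
        intro x
        have h1 := htT (((g⁻¹ : GL ι F) : Matrix ι ι F) *ᵥ x)
        rw [Units.val_mul, Units.val_mul, ← mulVec_mulVec, ← mulVec_mulVec, h1, mulVec_add, mulVec_smul, mulVec_inv,
          hw']
      have hall := all_IsT hf hM hn ⟨_, M.mul_mem (M.mul_mem hg ht) (M.inv_mem hg), hT⟩ (mulVec_ne_zero g hu0)
        (by rw [hw', inv_mulVec, smul_right hf, huu, mul_zero]) (by
          intro c hc
          obtain ⟨v, hv⟩ := hu ((σ κ)⁻¹ * σ c)
          apply hv
          have h2 := hw' ((g : Matrix ι ι F) *ᵥ v)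
          rw [inv_mulVec, smul_right hf, hc, smul_right hf] at h2
          have hκ' : σ κ ≠ 0 := by simpa using hκ0
          rw [mul_assoc, h2, inv_mul_cancel_left₀ hκ'])
      intro s hs
      refine mem_of_IsT hf hall s ?_
      have := congrArg Units.val (show Matrix.GeneralLinearGroup.det s = 1 from hs)
      exact this

end CfsgH9.MaxUnit
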