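import Mathlib
import Cfsg.Agent.H9.Og14

set_option autoImplicit false

/-! The two families of maximal totally singular subspaces. -/

namespace CfsgH9.Og

open Matrix Cfsg Cfsg.Geo CfsgH9.Tv CfsgH9.Witt

variable {ι : Type} [Fintype ι] [DecidableEq ι] {F : Type*} [Field F]
variable {Q : (ι → F) → F} {f : (ι → F) → (ι → F) → F}

/-- maximal totally singular -/
def MT (Q : (ι → F) → F) (m : ℕ) (W : Submodule F (ι → F)) : Prop := Module.finrank F W = m ∧ ∀ w ∈ W, Q w = 0

lemma MT.perp (hf : Qf Q f) {m : ℕ} (hm : Fintype.card ι = 2 * m) {W : Submodule F (ι → F)} (h : MT Q m W) : perp hf W = W := by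
  have h1 : W ≤ Og.perp hf W := fun x hx y hy => ts_iso hf h.2 hx hy
  have h2 := finrank_perp hf W
  rw [h.1] at h2
  exact (Submodule.eq_of_le_of_finrank_le h1 (by rw [h.1]; omega)).symm

lemma perp_inf (hf : Qf Q f) (U W : Submodule F (ι → F)) : perp hf U ⊓ perp hf W = perp hf (U ⊔ W) := by
  ext x
  constructor
  · rintro ⟨h1, h2⟩ w hw
    obtain ⟨a, ha, b, hb, rfl⟩ := Submodule.mem_sup.1 hw
    rw [hf.add_right, h1 a ha, h2 b hb, add_zero]
  · intro h
    exact ⟨fun w hw => h w (Submodule.mem_sup_left hw), fun w hw => h w (Submodule.mem_sup_right hw)⟩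

lemma join (hf : Qf Q f) {m : ℕ} (hm : Fintype.card ι = 2 * m) {U H : Submodule F (ι → F)} (hU : MT Q m U)
    (hH : Module.finrank F H + 1 = m) (hHs : ∀ x ∈ H, Q x = 0) :
    MT Q m ((U ⊓ perp hf H) ⊔ H) ∧ Module.finrank F ↥(U ⊓ perp hf H) = Module.finrank F ↥(U ⊓ H) + 1 := by
  have h1 : U ⊓ perp hf H = perp hf (U ⊔ H) := by
    rw [← perp_inf, hU.perp hf hm]
  have h2 := finrank_perp hf (U ⊔ H)
  have h3 := Submodule.finrank_sup_add_finrank_inf_eq U H
  have h4 := Submodule.finrank_sup_add_finrank_inf_eq (U ⊓ perp hf H) H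
  have hHH : H ≤ perp hf H := fun x hx y hy => ts_iso hf hHs hx hy
  have h5 : (U ⊓ perp hf H) ⊓ H = U ⊓ H := by
    rw [inf_assoc, inf_eq_right.2 hHH]
  rw [h5] at h4
  rw [← h1] at h2
  rw [hU.1] at h3
  have h6 : Module.finrank F ↥(U ⊓ H) ≤ Module.finrank F H := Submodule.finrank_mono inf_le_right
  refine ⟨⟨by omega, ?_⟩, by omega⟩
  intro x hx
  obtain ⟨u, hu, h, hh, rfl⟩ := Submodule.mem_sup.1 hx
  rw [hf.add, hU.2 u hu.1, hHs h hh, hu.2 h hh]; ring

lemma inf_finrank {m : ℕ} {W W' H : Submodule F (ι → F)} (hW : MT Q m W) (hW' : MT Q m W') (hne : W ≠ W')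
    (hH : Module.finrank F H + 1 = m) (h1 : H ≤ W) (h2 : H ≤ W') : W ⊓ W' = H := by
  have h3 : W ⊓ W' < W := by
    refine lt_of_le_of_ne inf_le_left fun h => hne ?_
    exact Submodule.eq_of_le_of_finrank_eq (inf_eq_left.1 h) (by rw [hW.1, hW'.1])
  have h4 := Submodule.finrank_lt_finrank_of_lt h3
  rw [hW.1] at h4
  exact (Submodule.eq_of_le_of_finrank_le (le_inf h1 h2) (by omega)).symm

lemma two (hf : Qf Q f) {m : ℕ} (hm : Fintype.card ι = 2 * m) {W W' Y H : Submodule F (ι → F)} (hW : MT Q m W) (hW' : MT Q m W')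
    (hne : W ≠ W') (hH : Module.finrank F H + 1 = m) (h1 : H ≤ W) (h2 : H ≤ W') (hY : MT Q m Y) (hHY : H ≤ Y) : Y = W ∨ Y = W' := by
  by_contra hcon
  push Not at hcon
  have hi := inf_finrank hW hW' hne hH h1 h2
  obtain ⟨y, hy, hyW, hyW'⟩ := Witt.not_union (W := Y) (U := W) (U' := W')
    (fun h => hcon.1 (Submodule.eq_of_le_of_finrank_eq h (by rw [hY.1, hW.1])))
    (fun h => hcon.2 (Submodule.eq_of_le_of_finrank_eq h (by rw [hY.1, hW'.1])))
  have hyp : y ∈ perp hf H := fun z hz => ts_iso hf hY.2 hy (hHY hz)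
  have hsup : perp hf H = W ⊔ W' := by
    symm
    apply Submodule.eq_of_le_of_finrank_le
    · rw [sup_le_iff]
      exact ⟨fun x hx z hz => ts_iso hf hW.2 hx (h1 hz), fun x hx z hz => ts_iso hf hW'.2 hx (h2 hz)⟩
    · have h3 := Submodule.finrank_sup_add_finrank_inf_eq W W'
      have h4 := finrank_perp hf H
      rw [hi, hW.1, hW'.1] at h3
      omega
  rw [hsup] at hyp
  obtain ⟨w, hw, w', hw', rfl⟩ := Submodule.mem_sup.1 hyp
  have hwH : w ∉ H := fun h => hyW' (W'.add_mem (h2 h) hw')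
  have hw'H : w' ∉ H := fun h => hyW (W.add_mem hw (h1 h))
  have hQ := hY.2 _ hy
  rw [hf.add, hW.2 w hw, hW'.2 w' hw', zero_add, zero_add] at hQ
  have hWs : H ⊔ Submodule.span F {w'} = W' := by
    apply Submodule.eq_of_le_of_finrank_le
    · rw [sup_le_iff, Submodule.span_singleton_le_iff_mem]; exact ⟨h2, hw'⟩
    · rw [finrank_sup_span_eq hw'H, hW'.1, hH]
  have hwp : w ∈ perp hf W' := by
    rw [← hWs]
    intro z hz
    obtain ⟨h, hh, c, hc, rfl⟩ := Submodule.mem_sup.1 hz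
    obtain ⟨t, rfl⟩ := Submodule.mem_span_singleton.1 hc
    rw [hf.add_right, ts_iso hf hW.2 hw (h1 hh), hf.smul_right, hQ]; ring
  rw [hW'.perp hf hm] at hwp
  apply hwH
  rw [← hi]; exact ⟨hw, hwp⟩

lemma adj (hf : Qf Q f) {m : ℕ} (hm : Fintype.card ι = 2 * m) {U W W' : Submodule F (ι → F)} (hU : MT Q m U) (hW : MT Q m W)
    (hW' : MT Q m W') (hH : Module.finrank F ↥(W ⊓ W') + 1 = m) :
    Module.finrank F ↥(U ⊓ W) + Module.finrank F ↥(U ⊓ W') = 2 * Module.finrank F ↥(U ⊓ (W ⊓ W')) + 1 := by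
  have hne : W ≠ W' := by
    rintro rfl
    rw [inf_idem, hW.1] at hH; omega
  have key : ∀ {W W' : Submodule F (ι → F)}, MT Q m W → MT Q m W' → Module.finrank F ↥(W ⊓ W') + 1 = m →
      (U ⊓ perp hf (W ⊓ W')) ⊔ (W ⊓ W') = W →
      Module.finrank F ↥(U ⊓ W) + Module.finrank F ↥(U ⊓ W') = 2 * Module.finrank F ↥(U ⊓ (W ⊓ W')) + 1 := by
    intro W W' hW hW' hH hY
    obtain ⟨-, hd⟩ := join hf hm hU hH (fun x hx => hW.2 x hx.1)
    have e1 : U ⊓ perp hf (W ⊓ W') = U ⊓ W := by
      apply le_antisymm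
      · refine le_inf inf_le_left (le_trans le_sup_left hY.le)
      · exact le_inf inf_le_left (inf_le_right.trans fun x hx z hz => ts_iso hf hW.2 hx hz.1)
    have e2 : U ⊓ W' = U ⊓ (W ⊓ W') := by
      apply le_antisymm
      · refine le_inf inf_le_left (le_inf ?_ inf_le_right)
        have : U ⊓ W' ≤ U ⊓ perp hf (W ⊓ W') := le_inf inf_le_left (inf_le_right.trans fun x hx z hz => ts_iso hf hW'.2 hx hz.2)
        rw [e1] at this
        exact this.trans inf_le_right
      · exact inf_le_inf_left _ inf_le_right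
    rw [← e1, e2, hd]; ring
  obtain ⟨hY, -⟩ := join hf hm hU hH (fun x hx => hW.2 x hx.1)
  rcases two hf hm hW hW' hne hH inf_le_left inf_le_right hY le_sup_right with h | h
  · exact key hW hW' hH h
  · have := key hW' hW (by rw [inf_comm]; exact hH) (by rw [inf_comm W' W]; exact h)
    rw [inf_comm W' W] at this
    omega

theorem parity (hf : Qf Q f) {m : ℕ} (hm : Fintype.card ι = 2 * m) {U : Submodule F (ι → F)} (hU : MT Q m U) (r : ℕ) :
    ∀ W X : Submodule F (ι → F), MT Q m W → MT Q m X → m - Module.finrank F ↥(W ⊓ X) = r →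
    Even ((m - Module.finrank F ↥(U ⊓ W)) + (m - Module.finrank F ↥(W ⊓ X)) + (m - Module.finrank F ↥(U ⊓ X))) := by
  induction r with
  | zero =>
    intro W X hW hX hr
    have h1 : Module.finrank F ↥(W ⊓ X) ≤ m := hW.1 ▸ Submodule.finrank_mono inf_le_left
    have h2 : W ⊓ X = W := Submodule.eq_of_le_of_finrank_le inf_le_left (by rw [hW.1]; omega)
    have h3 : W = X := Submodule.eq_of_le_of_finrank_eq (inf_eq_left.1 h2) (by rw [hW.1, hX.1])
    subst h3
    rw [hr]
    exact ⟨_, by ring⟩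
  | succ r ih =>
    intro W X hW hX hr
    have hne : ¬ X ≤ W := by
      intro h
      rw [inf_eq_right.2 h, hX.1] at hr; omega
    obtain ⟨x, hx, hxW⟩ := Set.not_subset.1 hne
    have hxp : x ∉ perp hf W := by rw [hW.perp hf hm]; exact hxW
    -- the hyperplane of W orthogonal to x
    have hH : Module.finrank F ↥(W ⊓ perp hf (Submodule.span F {x})) + 1 = m := by
      have h1 : W ⊓ perp hf (Submodule.span F {x}) = perp hf (W ⊔ Submodule.span F {x}) := by
        rw [← perp_inf, hW.perp hf hm]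
      have h2 := finrank_perp hf (W ⊔ Submodule.span F {x})
      rw [finrank_sup_span_eq hxW, hW.1, ← h1] at h2
      omega
    set H := W ⊓ perp hf (Submodule.span F {x}) with hHdef
    have hxH : x ∉ H := fun h => hxW h.1
    have hW' : MT Q m (H ⊔ Submodule.span F {x}) := by
      refine ⟨by rw [finrank_sup_span_eq hxH, hH], ?_⟩
      intro z hz
      obtain ⟨h, hh, c, hc, rfl⟩ := Submodule.mem_sup.1 hz
      obtain ⟨t, rfl⟩ := Submodule.mem_span_singleton.1 hc
      rw [hf.add, hW.2 h hh.1, hf.smul, hX.2 x hx, hf.smul_right, mem_perp_one hf |>.1 hh.2]; ring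
    set W' := H ⊔ Submodule.span F {x} with hW'def
    have hneW : W ≠ W' := by
      intro h; apply hxW; rw [h]; exact Submodule.mem_sup_right (Submodule.mem_span_singleton_self x)
    have hWW' : W ⊓ W' = H := inf_finrank hW hW' hneW hH inf_le_left le_sup_left
    have hWX : W ⊓ X ≤ H := fun z hz => ⟨hz.1, mem_perp_one hf |>.2 (ts_iso hf hX.2 hz.2 hx)⟩
    -- adjacency with respect to X
    have a1 := adj hf hm hX hW hW' (by rw [hWW']; exact hH)
    have a2 := adj hf hm hU hW hW' (by rw [hWW']; exact hH)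
    have e1 : X ⊓ (W ⊓ W') = X ⊓ W := by
      rw [hWW']
      apply le_antisymm
      · exact inf_le_inf_left _ inf_le_left
      · exact le_inf inf_le_left (by rw [inf_comm]; exact hWX)
    rw [e1] at a1
    have b1 : Module.finrank F ↥(W ⊓ X) ≤ m := hW.1 ▸ Submodule.finrank_mono inf_le_left
    have b2 : Module.finrank F ↥(W' ⊓ X) ≤ m := hW'.1 ▸ Submodule.finrank_mono inf_le_left
    have b3 : Module.finrank F ↥(U ⊓ W) ≤ m := hU.1 ▸ Submodule.finrank_mono inf_le_left
    have b4 : Module.finrank F ↥(U ⊓ W') ≤ m := hU.1 ▸ Submodule.finrank_mono inf_le_left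
    rw [inf_comm X W, inf_comm X W'] at a1
    have h3 := ih W' X hW' hX (by omega)
    obtain ⟨k, hk⟩ := h3
    rw [Nat.even_iff]
    omega

theorem second (hf : Qf Q f) {m : ℕ} (hm : Fintype.card ι = 2 * m) {U H : Submodule F (ι → F)} (hU : MT Q m U)
    (hH : Module.finrank F H + 1 = m) (hHs : ∀ x ∈ H, Q x = 0) :
    ∃ W W', MT Q m W ∧ MT Q m W' ∧ W ≠ W' ∧ H ≤ W ∧ H ≤ W' := by
  obtain ⟨hY, -⟩ := join hf hm hU hH hHs
  set Y := (U ⊓ perp hf H) ⊔ H with hYdef
  have hHY : H ≤ Y := le_sup_right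
  obtain ⟨w, hw, hwH⟩ : ∃ w ∈ Y, w ∉ H := by
    by_contra hcon
    push Not at hcon
    have := Submodule.finrank_mono (show Y ≤ H from hcon)
    rw [hY.1] at this; omega
  obtain ⟨v, hv, hvw⟩ := exists_perp hf hwH
  have hwp : w ∈ perp hf H := fun z hz => ts_iso hf hY.2 hw (hHY hz)
  set v' := v - Q v • w with hv'
  have hv'p : v' ∈ perp hf H := Submodule.sub_mem _ hv (Submodule.smul_mem _ _ hwp)
  have hv'w : f v' w = 1 := by rw [hv', hf.sub_left, hf.smul_left, hf.self, hY.2 w hw, hvw]; ring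
  have hQv' : Q v' = 0 := by
    rw [hv', hf.Q_sub, hf.smul, hY.2 w hw, hf.smul_right, hvw]; ring
  have hv'H : v' ∉ H := by
    intro h
    have : f v' w = 0 := ts_iso hf hY.2 (hHY h) hw
    rw [hv'w] at this; exact one_ne_zero this
  refine ⟨Y, H ⊔ Submodule.span F {v'}, hY, ⟨by rw [finrank_sup_span_eq hv'H, hH], ?_⟩, ?_, hHY, le_sup_left⟩
  · intro z hz
    obtain ⟨h, hh, c, hc, rfl⟩ := Submodule.mem_sup.1 hz
    obtain ⟨t, rfl⟩ := Submodule.mem_span_singleton.1 hc
    have h1 : f h v' = 0 := by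
      have := hv'p h hh
      rw [← hf.symm]; exact this
    rw [hf.add, hHs h hh, hf.smul, hQv', hf.smul_right, h1]; ring
  · intro h
    have h1 : v' ∈ Y := by rw [h]; exact Submodule.mem_sup_right (Submodule.mem_span_singleton_self v')
    have : f v' w = 0 := ts_iso hf hY.2 h1 hw
    rw [hv'w] at this; exact one_ne_zero this

/-- the standard maximal totally singular subspace -/
lemma std_MT (m : ℕ) (F : Type*) [Field F] : ∃ U : Submodule F (Fin m ⊕ Fin m → F), MT (quadFormPlus m F) m U := by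
  let L : (Fin m → F) →ₗ[F] (Fin m ⊕ Fin m → F) :=
    { toFun := fun x => Sum.elim x 0
      map_add' := by intro x y; ext (i | i) <;> simp
      map_smul' := by intro c x; ext (i | i) <;> simp }
  refine ⟨LinearMap.range L, ?_, ?_⟩
  · rw [LinearMap.finrank_range_of_inj, Module.finrank_fintype_fun_eq_card, Fintype.card_fin]
    intro x y h
    ext i
    exact congrFun h (Sum.inl i)
  · rintro _ ⟨x, rfl⟩
    show quadFormPlus m F (Sum.elim x 0) = 0
    simp [quadFormPlus]

end CfsgH9.Og
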