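import Mathlib
import Cfsg.Agent.H9.Og15

set_option autoImplicit false

/-! Non-maximal geometric subgroups of orthogonal groups. -/

namespace CfsgH9.Og

open Matrix Cfsg Cfsg.Geo CfsgH9.Tv CfsgH9.Witt
open CfsgH9.MaxRedSL (mem_stab_of mem_stab_iff)

variable {ι : Type} [Fintype ι] [DecidableEq ι] {F : Type*} [Field F]
variable {Q : (ι → F) → F} {f : (ι → F) → (ι → F) → F}

lemma mem_iso_of_omega {g : GL ι F} (hg : g ∈ omegaGL Q) : Iso Q g := (mem_omega.1 hg).1

lemma small_field {F : Type*} [Field F] [Fintype F] (h : Fintype.card F ≤ 3) (c : F) (hc : c ≠ 0) : c = 1 ∨ c = -1 := by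
  classical
  by_contra hcon
  push Not at hcon
  have hc1 := hcon.1
  by_cases h2 : (1 : F) = -1
  · -- 0, 1, c, c + 1 are distinct
    have h3 : c + 1 ≠ 0 := fun h => hcon.2 (eq_neg_of_add_eq_zero_left h)
    have h4 : ({0, 1, c, c + 1} : Finset F).card = 4 := by
      rw [Finset.card_insert_of_notMem, Finset.card_insert_of_notMem, Finset.card_insert_of_notMem, Finset.card_singleton]
      · simp
      · simp only [Finset.mem_insert, Finset.mem_singleton, not_or]
        exact ⟨hc1.symm, fun h => hc (by simpa using h)⟩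
      · simp only [Finset.mem_insert, Finset.mem_singleton, not_or]
        exact ⟨zero_ne_one, hc.symm, h3.symm⟩
    have h5 := Finset.card_le_univ ({0, 1, c, c + 1} : Finset F)
    omega
  · have h4 : ({0, 1, -1, c} : Finset F).card = 4 := by
      rw [Finset.card_insert_of_notMem, Finset.card_insert_of_notMem, Finset.card_insert_of_notMem, Finset.card_singleton]
      · simp only [Finset.mem_singleton]
        exact hcon.2.symm
      · simp only [Finset.mem_insert, Finset.mem_singleton, not_or]
        exact ⟨h2, hc1.symm⟩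
      · simp only [Finset.mem_insert, Finset.mem_singleton, not_or]
        exact ⟨zero_ne_one, by simp, hc.symm⟩
    have h5 := Finset.card_le_univ ({0, 1, -1, c} : Finset F)
    omega

/-- the stabiliser of a hyperbolic plane over a field with at most three elements -/
theorem plane_not_max [Finite F] (hf : Qf Q f) (hn : 5 ≤ Fintype.card ι) (h3 : ∀ c : F, c ≠ 0 → c = 1 ∨ c = -1)
    {W : Submodule F (ι → F)} (hdim : Module.finrank F W = 2) (hW : ∀ w ∈ W, w ≠ 0 → ∃ x ∈ W, f x w ≠ 0)
    (hsing : ∃ e ∈ W, e ≠ 0 ∧ Q e = 0) :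
    ∃ K : Subgroup (GL ι F), subspaceStabilizer W ⊓ omegaGL Q < K ∧ K < omegaGL Q := by
  obtain ⟨e, he, he0, hQe⟩ := hsing
  obtain ⟨y, hy, hye⟩ := hW e he he0
  have hee := hf.self_of hQe
  -- the partner
  obtain ⟨e', he', hQe', hee'⟩ : ∃ e' ∈ W, Q e' = 0 ∧ f e e' = 1 := by
    refine ⟨(f y e)⁻¹ • (y - (Q y * (f y e)⁻¹) • e), W.smul_mem _ (W.sub_mem hy (W.smul_mem _ he)), ?_, ?_⟩
    · rw [hf.smul, hf.Q_sub, hf.smul, hQe, hf.smul_right]
      field_simp
      ring
    · rw [hf.smul_right, hf.sub_right, hf.smul_right, hee, hf.symm y e, mul_zero, sub_zero, inv_mul_cancel₀ hye]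
  have hee'' : f e' e = 1 := by rw [hf.symm]; exact hee'
  have hspan : ∀ x ∈ W, x = f x e' • e + f x e • e' := by
    intro x hx
    have hsp : Submodule.span F {e, e'} = W := by
      apply Submodule.eq_of_le_of_finrank_eq
      · rw [Submodule.span_le]
        rintro z (rfl | rfl)
        · exact he
        · exact he'
      · rw [hdim]
        have hli : LinearIndependent F ![e, e'] := by
          rw [LinearIndependent.pair_iff]
          intro s t hst
          constructor
          · have := congrArg (fun z => f z e') hst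
            simp only [hf.add_left, hf.smul_left, hf.zero_left, hf.self_of hQe', hee'] at this
            simpa using this
          · have := congrArg (fun z => f z e) hst
            simp only [hf.add_left, hf.smul_left, hf.zero_left, hee, hee''] at this
            simpa using this
        have h1 := finrank_span_eq_card hli
        have h2 : Set.range ![e, e'] = {e, e'} := by simp [Set.pair_comm]
        rw [h2, Fintype.card_fin] at h1
        exact h1
    rw [← hsp] at hx
    obtain ⟨a, b, rfl⟩ := Submodule.mem_span_pair.1 hx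
    rw [hf.add_left, hf.add_left, hf.smul_left, hf.smul_left, hf.smul_left, hf.smul_left, hee, hee'', hee', hf.self_of hQe']
    simp
  -- the perpendicular space
  have hp := finrank_perp hf W
  obtain ⟨u, hu, hu0, hQu⟩ := exists_sing hf (E := perp hf W) (by omega)
  have huW : u ∉ W := by
    intro h
    obtain ⟨x, hx, hxu⟩ := hW u h hu0
    exact hxu (hf.swap (hu x hx))
  have hue : f u e = 0 := hu e he
  have hue' : f u e' = 0 := hu e' he'
  have hv : e + e' ∈ W := W.add_mem he he'
  have hQv : Q (e + e') = 1 := by rw [hf.add, hQe, hQe', hee']; ring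
  have hvne : e + e' ≠ 0 := by
    intro h; rw [h, hf.Q_zero] at hQv; exact zero_ne_one hQv
  refine ⟨subspaceStabilizer (Submodule.span F {e + e'}) ⊓ omegaGL Q, ?_, ?_⟩
  · refine lt_of_le_of_ne ?_ ?_
    · rintro g ⟨hg, hgΩ⟩
      refine ⟨?_, hgΩ⟩
      have hiso := mem_iso_of_omega hgΩ
      have hgv : (g : Matrix ι ι F) *ᵥ (e + e') ∈ W := ((mem_stab_iff W g).1 hg _).1 hv
      have hQg : Q ((g : Matrix ι ι F) *ᵥ (e + e')) = 1 := by rw [hiso, hQv]
      have h1 := hspan _ hgv
      set a := f ((g : Matrix ι ι F) *ᵥ (e + e')) e' with ha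
      set b := f ((g : Matrix ι ι F) *ᵥ (e + e')) e with hb
      have hab : a * b = 1 := by
        rw [h1, hf.add, hf.smul, hf.smul, hQe, hQe', hf.smul_left, hf.smul_right, hee'] at hQg
        linear_combination hQg
      have ha0 : a ≠ 0 := by rintro h; rw [h, zero_mul] at hab; exact zero_ne_one hab
      have hba : b = a := by
        rcases h3 a ha0 with h | h
        · rw [h, one_mul] at hab; rw [hab, h]
        · rw [h] at hab; rw [h]; linear_combination -hab
      apply mem_stab_of
      intro x hx
      obtain ⟨c, rfl⟩ := Submodule.mem_span_singleton.1 hx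
      rw [mulVec_smul, h1, hba, ← smul_add]
      exact Submodule.smul_mem _ _ (Submodule.smul_mem _ _ (Submodule.mem_span_singleton_self _))
    · intro heq
      have huw : f u (e - e') = 0 := by rw [hf.sub_right, hue, hue']; ring
      obtain ⟨g, hg⟩ := exists_E hf hQu huw
      have hgΩ : g ∈ omegaGL Q := T_le_omega hf hn (E_mem hQu huw hg)
      have hgK : g ∈ subspaceStabilizer (Submodule.span F {e + e'}) ⊓ omegaGL Q := by
        refine ⟨?_, hgΩ⟩
        apply mem_stab_of
        intro x hx
        obtain ⟨c, rfl⟩ := Submodule.mem_span_singleton.1 hx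
        rw [mulVec_smul, hg]
        have h1 : f (e + e') u = 0 := by rw [hf.symm, hf.add_right, hue, hue']; ring
        have h2 : f (e + e') (e - e') = 0 := by
          rw [hf.add_left, hf.sub_right, hf.sub_right, hee, hee', hee'', hf.self_of hQe']; ring
        rw [h1, h2]
        simp only [zero_smul, mul_zero, add_zero, sub_zero]
        exact Submodule.smul_mem _ _ (Submodule.mem_span_singleton_self _)
      rw [← heq] at hgK
      have h1 := ((mem_stab_iff W g).1 hgK.1 e).1 he
      rw [hg, hf.symm, hue] at h1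
      have h2 : f e (e - e') = -1 := by rw [hf.sub_right, hee, hee']; ring
      rw [h2] at h1
      simp only [zero_smul, mul_zero, add_zero, neg_smul, sub_neg_eq_add, one_smul] at h1
      apply huW
      have := W.sub_mem h1 he
      rwa [add_sub_cancel_left] at this
  · refine lt_of_le_of_ne inf_le_right ?_
    intro heq
    obtain ⟨g, hg⟩ := exists_E hf hQu hue
    have hgΩ : g ∈ omegaGL Q := T_le_omega hf hn (E_mem hQu hue hg)
    rw [← heq] at hgΩ
    have h1 := ((mem_stab_iff _ g).1 hgΩ.1 (e + e')).1 (Submodule.mem_span_singleton_self _)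
    have h2 : f (e + e') u = 0 := by rw [hf.symm, hf.add_right, hue, hue']; ring
    have h3 : f (e + e') e = 1 := by rw [hf.add_left, hee, hee'']; ring
    rw [hg, h2, h3] at h1
    simp only [zero_smul, mul_zero, add_zero, one_smul] at h1
    apply huW
    have h4 : Submodule.span F {e + e'} ≤ W := by
      rw [Submodule.span_le]; rintro z rfl; exact hv
    have := W.sub_mem hv (h4 h1)
    rwa [sub_sub_cancel] at this

lemma toLin'_inj (g : GL ι F) : Function.Injective (Matrix.toLin' (g : Matrix ι ι F)) := by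
  intro x y h
  rw [Matrix.toLin'_apply, Matrix.toLin'_apply] at h
  have := congrArg (fun z => ((g⁻¹ : GL ι F) : Matrix ι ι F) *ᵥ z) h
  simp only [mulVec_mulVec, ← Units.val_mul, inv_mul_cancel, Units.val_one, one_mulVec] at this
  exact this

lemma finrank_map_GL (g : GL ι F) (W : Submodule F (ι → F)) :
    Module.finrank F (W.map (Matrix.toLin' (g : Matrix ι ι F))) = Module.finrank F W :=
  (Submodule.equivMapOfInjective _ (toLin'_inj g) W).finrank_eq.symm

lemma MT.map {g : GL ι F} (hg : Iso Q g) {m : ℕ} {W : Submodule F (ι → F)} (hW : MT Q m W) :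
    MT Q m (W.map (Matrix.toLin' (g : Matrix ι ι F))) := by
  refine ⟨by rw [finrank_map_GL, hW.1], ?_⟩
  rintro _ ⟨w, hw, rfl⟩
  rw [Matrix.toLin'_apply, hg w]
  exact hW.2 w hw

/-- the relative position -/
noncomputable def rp (m : ℕ) (U W : Submodule F (ι → F)) : ℤˣ := (-1) ^ (m - Module.finrank F ↥(U ⊓ W))

lemma rp_mul (hf : Qf Q f) {m : ℕ} (hm : Fintype.card ι = 2 * m) {U W X : Submodule F (ι → F)} (hU : MT Q m U)
    (hW : MT Q m W) (hX : MT Q m X) : rp m U X = rp m U W * rp m W X := by
  have h1 := parity hf hm hU _ W X hW hX rfl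
  rw [rp, rp, rp]
  have h2 : (-1 : ℤˣ) ^ ((m - Module.finrank F ↥(U ⊓ W)) + (m - Module.finrank F ↥(W ⊓ X)) + (m - Module.finrank F ↥(U ⊓ X))) = 1 :=
    h1.neg_one_pow
  rw [pow_add, pow_add] at h2
  have h3 := mul_eq_one_iff_eq_inv.1 h2
  rw [h3, Int.units_inv_eq_self]

lemma rp_map (m : ℕ) (g : GL ι F) (U W : Submodule F (ι → F)) :
    rp m (U.map (Matrix.toLin' (g : Matrix ι ι F))) (W.map (Matrix.toLin' (g : Matrix ι ι F))) = rp m U W := by
  rw [rp, rp, ← Submodule.map_inf _ (toLin'_inj g), finrank_map_GL]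

/-- Omega preserves the two families -/
theorem omega_rp (hf : Qf Q f) {m : ℕ} (hm : Fintype.card ι = 2 * m) {U : Submodule F (ι → F)} (hU : MT Q m U)
    {g : GL ι F} (hg : g ∈ omegaGL Q) : rp m U (U.map (Matrix.toLin' (g : Matrix ι ι F))) = 1 := by
  let φ : isometryGroup F Q →* ℤˣ :=
    { toFun := fun g => rp m U (U.map (Matrix.toLin' ((g : GL ι F) : Matrix ι ι F)))
      map_one' := by
        show rp m U (U.map (Matrix.toLin' ((1 : GL ι F) : Matrix ι ι F))) = 1
        rw [Units.val_one, Matrix.toLin'_one, Submodule.map_id, rp, inf_idem, hU.1, Nat.sub_self, pow_zero]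
      map_mul' := by
        intro g h
        have h1 : U.map (Matrix.toLin' (((g * h : isometryGroup F Q) : GL ι F) : Matrix ι ι F)) =
            (U.map (Matrix.toLin' ((h : GL ι F) : Matrix ι ι F))).map (Matrix.toLin' ((g : GL ι F) : Matrix ι ι F)) := by
          rw [← Submodule.map_comp, ← Matrix.toLin'_mul]; rfl
        rw [h1, rp_mul hf hm hU (hU.map (iso_of g)) ((hU.map (iso_of h)).map (iso_of g)), rp_map] }
  obtain ⟨hiso, hc⟩ := mem_omega.1 hg
  have h1 := Og.comm_le_ker φ hc
  exact h1

/-- the stabiliser of a totally singular subspace of codimension one in a maximal one -/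
theorem sub_not_max [Finite F] (hf : Qf Q f) (hn : 5 ≤ Fintype.card ι) {m : ℕ} (hm : Fintype.card ι = 2 * m)
    {U W : Submodule F (ι → F)} (hU : MT Q m U) (hdim : Module.finrank F W + 1 = m) (hW : ∀ x ∈ W, Q x = 0) :
    ∃ K : Subgroup (GL ι F), subspaceStabilizer W ⊓ omegaGL Q < K ∧ K < omegaGL Q := by
  obtain ⟨U1, U2, hU1, hU2, hne, h1, h2⟩ := second hf hm hU hdim hW
  have hint := inf_finrank hU1 hU2 hne hdim h1 h2
  have hr12 : rp m U1 U2 = -1 := by
    rw [rp, hint]
    have : m - Module.finrank F W = 1 := by omega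
    rw [this, pow_one]
  obtain ⟨u, hu, huW⟩ : ∃ u ∈ U1, u ∉ W := by
    by_contra hcon
    push Not at hcon
    have := Submodule.finrank_mono (show U1 ≤ W from hcon)
    rw [hU1.1] at this; omega
  have hU10 : U1 ≠ ⊥ := by
    rintro h; rw [h, Submodule.mem_bot] at hu; rw [hu] at huW; exact huW W.zero_mem
  refine ⟨subspaceStabilizer U1 ⊓ omegaGL Q, ?_, ?_⟩
  · refine lt_of_le_of_ne ?_ ?_
    · rintro g ⟨hg, hgΩ⟩
      refine ⟨?_, hgΩ⟩
      have hiso := mem_iso_of_omega hgΩ
      have hgW : W ≤ U1.map (Matrix.toLin' (g : Matrix ι ι F)) := by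
        have h3 : W.map (Matrix.toLin' (g : Matrix ι ι F)) = W := by
          apply Submodule.eq_of_le_of_finrank_eq
          · rintro _ ⟨w, hw, rfl⟩
            rw [Matrix.toLin'_apply]
            exact ((mem_stab_iff W g).1 hg w).1 hw
          · exact finrank_map_GL g W
        rw [← h3]
        exact Submodule.map_mono h1
      have h4 : U1.map (Matrix.toLin' (g : Matrix ι ι F)) = U1 := by
        rcases two hf hm hU1 hU2 hne hdim h1 h2 (hU1.map hiso) hgW with h | h
        · exact h
        · exfalso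
          have h5 := omega_rp hf hm hU1 hgΩ
          rw [h, hr12] at h5
          exact absurd h5 (by decide)
      apply mem_stab_of
      intro x hx
      have : Matrix.toLin' (g : Matrix ι ι F) x ∈ U1.map (Matrix.toLin' (g : Matrix ι ι F)) := ⟨x, hx, rfl⟩
      rw [h4, Matrix.toLin'_apply] at this
      exact this
    · intro heq
      have hW0 : ∃ x ∈ W, x ≠ 0 := by
        by_contra hcon
        push Not at hcon
        have h3 : W = ⊥ := by rw [eq_bot_iff]; intro x hx; rw [hcon x hx]; exact Submodule.zero_mem _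
        rw [h3, finrank_bot] at hdim
        omega
      obtain ⟨x0, hx0, hx00⟩ := hW0
      have hx0u : x0 ∉ Submodule.span F {u} := by
        intro h
        obtain ⟨c, rfl⟩ := Submodule.mem_span_singleton.1 h
        have hc : c ≠ 0 := by rintro rfl; rw [zero_smul] at hx00; exact hx00 rfl
        exact huW ((Submodule.smul_mem_iff _ hc).1 hx0)
      obtain ⟨w, hw, hwx⟩ := exists_perp hf hx0u
      have hwu : f w u = 0 := hw u (Submodule.mem_span_singleton_self u)
      have hQu := hU1.2 u hu
      have huw : f u w = 0 := hf.swap hwu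
      obtain ⟨g, hg⟩ := exists_E hf hQu huw
      have hgΩ : g ∈ omegaGL Q := T_le_omega hf hn (E_mem hQu huw hg)
      have hgx : ∀ x ∈ U1, (g : Matrix ι ι F) *ᵥ x = x - f x w • u := by
        intro x hx
        rw [hg, ts_iso hf hU1.2 hx hu]
        simp
      have hgK : g ∈ subspaceStabilizer U1 ⊓ omegaGL Q := by
        refine ⟨?_, hgΩ⟩
        apply mem_stab_of
        intro x hx
        rw [hgx x hx]
        exact U1.sub_mem hx (U1.smul_mem _ hu)
      rw [← heq] at hgK
      have h3 := ((mem_stab_iff W g).1 hgK.1 x0).1 hx0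
      have h4 : f x0 w = 1 := by rw [hf.symm]; exact hwx
      rw [hgx x0 (h1 hx0), h4, one_smul] at h3
      apply huW
      have := W.sub_mem hx0 h3
      rwa [sub_sub_cancel] at this
  · exact (par_max hf hn hU10 hU1.2 (fun h => by rw [hU1.1] at h; omega)).1

/-- the stabiliser of a pair of complementary maximal totally singular subspaces of odd dimension -/
theorem pair_not_max [Finite F] (hf : Qf Q f) (hn : 5 ≤ Fintype.card ι) {m : ℕ} (hm : Fintype.card ι = 2 * m) (hodd : Odd m)
    (D : Fin 2 → Submodule F (ι → F)) (hD : ∀ i, MT Q m (D i)) (hdisj : D 0 ⊓ D 1 = ⊥) :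
    ∃ K : Subgroup (GL ι F), decompositionStabilizer D ⊓ omegaGL Q < K ∧ K < omegaGL Q := by
  have hr01 : rp m (D 0) (D 1) = -1 := by
    rw [rp, hdisj, finrank_bot, Nat.sub_zero, hodd.neg_one_pow]
  have hD0 : D 0 ≠ ⊥ := by
    intro h
    have := (hD 0).1
    rw [h, finrank_bot] at this
    omega
  refine ⟨subspaceStabilizer (D 0) ⊓ omegaGL Q, ?_, ?_⟩
  · refine lt_of_le_of_ne ?_ ?_
    · rintro g ⟨⟨σ, hσ⟩, hgΩ⟩
      refine ⟨?_, hgΩ⟩
      have h4 : (D 0).map (Matrix.toLin' (g : Matrix ι ι F)) = D 0 := by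
        have h5 := hσ 0
        rcases Fin.exists_fin_two.1 ⟨σ 0, rfl⟩ with h | h
        · rw [h] at h5; exact h5
        · exfalso
          rw [h] at h5
          have h6 := omega_rp hf hm (hD 0) hgΩ
          rw [h5, hr01] at h6
          exact absurd h6 (by decide)
      apply mem_stab_of
      intro x hx
      have : Matrix.toLin' (g : Matrix ι ι F) x ∈ (D 0).map (Matrix.toLin' (g : Matrix ι ι F)) := ⟨x, hx, rfl⟩
      rw [h4, Matrix.toLin'_apply] at this
      exact this
    · intro heq
      obtain ⟨u, hu, hu0⟩ := (Submodule.ne_bot_iff _).1 hD0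
      obtain ⟨w, hw, hwu⟩ : ∃ w ∈ D 0, w ∉ Submodule.span F {u} := by
        by_contra hcon
        push Not at hcon
        have h3 := Submodule.finrank_mono (show D 0 ≤ Submodule.span F {u} from hcon)
        rw [finrank_span_singleton hu0, (hD 0).1] at h3
        omega
      have hQu := (hD 0).2 u hu
      have huw : f u w = 0 := ts_iso hf (hD 0).2 hu hw
      obtain ⟨g, hg⟩ := exists_E hf hQu huw
      have hgΩ : g ∈ omegaGL Q := T_le_omega hf hn (E_mem hQu huw hg)
      have hgK : g ∈ subspaceStabilizer (D 0) ⊓ omegaGL Q := by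
        refine ⟨?_, hgΩ⟩
        apply mem_stab_of
        intro x hx
        rw [hg]
        exact (D 0).sub_mem ((D 0).add_mem hx ((D 0).smul_mem _ hw)) ((D 0).smul_mem _ hu)
      rw [← heq] at hgK
      obtain ⟨⟨σ, hσ⟩, -⟩ := hgK
      -- g maps D 1 to itself
      have hmap0 : (D 0).map (Matrix.toLin' (g : Matrix ι ι F)) = D 0 := by
        apply Submodule.eq_of_le_of_finrank_eq
        · rintro _ ⟨x, hx, rfl⟩
          rw [Matrix.toLin'_apply, hg]
          exact (D 0).sub_mem ((D 0).add_mem hx ((D 0).smul_mem _ hw)) ((D 0).smul_mem _ hu)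
        · exact finrank_map_GL g _
      have hne01 : D 0 ≠ D 1 := by
        intro h; rw [← h, inf_idem] at hdisj; exact hD0 hdisj
      have hσ0 : σ 0 = 0 := by
        rcases Fin.exists_fin_two.1 ⟨σ 0, rfl⟩ with h | h
        · exact h
        · exfalso
          have h5 := hσ 0
          rw [h, hmap0] at h5; exact hne01 h5
      have hσ1 : σ 1 = 1 := by
        rcases Fin.exists_fin_two.1 ⟨σ 1, rfl⟩ with h | h
        · exfalso
          have : σ 1 = σ 0 := by rw [hσ0]; exact h
          exact absurd (σ.injective this) (by decide)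
        · exact h
      have h6 := hσ 1
      rw [hσ1] at h6
      obtain ⟨x, hx, hxu⟩ : ∃ x ∈ D 1, f x u ≠ 0 := by
        by_contra hcon
        push Not at hcon
        have h7 : u ∈ perp hf (D 1) := fun x hx => hf.swap (hcon x hx)
        rw [(hD 1).perp hf hm] at h7
        have h8 : u ∈ D 0 ⊓ D 1 := ⟨hu, h7⟩
        rw [hdisj, Submodule.mem_bot] at h8
        exact hu0 h8
      have h7 : (g : Matrix ι ι F) *ᵥ x ∈ D 1 := by
        have : Matrix.toLin' (g : Matrix ι ι F) x ∈ (D 1).map (Matrix.toLin' (g : Matrix ι ι F)) := ⟨x, hx, rfl⟩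
        rw [h6, Matrix.toLin'_apply] at this
        exact this
      rw [hg] at h7
      have h8 := (D 1).sub_mem h7 hx
      have h9 : x + f x u • w - (f x w + Q w * f x u) • u - x = f x u • w - (f x w + Q w * f x u) • u := by abel
      rw [h9] at h8
      have h10 : f x u • w - (f x w + Q w * f x u) • u ∈ D 0 ⊓ D 1 :=
        ⟨(D 0).sub_mem ((D 0).smul_mem _ hw) ((D 0).smul_mem _ hu), h8⟩
      rw [hdisj, Submodule.mem_bot, sub_eq_zero] at h10
      apply hwu
      rw [Submodule.mem_span_singleton]
      refine ⟨(f x u)⁻¹ * (f x w + Q w * f x u), ?_⟩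
      rw [mul_smul, ← h10, smul_smul, inv_mul_cancel₀ hxu, one_smul]
  · exact (par_max hf hn hD0 (hD 0).2 (fun h => by rw [(hD 0).1] at h; omega)).1

end CfsgH9.Og
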