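import Mathlib
import Cfsg.Agent.H9.NMax

set_option autoImplicit false

/-! Maximality of the stabiliser of a pair of complementary maximal totally singular subspaces. -/

namespace CfsgH9.Og

open Matrix Cfsg Cfsg.Geo CfsgH9.Tv CfsgH9.Witt
open CfsgH9.MaxSymp (inv_mulVec mulVec_inv)
open CfsgH9.MaxRedSL (mem_stab_of mem_stab_iff)

variable {ι : Type} [Fintype ι] [DecidableEq ι] {F : Type*} [Field F]
variable {Q : (ι → F) → F} {f : (ι → F) → (ι → F) → F} {M : Subgroup (GL ι F)}

/-- images of the submodules -/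
lemma wSub_map (hf : Qf Q f) {h : GL ι F} (hh : h ∈ M) (hiso : Iso Q h) {u : ι → F} (hu : Q u = 0)
    (hu' : Q ((h : Matrix ι ι F) *ᵥ u) = 0) {y : ι → F} (hy : y ∈ wSub hf hu M) :
    (h : Matrix ι ι F) *ᵥ y ∈ wSub hf hu' M := by
  refine ⟨by rw [hiso.form hf]; exact hy.1, ?_⟩
  intro c g hg
  have h1 := E_conj_inv hf hiso hg
  rw [mulVec_smul, inv_mulVec] at h1
  have h3 := M.mul_mem (M.mul_mem hh (hy.2 _ _ h1)) (M.inv_mem hh)
  have h4 : h * (h⁻¹ * g * h) * h⁻¹ = g := by group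
  rwa [h4] at h3

lemma wSub_fix (hf : Qf Q f) {h : GL ι F} (hh : h ∈ M) (hiso : Iso Q h) {u : ι → F} (hu : Q u = 0)
    (hfix : (h : Matrix ι ι F) *ᵥ u = u) {y : ι → F} (hy : y ∈ wSub hf hu M) :
    (h : Matrix ι ι F) *ᵥ y ∈ wSub hf hu M := by
  have h1 := wSub_map hf hh hiso hu (by rw [hfix]; exact hu) hy
  refine ⟨by have := h1.1; rwa [hfix] at this, fun c g hg => h1.2 c g (by rw [hfix]; exact hg)⟩

lemma wSub_symm (hf : Qf Q f) {u w : ι → F} (hu : Q u = 0) (hw : Q w = 0) (h : w ∈ wSub hf hu M) : u ∈ wSub hf hw M := by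
  refine ⟨hf.swap h.1, ?_⟩
  intro c g hg
  have h1 := hg.swap hf hw (by rw [hf.smul, hu, mul_zero])
  have h2 := h1.smul hf
  rw [smul_neg, ← neg_smul] at h2
  exact h.2 _ _ h2

lemma XE_of_wSub (hf : Qf Q f) {u : ι → F} (hu : Q u = 0) (h : ∀ w, f u w = 0 → w ∈ wSub hf hu M) : XE Q f M u := by
  intro w g hw hg
  exact (h w hw).2 1 g (by rw [one_smul]; exact hg)

/-- the set-up -/
structure PS (Q : (ι → F) → F) (f : (ι → F) → (ι → F) → F) (M : Subgroup (GL ι F)) (U U' : Submodule F (ι → F)) (k : ℕ) : Prop where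
  card : Fintype.card ι = 2 * k
  hU : MT Q k U
  hU' : MT Q k U'
  disj : U ⊓ U' = ⊥
  iso : ∀ g ∈ M, Iso Q g
  mem : ∀ u ∈ U, ∀ w ∈ U', f u w = 0 → ∀ g, IsE Q f g u w → g ∈ M

variable {U U' : Submodule F (ι → F)} {k : ℕ}

lemma PS.symm (hf : Qf Q f) (h : PS Q f M U U' k) : PS Q f M U' U k where
  card := h.card
  hU := h.hU'
  hU' := h.hU
  disj := by rw [inf_comm]; exact h.disj
  iso := h.iso
  mem := by
    intro u hu w hw huw g hg
    have h1 := hg.swap hf (h.hU'.2 u hu) (h.hU.2 w hw)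
    exact h.mem w hw (-u) (U'.neg_mem hu) (by rw [hf.neg_right, hf.swap huw, neg_zero]) g h1

lemma PS.dual (hf : Qf Q f) (h : PS Q f M U U' k) {C : Submodule F (ι → F)} (hC : C ≤ U) {y : ι → F} (hy : y ∈ U)
    (hyC : y ∉ C) : ∃ w ∈ U', (∀ c ∈ C, f w c = 0) ∧ f w y = 1 := by
  have hn : y ∉ U' ⊔ C := by
    intro hmem
    obtain ⟨b, hb, c, hc, hbc⟩ := Submodule.mem_sup.1 hmem
    have h1 : b = y - c := by rw [← hbc]; abel
    have h2 : b ∈ U ⊓ U' := ⟨by rw [h1]; exact U.sub_mem hy (hC hc), hb⟩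
    rw [h.disj, Submodule.mem_bot] at h2
    rw [h2, zero_add] at hbc
    exact hyC (hbc ▸ hc)
  obtain ⟨v, hv, hvy⟩ := exists_perp hf hn
  refine ⟨v, ?_, fun c hc => hv c (Submodule.mem_sup_right hc), hvy⟩
  rw [← h.hU'.perp hf h.card]
  exact fun w hw => hv w (Submodule.mem_sup_left hw)

lemma PS.split (h : PS Q f M U U' k) (x : ι → F) : ∃ a ∈ U, ∃ b ∈ U', x = a + b := by
  have htop : U ⊔ U' = ⊤ := by
    apply Submodule.eq_top_of_finrank_eq
    have h1 := Submodule.finrank_sup_add_finrank_inf_eq U U'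
    rw [h.disj, finrank_bot, h.hU.1, h.hU'.1, add_zero] at h1
    rw [h1, Module.finrank_fintype_fun_eq_card, h.card]; ring
  have hx : x ∈ U ⊔ U' := by rw [htop]; trivial
  obtain ⟨a, ha, b, hb, hab⟩ := Submodule.mem_sup.1 hx
  exact ⟨a, ha, b, hb, hab.symm⟩

lemma PS.ts (hf : Qf Q f) (h : PS Q f M U U' k) {x y : ι → F} (hx : x ∈ U) (hy : y ∈ U) : f x y = 0 := ts_iso hf h.hU.2 hx hy

lemma PS.ts' (hf : Qf Q f) (h : PS Q f M U U' k) {x y : ι → F} (hx : x ∈ U') (hy : y ∈ U') : f x y = 0 := ts_iso hf h.hU'.2 hx hy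

lemma PS.mem_wSub (hf : Qf Q f) (h : PS Q f M U U' k) {u w : ι → F} (hu : u ∈ U) (hw : w ∈ U') (huw : f u w = 0) :
    w ∈ wSub hf (h.hU.2 u hu) M :=
  ⟨huw, fun c g hg => h.mem u hu (c • w) (U'.smul_mem c hw) (by rw [hf.smul_right, huw, mul_zero]) g hg⟩

/-- the alternative for the vectors of `U` -/
theorem PS.claimA (hf : Qf Q f) (h : PS Q f M U U' k) {u : ι → F} (hu : u ∈ U) {y : ι → F}
    (hy : y ∈ wSub hf (h.hU.2 u hu) M) (hyn : ∀ c : F, ∀ b ∈ U', y ≠ c • u + b) : XE Q f M u := by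
  have hQu := h.hU.2 u hu
  obtain ⟨y1, hy1, y2, hy2, rfl⟩ := h.split y
  have hfy2 : f u y2 = 0 := by
    have := hy.1
    rwa [hf.add_right, h.ts hf hu hy1, zero_add] at this
  have hy1w : y1 ∈ wSub hf hQu M := by
    have := (wSub hf hQu M).sub_mem hy (h.mem_wSub hf hu hy2 hfy2)
    rwa [add_sub_cancel_right] at this
  have hy1n : y1 ∉ Submodule.span F {u} := by
    intro hmem
    obtain ⟨c, hc⟩ := Submodule.mem_span_singleton.1 hmem
    exact hyn c y2 hy2 (by rw [hc])
  have hUw : ∀ c ∈ U, c ∈ wSub hf hQu M := by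
    intro c hc
    by_cases hcy : y1 ∈ Submodule.span F {c, u}
    · obtain ⟨α, β, hab⟩ := Submodule.mem_span_pair.1 hcy
      have hα : α ≠ 0 := by
        rintro rfl
        apply hy1n
        rw [← hab, zero_smul, zero_add]
        exact Submodule.smul_mem _ _ (Submodule.mem_span_singleton_self u)
      have h1 : c = α⁻¹ • (y1 - β • u) := by
        rw [← hab, add_sub_cancel_right, smul_smul, inv_mul_cancel₀ hα, one_smul]
      rw [h1]
      exact Submodule.smul_mem _ _ (Submodule.sub_mem _ hy1w (Submodule.smul_mem _ _ u_mem_wSub))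
    · have hCU : Submodule.span F {c, u} ≤ U := by
        rw [Submodule.span_le]
        rintro z (rfl | rfl)
        · exact hc
        · exact hu
      obtain ⟨w, hw, hwC, hwy⟩ := h.dual hf hCU hy1 hcy
      have hwc : f w c = 0 := hwC c (Submodule.subset_span (by simp))
      have hwu : f w u = 0 := hwC u (Submodule.subset_span (by simp))
      obtain ⟨g, hg⟩ := exists_E hf (h.hU.2 c hc) (hf.swap hwc)
      have hgM : g ∈ M := h.mem c hc w hw (hf.swap hwc) g hg
      have hgu : (g : Matrix ι ι F) *ᵥ u = u := by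
        rw [hg, h.ts hf hu hc, hf.swap hwu]; simp
      have hgy : (g : Matrix ι ι F) *ᵥ y1 = y1 - c := by
        rw [hg, h.ts hf hy1 hc, hf.symm w y1, hwy]; simp
      have h2 := wSub_fix hf hgM (h.iso g hgM) hQu hgu hy1w
      rw [hgy] at h2
      have h3 := Submodule.sub_mem _ hy1w h2
      rwa [sub_sub_cancel] at h3
  apply XE_of_wSub hf hQu
  intro w hw
  obtain ⟨a, ha, b, hb, rfl⟩ := h.split w
  have hub : f u b = 0 := by rwa [hf.add_right, h.ts hf hu ha, zero_add] at hw
  exact Submodule.add_mem _ (hUw a ha) (h.mem_wSub hf hu hb hub)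

/-- transitivity of the Levi subgroup on the vectors of `U` -/
lemma PS.trans (hf : Qf Q f) (h : PS Q f M U U' k) {u v : ι → F} (hu : u ∈ U) (hv : v ∈ U) (hu0 : u ≠ 0)
    (hX : XE Q f M u) : XE Q f M v := by
  by_cases huv : u ∈ Submodule.span F {u - v}
  · -- dependent
    obtain ⟨c, hc⟩ := Submodule.mem_span_singleton.1 huv
    have hc0 : c ≠ 0 := by rintro rfl; rw [zero_smul] at hc; exact hu0 hc.symm
    have h1 : v = (1 - c⁻¹) • u := by
      have h2 : u - v = c⁻¹ • u := by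
        conv_rhs => rw [← hc]
        rw [smul_smul, inv_mul_cancel₀ hc0, one_smul]
      rw [sub_smul, one_smul, ← h2]; abel
    rw [h1]
    exact XE_smul hf hX _
  · have hC : Submodule.span F {u - v} ≤ U := by
      rw [Submodule.span_le]; rintro z rfl; exact U.sub_mem hu hv
    obtain ⟨w, hw, hwC, hwu⟩ := h.dual hf hC hu huv
    have hwc : f w (u - v) = 0 := hwC _ (Submodule.mem_span_singleton_self _)
    obtain ⟨g, hg⟩ := exists_E hf (h.hU.2 _ (U.sub_mem hu hv)) (hf.swap hwc)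
    have hgM : g ∈ M := h.mem _ (U.sub_mem hu hv) w hw (hf.swap hwc) g hg
    have hgu : (g : Matrix ι ι F) *ᵥ u = v := by
      rw [hg, h.ts hf hu (U.sub_mem hu hv), hf.symm w u, hwu]; simp
    rw [← hgu]
    exact XE_map hf hgM (h.iso g hgM) hX

/-- no small root groups at mixed vectors -/
theorem PS.caseI (hf : Qf Q f) (h : PS Q f M U U' k) (hk : 5 ≤ k)
    (hs : ∀ u (hu : u ∈ U), u ≠ 0 → ∀ y ∈ wSub hf (h.hU.2 u hu) M, ∃ c : F, ∃ b ∈ U', y = c • u + b)
    (hs' : ∀ u (hu : u ∈ U'), u ≠ 0 → ∀ y ∈ wSub hf (h.hU'.2 u hu) M, ∃ c : F, ∃ b ∈ U, y = c • u + b)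
    {a b : ι → F} (ha : a ∈ U) (hb : b ∈ U') (ha0 : a ≠ 0) (hb0 : b ≠ 0) (hx : Q (a + b) = 0)
    (hdim : 3 ≤ Module.finrank F (wSub hf hx M)) : False := by
  have hQa := h.hU.2 a ha
  have hQb := h.hU'.2 b hb
  have hab : f a b = 0 := by rw [hf.add, hQa, hQb] at hx; linear_combination hx
  have hba : f b a = 0 := hf.swap hab
  have haa := h.ts hf ha ha
  have hbb := h.ts' hf hb hb
  -- members of the submodule in U, U'
  have hYU : ∀ c ∈ U, c ∈ wSub hf hx M → c ∈ Submodule.span F {a} := by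
    intro c hc hcY
    by_cases hc0 : c = 0
    · rw [hc0]; exact Submodule.zero_mem _
    have h1 := wSub_symm hf hx (h.hU.2 c hc) hcY
    obtain ⟨α, b', hb', hab'⟩ := hs c hc hc0 _ h1
    have h2 : a - α • c ∈ U ⊓ U' := by
      refine ⟨U.sub_mem ha (U.smul_mem _ hc), ?_⟩
      have : a - α • c = b' - b := by
        have h3 : a + b - (α • c + b) = (α • c + b') - (α • c + b) := by rw [hab']
        calc a - α • c = a + b - (α • c + b) := by abel
          _ = _ := h3
          _ = _ := by abel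
      rw [this]; exact U'.sub_mem hb' hb
    rw [h.disj, Submodule.mem_bot, sub_eq_zero] at h2
    have hα : α ≠ 0 := by rintro rfl; rw [zero_smul] at h2; exact ha0 h2
    rw [Submodule.mem_span_singleton]
    exact ⟨α⁻¹, by rw [h2, smul_smul, inv_mul_cancel₀ hα, one_smul]⟩
  have hYU' : ∀ c ∈ U', c ∈ wSub hf hx M → c ∈ Submodule.span F {b} := by
    intro c hc hcY
    by_cases hc0 : c = 0
    · rw [hc0]; exact Submodule.zero_mem _
    have h1 := wSub_symm hf hx (h.hU'.2 c hc) hcY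
    obtain ⟨α, a', ha', hab'⟩ := hs' c hc hc0 _ h1
    have h2 : b - α • c ∈ U ⊓ U' := by
      refine ⟨?_, U'.sub_mem hb (U'.smul_mem _ hc)⟩
      have : b - α • c = a' - a := by
        have h3 : a + b - (α • c + a) = (α • c + a') - (α • c + a) := by rw [hab']
        calc b - α • c = a + b - (α • c + a) := by abel
          _ = _ := h3
          _ = _ := by abel
      rw [this]; exact U.sub_mem ha' ha
    rw [h.disj, Submodule.mem_bot, sub_eq_zero] at h2
    have hα : α ≠ 0 := by rintro rfl; rw [zero_smul] at h2; exact hb0 h2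
    rw [Submodule.mem_span_singleton]
    exact ⟨α⁻¹, by rw [h2, smul_smul, inv_mul_cancel₀ hα, one_smul]⟩
  -- all members are orthogonal to a
  have hYa : ∀ y ∈ wSub hf hx M, f y a = 0 := by
    intro y hy
    by_contra hya
    obtain ⟨w, hw, hwi, hwb⟩ := exists_avoid hf U' (Submodule.span F {b}) ![a, y] (by
      rw [finrank_span_singleton hb0, h.hU'.1]; omega)
    have hwa : f w a = 0 := hwi 0
    have hwy : f w y = 0 := hwi 1
    obtain ⟨g, hg⟩ := exists_E hf hQa (hf.swap hwa)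
    have hgM : g ∈ M := h.mem a ha w hw (hf.swap hwa) g hg
    have hgx : (g : Matrix ι ι F) *ᵥ (a + b) = a + b := by
      rw [hg, hf.add_left, hf.add_left, haa, hba, hf.swap hwa, h.ts' hf hb hw]; simp
    have hgy : (g : Matrix ι ι F) *ᵥ y = y + f y a • w := by
      rw [hg, hf.swap hwy, h.hU'.2 w hw]; simp
    have h1 := wSub_fix hf hgM (h.iso g hgM) hx hgx hy
    rw [hgy] at h1
    have h2 := Submodule.sub_mem _ h1 hy
    rw [add_sub_cancel_left] at h2
    have h3 := Submodule.smul_mem _ (f y a)⁻¹ h2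
    rw [smul_smul, inv_mul_cancel₀ hya, one_smul] at h3
    exact hwb (hYU' w hw h3)
  have hYb : ∀ y ∈ wSub hf hx M, f y b = 0 := by
    intro y hy
    have h1 := hy.1
    rw [hf.symm, hf.add_right, hYa y hy, zero_add] at h1
    exact h1
  -- a member outside ⟨a, b⟩
  obtain ⟨y, hy, hyn⟩ : ∃ y ∈ wSub hf hx M, y ∉ Submodule.span F {a, b} := by
    by_contra hcon
    push Not at hcon
    have h1 := Submodule.finrank_mono (show wSub hf hx M ≤ Submodule.span F {a, b} from hcon)
    have h2 := finrank_span_pair (F := F) a b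
    omega
  obtain ⟨y1, hy1, y2, hy2, rfl⟩ := h.split y
  by_cases hcase : y1 ∈ Submodule.span F {a}
  · -- then y2 is not a multiple of b
    have hcase2 : y2 ∉ Submodule.span F {b} := by
      intro h2
      apply hyn
      have e1 : Submodule.span F {a} ≤ Submodule.span F {a, b} := Submodule.span_mono (by simp)
      have e2 : Submodule.span F {b} ≤ Submodule.span F {a, b} := Submodule.span_mono (by simp)
      exact Submodule.add_mem _ (e1 hcase) (e2 h2)
    obtain ⟨c, hc, hci, hcn⟩ := exists_avoid hf U' (Submodule.span F {b, y2}) ![a, y1] (by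
      have := finrank_span_pair (F := F) b y2
      rw [h.hU'.1]; omega)
    have hca : f c a = 0 := hci 0
    have hcy : f c y1 = 0 := hci 1
    have hyC : y2 ∉ Submodule.span F {b, c} := by
      intro hmem
      obtain ⟨α, β, hαβ⟩ := Submodule.mem_span_pair.1 hmem
      have hβ : β ≠ 0 := by
        rintro rfl
        apply hcase2
        rw [← hαβ, zero_smul, add_zero]
        exact Submodule.smul_mem _ _ (Submodule.mem_span_singleton_self b)
      apply hcn
      rw [Submodule.mem_span_pair]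
      refine ⟨-(β⁻¹ * α), β⁻¹, ?_⟩
      rw [← hαβ, smul_add, smul_smul, smul_smul, inv_mul_cancel₀ hβ, one_smul]
      module
    have hC : Submodule.span F {b, c} ≤ U' := by
      rw [Submodule.span_le]
      rintro z (rfl | rfl)
      · exact hb
      · exact hc
    obtain ⟨w, hw, hwC, hwy⟩ := (h.symm hf).dual hf hC hy2 hyC
    have hwb : f w b = 0 := hwC b (Submodule.subset_span (by simp))
    have hwc : f w c = 0 := hwC c (Submodule.subset_span (by simp))
    obtain ⟨g, hg⟩ := exists_E hf (h.hU'.2 c hc) (hf.swap hwc)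
    have hgM : g ∈ M := (h.symm hf).mem c hc w hw (hf.swap hwc) g hg
    have hgx : (g : Matrix ι ι F) *ᵥ (a + b) = a + b := by
      rw [hg, hf.add_left, hf.add_left, hf.swap hca, h.ts' hf hb hc, h.ts hf ha hw, hf.swap hwb]; simp
    have hgy : (g : Matrix ι ι F) *ᵥ (y1 + y2) = y1 + y2 - c := by
      rw [hg, hf.add_left, hf.add_left, hf.swap hcy, h.ts' hf hy2 hc, h.ts hf hy1 hw, hf.symm w y2, hwy]; simp
    have h1 := wSub_fix hf hgM (h.iso g hgM) hx hgx hy
    rw [hgy] at h1
    have h2 := Submodule.sub_mem _ hy h1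
    rw [sub_sub_cancel] at h2
    have h3 := hYU' c hc h2
    exact hcn ((Submodule.span_mono (by simp) : Submodule.span F {b} ≤ Submodule.span F {b, y2}) h3)
  · obtain ⟨c, hc, hci, hcn⟩ := exists_avoid hf U (Submodule.span F {a, y1}) ![b, y2] (by
      have := finrank_span_pair (F := F) a y1
      rw [h.hU.1]; omega)
    have hcb : f c b = 0 := hci 0
    have hcy : f c y2 = 0 := hci 1
    have hyC : y1 ∉ Submodule.span F {a, c} := by
      intro hmem
      obtain ⟨α, β, hαβ⟩ := Submodule.mem_span_pair.1 hmem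
      have hβ : β ≠ 0 := by
        rintro rfl
        apply hcase
        rw [← hαβ, zero_smul, add_zero]
        exact Submodule.smul_mem _ _ (Submodule.mem_span_singleton_self a)
      apply hcn
      rw [Submodule.mem_span_pair]
      refine ⟨-(β⁻¹ * α), β⁻¹, ?_⟩
      rw [← hαβ, smul_add, smul_smul, smul_smul, inv_mul_cancel₀ hβ, one_smul]
      module
    have hC : Submodule.span F {a, c} ≤ U := by
      rw [Submodule.span_le]
      rintro z (rfl | rfl)
      · exact ha
      · exact hc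
    obtain ⟨w, hw, hwC, hwy⟩ := h.dual hf hC hy1 hyC
    have hwa : f w a = 0 := hwC a (Submodule.subset_span (by simp))
    have hwc : f w c = 0 := hwC c (Submodule.subset_span (by simp))
    obtain ⟨g, hg⟩ := exists_E hf (h.hU.2 c hc) (hf.swap hwc)
    have hgM : g ∈ M := h.mem c hc w hw (hf.swap hwc) g hg
    have hgx : (g : Matrix ι ι F) *ᵥ (a + b) = a + b := by
      rw [hg, hf.add_left, hf.add_left, hf.swap hcb, h.ts hf ha hc, h.ts' hf hb hw, hf.swap hwa]; simp
    have hgy : (g : Matrix ι ι F) *ᵥ (y1 + y2) = y1 + y2 - c := by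
      rw [hg, hf.add_left, hf.add_left, hf.swap hcy, h.ts hf hy1 hc, h.ts' hf hy2 hw, hf.symm w y1, hwy]; simp
    have h1 := wSub_fix hf hgM (h.iso g hgM) hx hgx hy
    rw [hgy] at h1
    have h2 := Submodule.sub_mem _ hy h1
    rw [sub_sub_cancel] at h2
    have h3 := hYU c hc h2
    exact hcn ((Submodule.span_mono (by simp) : Submodule.span F {a} ≤ Submodule.span F {a, y1}) h3)

/-- the root subgroups at vectors of `U` are large -/
lemma PS.wSub_dim (hf : Qf Q f) (h : PS Q f M U U' k) (hk : 4 ≤ k) {u : ι → F} (hu : u ∈ U) :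
    3 ≤ Module.finrank F (wSub hf (h.hU.2 u hu) M) := by
  have h1 : U' ⊓ perp hf (Submodule.span F {u}) ≤ wSub hf (h.hU.2 u hu) M := fun w hw =>
    h.mem_wSub hf hu hw.1 (hf.swap ((mem_perp_one hf).1 hw.2))
  have h2 := Submodule.finrank_mono h1
  have h3 := Submodule.finrank_sup_add_finrank_inf_eq U' (perp hf (Submodule.span F {u}))
  have h4 := finrank_perp hf (Submodule.span F {u})
  have h5 : Module.finrank F (Submodule.span F {u}) ≤ 1 := by
    have := finrank_span_le_card (R := F) ({u} : Set (ι → F))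
    simpa using this
  have h6 := Submodule.finrank_le (U' ⊔ perp hf (Submodule.span F {u}))
  rw [Module.finrank_fintype_fun_eq_card] at h6
  rw [h.hU'.1] at h3
  have := h.card
  omega

lemma PS.wSub_dim_map (hf : Qf Q f) (h : PS Q f M U U' k) (hk : 4 ≤ k) {u : ι → F} (hu : u ∈ U) {g : GL ι F} (hg : g ∈ M)
    (hgu : Q ((g : Matrix ι ι F) *ᵥ u) = 0) : 3 ≤ Module.finrank F (wSub hf hgu M) := by
  have h1 : (wSub hf (h.hU.2 u hu) M).map (Matrix.toLin' (g : Matrix ι ι F)) ≤ wSub hf hgu M := by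
    rintro _ ⟨y, hy, rfl⟩
    rw [Matrix.toLin'_apply]
    exact wSub_map hf hg (h.iso g hg) _ hgu hy
  have h2 := Submodule.finrank_mono h1
  rw [finrank_map_GL] at h2
  exact (h.wSub_dim hf hk hu).trans h2

/-- everything is generated -/
theorem PS.top (hf : Qf Q f) (h : PS Q f M U U' k) (hk : 5 ≤ k) {s : GL ι F} (hs : s ∈ M)
    (hsU : ∀ x ∈ U, (s : Matrix ι ι F) *ᵥ x ∈ U') (hsU' : ∀ x ∈ U', (s : Matrix ι ι F) *ᵥ x ∈ U)
    (hg : ∃ g ∈ M, ∃ u, (u ∈ U ∨ u ∈ U') ∧ (g : Matrix ι ι F) *ᵥ u ∉ U ∧ (g : Matrix ι ι F) *ᵥ u ∉ U') : Tg Q f ≤ M := by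
  classical
  have hUne : ∃ u ∈ U, u ≠ 0 := by
    by_contra hcon
    push Not at hcon
    have h1 : U = ⊥ := by rw [eq_bot_iff]; intro x hx; rw [hcon x hx]; exact Submodule.zero_mem _
    have := h.hU.1
    rw [h1, finrank_bot] at this; omega
  obtain ⟨u0, hu0, hu00⟩ := hUne
  -- some vector of U has full root group
  have hX0 : ∃ u ∈ U, u ≠ 0 ∧ XE Q f M u := by
    by_contra hcon
    push Not at hcon
    have hcon' : ∀ u ∈ U', u ≠ 0 → ¬ XE Q f M u := by
      intro u hu hu0 hX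
      have h1 := XE_map hf hs (h.iso s hs) hX
      refine hcon _ (hsU' u hu) ?_ h1
      intro h0
      have := congrArg (fun z => ((s⁻¹ : GL ι F) : Matrix ι ι F) *ᵥ z) h0
      simp only [inv_mulVec, mulVec_zero] at this
      exact hu0 this
    have hs1 : ∀ u (hu : u ∈ U), u ≠ 0 → ∀ y ∈ wSub hf (h.hU.2 u hu) M, ∃ c : F, ∃ b ∈ U', y = c • u + b := by
      intro u hu hu0 y hy
      by_contra hc
      push Not at hc
      exact hcon u hu hu0 (h.claimA hf hu hy hc)
    have hs2 : ∀ u (hu : u ∈ U'), u ≠ 0 → ∀ y ∈ wSub hf (h.hU'.2 u hu) M, ∃ c : F, ∃ b ∈ U, y = c • u + b := by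
      intro u hu hu0 y hy
      by_contra hc
      push Not at hc
      exact hcon' u hu hu0 ((h.symm hf).claimA hf hu hy hc)
    obtain ⟨g, hg, u, hu, hg1, hg2⟩ := hg
    obtain ⟨a, ha, b, hb, hab⟩ := h.split ((g : Matrix ι ι F) *ᵥ u)
    have ha0 : a ≠ 0 := by rintro rfl; rw [zero_add] at hab; rw [hab] at hg2; exact hg2 hb
    have hb0 : b ≠ 0 := by rintro rfl; rw [add_zero] at hab; rw [hab] at hg1; exact hg1 ha
    have hQu : Q u = 0 := by
      rcases hu with hu | hu
      · exact h.hU.2 u hu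
      · exact h.hU'.2 u hu
    have hQx : Q ((g : Matrix ι ι F) *ᵥ u) = 0 := by rw [h.iso g hg, hQu]
    have hQab : Q (a + b) = 0 := by rw [← hab]; exact hQx
    refine h.caseI hf hk hs1 hs2 ha hb ha0 hb0 hQab ?_
    have h3 : 3 ≤ Module.finrank F (wSub hf hQx M) := by
      rcases hu with hu | hu
      · exact h.wSub_dim_map hf (by omega) hu hg hQx
      · exact (h.symm hf).wSub_dim_map hf (by omega) hu hg hQx
    have h4 : wSub hf hQx M ≤ wSub hf hQab M := by
      intro y hy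
      refine ⟨by rw [← hab]; exact hy.1, fun c g' hg' => hy.2 c g' (by rw [hab]; exact hg')⟩
    exact h3.trans (Submodule.finrank_mono h4)
  obtain ⟨u1, hu1, hu10, hX1⟩ := hX0
  have hXU : ∀ u ∈ U, XE Q f M u := fun u hu => h.trans hf hu1 hu hu10 hX1
  have hXU' : ∀ u ∈ U', XE Q f M u := fun u hu => XE_unmap hf hs (h.iso s hs) (hXU _ (hsU' u hu))
  refine T_le_of_XE fun x hx => ?_
  obtain ⟨a, ha, b, hb, rfl⟩ := h.split x
  by_cases hb0 : b = 0
  · rw [hb0, add_zero]; exact hXU a ha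
  have hab : f a b = 0 := by
    rw [hf.add, h.hU.2 a ha, h.hU'.2 b hb] at hx; linear_combination hx
  obtain ⟨w, hw, -, hwb⟩ := (h.symm hf).dual hf (C := ⊥) bot_le hb (by rwa [Submodule.mem_bot])
  have haw : f a (-w) = 0 := by rw [hf.neg_right, h.ts hf ha hw, neg_zero]
  obtain ⟨g, hg⟩ := exists_E hf (h.hU.2 a ha) haw
  have hgM : g ∈ M := hXU a ha (-w) g haw hg
  have hgb : (g : Matrix ι ι F) *ᵥ b = a + b := by
    rw [hg, hf.swap hab, hf.neg_right, hf.symm w b, hwb]
    simp [add_comm]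
  rw [← hgb]
  exact XE_map hf hgM (h.iso g hgM) (hXU' b hb)

/-- an element of `Ω` interchanging two complementary maximal totally singular subspaces of even dimension -/
theorem exists_swap (hf : Qf Q f) (hc : Fintype.card ι = 2 * k) (hk : 2 ≤ k) (hev : Even k) (hU : MT Q k U) (hU' : MT Q k U')
    (hd : U ⊓ U' = ⊥) : ∃ s ∈ omegaGL Q, (∀ x ∈ U, (s : Matrix ι ι F) *ᵥ x ∈ U') ∧ ∀ x ∈ U', (s : Matrix ι ι F) *ᵥ x ∈ U := by
  classical
  have h : PS Q f (Tg Q f) U U' k := ⟨hc, hU, hU', hd, fun g hg => Tg_iso hf hg, fun u hu w hw huw g hg => E_mem (hU.2 u hu) huw hg⟩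
  let e := Module.finBasisOfFinrankEq F U hU.1
  have hei : ∀ i, (e i : ι → F) ∈ U := fun i => (e i).2
  have hli : LinearIndependent F (fun i => (e i : ι → F)) := e.linearIndependent.map' U.subtype (Submodule.ker_subtype U)
  have hdual : ∀ i, ∃ w ∈ U', (∀ j, j ≠ i → f w (e j : ι → F) = 0) ∧ f w (e i : ι → F) = 1 := by
    intro i
    have hC : Submodule.span F ((fun i => (e i : ι → F)) '' {j | j ≠ i}) ≤ U := by
      rw [Submodule.span_le]
      rintro _ ⟨j, -, rfl⟩
      exact hei j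
    have hn : (e i : ι → F) ∉ Submodule.span F ((fun i => (e i : ι → F)) '' {j | j ≠ i}) :=
      hli.notMem_span_image (by simp)
    obtain ⟨w, hw, hwC, hwe⟩ := h.dual hf hC (hei i) hn
    exact ⟨w, hw, fun j hj => hwC _ (Submodule.subset_span ⟨j, hj, rfl⟩), hwe⟩
  choose d hd' hd0 hd1 using hdual
  let v : Fin k → ι → F := fun i => (e i : ι → F) - d i
  have hQv : ∀ i, Q (v i) = -1 := by
    intro i
    show Q ((e i : ι → F) - d i) = -1
    rw [hf.Q_sub, hU.2 _ (hei i), hU'.2 _ (hd' i), hf.symm, hd1]; ring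
  have hv : ∀ i, Q (v i) ≠ 0 := by
    intro i; rw [hQv]; exact neg_ne_zero.2 one_ne_zero
  have ho : ∀ i j, i ≠ j → f (v i) (v j) = 0 := by
    intro i j hij
    show f ((e i : ι → F) - d i) ((e j : ι → F) - d j) = 0
    rw [hf.sub_left, hf.sub_right, hf.sub_right, h.ts hf (hei i) (hei j), h.ts' hf (hd' i) (hd' j), hd0 i j hij.symm,
      hf.symm (d j) (e i : ι → F), hd0 j i hij]
    ring
  obtain ⟨i0⟩ : Nonempty (Fin k) := ⟨⟨0, by omega⟩⟩
  obtain ⟨r0, -, hr0⟩ := exists_R_mem hf (hv i0)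
  let χ : isometryGroup F Q →* Abelianization (isometryGroup F Q) := Abelianization.of
  obtain ⟨g, hg, hχ⟩ := exists_prod hf v hv ho χ (fun _ => χ r0) (fun j r hr =>
    R_image hf χ (hv j) (t := 1) (by rw [hQv, hQv]; ring) hr hr0) Finset.univ
  have hsq : χ r0 * χ r0 = 1 := by
    rw [← map_mul]
    have : r0 * r0 = 1 := Subtype.ext (hr0.sq hf (hv i0))
    rw [this, map_one]
  have hχ1 : χ g = 1 := by
    rw [hχ, Finset.prod_const, Finset.card_univ, Fintype.card_fin]
    obtain ⟨l, rfl⟩ := hev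
    rw [← two_mul, pow_mul, pow_two, hsq, one_pow]
  have hgc : g ∈ commutator (isometryGroup F Q) := by
    rw [← Abelianization.ker_of]; exact hχ1
  have hfe : ∀ x ∈ U, ∀ i, f x (v i) = - f x (d i) := by
    intro x hx i
    show f x ((e i : ι → F) - d i) = _
    rw [hf.sub_right, h.ts hf hx (hei i)]; ring
  have hmapU : ∀ x ∈ U, ((g : GL ι F) : Matrix ι ι F) *ᵥ x ∈ U' := by
    have hbase : ∀ i, ((g : GL ι F) : Matrix ι ι F) *ᵥ (e i : ι → F) = d i := by
      intro i
      rw [hg, Finset.sum_eq_single i]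
      · rw [hQv, hfe _ (hei i), hf.symm, hd1]
        show (e i : ι → F) - ((-1 : F)⁻¹ * -1) • ((e i : ι → F) - d i) = d i
        have : ((-1 : F)⁻¹ * -1) = 1 := by norm_num
        rw [this, one_smul, sub_sub_cancel]
      · intro j _ hji
        rw [hfe _ (hei i), hf.symm (d j) (e i : ι → F), hd0 j i hji.symm, neg_zero, mul_zero, zero_smul]
      · intro h; exact absurd (Finset.mem_univ i) h
    intro x hx
    have h1 : x = ∑ i, e.repr ⟨x, hx⟩ i • (e i : ι → F) := by
      have h2 := congrArg Subtype.val (e.sum_repr ⟨x, hx⟩)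
      simp only [Submodule.coe_sum, Submodule.coe_smul] at h2
      exact h2.symm
    rw [h1, Matrix.mulVec_sum]
    refine Submodule.sum_mem _ fun i _ => ?_
    rw [mulVec_smul, hbase]
    exact U'.smul_mem _ (hd' i)
  refine ⟨g, mem_omega.2 ⟨iso_of g, hgc⟩, hmapU, ?_⟩
  intro y hy
  have h1 : y = ∑ i, f y (e i : ι → F) • d i := by
    have h2 : y - ∑ i, f y (e i : ι → F) • d i ∈ U ⊓ U' := by
      refine ⟨?_, U'.sub_mem hy (Submodule.sum_mem _ fun i _ => U'.smul_mem _ (hd' i))⟩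
      have hperp := hU.perp hf hc
      have key : y - ∑ i, f y (e i : ι → F) • d i ∈ perp hf U → y - ∑ i, f y (e i : ι → F) • d i ∈ U := fun hm => hperp.le hm
      apply key
      intro x hx
      have h3 : ∀ j, f (y - ∑ i, f y (e i : ι → F) • d i) (e j : ι → F) = 0 := by
        intro j
        rw [hf.sub_left, sum_left hf, Finset.sum_eq_single j]
        · rw [hd1, mul_one, sub_self]
        · intro i _ hij
          rw [hd0 i j hij.symm, mul_zero]
        · intro h; exact absurd (Finset.mem_univ j) h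
      have h4 : x = ∑ i, e.repr ⟨x, hx⟩ i • (e i : ι → F) := by
        have h2 := congrArg Subtype.val (e.sum_repr ⟨x, hx⟩)
        simp only [Submodule.coe_sum, Submodule.coe_smul] at h2
        exact h2.symm
      rw [hf.symm, h4, sum_left hf]
      refine Finset.sum_eq_zero fun i _ => ?_
      rw [hf.symm, h3, mul_zero]
    rw [hd, Submodule.mem_bot, sub_eq_zero] at h2
    exact h2
  have h2 : ((g : GL ι F) : Matrix ι ι F) *ᵥ y = ∑ i, f y (e i : ι → F) • (e i : ι → F) := by
    rw [hg]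
    have h3 : ∀ i, ((Q (v i))⁻¹ * f y (v i)) • v i = f y (e i : ι → F) • d i - f y (e i : ι → F) • (e i : ι → F) := by
      intro i
      have h4 : f y (v i) = f y (e i : ι → F) := by
        show f y ((e i : ι → F) - d i) = _
        rw [hf.sub_right, h.ts' hf hy (hd' i), sub_zero]
      rw [hQv, h4]
      show ((-1 : F)⁻¹ * f y (e i : ι → F)) • ((e i : ι → F) - d i) = _
      have : ((-1 : F)⁻¹) = -1 := by norm_num
      rw [this]
      module
    rw [Finset.sum_congr rfl (fun i _ => h3 i), Finset.sum_sub_distrib, ← h1, sub_sub_cancel]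
  rw [h2]
  exact Submodule.sum_mem _ fun i _ => U.smul_mem _ (hei i)

lemma map_of_le {g : GL ι F} {W W' : Submodule F (ι → F)} (h : ∀ x ∈ W, (g : Matrix ι ι F) *ᵥ x ∈ W')
    (hd : Module.finrank F W = Module.finrank F W') : W.map (Matrix.toLin' (g : Matrix ι ι F)) = W' := by
  apply Submodule.eq_of_le_of_finrank_eq
  · rintro _ ⟨x, hx, rfl⟩
    rw [Matrix.toLin'_apply]; exact h x hx
  · rw [finrank_map_GL]; exact hd

/-- maximality of the pair stabiliser -/
theorem pair_max [Finite F] (hf : Qf Q f) (hc : Fintype.card ι = 2 * k) (hk : 5 ≤ k) (hev : Even k)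
    (D : Fin 2 → Submodule F (ι → F)) (hD : ∀ i, MT Q k (D i)) (hdisj : D 0 ⊓ D 1 = ⊥) :
    IsMaximalIn (omegaGL Q) (decompositionStabilizer D ⊓ omegaGL Q) := by
  have hn : 5 ≤ Fintype.card ι := by omega
  obtain ⟨s, hs, hs1, hs2⟩ := exists_swap hf hc (by omega) hev (hD 0) (hD 1) hdisj
  have hdec : ∀ g : GL ι F, (∀ x ∈ D 0, (g : Matrix ι ι F) *ᵥ x ∈ D 0) → (∀ x ∈ D 1, (g : Matrix ι ι F) *ᵥ x ∈ D 1) →
      g ∈ decompositionStabilizer D := by
    intro g h0 h1
    refine ⟨1, fun i => ?_⟩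
    fin_cases i
    · exact map_of_le h0 rfl
    · exact map_of_le h1 rfl
  have hdec' : ∀ g : GL ι F, (∀ x ∈ D 0, (g : Matrix ι ι F) *ᵥ x ∈ D 1) → (∀ x ∈ D 1, (g : Matrix ι ι F) *ᵥ x ∈ D 0) →
      g ∈ decompositionStabilizer D := by
    intro g h0 h1
    refine ⟨Equiv.swap 0 1, fun i => ?_⟩
    fin_cases i
    · exact map_of_le (W' := D 1) h0 (by rw [(hD 1).1]; exact (hD 0).1)
    · exact map_of_le (W' := D 0) h1 (by rw [(hD 0).1]; exact (hD 1).1)
  constructor
  · refine lt_of_le_of_ne inf_le_right ?_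
    intro heq
    have hD0 : D 0 ≠ ⊥ := by
      intro h
      have := (hD 0).1
      rw [h, finrank_bot] at this
      omega
    have h1 := par_max hf hn hD0 (hD 0).2 (fun h => by rw [(hD 0).1] at h; omega)
    obtain ⟨u, hu, hu0⟩ := (Submodule.ne_bot_iff _).1 hD0
    obtain ⟨w, hw, hwu⟩ : ∃ w ∈ D 0, w ∉ Submodule.span F {u} := by
      by_contra hcon
      push Not at hcon
      have h3 := Submodule.finrank_mono (show D 0 ≤ Submodule.span F {u} from hcon)
      rw [finrank_span_singleton hu0, (hD 0).1] at h3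
      omega
    have hQu := (hD 0).2 u hu
    have huw : f u w = 0 := ts_iso hf (hD 0).2 hu hw
    obtain ⟨g, hg⟩ := exists_E hf hQu huw
    have hgΩ : g ∈ omegaGL Q := T_le_omega hf hn (E_mem hQu huw hg)
    rw [← heq] at hgΩ
    obtain ⟨⟨σ, hσ⟩, -⟩ := hgΩ
    have hmap0 : (D 0).map (Matrix.toLin' (g : Matrix ι ι F)) = D 0 := by
      refine map_of_le (fun x hx => ?_) rfl
      rw [hg]
      exact (D 0).sub_mem ((D 0).add_mem hx ((D 0).smul_mem _ hw)) ((D 0).smul_mem _ hu)
    have hne01 : D 0 ≠ D 1 := by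
      intro h; rw [← h, inf_idem] at hdisj; exact hD0 hdisj
    have hσ0 : σ 0 = 0 := by
      rcases Fin.exists_fin_two.1 ⟨σ 0, rfl⟩ with h | h
      · exact h
      · exfalso
        have h5 := hσ 0
        rw [h, hmap0] at h5; exact hne01 h5
    have hσ1 : σ 1 = 1 := by
      rcases Fin.exists_fin_two.1 ⟨σ 1, rfl⟩ with h | h
      · exfalso
        have : σ 1 = σ 0 := by rw [hσ0]; exact h
        exact absurd (σ.injective this) (by decide)
      · exact h
    have h6 := hσ 1
    rw [hσ1] at h6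
    obtain ⟨x, hx, hxu⟩ : ∃ x ∈ D 1, f x u ≠ 0 := by
      by_contra hcon
      push Not at hcon
      have h7 : u ∈ perp hf (D 1) := fun x hx => hf.swap (hcon x hx)
      rw [(hD 1).perp hf hc] at h7
      have h8 : u ∈ D 0 ⊓ D 1 := ⟨hu, h7⟩
      rw [hdisj, Submodule.mem_bot] at h8
      exact hu0 h8
    have h7 : (g : Matrix ι ι F) *ᵥ x ∈ D 1 := by
      have : Matrix.toLin' (g : Matrix ι ι F) x ∈ (D 1).map (Matrix.toLin' (g : Matrix ι ι F)) := ⟨x, hx, rfl⟩
      rw [h6, Matrix.toLin'_apply] at this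
      exact this
    rw [hg] at h7
    have h8 := (D 1).sub_mem h7 hx
    have h9 : x + f x u • w - (f x w + Q w * f x u) • u - x = f x u • w - (f x w + Q w * f x u) • u := by abel
    rw [h9] at h8
    have h10 : f x u • w - (f x w + Q w * f x u) • u ∈ D 0 ⊓ D 1 :=
      ⟨(D 0).sub_mem ((D 0).smul_mem _ hw) ((D 0).smul_mem _ hu), h8⟩
    rw [hdisj, Submodule.mem_bot, sub_eq_zero] at h10
    apply hwu
    rw [Submodule.mem_span_singleton]
    refine ⟨(f x u)⁻¹ * (f x w + Q w * f x u), ?_⟩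
    rw [mul_smul, ← h10, smul_smul, inv_mul_cancel₀ hxu, one_smul]
  · intro M hM hMK
    by_cases hsub : M ≤ decompositionStabilizer D
    · left
      exact le_antisymm (le_inf hsub hMK) hM
    · right
      refine le_antisymm hMK ?_
      have hPS : PS Q f M (D 0) (D 1) k := by
        refine ⟨hc, hD 0, hD 1, hdisj, fun g hg => mem_iso_of_omega (hMK hg), ?_⟩
        intro u hu w hw huw g hg
        refine hM ⟨hdec g ?_ ?_, T_le_omega hf hn (E_mem ((hD 0).2 u hu) huw hg)⟩
        · intro x hx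
          rw [hg, ts_iso hf (hD 0).2 hx hu, zero_smul, add_zero]
          exact (D 0).sub_mem hx ((D 0).smul_mem _ hu)
        · intro x hx
          rw [hg, ts_iso hf (hD 1).2 hx hw, (hD 1).2 w hw]
          simp only [zero_mul, add_zero, zero_smul, sub_zero]
          exact (D 1).add_mem hx ((D 1).smul_mem _ hw)
      have hsM : s ∈ M := hM ⟨hdec' s hs1 hs2, hs⟩
      refine (omega_le_T hf hn).trans (hPS.top hf hk hsM hs1 hs2 ?_)
      obtain ⟨g, hg, hgn⟩ := SetLike.not_le_iff_exists.1 hsub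
      refine ⟨g, hg, ?_⟩
      by_contra hcon
      push Not at hcon
      have hcon1 : ∀ u, u ∈ D 0 ∨ u ∈ D 1 → (g : Matrix ι ι F) *ᵥ u ∈ D 0 ∨ (g : Matrix ι ι F) *ᵥ u ∈ D 1 := by
        intro u hu
        by_cases h : (g : Matrix ι ι F) *ᵥ u ∈ D 0
        · exact Or.inl h
        · exact Or.inr (hcon u hu h)
      have hone : ∀ W : Submodule F (ι → F), (∀ u ∈ W, u ∈ D 0 ∨ u ∈ D 1) →
          (∀ u ∈ W, (g : Matrix ι ι F) *ᵥ u ∈ D 0) ∨ (∀ u ∈ W, (g : Matrix ι ι F) *ᵥ u ∈ D 1) := by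
        intro W hW
        by_contra hc2
        rw [not_or] at hc2
        obtain ⟨h1, h2⟩ := hc2
        have h3 : ¬ W ≤ (D 0).comap (Matrix.toLin' (g : Matrix ι ι F)) := fun h => h1 (fun u hu => by
          have := h hu; rwa [Submodule.mem_comap, Matrix.toLin'_apply] at this)
        have h4 : ¬ W ≤ (D 1).comap (Matrix.toLin' (g : Matrix ι ι F)) := fun h => h2 (fun u hu => by
          have := h hu; rwa [Submodule.mem_comap, Matrix.toLin'_apply] at this)
        obtain ⟨w, hw, hw0, hw1⟩ := Witt.not_union h3 h4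
        rw [Submodule.mem_comap, Matrix.toLin'_apply] at hw0 hw1
        rcases hcon1 w (hW w hw) with h | h
        · exact hw0 h
        · exact hw1 h
      have hdisj' : ∀ i, ¬ ((∀ u ∈ D 0, (g : Matrix ι ι F) *ᵥ u ∈ D i) ∧ (∀ u ∈ D 1, (g : Matrix ι ι F) *ᵥ u ∈ D i)) := by
        rintro i ⟨h0, h1⟩
        have e0 := map_of_le h0 (by rw [(hD 0).1, (hD i).1])
        have e1 := map_of_le h1 (by rw [(hD 1).1, (hD i).1])
        have h2 : D 0 = D 1 := Submodule.map_injective_of_injective (toLin'_inj g) (e0.trans e1.symm)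
        rw [← h2, inf_idem] at hdisj
        have := (hD 0).1
        rw [hdisj, finrank_bot] at this
        omega
      apply hgn
      rcases hone (D 0) (fun u hu => Or.inl hu) with h0 | h0 <;> rcases hone (D 1) (fun u hu => Or.inr hu) with h1 | h1
      · exact absurd ⟨h0, h1⟩ (hdisj' 0)
      · exact hdec g h0 h1
      · exact hdec' g h0 h1
      · exact absurd ⟨h0, h1⟩ (hdisj' 1)

end CfsgH9.Og
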