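import Mathlib
import Cfsg.Agent.H9.MxPair

set_option autoImplicit false

/-! Maximality of stabilisers of non-degenerate subspaces in orthogonal groups. -/

namespace CfsgH9.Og

open Matrix Cfsg Cfsg.Geo CfsgH9.Tv CfsgH9.Witt
open CfsgH9.MaxSymp (inv_mulVec mulVec_inv)
open CfsgH9.MaxRedSL (mem_stab_of mem_stab_iff)

variable {ι : Type} [Fintype ι] [DecidableEq ι] {F : Type*} [Field F]
variable {Q : (ι → F) → F} {f : (ι → F) → (ι → F) → F} {M : Subgroup (GL ι F)}

/-- an orthogonal decomposition -/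
structure OD (f : (ι → F) → (ι → F) → F) (A B : Submodule F (ι → F)) : Prop where
  orth : ∀ a ∈ A, ∀ b ∈ B, f a b = 0
  sup : A ⊔ B = ⊤

variable {A B : Submodule F (ι → F)}

lemma OD.symm (hf : Qf Q f) (h : OD f A B) : OD f B A := ⟨fun b hb a ha => hf.swap (h.orth a ha b hb), by rw [sup_comm]; exact h.sup⟩

lemma OD.split (h : OD f A B) (x : ι → F) : ∃ a ∈ A, ∃ b ∈ B, x = a + b := by
  have hx : x ∈ A ⊔ B := by rw [h.sup]; trivial
  obtain ⟨a, ha, b, hb, hab⟩ := Submodule.mem_sup.1 hx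
  exact ⟨a, ha, b, hb, hab.symm⟩

lemma OD.nd (hf : Qf Q f) (h : OD f A B) {b : ι → F} (hb : b ∈ B) (hb0 : b ≠ 0) : ∃ x ∈ B, f b x ≠ 0 := by
  obtain ⟨y, hy⟩ := hf.nondeg b hb0
  obtain ⟨a, ha, b', hb', rfl⟩ := h.split y
  rw [hf.add_right, hf.swap (h.orth a ha b hb), zero_add] at hy
  exact ⟨b', hb', hy⟩

lemma OD.disj (hf : Qf Q f) (h : OD f A B) {x : ι → F} (hA : x ∈ A) (hB : x ∈ B) : x = 0 := by
  by_contra h0
  obtain ⟨y, hy, hxy⟩ := h.nd hf hB h0
  exact hxy (h.orth x hA y hy)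

lemma OD.finrank (hf : Qf Q f) (h : OD f A B) : Module.finrank F A + Module.finrank F B = Fintype.card ι := by
  have h1 := Submodule.finrank_sup_add_finrank_inf_eq A B
  have h2 : A ⊓ B = ⊥ := by
    rw [eq_bot_iff]
    intro x hx
    rw [Submodule.mem_bot]; exact h.disj hf hx.1 hx.2
  rw [h2, finrank_bot, h.sup, finrank_top, Module.finrank_fintype_fun_eq_card] at h1
  omega

lemma OD.perp (hf : Qf Q f) (h : OD f A B) {x : ι → F} (hx : ∀ a ∈ A, f x a = 0) : x ∈ B := by
  obtain ⟨a, ha, b, hb, rfl⟩ := h.split x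
  have ha0 : a = 0 := by
    by_contra h0
    obtain ⟨y, hy, hay⟩ := (h.symm hf).nd hf ha h0
    apply hay
    have := hx y hy
    rwa [hf.add_left, hf.swap (h.orth y hy b hb), add_zero] at this
  rw [ha0, zero_add]; exact hb

/-- duality inside `B` -/
lemma OD.dual (hf : Qf Q f) (h : OD f A B) {C : Submodule F (ι → F)} (hC : C ≤ B) {y : ι → F} (hy : y ∈ B)
    (hyC : y ∉ C) : ∃ w ∈ B, (∀ c ∈ C, f w c = 0) ∧ f w y = 1 := by
  have hn : y ∉ A ⊔ C := by
    intro hmem
    obtain ⟨a, ha, c, hc, hac⟩ := Submodule.mem_sup.1 hmem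
    have h1 : a = y - c := by rw [← hac]; abel
    have h2 : a = 0 := h.disj hf ha (by rw [h1]; exact B.sub_mem hy (hC hc))
    rw [h2, zero_add] at hac
    exact hyC (hac ▸ hc)
  obtain ⟨v, hv, hvy⟩ := exists_perp hf hn
  exact ⟨v, h.perp hf (fun a ha => hv a (Submodule.mem_sup_left ha)), fun c hc => hv c (Submodule.mem_sup_right hc), hvy⟩

/-- a partner inside `B` -/
lemma OD.partner (hf : Qf Q f) (h : OD f A B) {u : ι → F} (hu : u ∈ B) (hu0 : u ≠ 0) (hQu : Q u = 0) :
    ∃ c ∈ B, Q c = 0 ∧ f u c = 1 := by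
  obtain ⟨y, hy, -, hyu⟩ := h.dual hf (C := ⊥) bot_le hu (by rwa [Submodule.mem_bot])
  refine ⟨y - Q y • u, B.sub_mem hy (B.smul_mem _ hu), ?_, ?_⟩
  · rw [hf.Q_sub, hf.smul, hQu, hf.smul_right, hyu]; ring
  · rw [hf.sub_right, hf.smul_right, hf.self_of hQu, hf.symm, hyu]; ring

/-- the set-up: `M` contains the Siegel elements of `B` -/
structure PB (Q : (ι → F) → F) (f : (ι → F) → (ι → F) → F) (M : Subgroup (GL ι F)) (A B : Submodule F (ι → F)) : Prop where
  od : OD f A B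
  iso : ∀ g ∈ M, Iso Q g
  mem : ∀ u ∈ B, ∀ w ∈ B, Q u = 0 → f u w = 0 → ∀ g, IsE Q f g u w → g ∈ M

lemma PB.mem_wSub (hf : Qf Q f) (h : PB Q f M A B) {u w : ι → F} (hu : u ∈ B) (hQu : Q u = 0) (hw : w ∈ B) (huw : f u w = 0) :
    w ∈ wSub hf hQu M :=
  ⟨huw, fun c g hg => h.mem u hu (c • w) (B.smul_mem c hw) hQu (by rw [hf.smul_right, huw, mul_zero]) g hg⟩

/-- transitivity on singular vectors of `B` -/
lemma PB.trans1 (hf : Qf Q f) (h : PB Q f M A B) {u v : ι → F} (hu : u ∈ B) (hv : v ∈ B) (hu0 : u ≠ 0) (hv0 : v ≠ 0)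
    (hQu : Q u = 0) (hQv : Q v = 0) (huv : f u v = 0) (hX : XE Q f M u) : XE Q f M v := by
  by_cases hd : v ∈ Submodule.span F {u}
  · obtain ⟨c, rfl⟩ := Submodule.mem_span_singleton.1 hd
    exact XE_smul hf hX c
  · -- a common partner
    have hC : Submodule.span F {u - v} ≤ B := by
      rw [Submodule.span_le]; rintro z rfl; exact B.sub_mem hu hv
    have hn : u ∉ Submodule.span F {u - v} := by
      intro hmem
      obtain ⟨c, hc⟩ := Submodule.mem_span_singleton.1 hmem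
      apply hd
      rw [Submodule.mem_span_singleton]
      have hc0 : c ≠ 0 := by rintro rfl; rw [zero_smul] at hc; exact hu0 hc.symm
      refine ⟨1 - c⁻¹, ?_⟩
      have h2 : u - v = c⁻¹ • u := by
        conv_rhs => rw [← hc]
        rw [smul_smul, inv_mul_cancel₀ hc0, one_smul]
      rw [sub_smul, one_smul, ← h2]; abel
    obtain ⟨w, hw, hwC, hwu⟩ := h.od.dual hf hC hu hn
    have hwv : f w v = 1 := by
      have := hwC _ (Submodule.mem_span_singleton_self (u - v))
      rw [hf.sub_right, hwu] at this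
      linear_combination -this
    have hc1 : f u (w - Q w • u) = 1 := by rw [hf.sub_right, hf.smul_right, hf.self_of hQu, hf.symm, hwu]; ring
    have hc2 : f v (w - Q w • u) = 1 := by rw [hf.sub_right, hf.smul_right, hf.swap huv, hf.symm, hwv]; ring
    have hQc : Q (w - Q w • u) = 0 := by rw [hf.Q_sub, hf.smul, hQu, hf.smul_right, hwu]; ring
    have hcB : w - Q w • u ∈ B := B.sub_mem hw (B.smul_mem _ hu)
    have hcw : f (w - Q w • u) (v - u) = 0 := by
      rw [hf.sub_right, hf.symm v, hc2, hf.symm u, hc1, sub_self]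
    obtain ⟨g, hg⟩ := exists_E hf hQc hcw
    have hgM : g ∈ M := h.mem _ hcB _ (B.sub_mem hv hu) hQc hcw g hg
    have hgu : (g : Matrix ι ι F) *ᵥ u = v := move hf (by rw [hQu, hQv]) hQc hc1 hc2 hg
    rw [← hgu]
    exact XE_map hf hgM (h.iso g hgM) hX

lemma PB.trans [Finite F] (hf : Qf Q f) (h : PB Q f M A B) (hB : 5 ≤ Module.finrank F B) {u v : ι → F} (hu : u ∈ B) (hv : v ∈ B)
    (hu0 : u ≠ 0) (hQu : Q u = 0) (hQv : Q v = 0) (hX : XE Q f M u) : XE Q f M v := by
  by_cases hv0 : v = 0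
  · rw [hv0]
    have := XE_smul hf hX 0
    rwa [zero_smul] at this
  -- an intermediate vector
  have h1 : 3 ≤ Module.finrank F ↥(B ⊓ perp hf (Submodule.span F {u, v})) := by
    have h3 := Submodule.finrank_sup_add_finrank_inf_eq B (perp hf (Submodule.span F {u, v}))
    have h4 := finrank_perp hf (Submodule.span F {u, v})
    have h5 := finrank_span_pair (F := F) u v
    have h6 := Submodule.finrank_le (B ⊔ perp hf (Submodule.span F {u, v}))
    rw [Module.finrank_fintype_fun_eq_card] at h6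
    omega
  obtain ⟨z, hz, hz0, hQz⟩ := exists_sing hf h1
  obtain ⟨hzu, hzv⟩ := (mem_perp_pair hf).1 hz.2
  exact h.trans1 hf hz.1 hv hz0 hv0 hQz hQv hzv (h.trans1 hf hu hz.1 hu0 hz0 hQu hQz (hf.swap hzu) hX)

/-- singular vectors of `B` not orthogonal to a given one -/
lemma PB.exists_sing_ne [Finite F] (hf : Qf Q f) (h : OD f A B) (hB : 5 ≤ Module.finrank F B) {b : ι → F} (hb : b ∈ B) (hb0 : b ≠ 0) :
    ∃ c ∈ B, Q c = 0 ∧ f b c = 1 := by
  by_contra hcon
  push Not at hcon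
  have hcon' : ∀ c ∈ B, Q c = 0 → c ∈ perp hf (Submodule.span F {b}) := by
    intro c hc hQc
    rw [mem_perp_one]
    by_contra hne
    apply hcon ((f b c)⁻¹ • c) (B.smul_mem _ hc) (by rw [hf.smul, hQc, mul_zero])
    rw [hf.smul_right, inv_mul_cancel₀]
    intro h0; exact hne (hf.swap h0)
  obtain ⟨u, hu, hu0, hQu⟩ := exists_sing hf (E := B) (by omega)
  obtain ⟨y, hy, huy⟩ := h.nd hf hu hu0
  have h1 : B ≤ perp hf (Submodule.span F {b}) := sing_span hf hu hQu hy huy hcon'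
  obtain ⟨x, hx, hbx⟩ := h.nd hf hb hb0
  exact hbx (hf.swap ((mem_perp_one hf).1 (h1 hx)))

/-- everything is generated -/
theorem PB.top [Finite F] (hf : Qf Q f) (h : PB Q f M A B) (hB : 5 ≤ Module.finrank F B) {u : ι → F} (hu : u ∈ B) (hu0 : u ≠ 0)
    (hQu : Q u = 0) (hX : XE Q f M u) : Tg Q f ≤ M := by
  have hXB : ∀ v ∈ B, Q v = 0 → XE Q f M v := fun v hv hQv => h.trans hf hB hu hv hu0 hQu hQv hX
  have hXm : ∀ x b, Q x = 0 → b ∈ B → x - b ∈ A → b ≠ 0 → XE Q f M x := by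
    intro x b hQx hb hxb hb0
    obtain ⟨c, hc, hQc, hbc⟩ := PB.exists_sing_ne hf h.od hB hb hb0
    have hc0 : c ≠ 0 := by rintro rfl; rw [hf.zero_right] at hbc; exact zero_ne_one hbc
    obtain ⟨v, hv, hQv, hcv⟩ := h.od.partner hf hc hc0 hQc
    have hxc : f x c = 1 := by
      have h1 : f (x - b) c = 0 := h.od.orth _ hxb c hc
      rw [hf.sub_left, hbc] at h1
      linear_combination h1
    have hvc : f v c = 1 := by rw [hf.symm]; exact hcv
    have hcw : f c (x - v) = 0 := by rw [hf.sub_right, hf.symm x, hxc, hcv, sub_self]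
    obtain ⟨g, hg⟩ := exists_E hf hQc hcw
    have hgM : g ∈ M := hXB c hc hQc _ g hcw hg
    have hgv : (g : Matrix ι ι F) *ᵥ v = x := move hf (by rw [hQx, hQv]) hQc hvc hxc hg
    rw [← hgv]
    exact XE_map hf hgM (h.iso g hgM) (hXB v hv hQv)
  refine T_le_of_XE fun x hx => ?_
  obtain ⟨a, ha, b, hb, rfl⟩ := h.od.split x
  by_cases hb0 : b = 0
  · rw [hb0, add_zero] at hx ⊢
    by_cases ha0 : a = 0
    · rw [ha0]
      have := XE_smul hf hX 0
      rwa [zero_smul] at this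
    obtain ⟨y, hy, hay⟩ := (h.od.symm hf).nd hf ha ha0
    have huw : f u (-((f a y)⁻¹ • y)) = 0 := by
      rw [hf.neg_right, hf.smul_right, hf.swap (h.od.orth y hy u hu)]; ring
    obtain ⟨g, hg⟩ := exists_E hf hQu huw
    have hgM : g ∈ M := hX _ g huw hg
    have hga : (g : Matrix ι ι F) *ᵥ a = a + u := by
      rw [hg, h.od.orth a ha u hu, hf.neg_right, hf.smul_right, inv_mul_cancel₀ hay]
      simp
    refine XE_unmap hf hgM (h.iso g hgM) ?_
    rw [hga]
    refine hXm (a + u) u ?_ hu (by rw [add_sub_cancel_right]; exact ha) hu0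
    rw [← hga, h.iso g hgM, hx]
  · exact hXm _ b hx hb (by rw [add_sub_cancel_right]; exact ha) hb0

/-- mixed vectors have small root groups -/
theorem PB.mixed [Finite F] (hf : Qf Q f) (h : PB Q f M A B) (hB : 7 ≤ Module.finrank F B)
    (hs : ∀ u ∈ B, u ≠ 0 → ∀ (hQu : Q u = 0), wSub hf hQu M ≤ B)
    {a b : ι → F} (ha : a ∈ A) (hb : b ∈ B) (ha0 : a ≠ 0) (hx : Q (a + b) = 0) :
    wSub hf hx M ≤ A ⊔ Submodule.span F {b} := by
  -- no singular vectors of B
  have hYB : ∀ c ∈ B, c ≠ 0 → Q c = 0 → c ∉ wSub hf hx M := by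
    intro c hc hc0 hQc hcY
    have h1 := hs c hc hc0 hQc (wSub_symm hf hx hQc hcY)
    have h2 : a ∈ B := by
      have := B.sub_mem h1 hb
      rwa [add_sub_cancel_right] at this
    exact ha0 (h.od.disj hf ha h2)
  intro y hy
  obtain ⟨y1, hy1, y2, hy2, rfl⟩ := h.od.split y
  refine Submodule.add_mem _ (Submodule.mem_sup_left hy1) (Submodule.mem_sup_right ?_)
  have key : ∀ c ∈ B, c ≠ 0 → Q c = 0 → f c b = 0 → f c y2 = 0 → y2 ∈ Submodule.span F {b, c} := by
    intro c hc hc0 hQc hcb hcy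
    by_contra hn
    have hC : Submodule.span F {b, c} ≤ B := by
      rw [Submodule.span_le]
      rintro z (rfl | rfl)
      · exact hb
      · exact hc
    obtain ⟨w, hw, hwC, hwy⟩ := h.od.dual hf hC hy2 hn
    have hwb : f w b = 0 := hwC b (Submodule.subset_span (by simp))
    have hwc : f w c = 0 := hwC c (Submodule.subset_span (by simp))
    obtain ⟨g, hg⟩ := exists_E hf hQc (hf.swap hwc)
    have hgM : g ∈ M := h.mem c hc w hw hQc (hf.swap hwc) g hg
    have hgx : (g : Matrix ι ι F) *ᵥ (a + b) = a + b := by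
      rw [hg, hf.add_left, hf.add_left, h.od.orth a ha c hc, hf.swap hcb, h.od.orth a ha w hw, hf.swap hwb]; simp
    have hgy : (g : Matrix ι ι F) *ᵥ (y1 + y2) = y1 + y2 - c := by
      rw [hg, hf.add_left, hf.add_left, h.od.orth y1 hy1 c hc, hf.swap hcy, h.od.orth y1 hy1 w hw, hf.symm w y2, hwy]; simp
    have h1 := wSub_fix hf hgM (h.iso g hgM) hx hgx hy
    rw [hgy] at h1
    have h2 := Submodule.sub_mem _ hy h1
    rw [sub_sub_cancel] at h2
    exact hYB c hc hc0 hQc h2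
  -- first singular vector
  have h1 : 5 ≤ Module.finrank F ↥(B ⊓ perp hf (Submodule.span F {b, y2})) := by
    have h3 := Submodule.finrank_sup_add_finrank_inf_eq B (perp hf (Submodule.span F {b, y2}))
    have h4 := finrank_perp hf (Submodule.span F {b, y2})
    have h5 := finrank_span_pair (F := F) b y2
    have h6 := Submodule.finrank_le (B ⊔ perp hf (Submodule.span F {b, y2}))
    rw [Module.finrank_fintype_fun_eq_card] at h6
    omega
  obtain ⟨c, hc, hc0, hQc⟩ := exists_sing hf (E := B ⊓ perp hf (Submodule.span F {b, y2})) (by omega)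
  obtain ⟨hcb, hcy⟩ := (mem_perp_pair hf).1 hc.2
  -- second
  obtain ⟨E, hE, hEd⟩ : ∃ E : Submodule F (ι → F), E ≤ B ⊓ perp hf (Submodule.span F {b, y2}) ∧ E ⊓ Submodule.span F {b, c} = ⊥ ∧
      3 ≤ Module.finrank F E := by
    set E1 := B ⊓ perp hf (Submodule.span F {b, y2}) with hE1
    obtain ⟨C, hC⟩ := Submodule.exists_isCompl (Submodule.span F {b, c})
    refine ⟨E1 ⊓ C, inf_le_left, ?_, ?_⟩
    · rw [eq_bot_iff]
      intro z hz
      have : z ∈ Submodule.span F {b, c} ⊓ C := ⟨hz.2, hz.1.2⟩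
      rwa [hC.disjoint.eq_bot] at this
    · have h3 := Submodule.finrank_sup_add_finrank_inf_eq E1 C
      have h4 := Submodule.finrank_add_eq_of_isCompl hC
      have h5 := finrank_span_pair (F := F) b c
      have h6 := Submodule.finrank_le (E1 ⊔ C)
      omega
  obtain ⟨c', hc', hc'0, hQc'⟩ := exists_sing hf hEd.2
  obtain ⟨hc'b, hc'y⟩ := (mem_perp_pair hf).1 (hE hc').2
  have hc'n : c' ∉ Submodule.span F {b, c} := by
    intro hmem
    have : c' ∈ E ⊓ Submodule.span F {b, c} := ⟨hc', hmem⟩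
    rw [hEd.1, Submodule.mem_bot] at this
    exact hc'0 this
  have e1 := key c hc.1 hc0 hQc hcb hcy
  have e2 := key c' (hE hc').1 hc'0 hQc' hc'b hc'y
  obtain ⟨α, β, hαβ⟩ := Submodule.mem_span_pair.1 e1
  obtain ⟨γ, δ, hγδ⟩ := Submodule.mem_span_pair.1 e2
  by_cases hδ : δ = 0
  · rw [← hγδ, hδ, zero_smul, add_zero]
    exact Submodule.smul_mem _ _ (Submodule.mem_span_singleton_self b)
  · exfalso
    apply hc'n
    rw [Submodule.mem_span_pair]
    refine ⟨δ⁻¹ * (α - γ), δ⁻¹ * β, ?_⟩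
    have h7 : δ • c' = (α - γ) • b + β • c := by
      have : γ • b + δ • c' = α • b + β • c := by rw [hαβ, hγδ]
      rw [sub_smul, eq_comm, sub_add_eq_add_sub, sub_eq_iff_eq_add, ← this]; abel
    have h8 : c' = δ⁻¹ • (δ • c') := by rw [smul_smul, inv_mul_cancel₀ hδ, one_smul]
    rw [h8, h7]; module

/-- irreducibility of the action on `A` -/
def PB.Irr (hf : Qf Q f) (_ : PB Q f M A B) : Prop :=
  ∀ u ∈ B, u ≠ 0 → ∀ (hQu : Q u = 0), ∀ y ∈ A, y ≠ 0 → y ∈ wSub hf hQu M → ∀ a ∈ A, a ∈ wSub hf hQu M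

lemma PB.claimA (hf : Qf Q f) (h : PB Q f M A B) (hirr : h.Irr hf) {u : ι → F} (hu : u ∈ B) (hu0 : u ≠ 0) (hQu : Q u = 0)
    (hX : ¬ XE Q f M u) : wSub hf hQu M ≤ B := by
  intro y hy
  by_contra hyB
  apply hX
  obtain ⟨y1, hy1, y2, hy2, rfl⟩ := h.od.split y
  have hy10 : y1 ≠ 0 := by rintro rfl; rw [zero_add] at hyB; exact hyB hy2
  have huy2 : f u y2 = 0 := by
    have := hy.1
    rwa [hf.add_right, hf.swap (h.od.orth y1 hy1 u hu), zero_add] at this
  have h1 := (wSub hf hQu M).sub_mem hy (h.mem_wSub hf hu hQu hy2 huy2)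
  rw [add_sub_cancel_right] at h1
  have h2 := hirr u hu hu0 hQu y1 hy1 hy10 h1
  apply XE_of_wSub hf hQu
  intro w hw
  obtain ⟨w1, hw1, w2, hw2, rfl⟩ := h.od.split w
  have huw2 : f u w2 = 0 := by
    rwa [hf.add_right, hf.swap (h.od.orth w1 hw1 u hu), zero_add] at hw
  exact Submodule.add_mem _ (h2 w1 hw1) (h.mem_wSub hf hu hQu hw2 huw2)

lemma PB.wSub_dim (hf : Qf Q f) (h : PB Q f M A B) {u : ι → F} (hu : u ∈ B) (hQu : Q u = 0) :
    Module.finrank F B ≤ Module.finrank F (wSub hf hQu M) + 1 := by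
  have h1 : B ⊓ perp hf (Submodule.span F {u}) ≤ wSub hf hQu M := fun w hw =>
    h.mem_wSub hf hu hQu hw.1 (hf.swap ((mem_perp_one hf).1 hw.2))
  have h2 := Submodule.finrank_mono h1
  have h3 := Submodule.finrank_sup_add_finrank_inf_eq B (perp hf (Submodule.span F {u}))
  have h4 := finrank_perp hf (Submodule.span F {u})
  have h5 : Module.finrank F (Submodule.span F {u}) ≤ 1 := by
    have := finrank_span_le_card (R := F) ({u} : Set (ι → F))
    simpa using this
  have h6 := Submodule.finrank_le (B ⊔ perp hf (Submodule.span F {u}))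
  rw [Module.finrank_fintype_fun_eq_card] at h6
  omega

lemma PB.wSub_dim_map (hf : Qf Q f) (h : PB Q f M A B) {u : ι → F} (hu : u ∈ B) (hQu : Q u = 0) {g : GL ι F} (hg : g ∈ M)
    (hgu : Q ((g : Matrix ι ι F) *ᵥ u) = 0) : Module.finrank F B ≤ Module.finrank F (wSub hf hgu M) + 1 := by
  have h1 : (wSub hf hQu M).map (Matrix.toLin' (g : Matrix ι ι F)) ≤ wSub hf hgu M := by
    rintro _ ⟨y, hy, rfl⟩
    rw [Matrix.toLin'_apply]
    exact wSub_map hf hg (h.iso g hg) _ hgu hy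
  have h2 := Submodule.finrank_mono h1
  rw [finrank_map_GL] at h2
  have h3 := h.wSub_dim hf hu hQu
  omega

lemma wSub_congr (hf : Qf Q f) {x y : ι → F} (hxy : x = y) (hx : Q x = 0) (hy : Q y = 0) : wSub hf hx M = wSub hf hy M := by
  subst hxy; rfl

/-- first version: `A` small -/
theorem PB.main1 [Finite F] (hf : Qf Q f) (h : PB Q f M A B) (hirr : h.Irr hf) (hB : 7 ≤ Module.finrank F B)
    (hAB : Module.finrank F A + 2 < Module.finrank F B) {g : GL ι F} (hg : g ∈ M) {u : ι → F} (hu : u ∈ B) (hQu : Q u = 0)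
    (hgu : (g : Matrix ι ι F) *ᵥ u ∉ B) : Tg Q f ≤ M := by
  by_contra hcon
  have hs : ∀ u ∈ B, u ≠ 0 → ∀ (hQu : Q u = 0), wSub hf hQu M ≤ B := fun u hu hu0 hQu =>
    h.claimA hf hirr hu hu0 hQu (fun hX => hcon (h.top hf (by omega) hu hu0 hQu hX))
  have hQx : Q ((g : Matrix ι ι F) *ᵥ u) = 0 := by rw [h.iso g hg, hQu]
  obtain ⟨a, ha, b, hb, hab⟩ := h.od.split ((g : Matrix ι ι F) *ᵥ u)
  have ha0 : a ≠ 0 := by rintro rfl; rw [zero_add] at hab; rw [hab] at hgu; exact hgu hb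
  have hQab : Q (a + b) = 0 := by rw [← hab]; exact hQx
  have h1 := h.mixed hf hB hs ha hb ha0 hQab
  have h2 := Submodule.finrank_mono h1
  have h3 := h.wSub_dim_map hf hu hQu hg hQx
  rw [wSub_congr hf hab hQx hQab] at h3
  have h4 := Submodule.finrank_add_le_finrank_add_finrank A (Submodule.span F {b})
  have h5 : Module.finrank F (Submodule.span F {b}) ≤ 1 := by
    have := finrank_span_le_card (R := F) ({b} : Set (ι → F))
    simpa using this
  omega

/-- second version: both parts large -/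
theorem PB.main2 [Finite F] (hf : Qf Q f) (h : PB Q f M A B) (h' : PB Q f M B A) (hirr : h.Irr hf) (hirr' : h'.Irr hf)
    (hA : 5 ≤ Module.finrank F A) (hB : 7 ≤ Module.finrank F B)
    {g : GL ι F} (hg : g ∈ M) {u : ι → F} (hu : u ∈ B) (hQu : Q u = 0)
    (hgu : (g : Matrix ι ι F) *ᵥ u ∉ B) (hgu' : (g : Matrix ι ι F) *ᵥ u ∉ A) : Tg Q f ≤ M := by
  by_contra hcon
  have hs : ∀ u ∈ B, u ≠ 0 → ∀ (hQu : Q u = 0), wSub hf hQu M ≤ B := fun u hu hu0 hQu =>
    h.claimA hf hirr hu hu0 hQu (fun hX => hcon (h.top hf (by omega) hu hu0 hQu hX))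
  have hs' : ∀ u ∈ A, u ≠ 0 → ∀ (hQu : Q u = 0), wSub hf hQu M ≤ A := fun u hu hu0 hQu =>
    h'.claimA hf hirr' hu hu0 hQu (fun hX => hcon (h'.top hf (by omega) hu hu0 hQu hX))
  have hQx : Q ((g : Matrix ι ι F) *ᵥ u) = 0 := by rw [h.iso g hg, hQu]
  obtain ⟨a, ha, b, hb, hab⟩ := h.od.split ((g : Matrix ι ι F) *ᵥ u)
  have ha0 : a ≠ 0 := by rintro rfl; rw [zero_add] at hab; rw [hab] at hgu; exact hgu hb
  have hb0 : b ≠ 0 := by rintro rfl; rw [add_zero] at hab; rw [hab] at hgu'; exact hgu' ha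
  have hQab : Q (a + b) = 0 := by rw [← hab]; exact hQx
  have h1 := h.mixed hf hB hs ha hb ha0 hQab
  have h3 := h.wSub_dim_map hf hu hQu hg hQx
  rw [wSub_congr hf hab hQx hQab] at h3
  -- the intersection with A
  have h5 : Module.finrank F (Submodule.span F {b}) ≤ 1 := by
    have := finrank_span_le_card (R := F) ({b} : Set (ι → F))
    simpa using this
  have h6 : 3 ≤ Module.finrank F ↥(wSub hf hQab M ⊓ A) := by
    have e1 := Submodule.finrank_sup_add_finrank_inf_eq (wSub hf hQab M) A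
    have e2 := Submodule.finrank_mono (show wSub hf hQab M ⊔ A ≤ A ⊔ Submodule.span F {b} from sup_le h1 le_sup_left)
    have e3 := Submodule.finrank_add_le_finrank_add_finrank A (Submodule.span F {b})
    omega
  obtain ⟨z, hz, hz0, hQz⟩ := exists_sing hf h6
  have h7 := hs' z hz.2 hz0 hQz (wSub_symm hf hQab hQz hz.1)
  have h8 : b ∈ A := by
    have := A.sub_mem h7 ha
    rwa [add_sub_cancel_left] at this
  exact hb0 (h.od.disj hf h8 hb)

/-- irreducibility by Siegel elements -/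
theorem PB.irr5 [Finite F] (hf : Qf Q f) (h : PB Q f M A B) (h' : PB Q f M B A) (hA : 5 ≤ Module.finrank F A) : h.Irr hf := by
  intro u hu hu0 hQu y hy hy0 hyw
  have key : ∀ y ∈ A, y ≠ 0 → y ∈ wSub hf hQu M → ∀ c ∈ A, Q c = 0 → f y c = 0 → c ∈ wSub hf hQu M := by
    intro y hy hy0 hyw c hc hQc hyc
    by_cases hd : y ∈ Submodule.span F {c}
    · obtain ⟨t, rfl⟩ := Submodule.mem_span_singleton.1 hd
      have ht : t ≠ 0 := by rintro rfl; rw [zero_smul] at hy0; exact hy0 rfl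
      have := Submodule.smul_mem _ t⁻¹ hyw
      rwa [smul_smul, inv_mul_cancel₀ ht, one_smul] at this
    · have hC : Submodule.span F {c} ≤ A := by
        rw [Submodule.span_le]; rintro z rfl; exact hc
      obtain ⟨w, hw, hwC, hwy⟩ := h'.od.dual hf hC hy hd
      have hwc : f w c = 0 := hwC c (Submodule.mem_span_singleton_self c)
      obtain ⟨g, hg⟩ := exists_E hf hQc (hf.swap hwc)
      have hgM : g ∈ M := h'.mem c hc w hw hQc (hf.swap hwc) g hg
      have hgu : (g : Matrix ι ι F) *ᵥ u = u := by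
        rw [hg, h'.od.orth u hu c hc, h'.od.orth u hu w hw]; simp
      have hgy : (g : Matrix ι ι F) *ᵥ y = y - c := by
        rw [hg, hyc, hf.symm w y, hwy]; simp
      have h1 := wSub_fix hf hgM (h.iso g hgM) hQu hgu hyw
      rw [hgy] at h1
      have h2 := Submodule.sub_mem _ hyw h1
      rwa [sub_sub_cancel] at h2
  have hall : ∀ c ∈ A, Q c = 0 → c ∈ wSub hf hQu M := by
    intro c hc hQc
    have h1 : 3 ≤ Module.finrank F ↥(A ⊓ perp hf (Submodule.span F {y, c})) := by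
      have h3 := Submodule.finrank_sup_add_finrank_inf_eq A (perp hf (Submodule.span F {y, c}))
      have h4 := finrank_perp hf (Submodule.span F {y, c})
      have h5 := finrank_span_pair (F := F) y c
      have h6 := Submodule.finrank_le (A ⊔ perp hf (Submodule.span F {y, c}))
      rw [Module.finrank_fintype_fun_eq_card] at h6
      omega
    obtain ⟨z, hz, hz0, hQz⟩ := exists_sing hf h1
    obtain ⟨hzy, hzc⟩ := (mem_perp_pair hf).1 hz.2
    have h2 := key y hy hy0 hyw z hz.1 hQz (hf.swap hzy)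
    exact key z hz.1 hz0 h2 c hc hQc hzc
  obtain ⟨v, hv, hv0, hQv⟩ := exists_sing hf (E := A) (by omega)
  obtain ⟨x, hx, hvx⟩ := h'.od.nd hf hv hv0
  exact sing_span hf hv hQv hx hvx hall

/-- the stabiliser contains the Siegel elements -/
lemma stab_siegel (hf : Qf Q f) {u w : ι → F} (hu : u ∈ B) (hw : w ∈ B) {g : GL ι F} (hg : IsE Q f g u w) :
    g ∈ subspaceStabilizer B := by
  apply mem_stab_of
  intro x hx
  rw [hg]
  exact B.sub_mem (B.add_mem hx (B.smul_mem _ hw)) (B.smul_mem _ hu)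

lemma stab_siegel' (hf : Qf Q f) (h : OD f A B) {u w : ι → F} (hu : u ∈ A) (hw : w ∈ A) {g : GL ι F} (hg : IsE Q f g u w) :
    g ∈ subspaceStabilizer B := by
  apply mem_stab_of
  intro x hx
  rw [hg, hf.swap (h.orth u hu x hx), hf.swap (h.orth w hw x hx)]
  simpa using hx

lemma stab_lt [Finite F] (hf : Qf Q f) (hn : 5 ≤ Fintype.card ι) (h : OD f A B) (hA0 : A ≠ ⊥) (hB : 3 ≤ Module.finrank F B) :
    subspaceStabilizer B ⊓ omegaGL Q < omegaGL Q := by
  refine lt_of_le_of_ne inf_le_right ?_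
  intro heq
  obtain ⟨w, hw, hw0⟩ := (Submodule.ne_bot_iff _).1 hA0
  obtain ⟨c, hc, hc0, hQc⟩ := exists_sing hf hB
  obtain ⟨v, hv, hQv, hcv⟩ := h.partner hf hc hc0 hQc
  have hcw : f c w = 0 := hf.swap (h.orth w hw c hc)
  obtain ⟨g, hg⟩ := exists_E hf hQc hcw
  have hgΩ : g ∈ omegaGL Q := T_le_omega hf hn (E_mem hQc hcw hg)
  rw [← heq] at hgΩ
  have h1 := ((mem_stab_iff B g).1 hgΩ.1 v).1 hv
  rw [hg, hf.symm c v, hcv, one_smul] at h1
  have h2 : w ∈ B := by
    have h3 := B.sub_mem (B.add_mem h1 (B.smul_mem (f v w + Q w * 1) hc)) hv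
    have h4 : v + w - (f v w + Q w * 1) • c + (f v w + Q w * 1) • c - v = w := by abel
    rwa [h4] at h3
  exact hw0 (h.disj hf hw h2)

/-- maximality, both parts large -/
theorem nd_max_big [Finite F] (hf : Qf Q f) (h : OD f A B) (hA : 5 ≤ Module.finrank F A) (hB : 7 ≤ Module.finrank F B)
    (hni : ∀ g : GL ι F, Iso Q g → ¬ (∀ x ∈ B, (g : Matrix ι ι F) *ᵥ x ∈ A)) :
    IsMaximalIn (omegaGL Q) (subspaceStabilizer B ⊓ omegaGL Q) := by
  have hfr := h.finrank hf
  have hn : 5 ≤ Fintype.card ι := by omega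
  have hA0 : A ≠ ⊥ := by rintro rfl; rw [finrank_bot] at hA; omega
  refine ⟨stab_lt hf hn h hA0 (by omega), ?_⟩
  intro M hM hMK
  by_cases hsub : M ≤ subspaceStabilizer B
  · left
    exact le_antisymm (le_inf hsub hMK) hM
  · right
    refine le_antisymm hMK ?_
    have hPB : PB Q f M A B := ⟨h, fun g hg => mem_iso_of_omega (hMK hg), fun u hu w hw hQu huw g hg =>
      hM ⟨stab_siegel hf hu hw hg, T_le_omega hf hn (E_mem hQu huw hg)⟩⟩
    have hPB' : PB Q f M B A := ⟨h.symm hf, fun g hg => mem_iso_of_omega (hMK hg), fun u hu w hw hQu huw g hg =>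
      hM ⟨stab_siegel' hf h hu hw hg, T_le_omega hf hn (E_mem hQu huw hg)⟩⟩
    obtain ⟨g, hg, hgn⟩ := SetLike.not_le_iff_exists.1 hsub
    have hiso := hPB.iso g hg
    refine (omega_le_T hf hn).trans ?_
    by_contra hcon
    have hcov : ∀ u ∈ B, Q u = 0 → (g : Matrix ι ι F) *ᵥ u ∈ B ∨ (g : Matrix ι ι F) *ᵥ u ∈ A := by
      intro u hu hQu
      by_contra hc
      rw [not_or] at hc
      exact hcon (hPB.main2 hf hPB' (hPB.irr5 hf hPB' hA) (hPB'.irr5 hf hPB (by omega)) hA hB hg hu hQu hc.1 hc.2)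
    obtain ⟨u0, hu0, hu00, hQu0⟩ := exists_sing hf (E := B) (by omega)
    obtain ⟨x0, hx0, hux0⟩ := h.nd hf hu0 hu00
    by_cases hcase : ∀ u ∈ B, Q u = 0 → (g : Matrix ι ι F) *ᵥ u ∈ B
    · apply hgn
      apply mem_stab_of
      have h1 : B ≤ B.comap (Matrix.toLin' (g : Matrix ι ι F)) := sing_span hf hu0 hQu0 hx0 hux0 (fun u hu hQu => by
        rw [Submodule.mem_comap, Matrix.toLin'_apply]; exact hcase u hu hQu)
      intro x hx
      have := h1 hx
      rwa [Submodule.mem_comap, Matrix.toLin'_apply] at this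
    · push Not at hcase
      obtain ⟨u1, hu1, hQu1, hgu1⟩ := hcase
      have hgu1A : (g : Matrix ι ι F) *ᵥ u1 ∈ A := (hcov u1 hu1 hQu1).resolve_left hgu1
      apply hni g hiso
      have h1 : B ≤ A.comap (Matrix.toLin' (g : Matrix ι ι F)) := sing_span hf hu0 hQu0 hx0 hux0 (fun u hu hQu => by
        rw [Submodule.mem_comap, Matrix.toLin'_apply]
        by_contra hguA
        have hguB : (g : Matrix ι ι F) *ᵥ u ∈ B := (hcov u hu hQu).resolve_right hguA
        have h2 : f u1 u = 0 := by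
          rw [← hiso.form hf]; exact h.orth _ hgu1A _ hguB
        have h3 : Q (u1 + u) = 0 := by rw [hf.add, hQu1, hQu, h2]; ring
        rcases hcov (u1 + u) (B.add_mem hu1 hu) h3 with h4 | h4
        · rw [mulVec_add] at h4
          have := B.sub_mem h4 hguB
          rw [add_sub_cancel_right] at this
          exact hgu1 this
        · rw [mulVec_add] at h4
          have := A.sub_mem h4 hgu1A
          rw [add_sub_cancel_left] at this
          exact hguA this)
      intro x hx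
      have := h1 hx
      rwa [Submodule.mem_comap, Matrix.toLin'_apply] at this

end CfsgH9.Og
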