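import Mathlib
import Cfsg.Agent.H9.MxNd

set_option autoImplicit false

/-! Maximality of the unitary group in an orthogonal group. -/

namespace CfsgH9.Og

open Matrix Cfsg Cfsg.Geo CfsgH9.Tv CfsgH9.Witt
open CfsgH9.MaxSymp (inv_mulVec mulVec_inv)
open CfsgH9.MaxRedSL (mem_stab_of mem_stab_iff)

variable {ι : Type} [Fintype ι] [DecidableEq ι] {F : Type*} [Field F]
variable {Q : (ι → F) → F} {f : (ι → F) → (ι → F) → F} {M : Subgroup (GL ι F)}

omit [Fintype ι] [DecidableEq ι] in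
lemma fss (x : ι → F) : Module.finrank F (Submodule.span F {x}) ≤ 1 := by
  by_cases hx : x = 0
  · rw [hx, Submodule.span_zero_singleton, finrank_bot]; omega
  · rw [finrank_span_singleton hx]

/-- hyperbolic pairs in `X^⊥` -/
lemma exists_hyp [Finite F] (hf : Qf Q f) (X : Submodule F (ι → F)) (hX : 2 * Module.finrank F X + 3 ≤ Fintype.card ι) :
    ∃ a ∈ perp hf X, ∃ b ∈ perp hf X, Q a = 0 ∧ Q b = 0 ∧ f a b = 1 ∧ a ∉ X := by
  obtain ⟨C, hC⟩ := Submodule.exists_isCompl X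
  have h1 := finrank_perp hf X
  have h2 := Submodule.finrank_add_eq_of_isCompl hC
  rw [Module.finrank_fintype_fun_eq_card] at h2
  have h3 : 3 ≤ Module.finrank F (C ⊓ perp hf X : Submodule F (ι → F)) := by
    have h4 := Submodule.finrank_sup_add_finrank_inf_eq C (perp hf X)
    have h5 := Submodule.finrank_le (C ⊔ perp hf X)
    rw [Module.finrank_fintype_fun_eq_card] at h5
    omega
  obtain ⟨a, ha, ha0, haQ⟩ := exists_sing hf h3
  have haX : a ∉ X := by
    intro h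
    apply ha0
    have h4 : a ∈ X ⊓ C := ⟨h, ha.1⟩
    rwa [hC.disjoint.eq_bot, Submodule.mem_bot] at h4
  obtain ⟨b, hb, hab⟩ := exists_perp hf haX
  obtain ⟨c, hc, hcQ, hac⟩ := exists_sing_pair hf (E := perp hf X) ha.2 haQ hb (by rw [hf.symm, hab]; exact one_ne_zero)
  exact ⟨a, ha.2, c, hc, haQ, hcQ, hac, haX⟩

lemma sing_out [Finite F] (hf : Qf Q f) {X : Submodule F (ι → F)} (hX : 2 * Module.finrank F X + 3 ≤ Fintype.card ι) {w : ι → F}
    (hw : w ∉ X) : ∃ a ∈ perp hf X, Q a = 0 ∧ f w a = 1 := by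
  by_contra hcon
  push Not at hcon
  obtain ⟨a, ha, b, hb, haQ, hbQ, hab, -⟩ := exists_hyp hf X hX
  have h1 : perp hf X ≤ perp hf (Submodule.span F {w}) := by
    refine sing_span hf ha haQ hb (by rw [hab]; exact one_ne_zero) ?_
    intro x hx hxQ
    rw [mem_perp_one]
    by_contra hne
    rw [hf.symm] at hne
    apply hcon ((f w x)⁻¹ • x) (Submodule.smul_mem _ _ hx) (by rw [hf.smul, hxQ, mul_zero])
    rw [hf.smul_right, inv_mul_cancel₀ hne]
  have h2 := perp_anti hf h1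
  rw [perp_perp, perp_perp] at h2
  exact hw (h2 (Submodule.mem_span_singleton_self w))

/-- the field data -/
structure KD (Q : (ι → F) → F) (f : (ι → F) → (ι → F) → F) (κ : Matrix ι ι F) (ν τ : F) : Prop where
  hν : ν ≠ 0
  hQ : ∀ x, Q (κ *ᵥ x) = ν * Q x
  ff : ∀ x y, f (κ *ᵥ x) (κ *ᵥ y) = ν * f x y
  fk : ∀ x y, f (κ *ᵥ x) y = τ * f x y - f x (κ *ᵥ y)
  self : ∀ x, f x (κ *ᵥ x) = τ * Q x
  sq : ∀ x, κ *ᵥ (κ *ᵥ x) = τ • (κ *ᵥ x) - ν • x
  irr : ∀ c : F, c * c - τ * c + ν ≠ 0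

/-- the K-line -/
def KL (κ : Matrix ι ι F) (v : ι → F) : Submodule F (ι → F) := Submodule.span F {v, κ *ᵥ v}

variable {κ : Matrix ι ι F} {ν τ : F}

omit [DecidableEq ι] in
lemma KL_self (v : ι → F) : v ∈ KL κ v := Submodule.subset_span (by simp)

omit [DecidableEq ι] in
lemma KL_k (v : ι → F) : κ *ᵥ v ∈ KL κ v := Submodule.subset_span (by simp)

omit [DecidableEq ι] in
lemma KL_finrank (v : ι → F) : Module.finrank F (KL κ v) ≤ 2 := finrank_span_pair v (κ *ᵥ v)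

omit [DecidableEq ι] in
lemma KL_mem {v x : ι → F} : x ∈ KL κ v ↔ ∃ a b : F, a • v + b • (κ *ᵥ v) = x := Submodule.mem_span_pair

lemma mem_perp_KL (hf : Qf Q f) {v x : ι → F} : x ∈ perp hf (KL κ v) ↔ f x v = 0 ∧ f x (κ *ᵥ v) = 0 := mem_perp_pair hf

omit [DecidableEq ι] in
lemma KD.stab (h : KD Q f κ ν τ) {v x : ι → F} (hx : x ∈ KL κ v) : κ *ᵥ x ∈ KL κ v := by
  obtain ⟨a, b, rfl⟩ := KL_mem.1 hx
  rw [mulVec_add, mulVec_smul, mulVec_smul, h.sq]
  exact Submodule.add_mem _ (Submodule.smul_mem _ _ (KL_k v)) (Submodule.smul_mem _ _ (Submodule.sub_mem _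
    (Submodule.smul_mem _ _ (KL_k v)) (Submodule.smul_mem _ _ (KL_self v))))

omit [DecidableEq ι] in
lemma KD.norm (h : KD Q f κ ν τ) {c d : F} (hcd : ¬ (c = 0 ∧ d = 0)) : c * c + τ * c * d + ν * d * d ≠ 0 := by
  by_cases hd : d = 0
  · have hc : c ≠ 0 := fun hc => hcd ⟨hc, hd⟩
    rw [hd]
    intro h0
    apply mul_ne_zero hc hc
    linear_combination h0
  · intro h0
    apply h.irr (-(c / d))
    field_simp
    linear_combination h0

omit [DecidableEq ι] in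
lemma KD.div (h : KD Q f κ ν τ) {Y : Submodule F (ι → F)} (hY : ∀ y ∈ Y, κ *ᵥ y ∈ Y) {c d : F} (hcd : ¬ (c = 0 ∧ d = 0)) {x : ι → F}
    (hx : c • x + d • (κ *ᵥ x) ∈ Y) : x ∈ Y := by
  have h1 := Y.sub_mem (Y.smul_mem (c + d * τ) hx) (Y.smul_mem d (hY _ hx))
  have h2 : (c + d * τ) • (c • x + d • (κ *ᵥ x)) - d • (κ *ᵥ (c • x + d • (κ *ᵥ x))) = (c * c + τ * c * d + ν * d * d) • x := by
    rw [mulVec_add, mulVec_smul, mulVec_smul, h.sq]; module
  rw [h2] at h1
  exact (Submodule.smul_mem_iff _ (h.norm hcd)).1 h1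

omit [DecidableEq ι] in
lemma KD.kne (h : KD Q f κ ν τ) (hf : Qf Q f) {v : ι → F} (hv : v ≠ 0) : κ *ᵥ v ≠ 0 := by
  intro h0
  obtain ⟨y, hy⟩ := hf.nondeg v hv
  have h1 := h.ff v y
  rw [h0, hf.zero_left] at h1
  exact mul_ne_zero h.hν hy h1.symm

omit [DecidableEq ι] in
lemma KD.fk' (h : KD Q f κ ν τ) (x y : ι → F) : f x (κ *ᵥ y) = τ * f x y - f (κ *ᵥ x) y := by rw [h.fk]; ring

omit [DecidableEq ι] in
lemma KD.symm_mem (h : KD Q f κ ν τ) {u v : ι → F} (hv : v ≠ 0) (huv : v ∈ KL κ u) : u ∈ KL κ v := by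
  obtain ⟨a, b, hab⟩ := KL_mem.1 huv
  apply h.div (fun y hy => h.stab hy) (c := a) (d := b)
  · rintro ⟨rfl, rfl⟩
    apply hv; rw [← hab]; simp
  · rw [hab]; exact KL_self v

/-- transvections commute with the field -/
lemma KD.comm (h : KD Q f κ ν τ) (hf : Qf Q f) {v : ι → F} (hv : Q v = 0) {c : F} {g : GL ι F} (hg : IsE Q f g v (c • (κ *ᵥ v))) (x : ι → F) :
    (g : Matrix ι ι F) *ᵥ (κ *ᵥ x) = κ *ᵥ ((g : Matrix ι ι F) *ᵥ x) := by
  rw [hg, hg, hf.smul, h.hQ, hv, hf.smul_right, hf.smul_right, h.ff, h.fk, mulVec_sub, mulVec_add, mulVec_smul, mulVec_smul, mulVec_smul, h.sq]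
  module

/-- the set-up -/
structure KM (Q : (ι → F) → F) (f : (ι → F) → (ι → F) → F) (κ : Matrix ι ι F) (ν τ : F) (M : Subgroup (GL ι F)) : Prop
    extends KD Q f κ ν τ where
  iso : ∀ g ∈ M, Iso Q g
  tv : ∀ v, Q v = 0 → ∀ (c : F) (g : GL ι F), IsE Q f g v (c • (κ *ᵥ v)) → g ∈ M

lemma KM.mem (hf : Qf Q f) (h : KM Q f κ ν τ M) {v : ι → F} (hv : Q v = 0) : κ *ᵥ v ∈ wSub hf hv M :=
  ⟨by rw [h.self, hv, mul_zero], fun c g hg => h.tv v hv c g hg⟩

lemma KM.KL_le (hf : Qf Q f) (h : KM Q f κ ν τ M) {v : ι → F} (hv : Q v = 0) : KL κ v ≤ wSub hf hv M := by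
  intro x hx
  obtain ⟨a, b, rfl⟩ := KL_mem.1 hx
  exact Submodule.add_mem _ (Submodule.smul_mem _ _ u_mem_wSub) (Submodule.smul_mem _ _ (h.mem hf hv))

lemma KM.T (hf : Qf Q f) (h : KM Q f κ ν τ M) {u v w : ι → F} (hu : Q u = 0) (hv : Q v = 0) (hvu : v ∈ perp hf (KL κ u))
    (hw : w ∈ wSub hf hu M) : f w v • (κ *ᵥ v) - f w (κ *ᵥ v) • v ∈ wSub hf hu M := by
  obtain ⟨h1, h2⟩ := (mem_perp_KL hf).1 hvu
  obtain ⟨g, hg⟩ := exists_E hf (u := v) (w := κ *ᵥ v) hv (by rw [h.self, hv, mul_zero])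
  have hgM : g ∈ M := h.tv v hv 1 g (by rw [one_smul]; exact hg)
  have hfix : (g : Matrix ι ι F) *ᵥ u = u := by
    rw [hg, hf.swap h1, h.fk', hf.swap h1, hf.swap h2]; simp
  have h3 := (wSub hf hu M).sub_mem (wSub_fix hf hgM (h.iso g hgM) hu hfix hw) hw
  have h4 : (g : Matrix ι ι F) *ᵥ w - w = f w v • (κ *ᵥ v) - f w (κ *ᵥ v) • v := by
    rw [hg, h.hQ, hv]; module
  rwa [h4] at h3

theorem KM.key [Finite F] (hf : Qf Q f) (h : KM Q f κ ν τ M) (hn : 13 ≤ Fintype.card ι) {u : ι → F} (hu : Q u = 0) {w : ι → F}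
    (hw : w ∈ wSub hf hu M) (hwn : w ∉ KL κ u) : perp hf (KL κ u) ≤ wSub hf hu M := by
  set w' := τ • w - κ *ᵥ w with hw'
  have hww : ∀ x, f w (κ *ᵥ x) = f w' x := fun x => by rw [h.fk', hw', hf.sub_left, hf.smul_left]
  set X := KL κ u ⊔ Submodule.span F {w'} with hXd
  have hXf : Module.finrank F X ≤ 3 := by
    have h1 := Submodule.finrank_add_le_finrank_add_finrank (KL κ u) (Submodule.span F {w'})
    have h2 := KL_finrank (κ := κ) u
    have h3 := fss (F := F) w'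
    rw [← hXd] at h1
    omega
  have hwX : w ∉ X := by
    intro hmem
    obtain ⟨s, hs, t, ht, hst⟩ := Submodule.mem_sup.1 hmem
    obtain ⟨c, rfl⟩ := Submodule.mem_span_singleton.1 ht
    apply hwn
    apply h.div (fun y hy => h.stab hy) (c := 1 - c * τ) (d := c)
    · rintro ⟨h1, h2⟩
      rw [h2] at h1; simp at h1
    · have : (1 - c * τ) • w + c • (κ *ᵥ w) = s := by
        rw [eq_comm, ← sub_eq_zero]
        have h1 : s = w - c • w' := by rw [← hst]; abel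
        rw [h1, hw']; module
      rw [this]; exact hs
  obtain ⟨v0, hv0, hQv0, hwv0⟩ := sing_out hf (X := X) (by omega) hwX
  set Y := X ⊔ Submodule.span F {w, v0} with hYd
  have hYf : Module.finrank F Y ≤ 5 := by
    have h1 := Submodule.finrank_add_le_finrank_add_finrank X (Submodule.span F {w, v0})
    have h2 := finrank_span_pair (F := F) w v0
    rw [← hYd] at h1
    omega
  obtain ⟨a, ha, b, hb, hQa, hQb, hab, -⟩ := exists_hyp hf Y (by omega)
  have hXY : X ≤ Y := le_sup_left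
  have hwY : w ∈ Y := (le_sup_right : _ ≤ Y) (Submodule.subset_span (by simp))
  have hvY : v0 ∈ Y := (le_sup_right : _ ≤ Y) (Submodule.subset_span (by simp))
  have hKX : KL κ u ≤ X := le_sup_left
  have hw'X : w' ∈ X := (le_sup_right : _ ≤ X) (Submodule.mem_span_singleton_self _)
  have haX := perp_anti hf hXY ha
  have hbX := perp_anti hf hXY hb
  have hv : v0 + a ∈ perp hf X := Submodule.add_mem _ hv0 haX
  have hv2 : v0 + b ∈ perp hf X := Submodule.add_mem _ hv0 hbX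
  have haw := ha w hwY
  have hbw := hb w hwY
  have hav := ha v0 hvY
  have hbv := hb v0 hvY
  generalize hvd : v0 + a = v at hv
  generalize hvd2 : v0 + b = v2 at hv2
  have hQv : Q v = 0 := by rw [← hvd, hf.add, hQv0, hQa, hf.swap hav]; ring
  have hQv2 : Q v2 = 0 := by rw [← hvd2, hf.add, hQv0, hQb, hf.swap hbv]; ring
  have hwv : f w v = 1 := by rw [← hvd, hf.add_right, hwv0, hf.swap haw, add_zero]
  have hwv2 : f w v2 = 1 := by rw [← hvd2, hf.add_right, hwv0, hf.swap hbw, add_zero]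
  have hvv2 : f v v2 = 1 := by
    rw [← hvd, ← hvd2, hf.add_left, hf.add_right, hf.add_right, hf.self_of hQv0, hf.swap hbv, hav, hab]; ring
  have hkv : f w (κ *ᵥ v) = 0 := by rw [hww]; exact hf.swap (hv w' hw'X)
  have hkv2 : f w (κ *ᵥ v2) = 0 := by rw [hww]; exact hf.swap (hv2 w' hw'X)
  have hvK := perp_anti hf hKX hv
  have hv2K := perp_anti hf hKX hv2
  have t1 := h.T hf hu hQv hvK hw
  rw [hwv, hkv, one_smul, zero_smul, sub_zero] at t1
  have t2 := h.T hf hu hQv2 hv2K hw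
  rw [hwv2, hkv2, one_smul, zero_smul, sub_zero] at t2
  have t3 := h.T hf hu hQv hvK t2
  rw [h.ff, hf.symm v v2, hvv2, mul_one] at t3
  have hvP : v ∈ wSub hf hu M := by
    have h1 := (wSub hf hu M).sub_mem ((wSub hf hu M).smul_mem (f (κ *ᵥ v2) v) t1) t3
    rw [sub_sub_cancel] at h1
    exact (Submodule.smul_mem_iff _ h.hν).1 h1
  -- the claim
  have claim : ∀ z, Q z = 0 → z ∈ perp hf (KL κ u) → ¬ (f v (κ *ᵥ z) = 0 ∧ -f v z = 0) → z ∈ wSub hf hu M := by
    intro z hz hzK hne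
    have s1 := h.T hf hu hz hzK hvP
    have s2 := h.T hf hu hz hzK t1
    rw [h.ff, h.fk v z] at s2
    have s3 := (wSub hf hu M).sub_mem ((wSub hf hu M).smul_mem (τ * f v z - f v (κ *ᵥ z)) s1) ((wSub hf hu M).smul_mem (f v z) s2)
    have s4 : (τ * f v z - f v (κ *ᵥ z)) • (f v z • (κ *ᵥ z) - f v (κ *ᵥ z) • z) -
        f v z • ((τ * f v z - f v (κ *ᵥ z)) • (κ *ᵥ z) - (ν * f v z) • z) =
        (f v (κ *ᵥ z) * f v (κ *ᵥ z) + τ * f v (κ *ᵥ z) * (-f v z) + ν * (-f v z) * (-f v z)) • z := by module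
    rw [s4] at s3
    exact (Submodule.smul_mem_iff _ (h.norm hne)).1 s3
  refine sing_span hf hvK hQv hv2K (by rw [hvv2]; exact one_ne_zero) ?_
  intro z hz hzQ
  by_cases hcl : f v (κ *ᵥ z) = 0 ∧ -f v z = 0
  swap
  · exact claim z hzQ hz hcl
  have hvz : f v z = 0 := neg_eq_zero.1 hcl.2
  by_cases hvX : v ∈ KL κ u ⊔ Submodule.span F {z}
  · obtain ⟨s, hs, t, ht, hst⟩ := Submodule.mem_sup.1 hvX
    obtain ⟨c, rfl⟩ := Submodule.mem_span_singleton.1 ht
    have hc : c ≠ 0 := by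
      rintro rfl
      rw [zero_smul, add_zero] at hst
      have h1 := hv2K v (by rw [← hst]; exact hs)
      rw [hf.symm, hvv2] at h1
      exact one_ne_zero h1
    have h1 := (wSub hf hu M).sub_mem hvP (h.KL_le hf hu hs)
    rw [← hst, add_sub_cancel_left] at h1
    exact (Submodule.smul_mem_iff _ hc).1 h1
  · have hXf' : Module.finrank F (KL κ u ⊔ Submodule.span F {z} : Submodule F (ι → F)) ≤ 3 := by
      have h1 := Submodule.finrank_add_le_finrank_add_finrank (KL κ u) (Submodule.span F {z})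
      have h2 := KL_finrank (κ := κ) u
      have h3 := fss (F := F) z
      omega
    obtain ⟨a', ha', hQa', hva'⟩ := sing_out hf (by omega) hvX
    have ha'K := perp_anti hf (le_sup_left : KL κ u ≤ KL κ u ⊔ Submodule.span F {z}) ha'
    have ha'z : f a' z = 0 := ha' z ((le_sup_right : _ ≤ KL κ u ⊔ Submodule.span F {z}) (Submodule.mem_span_singleton_self _))
    have h1 := claim a' hQa' ha'K (by rintro ⟨-, h2⟩; rw [hva'] at h2; exact one_ne_zero (neg_eq_zero.1 h2))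
    have h2 := claim (z + a') (by rw [hf.add, hzQ, hQa', hf.swap ha'z]; ring) (Submodule.add_mem _ hz ha'K)
      (by rintro ⟨-, h3⟩; rw [hf.add_right, hvz, hva', zero_add] at h3; exact one_ne_zero (neg_eq_zero.1 h3))
    have h3 := (wSub hf hu M).sub_mem h2 h1
    rwa [add_sub_cancel_right] at h3

lemma KM.all [Finite F] (hf : Qf Q f) (h : KM Q f κ ν τ M) (hn : 13 ≤ Fintype.card ι) {u z : ι → F} (hu0 : u ≠ 0) (hz0 : z ≠ 0)
    (hu : Q u = 0) (hz : Q z = 0)
    (hP : perp hf (KL κ u) ≤ wSub hf hu M) : perp hf (KL κ z) ≤ wSub hf hz M := by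
  have hXf : Module.finrank F (KL κ u ⊔ KL κ z : Submodule F (ι → F)) ≤ 4 := by
    have h1 := Submodule.finrank_add_le_finrank_add_finrank (KL κ u) (KL κ z)
    have h2 := KL_finrank (κ := κ) u
    have h3 := KL_finrank (κ := κ) z
    omega
  obtain ⟨y, hy, -, -, hQy, -, -, hyX⟩ := exists_hyp hf (KL κ u ⊔ KL κ z) (by omega)
  have hy0 : y ≠ 0 := by rintro rfl; exact hyX (Submodule.zero_mem _)
  have hyu := perp_anti hf (le_sup_left : KL κ u ≤ KL κ u ⊔ KL κ z) hy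
  have hyz := perp_anti hf (le_sup_right : KL κ z ≤ KL κ u ⊔ KL κ z) hy
  have h1 := wSub_symm hf hu hQy (hP hyu)
  have h2 := h.key hf hn hQy h1 (fun h2 => hyX (Submodule.mem_sup_left (h.symm_mem hu0 h2)))
  obtain ⟨e1, e2⟩ := (mem_perp_KL hf).1 hyz
  have hzy : z ∈ perp hf (KL κ y) := (mem_perp_KL hf).2 ⟨hf.swap e1, by rw [h.fk', hf.swap e1, hf.swap e2]; ring⟩
  have h3 := wSub_symm hf hQy hz (h2 hzy)
  exact h.key hf hn hz h3 (fun h4 => hyX (Submodule.mem_sup_right h4))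

/-- the special element -/
lemma KD.special [Finite F] (h : KD Q f κ ν τ) (hf : Qf Q f) (hn : 13 ≤ Fintype.card ι) {u : ι → F} (hu0 : u ≠ 0) (hu : Q u = 0) :
    ∃ z y g, Q z = 0 ∧ z ≠ 0 ∧ y ∈ perp hf (KL κ z) ∧ IsE Q f g z y ∧ (g : Matrix ι ι F) *ᵥ u = u + y ∧
      (g : Matrix ι ι F) *ᵥ (κ *ᵥ u) = κ *ᵥ u ∧ (g : Matrix ι ι F) *ᵥ (κ *ᵥ y) = κ *ᵥ y ∧ y ∉ KL κ u ∧ Q y = 0 ∧ f u y = 0 ∧
      f z y = 0 := by
  have hu1 : u ∉ Submodule.span F {κ *ᵥ u} := by
    intro h1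
    obtain ⟨c, hc⟩ := Submodule.mem_span_singleton.1 h1
    have h2 := h.norm (c := -1) (d := c) (by rintro ⟨h3, -⟩; exact one_ne_zero (neg_eq_zero.1 h3))
    have h3 : (-1 : F) • u + c • (κ *ᵥ u) = 0 := by rw [hc]; module
    have h4 := h.div (Y := ⊥) (by intro y hy; rw [Submodule.mem_bot] at hy ⊢; rw [hy, mulVec_zero]) (c := -1) (d := c)
      (by rintro ⟨h5, -⟩; exact one_ne_zero (neg_eq_zero.1 h5)) (x := u) (by rw [h3]; exact Submodule.zero_mem _)
    exact hu0 ((Submodule.mem_bot F).1 h4)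
  obtain ⟨z, hz, hQz, huz⟩ := sing_out hf (X := Submodule.span F {κ *ᵥ u}) (by have := fss (F := F) (κ *ᵥ u); omega) hu1
  have hzk : f z (κ *ᵥ u) = 0 := (mem_perp_one hf).1 hz
  have hXf : Module.finrank F (KL κ u ⊔ KL κ z : Submodule F (ι → F)) ≤ 4 := by
    have h1 := Submodule.finrank_add_le_finrank_add_finrank (KL κ u) (KL κ z)
    have h2 := KL_finrank (κ := κ) u
    have h3 := KL_finrank (κ := κ) z
    omega
  obtain ⟨y, hy, -, -, hQy, -, -, hyX⟩ := exists_hyp hf (KL κ u ⊔ KL κ z) (by omega)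
  have hyu := perp_anti hf (le_sup_left : KL κ u ≤ KL κ u ⊔ KL κ z) hy
  have hyz := perp_anti hf (le_sup_right : KL κ z ≤ KL κ u ⊔ KL κ z) hy
  obtain ⟨a1, a2⟩ := (mem_perp_KL hf).1 hyu
  obtain ⟨b1, b2⟩ := (mem_perp_KL hf).1 hyz
  obtain ⟨g, hg⟩ := exists_E hf (w := y) hQz (hf.swap b1)
  refine ⟨z, y, g, hQz, ?_, hyz, hg, ?_, ?_, ?_, fun h1 => hyX (Submodule.mem_sup_left h1), hQy, hf.swap a1, hf.swap b1⟩
  · rintro rfl; rw [hf.zero_right] at huz; exact zero_ne_one huz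
  · rw [hg, huz, hf.swap a1, hQy]; module
  · rw [hg, hf.swap hzk, hf.swap a2]; module
  · have e1 : f (κ *ᵥ y) z = 0 := by rw [h.fk, b1, b2]; ring
    have e2 : f (κ *ᵥ y) y = 0 := by rw [hf.symm, h.self, hQy, mul_zero]
    rw [hg, e1, e2]; module

theorem KM.top [Finite F] (hf : Qf Q f) (h : KM Q f κ ν τ M) (hn : 13 ≤ Fintype.card ι) {u : ι → F} (hu0 : u ≠ 0) (hu : Q u = 0)
    {w : ι → F} (hw : w ∈ wSub hf hu M) (hwn : w ∉ KL κ u) : Tg Q f ≤ M := by
  have h0 := h.key hf hn hu hw hwn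
  have hall : ∀ z, z ≠ 0 → ∀ hz : Q z = 0, perp hf (KL κ z) ≤ wSub hf hz M := fun z hz0 hz => h.all hf hn hu0 hz0 hu hz h0
  apply T_le_of_XE
  intro x hx
  by_cases hx0 : x = 0
  · subst hx0
    intro w g _ hg
    rw [E_zero hf hg]; exact M.one_mem
  obtain ⟨z, y, g, hQz, hz0, hyz, hg, hgu, hgk, hgy, hyn, hQy, hxy, hzy⟩ := h.special hf hn hx0 hx
  have hgM : g ∈ M := ((hall z hz0 hQz) hyz).2 1 g (by rw [one_smul]; exact hg)
  have hiso := h.iso g hgM
  apply XE_unmap hf hgM hiso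
  have hQg : Q ((g : Matrix ι ι F) *ᵥ x) = 0 := by rw [hiso]; exact hx
  have hg0 : (g : Matrix ι ι F) *ᵥ x ≠ 0 := by
    intro h1
    apply hx0
    rw [← inv_mulVec g x, h1, mulVec_zero]
  have hky : κ *ᵥ y ∉ KL κ x := by
    intro h1
    apply hyn
    apply h.div (fun y hy => h.stab hy) (c := 0) (d := 1) (by rintro ⟨-, h2⟩; exact one_ne_zero h2)
    rw [zero_smul, zero_add, one_smul]; exact h1
  obtain ⟨s, hs, hsy⟩ := exists_perp hf hky
  obtain ⟨s1, s2⟩ := (mem_perp_KL hf).1 hs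
  have k1 : (g : Matrix ι ι F) *ᵥ s ∈ wSub hf hQg M := wSub_map hf hgM hiso hx hQg (hall x hx0 hx hs)
  have k2 : f ((g : Matrix ι ι F) *ᵥ s) (κ *ᵥ ((g : Matrix ι ι F) *ᵥ x)) = 1 := by
    rw [hgu, mulVec_add, hf.add_right, ← hgk, hiso.form hf, s2, zero_add, ← hgy, hiso.form hf, hsy]
  have k3 : f ((g : Matrix ι ι F) *ᵥ s) ((g : Matrix ι ι F) *ᵥ x) = 0 := by rw [hiso.form hf, s1]
  apply XE_of_wSub hf hQg
  intro t ht
  have k4 := hall _ hg0 hQg (show t - f t (κ *ᵥ ((g : Matrix ι ι F) *ᵥ x)) • ((g : Matrix ι ι F) *ᵥ s) ∈ perp hf (KL κ ((g : Matrix ι ι F) *ᵥ x)) by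
    rw [mem_perp_KL, hf.sub_left, hf.sub_left, hf.smul_left, hf.smul_left, k2, k3, hf.swap ht]
    constructor <;> ring)
  have k5 := Submodule.add_mem _ k4 (Submodule.smul_mem _ (f t (κ *ᵥ ((g : Matrix ι ι F) *ᵥ x))) k1)
  rwa [sub_add_cancel] at k5

/-- pointwise in the K-line implies in K -/
theorem KD.const [Finite F] (h : KD Q f κ ν τ) (hf : Qf Q f) (hn : 13 ≤ Fintype.card ι) {T : Matrix ι ι F}
    (hT : ∀ v, Q v = 0 → T *ᵥ v ∈ KL κ v) : ∃ a b : F, ∀ x, T *ᵥ x = a • x + b • (κ *ᵥ x) := by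
  have hT' : ∀ v, ∃ a b : F, Q v = 0 → T *ᵥ v = a • v + b • (κ *ᵥ v) := by
    intro v
    by_cases hv : Q v = 0
    · obtain ⟨a, b, hab⟩ := KL_mem.1 (hT v hv)
      exact ⟨a, b, fun _ => hab.symm⟩
    · exact ⟨0, 0, fun h => absurd h hv⟩
  choose α β hαβ using hT'
  have step : ∀ v v', v ≠ 0 → Q v = 0 → Q v' = 0 → f v v' = 0 → v' ∉ KL κ v → α v = α v' ∧ β v = β v' := by
    intro v v' hv0 hv hv' hvv hn'
    have hs : Q (v + v') = 0 := by rw [hf.add, hv, hv', hvv]; ring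
    have e1 := hαβ _ hs
    rw [mulVec_add, hαβ v hv, hαβ v' hv', mulVec_add] at e1
    -- v' part
    have e2 : α v' - α (v + v') = 0 ∧ β v' - β (v + v') = 0 := by
      by_contra hne
      apply hn'
      apply h.div (fun y hy => h.stab hy) hne
      have : (α v' - α (v + v')) • v' + (β v' - β (v + v')) • (κ *ᵥ v') = (α (v + v') - α v) • v + (β (v + v') - β v) • (κ *ᵥ v) := by
        rw [← sub_eq_zero] at e1 ⊢
        rw [← e1]; module
      rw [this]
      exact KL_mem.2 ⟨_, _, rfl⟩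
    have e3 : α v - α (v + v') = 0 ∧ β v - β (v + v') = 0 := by
      by_contra hne
      apply hv0
      rw [← Submodule.mem_bot F]
      apply h.div (Y := ⊥) (by intro y hy; rw [Submodule.mem_bot] at hy ⊢; rw [hy, mulVec_zero]) hne
      rw [Submodule.mem_bot]
      rw [← sub_eq_zero] at e1
      rw [← e1]
      have e4 := sub_eq_zero.1 e2.1
      have e5 := sub_eq_zero.1 e2.2
      rw [e4, e5]; module
    exact ⟨by linear_combination e3.1 - e2.1, by linear_combination e3.2 - e2.2⟩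
  have gen : ∀ v v', v ≠ 0 → v' ≠ 0 → Q v = 0 → Q v' = 0 → α v = α v' ∧ β v = β v' := by
    intro v v' hv0 hv0' hv hv'
    have hXf : Module.finrank F (KL κ v ⊔ KL κ v' : Submodule F (ι → F)) ≤ 4 := by
      have h1 := Submodule.finrank_add_le_finrank_add_finrank (KL κ v) (KL κ v')
      have h2 := KL_finrank (κ := κ) v
      have h3 := KL_finrank (κ := κ) v'
      omega
    obtain ⟨y, hy, -, -, hQy, -, -, hyX⟩ := exists_hyp hf (KL κ v ⊔ KL κ v') (by omega)
    have h1 := step v y hv0 hv hQy (hf.swap (hy v (Submodule.mem_sup_left (KL_self v)))) (fun h => hyX (Submodule.mem_sup_left h))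
    have h2 := step v' y hv0' hv' hQy (hf.swap (hy v' (Submodule.mem_sup_right (KL_self v')))) (fun h => hyX (Submodule.mem_sup_right h))
    exact ⟨h1.1.trans h2.1.symm, h1.2.trans h2.2.symm⟩
  obtain ⟨u, -, hu0, hu⟩ := exists_sing hf (E := ⊤) (by rw [finrank_top, Module.finrank_fintype_fun_eq_card]; omega)
  refine ⟨α u, β u, ?_⟩
  let P : Submodule F (ι → F) := LinearMap.ker (mulVecLin (T - α u • 1 - β u • κ))
  have hP : ∀ x, x ∈ P ↔ T *ᵥ x = α u • x + β u • (κ *ᵥ x) := by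
    intro x
    rw [LinearMap.mem_ker, mulVecLin_apply, sub_mulVec, sub_mulVec, smul_mulVec, smul_mulVec, one_mulVec, sub_sub, sub_eq_zero]
  intro x
  rw [← hP]
  apply sing_span_top hf (by omega)
  intro z hz
  rw [hP]
  by_cases hz0 : z = 0
  · rw [hz0]; simp
  · obtain ⟨e1, e2⟩ := gen u z hu0 hz0 hu hz
    rw [e1, e2]; exact hαβ z hz

/-- the maximality theorem -/
theorem gu_max [Finite F] (hf : Qf Q f) (hn : 13 ≤ Fintype.card ι) {K : Subalgebra F (Matrix ι ι F)} (hK : IsFieldSubalgebra 2 K)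
    (hnsa : ¬ IsSelfAdjointFor f K) (hsc : ∀ k ∈ K, ∃ c : F, ∀ v, Q (k *ᵥ v) = c * Q v) :
    IsMaximalIn (omegaGL Q) (subalgebraNormalizer K ⊓ omegaGL Q) := by
  rw [IsSelfAdjointFor] at hnsa
  push Not at hnsa
  obtain ⟨κ, hκ, x0, y0, hxy⟩ := hnsa
  obtain ⟨ν, hν⟩ := hsc κ hκ
  obtain ⟨c1, hc1⟩ := hsc (1 + κ) (K.add_mem K.one_mem hκ)
  obtain ⟨e, he⟩ := exists_nonsing hf (by omega)
  have hscal : ∀ c : F, κ - c • 1 ≠ 0 := by
    intro c h0
    apply hxy
    rw [sub_eq_zero.1 h0, smul_mulVec, smul_mulVec, one_mulVec, one_mulVec, hf.smul_left, hf.smul_right]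
  have hκ0 : κ ≠ 0 := by
    have := hscal 0
    rwa [zero_smul, sub_zero] at this
  have hν0 : ν ≠ 0 := by
    intro h0
    obtain ⟨y, hy, hky⟩ := hK.inv κ hκ hκ0
    apply he
    have h1 := hν (y *ᵥ e)
    rw [mulVec_mulVec, hky, one_mulVec, h0, zero_mul] at h1
    exact h1
  set τ := c1 - 1 - ν with hτ
  have hself : ∀ x, f x (κ *ᵥ x) = τ * Q x := by
    intro x
    have h1 := hc1 x
    rw [add_mulVec, one_mulVec, hf.add, hν] at h1
    rw [hτ]; linear_combination h1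
  have hfk : ∀ x y, f (κ *ᵥ x) y = τ * f x y - f x (κ *ᵥ y) := by
    intro x y
    have h1 := hself (x + y)
    rw [mulVec_add, hf.add_left, hf.add_right, hf.add_right, hf.add, hself, hself, hf.symm (κ *ᵥ x) y] at h1
    linear_combination h1
  have hff : ∀ x y, f (κ *ᵥ x) (κ *ᵥ y) = ν * f x y := by
    intro x y
    have h1 := hν (x + y)
    rw [mulVec_add, hf.add, hν, hν, hf.add] at h1
    linear_combination h1
  have hsq : ∀ x, κ *ᵥ (κ *ᵥ x) = τ • (κ *ᵥ x) - ν • x := by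
    intro x
    rw [← sub_eq_zero]
    by_contra hne
    obtain ⟨y, hy⟩ := hf.nondeg _ hne
    apply hy
    rw [hf.sub_left, hf.sub_left, hf.smul_left, hf.smul_left, hfk (κ *ᵥ x) y, hff]
    ring
  have hcomm0 : ∀ c : F, ∀ x, κ *ᵥ x = c • x → x = 0 := by
    intro c x hx
    have h1 : κ - c • 1 ∈ K := K.sub_mem hκ (K.smul_mem K.one_mem c)
    obtain ⟨y, hy, hky⟩ := hK.inv _ h1 (hscal c)
    rw [hK.comm _ h1 _ hy] at hky
    have h2 : (y * (κ - c • 1)) *ᵥ x = x := by rw [hky, one_mulVec]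
    rw [← mulVec_mulVec, sub_mulVec, smul_mulVec, one_mulVec, hx, sub_self, mulVec_zero] at h2
    exact h2.symm
  have he0 : e ≠ 0 := by rintro rfl; exact he hf.Q_zero
  have hD : KD Q f κ ν τ := by
    refine ⟨hν0, hν, hff, hfk, hself, hsq, ?_⟩
    intro c hc
    -- (κ - c)(κ - (τ - c)) = 0
    have h1 : κ *ᵥ (κ *ᵥ e - (τ - c) • e) = c • (κ *ᵥ e - (τ - c) • e) := by
      rw [mulVec_sub, mulVec_smul, hsq]
      have : ν = τ * c - c * c := by linear_combination hc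
      rw [this]; module
    have h2 := hcomm0 c _ h1
    exact he0 (hcomm0 (τ - c) e (sub_eq_zero.1 h2))
  -- elements of K
  have hKmem : ∀ k, k ∈ K ↔ ∃ a b : F, k = a • 1 + b • κ := by
    intro k
    constructor
    swap
    · rintro ⟨a, b, rfl⟩
      exact K.add_mem (K.smul_mem K.one_mem a) (K.smul_mem hκ b)
    · intro hk
      have hli : LinearIndependent F ![(1 : Matrix ι ι F), κ] := by
        rw [LinearIndependent.pair_iff]
        intro s t hst
        have ht : t = 0 := by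
          by_contra ht
          apply hscal (-(t⁻¹ * s))
          have : κ - (-(t⁻¹ * s)) • (1 : Matrix ι ι F) = t⁻¹ • (s • 1 + t • κ) := by
            rw [smul_add, smul_smul, smul_smul, inv_mul_cancel₀ ht]; module
          rw [this, hst, smul_zero]
        rw [ht, zero_smul, add_zero] at hst
        refine ⟨?_, ht⟩
        by_contra hs
        have h1 := congrArg (fun A : Matrix ι ι F => A *ᵥ e) hst
        simp only [smul_mulVec, one_mulVec, zero_mulVec] at h1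
        exact he0 ((smul_eq_zero.1 h1).resolve_left hs)
      have h1 : Submodule.span F (Set.range ![(1 : Matrix ι ι F), κ]) ≤ Subalgebra.toSubmodule K := by
        rw [Submodule.span_le]
        rintro _ ⟨i, rfl⟩
        fin_cases i
        · exact K.one_mem
        · exact hκ
      have h2 : Submodule.span F (Set.range ![(1 : Matrix ι ι F), κ]) = Subalgebra.toSubmodule K := by
        apply Submodule.eq_of_le_of_finrank_eq h1
        rw [finrank_span_eq_card hli, Fintype.card_fin]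
        exact hK.finrank_eq.symm
      have h3 : k ∈ Submodule.span F (Set.range ![(1 : Matrix ι ι F), κ]) := by rw [h2]; exact hk
      rw [Matrix.range_cons, Matrix.range_cons, Matrix.range_empty, Set.union_empty, Set.singleton_union, Submodule.mem_span_pair] at h3
      obtain ⟨a, b, hab⟩ := h3
      exact ⟨a, b, hab.symm⟩
  have hgk : ∀ g : GL ι F, (∃ a b : F, ∀ x, ((g : Matrix ι ι F) * κ * ((g⁻¹ : GL ι F) : Matrix ι ι F)) *ᵥ x = a • x + b • (κ *ᵥ x)) →
      ∀ k ∈ K, (g : Matrix ι ι F) * k * ((g⁻¹ : GL ι F) : Matrix ι ι F) ∈ K := by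
    rintro g ⟨a, b, hab⟩ k hk
    obtain ⟨c, d, rfl⟩ := (hKmem k).1 hk
    have h1 : (g : Matrix ι ι F) * κ * ((g⁻¹ : GL ι F) : Matrix ι ι F) = a • 1 + b • κ := by
      apply Matrix.ext_of_mulVec_single
      intro i
      rw [hab, add_mulVec, smul_mulVec, smul_mulVec, one_mulVec]
    have h2 : (g : Matrix ι ι F) * (c • 1 + d • κ) * ((g⁻¹ : GL ι F) : Matrix ι ι F) = c • 1 + d • (a • 1 + b • κ) := by
      rw [mul_add, add_mul, mul_smul_comm, mul_smul_comm, smul_mul_assoc, smul_mul_assoc, h1, mul_one, ← Units.val_mul, mul_inv_cancel,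
        Units.val_one]
    rw [h2, hKmem]
    exact ⟨c + d * a, d * b, by module⟩
  have hnorm : ∀ g : GL ι F, (∀ k ∈ K, (g : Matrix ι ι F) * k * ((g⁻¹ : GL ι F) : Matrix ι ι F) ∈ K) →
      (∀ k ∈ K, ((g⁻¹ : GL ι F) : Matrix ι ι F) * k * (g : Matrix ι ι F) ∈ K) → g ∈ subalgebraNormalizer K := by
    intro g h1 h2 k
    refine ⟨h1 k, fun h3 => ?_⟩
    have h4 := h2 _ h3
    have h5 : ((g⁻¹ : GL ι F) : Matrix ι ι F) * ((g : Matrix ι ι F) * k * ((g⁻¹ : GL ι F) : Matrix ι ι F)) * (g : Matrix ι ι F) = k := by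
      have e1 : ((g⁻¹ : GL ι F) : Matrix ι ι F) * (g : Matrix ι ι F) = 1 := by rw [← Units.val_mul, inv_mul_cancel, Units.val_one]
      calc _ = (((g⁻¹ : GL ι F) : Matrix ι ι F) * (g : Matrix ι ι F)) * k * (((g⁻¹ : GL ι F) : Matrix ι ι F) * (g : Matrix ι ι F)) := by
            simp only [Matrix.mul_assoc]
        _ = k := by rw [e1, Matrix.one_mul, Matrix.mul_one]
    rwa [h5] at h4
  have hcn : ∀ g : GL ι F, (∀ x, (g : Matrix ι ι F) *ᵥ (κ *ᵥ x) = κ *ᵥ ((g : Matrix ι ι F) *ᵥ x)) → g ∈ subalgebraNormalizer K := by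
    intro g hg
    refine hnorm g (hgk g ⟨0, 1, fun x => ?_⟩) ?_
    · rw [← mulVec_mulVec, ← mulVec_mulVec, hg, mulVec_inv]; module
    · have := hgk g⁻¹ ⟨0, 1, fun x => ?_⟩
      · rwa [inv_inv] at this
      · rw [← mulVec_mulVec, ← mulVec_mulVec, inv_inv]
        have h1 := hg (((g⁻¹ : GL ι F) : Matrix ι ι F) *ᵥ (((g : Matrix ι ι F)) *ᵥ x))
        rw [inv_mulVec] at h1
        rw [← h1, inv_mulVec]; module
  constructor
  · refine lt_of_le_of_ne inf_le_right ?_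
    intro heq
    obtain ⟨u, -, hu0, hu⟩ := exists_sing hf (E := ⊤) (by rw [finrank_top, Module.finrank_fintype_fun_eq_card]; omega)
    obtain ⟨z, y, g, hQz, hz0, hyz, hg, hgu, hgk', hgy, hyn, hQy, hxy, hzy⟩ := hD.special hf hn hu0 hu
    have hgΩ : g ∈ omegaGL Q := T_le_omega hf (by omega) (E_mem hQz hzy hg)
    rw [← heq] at hgΩ
    obtain ⟨a, b, hab⟩ := (hKmem _).1 ((hgΩ.1 κ).1 hκ)
    have h1 := congrArg (fun A : Matrix ι ι F => A *ᵥ ((g : Matrix ι ι F) *ᵥ u)) hab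
    simp only [← mulVec_mulVec, inv_mulVec] at h1
    rw [hgk', hgu, add_mulVec, smul_mulVec, smul_mulVec, one_mulVec, mulVec_add] at h1
    have h0 : a = 0 ∧ b = 0 := by
      by_contra hne
      apply hyn
      apply hD.div (fun y hy => hD.stab hy) hne
      have : a • y + b • (κ *ᵥ y) = (-a) • u + (1 - b) • (κ *ᵥ u) := by
        rw [← sub_eq_zero] at h1 ⊢
        rw [← neg_eq_zero, ← h1]; module
      rw [this]
      exact KL_mem.2 ⟨_, _, rfl⟩
    rw [h0.1, h0.2, zero_smul, zero_smul, add_zero] at h1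
    exact hD.kne hf hu0 h1
  · intro M hM hMK
    have hKM : KM Q f κ ν τ M := by
      refine ⟨hD, fun g hg => ?_, fun v hv c g hg => ?_⟩
      · obtain ⟨h, -, rfl⟩ := hMK hg
        exact mem_iso.1 h.2
      · have h1 : f v (c • (κ *ᵥ v)) = 0 := by rw [hf.smul_right, hself, hv]; ring
        exact hM ⟨hcn g (fun x => hD.comm hf hv hg x), T_le_omega hf (by omega) (E_mem hv h1 hg)⟩
    by_cases hcase : ∀ u, u ≠ 0 → ∀ hu : Q u = 0, wSub hf hu M ≤ KL κ u
    · left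
      refine le_antisymm (le_inf ?_ hMK) hM
      have hall : ∀ g ∈ M, ∀ k ∈ K, (g : Matrix ι ι F) * k * ((g⁻¹ : GL ι F) : Matrix ι ι F) ∈ K := by
        intro g hg
        apply hgk
        apply hD.const hf hn
        intro v hv
        by_cases hv0 : v = 0
        · rw [hv0, mulVec_zero]; exact Submodule.zero_mem _
        have hiso := hKM.iso g hg
        have hv' : Q (((g⁻¹ : GL ι F) : Matrix ι ι F) *ᵥ v) = 0 := by rw [hiso.inv]; exact hv
        have h1 := wSub_map hf hg hiso hv' (by rw [mulVec_inv]; exact hv) (hKM.mem hf hv')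
        have h2 := hcase _ (by rw [mulVec_inv]; exact hv0) (by rw [mulVec_inv]; exact hv) h1
        rw [mulVec_inv] at h2
        rw [← mulVec_mulVec, ← mulVec_mulVec]
        exact h2
      intro g hg
      refine hnorm g (hall g hg) ?_
      have := hall g⁻¹ (M.inv_mem hg)
      rwa [inv_inv] at this
    · right
      push Not at hcase
      obtain ⟨u, hu0, hu, hle⟩ := hcase
      obtain ⟨w, hw, hwn⟩ := SetLike.not_le_iff_exists.1 hle
      refine le_antisymm hMK ((omega_le_T hf (by omega)).trans (hKM.top hf hn hu0 hu hw hwn))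

end CfsgH9.Og
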