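import Mathlib
import Cfsg.Agent.H9.MxNd
import Cfsg.Agent.H9.MxGU
import Cfsg.Agent.H9.NMax

set_option autoImplicit false

/-! Maximality of stabilisers of non-degenerate subspaces: the general case. -/

namespace CfsgH9.Og

open Matrix Cfsg Cfsg.Geo CfsgH9.Tv CfsgH9.Witt
open CfsgH9.MaxSymp (inv_mulVec mulVec_inv)
open CfsgH9.MaxRedSL (mem_stab_of mem_stab_iff)

variable {ι : Type} [Fintype ι] [DecidableEq ι] {F : Type*} [Field F]
variable {Q : (ι → F) → F} {f : (ι → F) → (ι → F) → F} {M : Subgroup (GL ι F)} {A B : Submodule F (ι → F)}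

/-- products of two reflections -/
lemma refl_pair [Finite F] (hf : Qf Q f) (hn : 5 ≤ Fintype.card ι) {a b : ι → F} (ha : Q a ≠ 0) (hab : Q a = Q b) {r s : GL ι F}
    (hr : IsR Q f r a) (hs : IsR Q f s b) : r * s ∈ omegaGL Q := by
  have ha0 : a ≠ 0 := by rintro rfl; exact ha hf.Q_zero
  have hb0 : b ≠ 0 := by rintro rfl; rw [hf.Q_zero] at hab; exact ha hab
  obtain ⟨h, hh, hab'⟩ := trans_T hf hn ha0 hb0 hab
  have hiso := Tg_iso hf hh
  have h1 := hr.conj hf hiso
  rw [hab'] at h1
  have h2 : s = h * r * h⁻¹ := hs.unique h1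
  have h3 := comm_mem_omega (hr.iso hf ha) hiso
  have hb : Q b ≠ 0 := by rw [← hab]; exact ha
  have h4 : r * s = r * h * r⁻¹ * h⁻¹ := by
    rw [h2, hr.inv_eq hf ha]; group
  rw [h4]; exact h3

lemma OD.perp_eq (hf : Qf Q f) (h : OD f A B) : CfsgH9.Og.perp hf A = B := by
  apply le_antisymm
  · intro x hx
    exact h.perp hf hx
  · intro x hx a ha
    exact hf.swap (h.orth a ha x hx)

/-- the dichotomy gives irreducibility -/
theorem PB.irr [Fintype F] (hf : Qf Q f) (hn : 13 ≤ Fintype.card ι) (h : PB Q f M A B) (h' : PB Q f M B A) (hA : Module.finrank F A ≤ 4)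
    (hH : subspaceStabilizer B ⊓ omegaGL Q ≤ M)
    (hex : ¬ (Fintype.card F ≤ 3 ∧ Module.finrank F A = 2 ∧ ∃ e ∈ A, e ≠ 0 ∧ Q e = 0)) : h.Irr hf := by
  intro u hu hu0 hQu y hy hy0 hyw
  -- reflections
  have hr : ∀ y ∈ A, y ∈ wSub hf hQu M → ∀ a ∈ A, Q a ≠ 0 → f y a ≠ 0 → a ∈ wSub hf hQu M := by
    intro y hy hyw a ha hQa hya
    obtain ⟨c, hc, d, hd, hQc, hQd, hcd, -⟩ := exists_hyp hf (A ⊔ Submodule.span F {u}) (by
      have h1 := Submodule.finrank_add_le_finrank_add_finrank A (Submodule.span F {u})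
      have h2 := fss (F := F) u
      omega)
    have hbm : c + Q a • d ∈ perp hf (A ⊔ Submodule.span F {u}) := Submodule.add_mem _ hc (Submodule.smul_mem _ _ hd)
    have hQb : Q (c + Q a • d) = Q a := by rw [hf.add, hf.smul, hf.smul_right, hQc, hQd, hcd]; ring
    generalize c + Q a • d = b at hbm hQb
    have hbA : ∀ x ∈ A, f x b = 0 := fun x hx => hf.swap (hbm x (Submodule.mem_sup_left hx))
    have hbB : b ∈ B := h.od.perp hf (fun x hx => hbm x (Submodule.mem_sup_left hx))
    have hbu : f u b = 0 := hf.swap (hbm u (Submodule.mem_sup_right (Submodule.mem_span_singleton_self u)))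
    have hQb0 : Q b ≠ 0 := by rw [hQb]; exact hQa
    obtain ⟨r, hr⟩ := exists_R hf hQa
    obtain ⟨s, hs⟩ := exists_R hf hQb0
    have hrs := refl_pair hf (by omega) hQa hQb.symm hr hs
    have hrsM : r * s ∈ M := by
      refine hH ⟨mem_stab_of _ _ ?_, hrs⟩
      intro x hx
      rw [Units.val_mul, ← mulVec_mulVec, hs, mulVec_sub, mulVec_smul, hr.fix (hf.swap (h.od.orth a ha x hx)),
        hr.fix (hf.swap (h.od.orth a ha b hbB))]
      exact B.sub_mem hx (B.smul_mem _ hbB)
    have hfix : ((r * s : GL ι F) : Matrix ι ι F) *ᵥ u = u := by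
      rw [Units.val_mul, ← mulVec_mulVec, hs.fix hbu, hr.fix (hf.swap (h.od.orth a ha u hu))]
    have h1 := wSub_fix hf hrsM (h.iso _ hrsM) hQu hfix hyw
    have h2 := Submodule.sub_mem _ hyw h1
    rw [Units.val_mul, ← mulVec_mulVec, hs.fix (hbA y hy), hr, sub_sub_cancel] at h2
    exact (Submodule.smul_mem_iff _ (mul_ne_zero (inv_ne_zero hQa) hya)).1 h2
  -- Siegel elements
  have hs : ∀ y ∈ A, y ≠ 0 → y ∈ wSub hf hQu M → ∀ c ∈ A, Q c = 0 → f y c = 0 → c ∈ wSub hf hQu M := by
    intro y hy hy0 hyw c hc hQc hyc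
    by_cases hd : y ∈ Submodule.span F {c}
    · obtain ⟨t, rfl⟩ := Submodule.mem_span_singleton.1 hd
      have ht : t ≠ 0 := by rintro rfl; rw [zero_smul] at hy0; exact hy0 rfl
      have := Submodule.smul_mem _ t⁻¹ hyw
      rwa [smul_smul, inv_mul_cancel₀ ht, one_smul] at this
    · have hC : Submodule.span F {c} ≤ A := by
        rw [Submodule.span_le]; rintro z rfl; exact hc
      obtain ⟨w, hw, hwC, hwy⟩ := h'.od.dual hf hC hy hd
      have hwc : f w c = 0 := hwC c (Submodule.mem_span_singleton_self c)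
      obtain ⟨g, hg⟩ := exists_E hf hQc (hf.swap hwc)
      have hgM : g ∈ M := h'.mem c hc w hw hQc (hf.swap hwc) g hg
      have hgu : (g : Matrix ι ι F) *ᵥ u = u := by
        rw [hg, h'.od.orth u hu c hc, h'.od.orth u hu w hw]; simp
      have hgy : (g : Matrix ι ι F) *ᵥ y = y - c := by
        rw [hg, hyc, hf.symm w y, hwy]; simp
      have h1 := wSub_fix hf hgM (h.iso g hgM) hQu hgu hyw
      rw [hgy] at h1
      have h2 := Submodule.sub_mem _ hyw h1
      rwa [sub_sub_cancel] at h2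
  by_contra hcon
  push Not at hcon
  obtain ⟨a0, ha0, ha0n⟩ := hcon
  -- the dichotomy
  have hns : ∀ x ∈ A, x ∉ wSub hf hQu M → Q x ≠ 0 → ∀ y ∈ A, y ∈ wSub hf hQu M → f y x = 0 := by
    intro x hx hxn hQx y hy hyw
    by_contra hne
    exact hxn (hr y hy hyw x hx hQx hne)
  have hsi : ∀ x ∈ A, x ∉ wSub hf hQu M → Q x = 0 → ∀ y ∈ A, y ≠ 0 → y ∈ wSub hf hQu M → f y x ≠ 0 := by
    intro x hx hxn hQx y hy hy0 hyw hne
    exact hxn (hs y hy hy0 hyw x hx hQx hne)
  -- a vector not perpendicular to y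
  obtain ⟨x1, hx1, hyx1⟩ := h'.od.nd hf hy hy0
  -- dimension one
  have hdim : ∀ z ∈ A, z ∈ wSub hf hQu M → z ∈ Submodule.span F {y} := by
    intro z hz hzw
    by_contra hzy
    -- no singular vectors outside
    have hsing : ∀ x ∈ A, Q x = 0 → x ∈ wSub hf hQu M := by
      intro x hx hQx
      by_contra hxn
      have e1 := hsi x hx hxn hQx y hy hy0 hyw
      have e2 : f (f y x • z - f z x • y) x = 0 := by
        rw [hf.sub_left, hf.smul_left, hf.smul_left]; ring
      apply hsi x hx hxn hQx (f y x • z - f z x • y) (A.sub_mem (A.smul_mem _ hz) (A.smul_mem _ hy)) ?_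
        (Submodule.sub_mem _ (Submodule.smul_mem _ _ hzw) (Submodule.smul_mem _ _ hyw)) e2
      intro h0
      apply hzy
      rw [← Submodule.smul_mem_iff _ e1, sub_eq_zero.1 h0]
      exact Submodule.smul_mem _ _ (Submodule.mem_span_singleton_self y)
    -- a0 ⊥ y, and x1 in R, a0 + x1
    have ha0s : Q a0 ≠ 0 := fun h0 => ha0n (hsing a0 ha0 h0)
    have e1 := hns a0 ha0 ha0n ha0s y hy hyw
    have hx1w : x1 ∈ wSub hf hQu M := by
      by_contra hx1n
      exact hyx1 (hns x1 hx1 hx1n (fun h0 => hx1n (hsing x1 hx1 h0)) y hy hyw)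
    have hax : a0 + x1 ∉ wSub hf hQu M := fun hmem => ha0n (by
      have := Submodule.sub_mem _ hmem hx1w
      rwa [add_sub_cancel_right] at this)
    have e2 := hns _ (A.add_mem ha0 hx1) hax (fun h0 => hax (hsing _ (A.add_mem ha0 hx1) h0)) y hy hyw
    rw [hf.add_right, e1, zero_add] at e2
    exact hyx1 e2
  have hnw : ∀ x ∈ A, x ∉ Submodule.span F {y} → x ∉ wSub hf hQu M := fun x hx hxn hxw => hxn (hdim x hx hxw)
  have ha0y : a0 ∉ Submodule.span F {y} := by
    intro hmem
    obtain ⟨c, rfl⟩ := Submodule.mem_span_singleton.1 hmem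
    exact ha0n (Submodule.smul_mem _ _ hyw)
  -- a vector outside with f y x = 1
  obtain ⟨x, hx, hxy, hyx⟩ : ∃ x ∈ A, x ∉ Submodule.span F {y} ∧ f y x = 1 := by
    by_cases h1 : f y a0 = 0
    · by_cases h2 : x1 ∈ Submodule.span F {y}
      · refine ⟨(f y x1)⁻¹ • (x1 + a0), A.smul_mem _ (A.add_mem hx1 ha0), ?_, ?_⟩
        · rw [Submodule.smul_mem_iff _ (inv_ne_zero hyx1)]
          intro h3
          have := Submodule.sub_mem _ h3 h2
          rw [add_sub_cancel_left] at this
          exact ha0y this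
        · rw [hf.smul_right, hf.add_right, h1, add_zero, inv_mul_cancel₀ hyx1]
      · refine ⟨(f y x1)⁻¹ • x1, A.smul_mem _ hx1, ?_, ?_⟩
        · rwa [Submodule.smul_mem_iff _ (inv_ne_zero hyx1)]
        · rw [hf.smul_right, inv_mul_cancel₀ hyx1]
    · refine ⟨(f y a0)⁻¹ • a0, A.smul_mem _ ha0, ?_, ?_⟩
      · rwa [Submodule.smul_mem_iff _ (inv_ne_zero h1)]
      · rw [hf.smul_right, inv_mul_cancel₀ h1]
  have hout : ∀ z ∈ A, z ∉ Submodule.span F {y} → f y z ≠ 0 → Q z = 0 := by
    intro z hz hzy hyz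
    by_contra hQz
    exact hyz (hns z hz (hnw z hz hzy) hQz y hy hyw)
  have hQx : Q x = 0 := hout x hx hxy (by rw [hyx]; exact one_ne_zero)
  have hxc : ∀ c : F, x + c • y ∉ Submodule.span F {y} := by
    intro c hmem
    have := Submodule.sub_mem _ hmem (Submodule.smul_mem _ c (Submodule.mem_span_singleton_self y))
    rw [add_sub_cancel_right] at this
    exact hxy this
  have hcc : ∀ c : F, f y (x + c • y) ≠ 0 → c * (1 + c * Q y) = 0 := by
    intro c hc
    have h1 := hout _ (A.add_mem hx (A.smul_mem c hy)) (hxc c) hc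
    rw [hf.add, hf.smul, hf.smul_right, hf.symm y x, hyx, hQx] at h1
    linear_combination h1
  have hyc : ∀ c : F, f y (x + c • y) = 1 + c * (2 * Q y) := by
    intro c
    rw [hf.add_right, hf.smul_right, hyx, hf.self]
  by_cases hQy : Q y = 0
  · have h1 := hcc 1 (by rw [hyc, hQy]; simp)
    rw [hQy] at h1
    simp at h1
  -- small field
  have hcard : Fintype.card F ≤ 3 := by
    classical
    have h1 : (Finset.univ : Finset F) ⊆ {0, -(Q y)⁻¹, -(2 * Q y)⁻¹} := by
      intro c _
      simp only [Finset.mem_insert, Finset.mem_singleton]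
      by_cases h2 : f y (x + c • y) = 0
      · rw [hyc] at h2
        right; right
        have h3 : 2 * Q y ≠ 0 := by
          intro h0
          rw [h0, mul_zero, add_zero] at h2
          exact one_ne_zero h2
        apply mul_right_cancel₀ h3
        rw [neg_mul, inv_mul_cancel₀ h3]
        linear_combination h2
      · rcases mul_eq_zero.1 (hcc c h2) with h3 | h3
        · left; exact h3
        · right; left
          field_simp
          linear_combination h3
    have h2 := Finset.card_le_card h1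
    rw [Finset.card_univ] at h2
    exact h2.trans Finset.card_le_three
  have hx0 : x ≠ 0 := by rintro rfl; rw [hf.zero_right] at hyx; exact zero_ne_one hyx
  by_cases h2 : Module.finrank F A = 2
  · exact hex ⟨hcard, h2, x, hx, hx0, hQx⟩
  -- third vector
  have h3 : ∃ z ∈ A, z ≠ 0 ∧ f z x = 0 ∧ f z y = 0 := by
    have hxyA : Submodule.span F {x, y} ≤ A := by
      rw [Submodule.span_le]
      rintro z (rfl | rfl)
      · exact hx
      · exact hy
    have h4 : 3 ≤ Module.finrank F A := by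
      have e1 : LinearIndependent F ![x, y] := by
        rw [LinearIndependent.pair_iff]
        intro s t hst
        have hs0 : s = 0 := by
          by_contra hs0
          apply hxy
          rw [← Submodule.smul_mem_iff _ hs0, eq_neg_of_add_eq_zero_left hst]
          exact Submodule.neg_mem _ (Submodule.smul_mem _ _ (Submodule.mem_span_singleton_self y))
        rw [hs0, zero_smul, zero_add] at hst
        exact ⟨hs0, (smul_eq_zero.1 hst).resolve_right hy0⟩
      have e2 := finrank_span_eq_card e1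
      rw [Matrix.range_cons, Matrix.range_cons, Matrix.range_empty, Set.union_empty, Set.singleton_union, Fintype.card_fin] at e2
      have e3 := Submodule.finrank_mono hxyA
      omega
    obtain ⟨z, hz, hz1, hz2⟩ := exists_avoid hf A ⊥ (k := 2) ![x, y] (by rw [finrank_bot]; omega)
    exact ⟨z, hz, by simpa using hz2, hz1 0, hz1 1⟩
  obtain ⟨z, hz, hz0, hzx, hzy⟩ := h3
  have hznot : z ∉ Submodule.span F {y} := by
    intro hmem
    obtain ⟨c, rfl⟩ := Submodule.mem_span_singleton.1 hmem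
    rw [hf.smul_left, hyx, mul_one] at hzx
    rw [hzx, zero_smul] at hz0
    exact hz0 rfl
  have hQz : Q z ≠ 0 := fun h0 => hsi z hz (hnw z hz hznot) h0 y hy hy0 hyw (hf.swap hzy)
  have hxz : x + z ∉ Submodule.span F {y} := by
    intro hmem
    obtain ⟨c, hc⟩ := Submodule.mem_span_singleton.1 hmem
    have e1 : f (x + z) x = 0 := by rw [hf.add_left, hf.self_of hQx, hzx, add_zero]
    rw [← hc, hf.smul_left, hyx, mul_one] at e1
    rw [e1, zero_smul] at hc
    have e2 : f y (x + z) = 1 := by rw [hf.add_right, hyx, hf.swap hzy, add_zero]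
    rw [← hc, hf.zero_right] at e2
    exact zero_ne_one e2
  have h5 := hout (x + z) (A.add_mem hx hz) hxz (by rw [hf.add_right, hyx, hf.swap hzy, add_zero]; exact one_ne_zero)
  rw [hf.add, hQx, hf.swap hzx, zero_add, add_zero] at h5
  exact hQz h5

/-- maximality, `A` small -/
theorem nd_max_small [Fintype F] (hf : Qf Q f) (hn : 13 ≤ Fintype.card ι) (h : OD f A B) (hA0 : A ≠ ⊥) (hA : Module.finrank F A ≤ 4)
    (hex : ¬ (Fintype.card F ≤ 3 ∧ Module.finrank F A = 2 ∧ ∃ e ∈ A, e ≠ 0 ∧ Q e = 0)) :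
    IsMaximalIn (omegaGL Q) (subspaceStabilizer B ⊓ omegaGL Q) := by
  have hfr := h.finrank hf
  refine ⟨stab_lt hf (by omega) h hA0 (by omega), ?_⟩
  intro M hM hMK
  by_cases hsub : M ≤ subspaceStabilizer B
  · left
    exact le_antisymm (le_inf hsub hMK) hM
  · right
    refine le_antisymm hMK ?_
    have hPB : PB Q f M A B := ⟨h, fun g hg => mem_iso_of_omega (hMK hg), fun u hu w hw hQu huw g hg =>
      hM ⟨stab_siegel hf hu hw hg, T_le_omega hf (by omega) (E_mem hQu huw hg)⟩⟩
    have hPB' : PB Q f M B A := ⟨h.symm hf, fun g hg => mem_iso_of_omega (hMK hg), fun u hu w hw hQu huw g hg =>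
      hM ⟨stab_siegel' hf h hu hw hg, T_le_omega hf (by omega) (E_mem hQu huw hg)⟩⟩
    obtain ⟨g, hg, hgn⟩ := SetLike.not_le_iff_exists.1 hsub
    refine (omega_le_T hf (by omega)).trans ?_
    obtain ⟨u0, hu0, hu00, hQu0⟩ := exists_sing hf (E := B) (by omega)
    obtain ⟨x0, hx0, hux0⟩ := h.nd hf hu0 hu00
    obtain ⟨u, hu, hQu, hgu⟩ : ∃ u ∈ B, Q u = 0 ∧ (g : Matrix ι ι F) *ᵥ u ∉ B := by
      by_contra hcon
      push Not at hcon
      apply hgn
      apply mem_stab_of
      have h1 : B ≤ B.comap (Matrix.toLin' (g : Matrix ι ι F)) := sing_span hf hu0 hQu0 hx0 hux0 (fun u hu hQu => by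
        rw [Submodule.mem_comap, Matrix.toLin'_apply]; exact hcon u hu hQu)
      intro x hx
      have := h1 hx
      rwa [Submodule.mem_comap, Matrix.toLin'_apply] at this
    exact hPB.main1 hf (hPB.irr hf hn hPB' hA hM hex) (by omega) (by omega) hg hu hQu hgu

/-- maximality, `A` at most as large as `B` -/
theorem nd_max [Fintype F] (hf : Qf Q f) (hn : 13 ≤ Fintype.card ι) (h : OD f A B) (hA0 : A ≠ ⊥)
    (hAB : Module.finrank F A ≤ Module.finrank F B)
    (hni : Module.finrank F A = Module.finrank F B → ∀ g : GL ι F, Iso Q g → ¬ (∀ x ∈ B, (g : Matrix ι ι F) *ᵥ x ∈ A))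
    (hex : ¬ (Fintype.card F ≤ 3 ∧ Module.finrank F A = 2 ∧ ∃ e ∈ A, e ≠ 0 ∧ Q e = 0)) :
    IsMaximalIn (omegaGL Q) (subspaceStabilizer B ⊓ omegaGL Q) := by
  have hfr := h.finrank hf
  by_cases hA : Module.finrank F A ≤ 4
  · exact nd_max_small hf hn h hA0 hA hex
  · refine nd_max_big hf h (by omega) (by omega) ?_
    intro g hg hgB
    refine hni ?_ g hg hgB
    refine le_antisymm hAB ?_
    have h1 : B.map (Matrix.toLin' (g : Matrix ι ι F)) ≤ A := by
      rintro _ ⟨x, hx, rfl⟩
      rw [Matrix.toLin'_apply]; exact hgB x hx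
    have h2 := Submodule.finrank_mono h1
    rwa [finrank_map_GL] at h2

/-- the stabilisers of the two parts agree -/
lemma stab_perp_eq (hf : Qf Q f) (h : OD f A B) : subspaceStabilizer A ⊓ omegaGL Q = subspaceStabilizer B ⊓ omegaGL Q := by
  have key : ∀ {A B : Submodule F (ι → F)}, OD f A B → subspaceStabilizer A ⊓ omegaGL Q ≤ subspaceStabilizer B ⊓ omegaGL Q := by
    intro A B h g hg
    have hiso := mem_iso_of_omega hg.2
    refine ⟨mem_stab_of _ _ ?_, hg.2⟩
    intro x hx
    apply h.perp hf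
    intro a ha
    have h1 : ((g⁻¹ : GL ι F) : Matrix ι ι F) *ᵥ a ∈ A := ((mem_stab_iff A g⁻¹).1 ((subspaceStabilizer A).inv_mem hg.1) a).1 ha
    rw [← mulVec_inv g a, hiso.form hf]
    exact hf.swap (h.orth _ h1 x hx)
  exact le_antisymm (key h) (key (h.symm hf))

lemma OD_of_nd (hf : Qf Q f) {W : Submodule F (ι → F)} (hW : ∀ w ∈ W, w ≠ 0 → ∃ x ∈ W, f x w ≠ 0) : OD f W (perp hf W) := by
  refine ⟨fun a ha b hb => hf.swap (hb a ha), ?_⟩
  apply Submodule.eq_top_of_finrank_eq
  have h1 := Submodule.finrank_sup_add_finrank_inf_eq W (perp hf W)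
  have h2 := finrank_perp hf W
  have h3 : W ⊓ perp hf W = ⊥ := by
    rw [eq_bot_iff]
    rintro x ⟨hx, hx'⟩
    by_contra hx0
    obtain ⟨y, hy, hxy⟩ := hW x hx hx0
    exact hxy (hf.swap (hx' y hy))
  rw [h3, finrank_bot] at h1
  rw [Module.finrank_fintype_fun_eq_card]
  omega

theorem nd_final [Fintype F] (hf : Qf Q f) (hn : 13 ≤ Fintype.card ι) {W : Submodule F (ι → F)}
    (hW : ∀ w ∈ W, w ≠ 0 → ∃ x ∈ W, f x w ≠ 0) (hW0 : W ≠ ⊥) (hW1 : W ≠ ⊤)
    (hni : 2 * Module.finrank F W = Fintype.card ι → ∀ g : GL ι F, Iso Q g → ¬ (∀ x ∈ perp hf W, (g : Matrix ι ι F) *ᵥ x ∈ W))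
    (hex : ¬ (Fintype.card F ≤ 3 ∧ Module.finrank F W = 2 ∧ ∃ e ∈ W, e ≠ 0 ∧ Q e = 0))
    (hex' : ¬ (Fintype.card F ≤ 3 ∧ Module.finrank F (perp hf W) = 2 ∧ ∃ e ∈ perp hf W, e ≠ 0 ∧ Q e = 0)) :
    IsMaximalIn (omegaGL Q) (subspaceStabilizer W ⊓ omegaGL Q) := by
  have hOD := OD_of_nd hf hW
  have hfr := finrank_perp hf W
  by_cases hle : Module.finrank F W ≤ Module.finrank F (perp hf W)
  · rw [stab_perp_eq hf hOD]
    exact nd_max hf hn hOD hW0 hle (fun h1 => hni (by omega)) hex
  · refine nd_max hf hn (hOD.symm hf) ?_ (by omega) (fun h1 => absurd h1 (by omega)) hex'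
    intro h0
    rw [h0, finrank_bot] at hfr
    apply hW1
    apply Submodule.eq_top_of_finrank_eq
    rw [Module.finrank_fintype_fun_eq_card]; omega

/-- isometric halves of even dimension give plus type -/
theorem plus_of_iso [Finite F] (hf : Qf Q f) {k : ℕ} (hk : Even k) (h : OD f A B) (hA : Module.finrank F A = k) (hB : Module.finrank F B = k)
    {g : GL ι F} (hg : Iso Q g) (hgB : ∀ x ∈ B, (g : Matrix ι ι F) *ᵥ x ∈ A) :
    ∃ U : Submodule F (ι → F), Module.finrank F U = k ∧ ∀ x ∈ U, Q x = 0 := by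
  have hfr := h.finrank hf
  have hmap : B.map (Matrix.toLin' (g : Matrix ι ι F)) = A := by
    apply Submodule.eq_of_le_of_finrank_eq
    · rintro _ ⟨x, hx, rfl⟩
      rw [Matrix.toLin'_apply]; exact hgB x hx
    · rw [finrank_map_GL, hA, hB]
  have hgA : ∀ a ∈ A, ((g⁻¹ : GL ι F) : Matrix ι ι F) *ᵥ a ∈ B := by
    intro a ha
    rw [← hmap] at ha
    obtain ⟨x, hx, rfl⟩ := ha
    rw [Matrix.toLin'_apply, inv_mulVec]; exact hx
  by_cases hi : ∃ i : F, i * i = -1
  · obtain ⟨i, hi⟩ := hi
    let L : (ι → F) →ₗ[F] (ι → F) := LinearMap.id + i • Matrix.toLin' (g : Matrix ι ι F)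
    have hL : ∀ x, L x = x + i • ((g : Matrix ι ι F) *ᵥ x) := fun x => by
      simp only [L, LinearMap.add_apply, LinearMap.id_apply, LinearMap.smul_apply, Matrix.toLin'_apply]
    refine ⟨B.map L, ?_, ?_⟩
    · rw [← hB]
      apply (LinearEquiv.finrank_eq (LinearEquiv.ofInjective (L.domRestrict B) ?_) |>.trans ?_).symm
      · intro x y hxy
        have h1 : L (x - y : B) = 0 := by
          have : L.domRestrict B (x - y) = 0 := by rw [map_sub, hxy, sub_self]
          exact this
        rw [hL] at h1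
        have h2 : ((x - y : B) : ι → F) ∈ A := by
          rw [eq_neg_of_add_eq_zero_left h1]
          exact A.neg_mem (A.smul_mem _ (hgB _ (x - y).2))
        have h3 := h.disj hf h2 (x - y).2
        exact sub_eq_zero.1 (Subtype.ext h3)
      · rw [LinearMap.range_domRestrict]
    · rintro _ ⟨x, hx, rfl⟩
      rw [hL, hf.add, hf.smul, hg, hf.smul_right, hf.swap (h.orth _ (hgB x hx) x hx), hi]; ring
  · push Not at hi
    have hc : IsCompl A B := by
      refine ⟨?_, codisjoint_iff.2 h.sup⟩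
      rw [disjoint_iff, eq_bot_iff]
      rintro x ⟨hx, hx'⟩
      exact (Submodule.mem_bot F).2 (h.disj hf hx hx')
    let J : (ι → F) →ₗ[F] (ι → F) := LinearMap.ofIsCompl hc (-(Matrix.toLin' ((g⁻¹ : GL ι F) : Matrix ι ι F)).comp A.subtype)
      ((Matrix.toLin' (g : Matrix ι ι F)).comp B.subtype)
    have hJ : ∀ a ∈ A, ∀ b ∈ B, J (a + b) = (g : Matrix ι ι F) *ᵥ b - ((g⁻¹ : GL ι F) : Matrix ι ι F) *ᵥ a := by
      intro a ha b hb
      have e1 : J a = -(((g⁻¹ : GL ι F) : Matrix ι ι F) *ᵥ a) := by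
        have := LinearMap.ofIsCompl_apply_left hc (φ := (-(Matrix.toLin' ((g⁻¹ : GL ι F) : Matrix ι ι F)).comp A.subtype))
          (ψ := ((Matrix.toLin' (g : Matrix ι ι F)).comp B.subtype)) ⟨a, ha⟩
        refine this.trans ?_
        rfl
      have e2 : J b = (g : Matrix ι ι F) *ᵥ b := by
        have := LinearMap.ofIsCompl_apply_right hc (φ := (-(Matrix.toLin' ((g⁻¹ : GL ι F) : Matrix ι ι F)).comp A.subtype))
          (ψ := ((Matrix.toLin' (g : Matrix ι ι F)).comp B.subtype)) ⟨b, hb⟩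
        refine this.trans ?_
        rfl
      rw [map_add, e1, e2]; abel
    have hJJ : ∀ x, J (J x) = -x := by
      intro x
      obtain ⟨a, ha, b, hb, rfl⟩ := h.split x
      rw [hJ a ha b hb, sub_eq_add_neg, ← mulVec_neg, hJ _ (hgB b hb) _ (by rw [mulVec_neg]; exact B.neg_mem (hgA a ha)), mulVec_neg, mulVec_neg,
        mulVec_inv, inv_mulVec]; abel
    have hJQ : ∀ x, Q (J x) = Q x := by
      intro x
      obtain ⟨a, ha, b, hb, rfl⟩ := h.split x
      rw [hJ a ha b hb, hf.Q_sub, hg, hg.inv, h.orth _ (hgB b hb) _ (hgA a ha), hf.add, h.orth a ha b hb]; ring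
    have hJf : ∀ x, f x (J x) = 0 := by
      intro x
      obtain ⟨a, ha, b, hb, rfl⟩ := h.split x
      rw [hJ a ha b hb, hf.add_left, hf.sub_right, hf.sub_right, h.orth a ha _ (hgA a ha), hf.swap (h.orth _ (hgB b hb) b hb),
        ← hg.form hf b, mulVec_inv, hf.symm a]; ring
    have hJff : ∀ x y, f (J x) (J y) = f x y := by
      intro x y
      have e1 := hJQ (x + y)
      rw [map_add, hf.add, hf.add, hJQ, hJQ] at e1
      linear_combination e1
    have key : ∀ r : ℕ, 2 * r ≤ k → ∃ U : Submodule F (ι → F), Module.finrank F U = 2 * r ∧ (∀ x ∈ U, Q x = 0) ∧ ∀ x ∈ U, J x ∈ U := by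
      intro r
      induction r with
      | zero =>
        intro _
        refine ⟨⊥, by rw [finrank_bot], ?_, ?_⟩
        · intro x hx; rw [(Submodule.mem_bot F).1 hx]; exact hf.Q_zero
        · intro x hx; rw [(Submodule.mem_bot F).1 hx, map_zero]; exact Submodule.zero_mem _
      | succ r ih =>
        intro hr
        obtain ⟨U, hUd, hUQ, hUJ⟩ := ih (by omega)
        obtain ⟨C, hC⟩ := Submodule.exists_isCompl U
        have e1 := finrank_perp hf U
        have e2 := Submodule.finrank_add_eq_of_isCompl hC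
        have e3 := Submodule.finrank_sup_add_finrank_inf_eq C (perp hf U)
        have e4 := Submodule.finrank_le (C ⊔ perp hf U)
        rw [Module.finrank_fintype_fun_eq_card] at e2 e4
        obtain ⟨x, hx, hx0, hQx⟩ := exists_sing hf (E := C ⊓ perp hf U) (by omega)
        have hxU : x ∉ U := by
          intro hmem
          have : x ∈ U ⊓ C := ⟨hmem, hx.1⟩
          rw [hC.disjoint.eq_bot] at this
          exact hx0 ((Submodule.mem_bot F).1 this)
        have hxp : ∀ u ∈ U, f x u = 0 := hx.2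
        have hJxp : ∀ u ∈ U, f (J x) u = 0 := by
          intro u hu
          have e5 := hJff (J x) u
          rw [hJJ, hf.neg_left, hxp _ (hUJ u hu)] at e5
          rw [← e5, neg_zero]
        have hJxU : J x ∉ U ⊔ Submodule.span F {x} := by
          intro hmem
          obtain ⟨u, hu, t, ht, hut⟩ := Submodule.mem_sup.1 hmem
          obtain ⟨c, rfl⟩ := Submodule.mem_span_singleton.1 ht
          have e5 := congrArg J hut
          rw [map_add, map_smul, hJJ, ← hut] at e5
          apply hxU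
          have e6 : c * c + 1 ≠ 0 := fun h0 => hi c (by linear_combination h0)
          rw [← Submodule.smul_mem_iff _ e6]
          have e7 : (c * c + 1) • x = -(J u + c • u) := by
            have e8 : c • (u + c • x) = c • u + (c * c) • x := by module
            rw [e8] at e5
            rw [add_smul, one_smul]
            have e9 : x = -(J u + (c • u + (c * c) • x)) := by rw [e5, neg_neg]
            nth_rewrite 2 [e9]
            abel
          rw [e7]
          exact U.neg_mem (U.add_mem (hUJ u hu) (U.smul_mem c hu))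
        refine ⟨U ⊔ Submodule.span F {x} ⊔ Submodule.span F {J x}, ?_, ?_, ?_⟩
        · rw [finrank_sup_span_eq hJxU, finrank_sup_span_eq hxU, hUd]; ring
        · intro z hz
          obtain ⟨z1, hz1, z2, hz2, rfl⟩ := Submodule.mem_sup.1 hz
          obtain ⟨u, hu, z3, hz3, rfl⟩ := Submodule.mem_sup.1 hz1
          obtain ⟨c, rfl⟩ := Submodule.mem_span_singleton.1 hz3
          obtain ⟨d, rfl⟩ := Submodule.mem_span_singleton.1 hz2
          rw [hf.add, hf.add, hf.smul, hf.smul, hf.add_left, hf.smul_right, hf.smul_right, hf.smul_left, hf.smul_right, hUQ u hu, hQx, hJQ, hQx,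
            hf.swap (hxp u hu), hf.swap (hJxp u hu), hJf]; ring
        · intro z hz
          obtain ⟨z1, hz1, z2, hz2, rfl⟩ := Submodule.mem_sup.1 hz
          obtain ⟨u, hu, z3, hz3, rfl⟩ := Submodule.mem_sup.1 hz1
          obtain ⟨c, rfl⟩ := Submodule.mem_span_singleton.1 hz3
          obtain ⟨d, rfl⟩ := Submodule.mem_span_singleton.1 hz2
          rw [map_add, map_add, map_smul, map_smul, hJJ]
          have m1 : x ∈ U ⊔ Submodule.span F {x} ⊔ Submodule.span F {J x} :=
            Submodule.mem_sup_left (Submodule.mem_sup_right (Submodule.mem_span_singleton_self x))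
          have m2 : J x ∈ U ⊔ Submodule.span F {x} ⊔ Submodule.span F {J x} := Submodule.mem_sup_right (Submodule.mem_span_singleton_self _)
          exact Submodule.add_mem _ (Submodule.add_mem _ (Submodule.mem_sup_left (Submodule.mem_sup_left (hUJ u hu))) (Submodule.smul_mem _ _ m2))
            (Submodule.smul_mem _ _ (Submodule.neg_mem _ m1))
    obtain ⟨m, hm⟩ := hk
    obtain ⟨U, hU1, hU2, -⟩ := key m (by omega)
    exact ⟨U, by omega, hU2⟩

end CfsgH9.Og
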