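import Mathlib
import Cfsg.Agent.H9.MxNd2
import Cfsg.Agent.H9.MxGU

set_option autoImplicit false

/-! Maximality of stabilisers of non-singular vectors in orthogonal groups. -/

namespace CfsgH9.Og

open Matrix Cfsg Cfsg.Geo CfsgH9.Tv CfsgH9.Witt
open CfsgH9.MaxSymp (inv_mulVec mulVec_inv)
open CfsgH9.MaxRedSL (mem_stab_of mem_stab_iff)

variable {ι : Type} [Fintype ι] [DecidableEq ι] {F : Type*} [Field F]
variable {Q : (ι → F) → F} {f : (ι → F) → (ι → F) → F} {M : Subgroup (GL ι F)}

lemma XE_move (hf : Qf Q f) (hM : ∀ g ∈ M, Iso Q g) {a b x : ι → F} (hXa : XE Q f M a) (hXb : XE Q f M b) (ha : Q a = 0)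
    (hb : Q b = 0) (hab : f b a = 1) (hx : Q x = 0) (hxa : f x a ≠ 0) : XE Q f M x := by
  have h2 : f ((f x a)⁻¹ • x) a = 1 := by rw [hf.smul_left, inv_mul_cancel₀ hxa]
  have h3 : f a ((f x a)⁻¹ • x - b) = 0 := by rw [← hf.symm, hf.sub_left, h2, hab, sub_self]
  obtain ⟨g, hg⟩ := exists_E hf ha h3
  have h4 := move hf (by rw [hf.smul, hb, hx]; ring) ha hab h2 hg
  have h5 := XE_map hf (hXa _ _ h3 hg) (hM _ (hXa _ _ h3 hg)) hXb
  rw [h4] at h5
  exact XE_of_smul hf (inv_ne_zero hxa) h5

theorem XE_spread (hf : Qf Q f) (hM : ∀ g ∈ M, Iso Q g) {a b : ι → F} (hXa : XE Q f M a) (hXb : XE Q f M b) (ha : Q a = 0)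
    (hb : Q b = 0) (hab : f a b = 1) {x : ι → F} (hx : Q x = 0) : XE Q f M x := by
  have hba : f b a = 1 := by rw [hf.symm]; exact hab
  by_cases h1 : f x a = 0
  · by_cases h2 : f x b = 0
    · by_cases hx0 : x = 0
      · intro w g _ hg
        rw [hx0] at hg
        rw [E_zero hf hg]; exact M.one_mem
      · have hn : x ∉ Submodule.span F {a, b} := by
          intro hmem
          obtain ⟨c, d, rfl⟩ := Submodule.mem_span_pair.1 hmem
          rw [hf.add_left, hf.smul_left, hf.smul_left, hf.self_of ha, hba, mul_zero, zero_add, mul_one] at h1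
          rw [hf.add_left, hf.smul_left, hf.smul_left, hab, h1, zero_mul, add_zero, mul_one] at h2
          apply hx0
          rw [h1, h2, zero_smul, zero_smul, add_zero]
        obtain ⟨z, hz, hzx⟩ := exists_perp hf hn
        obtain ⟨hza, hzb⟩ := (mem_perp_pair hf).1 hz
        have hQy : Q (b + z - Q z • a) = 0 := by
          rw [hf.Q_sub, hf.add, hf.smul, ha, hb, hf.smul_right, hf.add_left, hba, hza, hf.symm z b, hzb]; ring
        have hya : f (b + z - Q z • a) a = 1 := by
          rw [hf.sub_left, hf.add_left, hf.smul_left, hba, hza, hf.self_of ha]; ring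
        have hXy := XE_move hf hM hXa hXb ha hb hba hQy (by rw [hya]; exact one_ne_zero)
        refine XE_move hf hM hXy hXa hQy ha (by rw [hf.symm]; exact hya) hx ?_
        rw [hf.sub_right, hf.add_right, hf.smul_right, h1, h2, hf.symm z x, hzx]
        simp
    · exact XE_move hf hM hXb hXa hb ha hab hx h2
  · exact XE_move hf hM hXa hXb ha hb hba hx h1

theorem ns_max [Finite F] (hf : Qf Q f) (hn : 7 ≤ Fintype.card ι) {v : ι → F} (hv : Q v ≠ 0) :
    IsMaximalIn (omegaGL Q) (subspaceStabilizer (Submodule.span F {v}) ⊓ omegaGL Q) := by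
  have hv0 : v ≠ 0 := by rintro rfl; exact hv hf.Q_zero
  have hsing : ∀ u, Q u = 0 → u ∈ Submodule.span F {v} → u = 0 := by
    intro u hu hmem
    obtain ⟨c, rfl⟩ := Submodule.mem_span_singleton.1 hmem
    rw [hf.smul] at hu
    have : c = 0 := by
      rcases mul_eq_zero.1 hu with h | h
      · exact mul_self_eq_zero.1 (by linear_combination h)
      · exact absurd h hv
    rw [this, zero_smul]
  constructor
  · refine lt_of_le_of_ne inf_le_right ?_
    intro heq
    obtain ⟨a, ha, b, hb, haQ, hbQ, hab, hav⟩ := exists_hyp hf (Submodule.span F {v}) (by have := fss (F := F) v; omega)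
    have ha0 : a ≠ 0 := by rintro rfl; exact hav (Submodule.zero_mem _)
    have hva : v ∉ Submodule.span F {a} := by
      intro hmem
      obtain ⟨c, hc⟩ := Submodule.mem_span_singleton.1 hmem
      apply hv
      rw [← hc, hf.smul, haQ, mul_zero]
    obtain ⟨w, hw, hwv⟩ := exists_perp hf hva
    have haw := hf.swap ((mem_perp_one hf).1 hw)
    obtain ⟨g, hg⟩ := exists_E hf haQ haw
    have hgo : g ∈ omegaGL Q := T_le_omega hf (by omega) (E_mem haQ haw hg)
    rw [← heq] at hgo
    have h2 := ((mem_stab_iff _ _).1 hgo.1 v).1 (Submodule.mem_span_singleton_self v)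
    rw [hg, hf.symm w v, hwv, hf.swap ((mem_perp_one hf).1 ha)] at h2
    have h3 := Submodule.sub_mem _ (Submodule.mem_span_singleton_self v) h2
    have h4 : v - (v + (0 : F) • w - (1 + Q w * 0) • a) = a := by module
    rw [h4] at h3
    exact hav h3
  · intro M hM hMK
    by_cases hsub : M ≤ subspaceStabilizer (Submodule.span F {v})
    · left
      exact le_antisymm (le_inf hsub hMK) hM
    right
    refine le_antisymm hMK ?_
    have hMiso : ∀ h ∈ M, Iso Q h := fun h hh => (mem_omega.1 (hMK hh)).1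
    obtain ⟨g, hgM, hgv⟩ : ∃ g ∈ M, (g : Matrix ι ι F) *ᵥ v ∉ Submodule.span F {v} := by
      by_contra hcon
      push Not at hcon
      apply hsub
      intro g hg
      apply mem_stab_of
      intro x hx
      obtain ⟨c, rfl⟩ := Submodule.mem_span_singleton.1 hx
      rw [mulVec_smul]
      exact Submodule.smul_mem _ _ (hcon g hg)
    obtain ⟨v', hv'⟩ : ∃ v', (g : Matrix ι ι F) *ᵥ v = v' := ⟨_, rfl⟩
    rw [hv'] at hgv
    obtain ⟨a, ha, b, hb, haQ, hbQ, hab, hav⟩ := exists_hyp hf (Submodule.span F {v, v'})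
      (by have := finrank_span_pair (F := F) v v'; omega)
    have hE1 : ∀ u w, Q u = 0 → f u w = 0 → f u v = 0 → f w v = 0 → ∀ h, IsE Q f h u w → h ∈ M := by
      intro u w hQu huw huv hwv h hh
      refine hM ⟨mem_stab_of _ _ ?_, T_le_omega hf (by omega) (E_mem hQu huw hh)⟩
      intro x hx
      obtain ⟨c, rfl⟩ := Submodule.mem_span_singleton.1 hx
      rw [mulVec_smul, hh, hf.swap huv, hf.swap hwv]
      apply Submodule.smul_mem
      have : v + (0 : F) • w - (0 + Q w * 0) • u = v := by module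
      rw [this]; exact Submodule.mem_span_singleton_self v
    have hE2 : ∀ u w, Q u = 0 → f u w = 0 → f u v' = 0 → f w v' = 0 → ∀ h, IsE Q f h u w → h ∈ M := by
      intro u w hQu huw huv hwv h hh
      have hgi := hMiso g hgM
      have h1 : IsE Q f (g⁻¹ * h * g) (((g⁻¹ : GL ι F) : Matrix ι ι F) *ᵥ u) (((g⁻¹ : GL ι F) : Matrix ι ι F) *ᵥ w) := by
        have := hh.conj hf hgi.inv
        rwa [inv_inv] at this
      have e1 : ∀ y, f y v' = 0 → f (((g⁻¹ : GL ι F) : Matrix ι ι F) *ᵥ y) v = 0 := by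
        intro y hy
        rw [← hgi.form hf, mulVec_inv, hv']; exact hy
      have h2 := hE1 _ _ (by rw [hgi.inv]; exact hQu) (by rw [hgi.inv.form hf]; exact huw) (e1 u huv) (e1 w hwv) _ h1
      have h3 := M.mul_mem (M.mul_mem hgM h2) (M.inv_mem hgM)
      have h4 : g * (g⁻¹ * h * g) * g⁻¹ = h := by group
      rwa [h4] at h3
    have key : ∀ u c, u ∈ perp hf (Submodule.span F {v, v'}) → c ∈ perp hf (Submodule.span F {v, v'}) → Q u = 0 → f u c ≠ 0 →
        XE Q f M u := by
      intro u c hu hc hQu huc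
      obtain ⟨hu1, hu2⟩ := (mem_perp_pair hf).1 hu
      obtain ⟨hc1, hc2⟩ := (mem_perp_pair hf).1 hc
      have hvn : v ∉ Submodule.span F {u, v'} := by
        intro hmem
        obtain ⟨s, t, hst⟩ := Submodule.mem_span_pair.1 hmem
        have h1 : s * f u c = 0 := by
          have h2 : f (s • u + t • v') c = 0 := by rw [hst]; exact hf.swap hc1
          rwa [hf.add_left, hf.smul_left, hf.smul_left, hf.swap hc2, mul_zero, add_zero] at h2
        have hs : s = 0 := (mul_eq_zero.1 h1).resolve_right huc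
        rw [hs, zero_smul, zero_add] at hst
        have ht : t ≠ 0 := by rintro rfl; rw [zero_smul] at hst; exact hv0 hst.symm
        apply hgv
        rw [← Submodule.smul_mem_iff _ ht, hst]
        exact Submodule.mem_span_singleton_self v
      obtain ⟨z, hz, hzv⟩ := exists_perp hf hvn
      obtain ⟨hzu, hzv'⟩ := (mem_perp_pair hf).1 hz
      have hwz : z ∈ wSub hf hQu M :=
        ⟨hf.swap hzu, fun c g hg => hE2 u (c • z) hQu (by rw [hf.smul_right, hf.swap hzu, mul_zero]) hu2
          (by rw [hf.smul_left, hzv', mul_zero]) g hg⟩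
      apply XE_of_wSub hf hQu
      intro w hw
      have h1 : w - f w v • z ∈ wSub hf hQu M := by
        have h2 : f u (w - f w v • z) = 0 := by rw [hf.sub_right, hf.smul_right, hw, hf.swap hzu]; ring
        refine ⟨h2, fun c g hg => hE1 u _ hQu (by rw [hf.smul_right, h2, mul_zero]) hu1 ?_ g hg⟩
        rw [hf.smul_left, hf.sub_left, hf.smul_left, hzv]; ring
      have h2 := Submodule.add_mem _ h1 (Submodule.smul_mem _ (f w v) hwz)
      rwa [sub_add_cancel] at h2
    have hXa := key a b ha hb haQ (by rw [hab]; exact one_ne_zero)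
    have hXb := key b a hb ha hbQ (by rw [hf.symm, hab]; exact one_ne_zero)
    refine (omega_le_T hf (by omega)).trans (T_le_of_XE ?_)
    intro u hu
    exact XE_spread hf hMiso hXa hXb haQ hbQ hab hu

end CfsgH9.Og
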