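import Mathlib
import Cfsg.Agent.H9.MxNd
import Cfsg.Agent.H9.OgStd

set_option autoImplicit false

/-! Maximality of the similarity group of a quadratic form in SL. -/

namespace CfsgH9.Og

open Matrix Cfsg Cfsg.Geo CfsgH9.Tv CfsgH9.Witt
open CfsgH9.MaxSymp (inv_mulVec mulVec_inv)
open CfsgH9.MaxRedSL (mem_stab_of mem_stab_iff)

variable {ι : Type} [Fintype ι] [DecidableEq ι] {F : Type*} [Field F]
variable {Q : (ι → F) → F} {f : (ι → F) → (ι → F) → F} {M : Subgroup (GL ι F)}
variable {Q' : (ι → F) → F} {f' : (ι → F) → (ι → F) → F}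

/-- transvections -/
def IsTr (f : (ι → F) → (ι → F) → F) (g : GL ι F) (v z : ι → F) : Prop :=
  ∀ x, (g : Matrix ι ι F) *ᵥ x = x + f x z • v

lemma IsTr.unique {g h : GL ι F} {v z : ι → F} (hg : IsTr f g v z) (hh : IsTr f h v z) : g = h :=
  ext_mulVec fun x => by rw [hg, hh]

lemma exists_Tr (hf : Qf Q f) {v z : ι → F} (h : f v z = 0) : ∃ g : GL ι F, IsTr f g v z := by
  refine ⟨tv v (cov f z) (by rw [cov_dot hf]; exact h), fun x => ?_⟩
  rw [tv_mulVec, cov_dot hf]

/-- transvection groups in `M` -/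
def TP (f : (ι → F) → (ι → F) → F) (M : Subgroup (GL ι F)) (v z : ι → F) : Prop :=
  f v z = 0 ∧ ∀ (c : F) (g : GL ι F), IsTr f g (c • v) z → g ∈ M

lemma TP.zero_left (hf : Qf Q f) (z : ι → F) : TP f M 0 z := by
  refine ⟨hf.zero_left z, fun c g hg => ?_⟩
  have : g = 1 := ext_mulVec fun x => by rw [hg, Units.val_one, one_mulVec]; simp
  rw [this]; exact M.one_mem

lemma TP.zero_right (hf : Qf Q f) (v : ι → F) : TP f M v 0 := by
  refine ⟨hf.zero_right v, fun c g hg => ?_⟩
  have : g = 1 := ext_mulVec fun x => by rw [hg, hf.zero_right, Units.val_one, one_mulVec]; simp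
  rw [this]; exact M.one_mem

lemma TP.add_right (hf : Qf Q f) {v z z' : ι → F} (h : TP f M v z) (h' : TP f M v z') : TP f M v (z + z') := by
  refine ⟨by rw [hf.add_right, h.1, h'.1, add_zero], fun c g hg => ?_⟩
  obtain ⟨g1, hg1⟩ := exists_Tr hf (v := c • v) (z := z) (by rw [hf.smul_left, h.1, mul_zero])
  obtain ⟨g2, hg2⟩ := exists_Tr hf (v := c • v) (z := z') (by rw [hf.smul_left, h'.1, mul_zero])
  have : g = g1 * g2 := ext_mulVec fun x => by
    rw [hg, Units.val_mul, ← mulVec_mulVec, hg2, hg1, hf.add_left, hf.smul_left, hf.smul_left, h.1, hf.add_right]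
    module
  rw [this]
  exact M.mul_mem (h.2 c g1 hg1) (h'.2 c g2 hg2)

lemma TP.smul_right (hf : Qf Q f) {v z : ι → F} (h : TP f M v z) (d : F) : TP f M v (d • z) := by
  refine ⟨by rw [hf.smul_right, h.1, mul_zero], fun c g hg => h.2 (d * c) g fun x => ?_⟩
  rw [hg, hf.smul_right]; module

lemma TP.add_left (hf : Qf Q f) {v v' z : ι → F} (h : TP f M v z) (h' : TP f M v' z) : TP f M (v + v') z := by
  refine ⟨by rw [hf.add_left, h.1, h'.1, add_zero], fun c g hg => ?_⟩
  obtain ⟨g1, hg1⟩ := exists_Tr hf (v := c • v) (z := z) (by rw [hf.smul_left, h.1, mul_zero])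
  obtain ⟨g2, hg2⟩ := exists_Tr hf (v := c • v') (z := z) (by rw [hf.smul_left, h'.1, mul_zero])
  have : g = g1 * g2 := ext_mulVec fun x => by
    rw [hg, Units.val_mul, ← mulVec_mulVec, hg2, hg1, hf.add_left, hf.smul_left, hf.smul_left, h'.1]
    module
  rw [this]
  exact M.mul_mem (h.2 c g1 hg1) (h'.2 c g2 hg2)

lemma TP.smul_left (hf : Qf Q f) {v z : ι → F} (h : TP f M v z) (d : F) : TP f M (d • v) z := by
  refine ⟨by rw [hf.smul_left, h.1, mul_zero], fun c g hg => h.2 (c * d) g fun x => ?_⟩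
  rw [hg]; module

lemma TP.conj (hf : Qf Q f) {v z : ι → F} (h : TP f M v z) {k : GL ι F} (hk : k ∈ M) (hiso : Iso Q k) :
    TP f M ((k : Matrix ι ι F) *ᵥ v) ((k : Matrix ι ι F) *ᵥ z) := by
  refine ⟨by rw [hiso.form hf]; exact h.1, fun c g hg => ?_⟩
  have h1 : k⁻¹ * g * k ∈ M := by
    refine h.2 c _ fun x => ?_
    rw [Units.val_mul, Units.val_mul, ← mulVec_mulVec, ← mulVec_mulVec, hg, mulVec_add, mulVec_smul, mulVec_smul,
      inv_mulVec, inv_mulVec, hiso.form hf]
  have h2 := M.mul_mem (M.mul_mem hk h1) (M.inv_mem hk)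
  have h3 : k * (k⁻¹ * g * k) * k⁻¹ = g := by group
  rwa [h3] at h2

/-- all orthogonal pairs -/
theorem sl_le_of_TP (hf : Qf Q f) (h : ∀ v z, f v z = 0 → TP f M v z) : specialLinear ι F ≤ M := by
  intro g hg
  have hdet : (g : Matrix ι ι F).det = 1 := by
    have := congrArg Units.val (MonoidHom.mem_ker.1 hg)
    simpa using this
  refine mem_of_tv (fun u a ha => ?_) g hdet
  let l : (ι → F) →ₗ[F] F :=
    { toFun := fun x => a ⬝ᵥ x
      map_add' := fun x y => dotProduct_add _ _ _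
      map_smul' := fun c x => by rw [dotProduct_smul]; rfl }
  obtain ⟨z, hz⟩ := rep hf l
  have hz' : ∀ x, a ⬝ᵥ x = f x z := hz
  have huz : f u z = 0 := by rw [← hz', ha]
  refine (h u z huz).2 1 _ fun x => ?_
  rw [tv_mulVec, hz', one_smul]

/-- from one transvection on -/
theorem sl_le_of_one [Finite F] (hf : Qf Q f) (h2 : (2 : F) ≠ 0) (hn : 6 ≤ Fintype.card ι) (hT : Tg Q f ≤ M)
    {u z : ι → F} (hu0 : u ≠ 0) (hz0 : z ≠ 0) (hQu : Q u = 0) (h : TP f M u z) : specialLinear ι F ≤ M := by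
  have huz := h.1
  -- centre and axis
  have h1 : TP f M u u := by
    by_cases hz : z ∈ Submodule.span F {u}
    · obtain ⟨c, rfl⟩ := Submodule.mem_span_singleton.1 hz
      have hc : c ≠ 0 := by rintro rfl; rw [zero_smul] at hz0; exact hz0 rfl
      have := h.smul_right hf c⁻¹
      rwa [smul_smul, inv_mul_cancel₀ hc, one_smul] at this
    · obtain ⟨w, hw, hwz⟩ := exists_perp hf hz
      have hwu : f w u = 0 := (mem_perp_one hf).1 hw
      obtain ⟨k, hk⟩ := exists_E hf hQu (hf.swap hwu)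
      have hkM : k ∈ M := hT (E_mem hQu (hf.swap hwu) hk)
      have hku : (k : Matrix ι ι F) *ᵥ u = u := by rw [hk, hf.self_of hQu, hf.swap hwu]; simp
      have hkz : (k : Matrix ι ι F) *ᵥ z = z - u := by
        rw [hk, hf.swap huz, hf.symm w z, hwz]; simp
      have h2 := h.conj hf hkM (hk.iso hf hQu (hf.swap hwu))
      rw [hku, hkz] at h2
      have h3 := h.add_right hf (h2.smul_right hf (-1))
      have h4 : z + (-1 : F) • (z - u) = u := by module
      rwa [h4] at h3
  have h3 : ∀ v, Q v = 0 → TP f M v v := by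
    intro v hv
    by_cases hv0 : v = 0
    · rw [hv0]; exact TP.zero_left hf 0
    obtain ⟨k, hk, hkv⟩ := trans_T hf (by omega) hu0 hv0 (by rw [hQu, hv])
    have := h1.conj hf (hT hk) (Tg_iso hf hk)
    rwa [hkv] at this
  have h4 : ∀ u v, Q u = 0 → Q v = 0 → f u v = 0 → TP f M v u := by
    intro u v hu hv huv
    have hvu := hf.swap huv
    refine ⟨hvu, fun c g hg => ?_⟩
    set d := c * 2⁻¹ with hd
    have hcd : c = d + d := by rw [hd]; field_simp; ring
    have hQuv : Q (u + v) = 0 := by rw [hf.add, hu, hv, huv]; ring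
    obtain ⟨g1, hg1⟩ := exists_Tr hf (v := d • (u + v)) (z := u + v) (by rw [hf.smul_left, hf.self_of hQuv, mul_zero])
    obtain ⟨g2, hg2⟩ := exists_Tr hf (v := (-d) • u) (z := u) (by rw [hf.smul_left, hf.self_of hu, mul_zero])
    obtain ⟨g3, hg3⟩ := exists_Tr hf (v := (-d) • v) (z := v) (by rw [hf.smul_left, hf.self_of hv, mul_zero])
    have hudv : f u (d • v) = 0 := by rw [hf.smul_right, huv, mul_zero]
    obtain ⟨g4, hg4⟩ := exists_E hf hu hudv
    have : g = g1 * (g2 * (g3 * g4)) := ext_mulVec fun x => by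
      rw [hg, Units.val_mul, Units.val_mul, Units.val_mul, ← mulVec_mulVec, ← mulVec_mulVec, ← mulVec_mulVec, hg4, hg3, hg2, hg1]
      simp only [hf.add_left, hf.sub_left, hf.smul_left, hf.add_right, hf.smul_right, hf.self_of hu, hf.self_of hv, huv, hvu,
        hf.smul, hv, mul_zero, add_zero, zero_add, sub_zero, zero_mul]
      rw [hcd]; module
    rw [this]
    exact M.mul_mem ((h3 _ hQuv).2 d g1 hg1) (M.mul_mem ((h3 u hu).2 (-d) g2 hg2) (M.mul_mem ((h3 v hv).2 (-d) g3 hg3)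
      (hT (E_mem hu hudv hg4))))
  have h5 : ∀ v, Q v = 0 → ∀ z, f v z = 0 → TP f M v z := by
    intro v hv z hvz
    by_cases hv0 : v = 0
    · rw [hv0]; exact TP.zero_left hf z
    let P : Submodule F (ι → F) :=
      { carrier := {z | TP f M v z}
        add_mem' := fun hx hy => hx.add_right hf hy
        zero_mem' := TP.zero_right hf v
        smul_mem' := fun c x hx => hx.smul_right hf c }
    have := sing_span_perp hf (by omega) hv0 hv (P := P) (fun x hx hQx => h4 x v hQx hv hx)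
    exact this ((mem_perp_one hf).2 (hf.swap hvz))
  refine sl_le_of_TP hf fun v z hvz => ?_
  by_cases hz0 : z = 0
  · rw [hz0]; exact TP.zero_right hf v
  let P : Submodule F (ι → F) :=
    { carrier := {v | TP f M v z}
      add_mem' := fun hx hy => hx.add_left hf hy
      zero_mem' := TP.zero_left hf z
      smul_mem' := fun c x hx => hx.smul_left hf c }
  obtain ⟨t, ht⟩ := hf.nondeg z hz0
  obtain ⟨a, ha, ha0, hQa⟩ := exists_sing hf (E := perp hf (Submodule.span F {z, t})) (by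
    have e1 := finrank_perp hf (Submodule.span F {z, t})
    have e2 := finrank_span_pair (F := F) z t
    omega)
  obtain ⟨haz, hat⟩ := (mem_perp_pair hf).1 ha
  have hb : ∃ b, f b z = 0 ∧ f a b ≠ 0 := by
    by_contra hcon
    push Not at hcon
    have e1 : a ∈ perp hf (perp hf (Submodule.span F {z})) := fun b hb => hcon b ((mem_perp_one hf).1 hb)
    rw [perp_perp] at e1
    obtain ⟨c, rfl⟩ := Submodule.mem_span_singleton.1 e1
    have hc : c ≠ 0 := by rintro rfl; rw [zero_smul] at ha0; exact ha0 rfl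
    rw [hf.smul_left] at hat
    exact ht ((mul_eq_zero.1 hat).resolve_left hc)
  obtain ⟨b, hbz, hab⟩ := hb
  have := sing_span hf (E := perp hf (Submodule.span F {z})) (P := P) ((mem_perp_one hf).2 haz) hQa ((mem_perp_one hf).2 hbz) hab
    (fun x hx hQx => h5 x hQx z ((mem_perp_one hf).1 hx))
  exact this ((mem_perp_one hf).2 hvz)

/-- totally singular subspaces exist -/
lemma exists_ts [Finite F] (hf : Qf Q f) (j : ℕ) : 2 * j + 1 ≤ Fintype.card ι →
    ∃ W : Submodule F (ι → F), Module.finrank F W = j ∧ ∀ x ∈ W, Q x = 0 := by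
  induction j with
  | zero =>
    intro _
    exact ⟨⊥, finrank_bot F _, fun x hx => by rw [(Submodule.mem_bot F).1 hx, hf.Q_zero]⟩
  | succ j ih =>
    intro hj
    obtain ⟨W, hW, hWs⟩ := ih (by omega)
    obtain ⟨C, hC⟩ := Submodule.exists_isCompl W
    have h1 := finrank_perp hf W
    have h2 := Submodule.finrank_sup_add_finrank_inf_eq (perp hf W) C
    have h3 := Submodule.finrank_add_eq_of_isCompl hC
    have h4 := Submodule.finrank_le (perp hf W ⊔ C)
    rw [Module.finrank_fintype_fun_eq_card] at h3 h4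
    obtain ⟨x, hx, hx0, hQx⟩ := exists_sing hf (E := perp hf W ⊓ C) (by omega)
    have hxW : x ∉ W := by
      intro h
      have : x ∈ W ⊓ C := ⟨h, hx.2⟩
      rw [hC.disjoint.eq_bot, Submodule.mem_bot] at this
      exact hx0 this
    refine ⟨W ⊔ Submodule.span F {x}, by rw [finrank_sup_span_eq hxW, hW], ?_⟩
    intro z hz
    obtain ⟨w, hw, c, rfl⟩ := CfsgH9.Witt.mem_sup_span.1 hz
    rw [hf.add, hf.smul, hf.smul_right, hWs w hw, hQx, hf.swap (hx.1 w hw)]; ring

/-- two independent common singular vectors -/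
lemma exists_common [Finite F] (hf : Qf Q f) (hf' : Qf Q' f') (hn : 9 ≤ Fintype.card ι) :
    ∃ u u2 : ι → F, u ≠ 0 ∧ u2 ∉ Submodule.span F {u} ∧ Q u = 0 ∧ Q' u = 0 ∧ Q u2 = 0 ∧ Q' u2 = 0 := by
  obtain ⟨W, hW, hWs⟩ := exists_ts hf 4 (by omega)
  obtain ⟨u, hu, hu0, hQu⟩ := exists_sing hf' (E := W) (by omega)
  obtain ⟨C, hC⟩ := Submodule.exists_isCompl (Submodule.span F {u})
  have h2 := Submodule.finrank_sup_add_finrank_inf_eq W C
  have h3 := Submodule.finrank_add_eq_of_isCompl hC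
  have h4 := Submodule.finrank_le (W ⊔ C)
  rw [finrank_span_singleton hu0] at h3
  obtain ⟨u2, hu2, hu20, hQu2⟩ := exists_sing hf' (E := W ⊓ C) (by omega)
  refine ⟨u, u2, hu0, ?_, hWs u hu, hQu, hWs u2 hu2.1, hQu2⟩
  intro h
  have : u2 ∈ Submodule.span F {u} ⊓ C := ⟨h, hu2.2⟩
  rw [hC.disjoint.eq_bot, Submodule.mem_bot] at this
  exact hu20 this

/-- case 1 -/
lemma tr_case1 (hf : Qf Q f) (hf' : Qf Q' f') (hn : 5 ≤ Fintype.card ι) (hM : ∀ u w g, Q u = 0 → f u w = 0 → IsE Q f g u w → g ∈ M)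
    (hM' : ∀ u w g, Q' u = 0 → f' u w = 0 → IsE Q' f' g u w → g ∈ M) {u : ι → F} (hQu : Q u = 0) (hQ'u : Q' u = 0)
    (hnp : ∀ c : F, ¬ ∀ x, f' x u = c * f x u) : ∃ z, z ≠ 0 ∧ TP f M u z := by
  obtain ⟨z', hz'⟩ := rep hf (fl hf' u)
  have hz' : ∀ x, f' x u = f x z' := hz'
  have hz'u : z' ∉ Submodule.span F {u} := by
    intro h
    obtain ⟨c, hc⟩ := Submodule.mem_span_singleton.1 h
    exact hnp c (fun x => by rw [hz', ← hc, hf.smul_right])
  have huz' : f u z' = 0 := by rw [← hz', hf'.self_of hQ'u]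
  -- w, w'
  obtain ⟨w, w', hwu, hwz, hw'u, hw'z, hww'⟩ : ∃ w w', f w u = 0 ∧ f w z' = 0 ∧ f w' u = 0 ∧ f w' z' = 0 ∧ f w w' ≠ 0 := by
    by_contra hcon
    push Not at hcon
    have h1 : perp hf (Submodule.span F {u, z'}) ≤ Submodule.span F {u, z'} := by
      rw [← perp_perp hf (Submodule.span F {u, z'})]
      intro w hw w' hw'
      rw [perp_perp] at hw
      obtain ⟨e1, e2⟩ := (mem_perp_pair hf).1 hw
      obtain ⟨e3, e4⟩ := (mem_perp_pair hf).1 hw'
      exact hcon w w' e1 e2 e3 e4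
    have h2 := Submodule.finrank_mono h1
    have h3 := finrank_perp hf (Submodule.span F {u, z'})
    have h4 := finrank_span_pair (F := F) u z'
    omega
  have huw' : f' u w' = 0 := by rw [hf'.symm, hz', hw'z]
  have hzw : f z' w = 0 := hf.swap hwz
  refine ⟨f' w w' • u - f w' w • z', ?_, ?_, ?_⟩
  · intro h0
    apply hz'u
    rw [Submodule.mem_span_singleton]
    have hne : f w' w ≠ 0 := by rw [hf.symm]; exact hww'
    refine ⟨(f w' w)⁻¹ * f' w w', ?_⟩
    rw [mul_smul, sub_eq_zero.1 h0, smul_smul, inv_mul_cancel₀ hne, one_smul]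
  · rw [hf.sub_right, hf.smul_right, hf.smul_right, huz', hf.self_of hQu]; ring
  · intro c g hg
    obtain ⟨e1, he1⟩ := exists_E hf (w := c • w) hQu (by rw [hf.smul_right, hf.swap hwu, mul_zero])
    obtain ⟨e2, he2⟩ := exists_E hf' hQ'u huw'
    have h1 : g = e1 * e2 * (e2 * e1)⁻¹ := by
      rw [eq_mul_inv_iff_mul_eq]
      apply ext_mulVec
      intro x
      have huu' := hf'.self_of hQ'u
      have huu := hf.self_of hQu
      have hw'c : f w' u = 0 := hw'u
      have e3 : f' w u = 0 := by rw [hz', hwz]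
      have e4 : f w' z' = 0 := hw'z
      have e5 : f' w' u = 0 := by rw [hz', e4]
      have e6 : f' u w = 0 := hf'.swap e3
      rw [Units.val_mul, Units.val_mul, Units.val_mul, ← mulVec_mulVec, ← mulVec_mulVec, ← mulVec_mulVec]
      have he2' : ∀ x, (e2 : Matrix ι ι F) *ᵥ x = x + f' x u • w' - (f' x w' + Q' w' * f' x u) • u := he2
      rw [hg, he2, he1 x, he1]
      simp only [he2', hf.add_left, hf.sub_left, hf.smul_left, hf.add_right, hf.sub_right, hf.smul_right, hf.smul, hf'.add_left, hf'.sub_left,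
        hf'.smul_left, hf'.smul_right, huu, huu', hwu, hf.swap hwu, hw'u, hf.swap hw'u, hwz, hw'z, huz', e3, e5, e6, huw',
        mul_zero, zero_mul, add_zero, sub_zero, zero_add]
      rw [← hz' x]
      module
    rw [h1]
    exact M.mul_mem (M.mul_mem (hM u _ e1 hQu (by rw [hf.smul_right, hf.swap hwu, mul_zero]) he1) (hM' u w' e2 hQ'u huw' he2))
      (M.inv_mem (M.mul_mem (hM' u w' e2 hQ'u huw' he2) (hM u _ e1 hQu (by rw [hf.smul_right, hf.swap hwu, mul_zero]) he1)))

/-- case 2 -/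
lemma tr_case2 (hf : Qf Q f) (hf' : Qf Q' f') (h2 : (2 : F) ≠ 0) (hM : ∀ u w g, Q u = 0 → f u w = 0 → IsE Q f g u w → g ∈ M)
    (hM' : ∀ u w g, Q' u = 0 → f' u w = 0 → IsE Q' f' g u w → g ∈ M) {u : ι → F} (hu0 : u ≠ 0) (hQu : Q u = 0) (hQ'u : Q' u = 0)
    {l : F} (hl : ∀ x, f' x u = l * f x u) {w : ι → F} (hwu : f w u = 0) (hw : ¬ ∀ x, f' x w = l * f x w) :
    ∃ z, z ≠ 0 ∧ TP f M u z := by
  have hl0 : l ≠ 0 := by
    rintro rfl
    obtain ⟨y, hy⟩ := hf'.nondeg u hu0
    apply hy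
    rw [hf'.symm, hl, zero_mul]
  have huw := hf.swap hwu
  -- the representing vector
  let L : (ι → F) →ₗ[F] F := l⁻¹ • fl hf' w - fl hf w
  obtain ⟨r, hr⟩ := rep hf L
  have hr : ∀ x, l⁻¹ * f' x w - f x w = f x r := hr
  have hr0 : r ≠ 0 := by
    rintro rfl
    apply hw
    intro x
    have := hr x
    rw [hf.zero_right] at this
    field_simp at this
    linear_combination this
  have hur : f u r = 0 := by
    rw [← hr, hf'.symm w u, hl, hwu, huw]; ring
  set N := l⁻¹ * Q' w - Q w with hN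
  have hww : f w r = 2 * N := by
    rw [← hr, hf'.self, hf.self, hN]; ring
  -- the transvections
  have key : ∀ (c : F) (g : GL ι F), IsTr f g u (c • r - (c * c * N) • u) → g ∈ M := by
    intro c g hg
    have hucw : f u (c • w) = 0 := by rw [hf.smul_right, huw, mul_zero]
    have hucw' : f' u ((l⁻¹ * c) • w) = 0 := by rw [hf'.smul_right, hf'.symm w u, hl, hwu]; ring
    obtain ⟨e1, he1⟩ := exists_E hf hQu hucw
    obtain ⟨e2, he2⟩ := exists_E hf' hQ'u hucw'
    have h1 : g = e1 * e2⁻¹ := by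
      rw [eq_mul_inv_iff_mul_eq]
      apply ext_mulVec
      intro x
      have huu' := hf'.self_of hQ'u
      have huu := hf.self_of hQu
      rw [Units.val_mul, ← mulVec_mulVec, hg, he2, he1]
      simp only [hf.add_left, hf.sub_left, hf.smul_left, hf.sub_right, hf.smul_right, hf.smul, hf'.smul, hf'.smul_right, huu, hwu, huw, hur, hww,
        mul_zero, zero_mul, add_zero, sub_zero, zero_add, hl]
      have e3 : f x r = l⁻¹ * f' x w - f x w := (hr x).symm
      have e4 : Q' w = l * (N + Q w) := by rw [hN]; field_simp; ring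
      rw [e3, e4]
      have e5 : l⁻¹ * c * (l * f x u) = c * f x u := by field_simp
      match_scalars <;> field_simp <;> ring
    rw [h1]
    exact M.mul_mem (hM u _ e1 hQu hucw he1) (M.inv_mem (hM' u _ e2 hQ'u hucw' he2))
  by_cases hN0 : N = 0
  · refine ⟨r, hr0, hur, fun c g hg => key c g fun x => ?_⟩
    rw [hg, hN0, hf.sub_right, hf.smul_right, hf.smul_right]; module
  · refine ⟨u, hu0, hf.self_of hQu, fun c g hg => ?_⟩
    -- c u = combination
    set t := c * (2 * N)⁻¹ with ht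
    have h2N : 2 * N ≠ 0 := mul_ne_zero h2 hN0
    have hct : c = t * (2 * N) := by rw [ht, mul_assoc, inv_mul_cancel₀ h2N, mul_one]
    have e0 : ∀ d : F, f u (d • r - (d * d * N) • u) = 0 := fun d => by
      rw [hf.sub_right, hf.smul_right, hf.smul_right, hur, hf.self_of hQu]; ring
    obtain ⟨g1, hg1⟩ := exists_Tr hf (e0 t)
    obtain ⟨g2, hg2⟩ := exists_Tr hf (e0 1)
    obtain ⟨g3, hg3⟩ := exists_Tr hf (e0 (t + 1))
    have h1 : g * g3 = g1 * g2 := by
      apply ext_mulVec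
      intro x
      rw [Units.val_mul, Units.val_mul, ← mulVec_mulVec, ← mulVec_mulVec, hg, hg1, hg3, hg2]
      simp only [hf.add_left, hf.smul_left, e0, hf.self_of hQu, mul_zero, add_zero]
      simp only [hf.sub_right, hf.smul_right]
      rw [hct]; module
    have h3 : g = g1 * g2 * g3⁻¹ := by rw [← h1]; group
    rw [h3]
    exact M.mul_mem (M.mul_mem (key _ _ hg1) (key _ _ hg2)) (M.inv_mem (key _ _ hg3))

/-- two non-proportional forms -/
theorem exists_TP [Finite F] (hf : Qf Q f) (hf' : Qf Q' f') (h2 : (2 : F) ≠ 0) (hn : 9 ≤ Fintype.card ι)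
    (hM : ∀ u w g, Q u = 0 → f u w = 0 → IsE Q f g u w → g ∈ M)
    (hM' : ∀ u w g, Q' u = 0 → f' u w = 0 → IsE Q' f' g u w → g ∈ M) (hnp : ∀ c : F, ¬ ∀ x, Q' x = c * Q x) :
    ∃ u z, u ≠ 0 ∧ Q u = 0 ∧ z ≠ 0 ∧ TP f M u z := by
  obtain ⟨u, u2, hu0, hu2, hQu, hQ'u, hQu2, hQ'u2⟩ := exists_common hf hf' hn
  have hu20 : u2 ≠ 0 := by rintro rfl; exact hu2 (Submodule.zero_mem _)
  by_cases h1 : ∃ l : F, ∀ x, f' x u = l * f x u
  swap
  · push Not at h1
    obtain ⟨z, hz0, hz⟩ := tr_case1 hf hf' (by omega) hM hM' hQu hQ'u (fun c => by push Not; exact h1 c)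
    exact ⟨u, z, hu0, hQu, hz0, hz⟩
  by_cases h3 : ∃ l : F, ∀ x, f' x u2 = l * f x u2
  swap
  · push Not at h3
    obtain ⟨z, hz0, hz⟩ := tr_case1 hf hf' (by omega) hM hM' hQu2 hQ'u2 (fun c => by push Not; exact h3 c)
    exact ⟨u2, z, hu20, hQu2, hz0, hz⟩
  obtain ⟨l, hl⟩ := h1
  obtain ⟨l2, hl2⟩ := h3
  by_cases h4 : ∀ w, f w u = 0 → ∀ x, f' x w = l * f x w
  swap
  · push Not at h4
    obtain ⟨w, hw, x, hx⟩ := h4
    obtain ⟨z, hz0, hz⟩ := tr_case2 hf hf' h2 hM hM' hu0 hQu hQ'u hl hw (fun h => hx (h x))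
    exact ⟨u, z, hu0, hQu, hz0, hz⟩
  by_cases h5 : ∀ w, f w u2 = 0 → ∀ x, f' x w = l2 * f x w
  swap
  · push Not at h5
    obtain ⟨w, hw, x, hx⟩ := h5
    obtain ⟨z, hz0, hz⟩ := tr_case2 hf hf' h2 hM hM' hu20 hQu2 hQ'u2 hl2 hw (fun h => hx (h x))
    exact ⟨u2, z, hu20, hQu2, hz0, hz⟩
  exfalso
  -- l = l2
  obtain ⟨w, hw, hw0⟩ : ∃ w ∈ perp hf (Submodule.span F {u, u2}), w ≠ 0 := by
    obtain ⟨w, hw, hw0, -⟩ := exists_sing hf (E := perp hf (Submodule.span F {u, u2})) (by
      have e1 := finrank_perp hf (Submodule.span F {u, u2})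
      have e2 := finrank_span_pair (F := F) u u2
      omega)
    exact ⟨w, hw, hw0⟩
  obtain ⟨hwu, hwu2⟩ := (mem_perp_pair hf).1 hw
  have hll : l = l2 := by
    obtain ⟨x, hx⟩ := hf.nondeg w hw0
    have e1 := h4 w hwu x
    have e2 := h5 w hwu2 x
    rw [e1] at e2
    exact mul_right_cancel₀ (by rw [hf.symm]; exact hx) e2
  -- everything
  obtain ⟨y, hy, hyu2⟩ := exists_perp hf hu2
  have hyu : f y u = 0 := (mem_perp_one hf).1 hy
  have h6 : ∀ w x, f' x w = l * f x w := by
    intro w x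
    -- w = (w - c y') + c y', with y' ∈ u^⊥, f y u2 = 1
    have e1 := h4 (f w u2 • y) (by rw [hf.smul_left, hyu, mul_zero]) x
    have e2 := h5 (w - f w u2 • y) (by rw [hf.sub_left, hf.smul_left, hyu2]; ring) x
    rw [← hll, hf'.sub_right, hf.sub_right] at e2
    linear_combination e1 + e2
  apply hnp l
  intro x
  have e1 := h6 x x
  rw [hf'.self, hf.self] at e1
  apply mul_left_cancel₀ h2
  linear_combination e1

lemma IsE.det_one (hf : Qf Q f) (h2 : (2 : F) ≠ 0) {g : GL ι F} {u w : ι → F} (hQu : Q u = 0) (huw : f u w = 0)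
    (hg : IsE Q f g u w) : (g : Matrix ι ι F).det = 1 := by
  have h1 : f u ((2 : F)⁻¹ • w) = 0 := by rw [hf.smul_right, huw, mul_zero]
  obtain ⟨e, he⟩ := exists_E hf hQu h1
  have h3 := he.mul hf hQu h1 h1 he
  have h4 : (2 : F)⁻¹ • w + (2 : F)⁻¹ • w = w := by
    rw [← _root_.add_smul]
    have : (2 : F)⁻¹ + 2⁻¹ = 1 := by field_simp; ring
    rw [this, one_smul]
  rw [h4] at h3
  rw [hg.unique h3, Units.val_mul, Matrix.det_mul]
  rcases (he.iso hf hQu h1).det hf with h | h
  · rw [h, one_mul]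
  · rw [h]; ring

/-- the similarity group is maximal -/
theorem sim_max [Finite F] (hf : Qf Q f) (h2 : (2 : F) ≠ 0) (hn : 9 ≤ Fintype.card ι) :
    IsMaximalIn (specialLinear ι F) (quadSimilarityGroup Q ⊓ specialLinear ι F) := by
  have hsl : ∀ g : GL ι F, (g : Matrix ι ι F).det = 1 → g ∈ specialLinear ι F := by
    intro g hg
    show g ∈ (Matrix.GeneralLinearGroup.det : GL ι F →* Fˣ).ker
    rw [MonoidHom.mem_ker]
    exact Units.ext (by simpa using hg)
  constructor
  · refine lt_of_le_of_ne inf_le_right ?_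
    intro heq
    obtain ⟨u, -, hu0, hQu⟩ := exists_sing hf (E := ⊤) (by rw [finrank_top, Module.finrank_fintype_fun_eq_card]; omega)
    have huu := hf.self_of hQu
    obtain ⟨t, ht⟩ := exists_Tr hf huu
    have htd : (t : Matrix ι ι F).det = 1 := by
      have : t = tv u (cov f u) (by rw [cov_dot hf]; exact huu) := ext_mulVec fun x => by
        rw [ht, tv_mulVec, cov_dot hf]
      rw [this, det_tv]
    have h1 := hsl t htd
    rw [← heq] at h1
    obtain ⟨c, hc⟩ := h1.1
    obtain ⟨v, hv, huv⟩ := exists_partner hf hu0 hQu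
    obtain ⟨-, a, ha, haQ, b, hb, hab⟩ := perp_pair_props hf hQu hv huv (by omega)
    obtain ⟨e, he, hQe⟩ := exists_nonsing_in hf (W := perp hf (Submodule.span F {u, v})) ⟨a, ha, b, hb, hab⟩
    obtain ⟨heu, hev⟩ := (mem_perp_pair hf).1 he
    have h3 := hc e
    rw [ht, heu, zero_smul, add_zero] at h3
    have hc1 : (c : F) = 1 := by
      apply mul_right_cancel₀ hQe
      rw [← h3, one_mul]
    have h4 := hc (v + u)
    have hvu : f v u = 1 := by rw [hf.symm]; exact huv
    rw [ht, hc1, one_mul, hf.add, hf.smul, hf.smul_right, hQu, hf.add_left, huu, hvu] at h4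
    apply one_ne_zero (α := F)
    linear_combination h4
  · intro M hM hMK
    have hME : ∀ u w g, Q u = 0 → f u w = 0 → IsE Q f g u w → g ∈ M := by
      intro u w g hu huw hg
      refine hM ⟨⟨1, fun v => ?_⟩, hsl g (hg.det_one hf h2 hu huw)⟩
      rw [hg.iso hf hu huw v, Units.val_one, one_mul]
    by_cases hsub : M ≤ quadSimilarityGroup Q
    · left
      exact le_antisymm (le_inf hsub hMK) hM
    · right
      refine le_antisymm hMK ?_
      obtain ⟨g, hg, hgn⟩ := SetLike.not_le_iff_exists.1 hsub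
      let gi : Matrix ι ι F := ((g⁻¹ : GL ι F) : Matrix ι ι F)
      have hf' : Qf (fun x => Q (gi *ᵥ x)) (fun x y => f (gi *ᵥ x) (gi *ᵥ y)) := by
        refine ⟨fun x y => by rw [mulVec_add, hf.add], fun c x => by rw [mulVec_smul, hf.smul],
          fun x y z => by rw [mulVec_add, hf.add_left], fun c x y => by rw [mulVec_smul, hf.smul_left], ?_⟩
        intro x hx
        obtain ⟨y, hy⟩ := hf.nondeg (gi *ᵥ x) (by
          intro h0
          apply hx
          have := congrArg (fun z => (g : Matrix ι ι F) *ᵥ z) h0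
          simp only [gi, mulVec_inv, mulVec_zero] at this
          exact this)
        exact ⟨(g : Matrix ι ι F) *ᵥ y, by simp only [gi, inv_mulVec]; exact hy⟩
      have hME' : ∀ u w e, Q (gi *ᵥ u) = 0 → f (gi *ᵥ u) (gi *ᵥ w) = 0 →
          IsE (fun x => Q (gi *ᵥ x)) (fun x y => f (gi *ᵥ x) (gi *ᵥ y)) e u w → e ∈ M := by
        intro u w e hu huw he
        have h1 : g⁻¹ * e * g ∈ M := by
          refine hME (gi *ᵥ u) (gi *ᵥ w) _ hu huw fun x => ?_
          rw [Units.val_mul, Units.val_mul, ← mulVec_mulVec, ← mulVec_mulVec, he, mulVec_sub, mulVec_add, mulVec_smul, mulVec_smul,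
            inv_mulVec]
          simp only [gi, inv_mulVec]
        have h3 := M.mul_mem (M.mul_mem hg h1) (M.inv_mem hg)
        have h4 : g * (g⁻¹ * e * g) * g⁻¹ = e := by group
        rwa [h4] at h3
      obtain ⟨u, z, hu0, hQu, hz0, hTP⟩ := exists_TP hf hf' h2 hn hME hME' (by
        intro c hc
        apply hgn
        have hc0 : c ≠ 0 := by
          rintro rfl
          obtain ⟨e, he⟩ := exists_nonsing hf (by omega)
          apply he
          have := hc ((g : Matrix ι ι F) *ᵥ e)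
          simp only [gi, inv_mulVec, zero_mul] at this
          exact this
        refine ⟨(Units.mk0 c hc0)⁻¹, fun v => ?_⟩
        have := hc ((g : Matrix ι ι F) *ᵥ v)
        simp only [gi, inv_mulVec] at this
        rw [this, Units.val_inv_eq_inv_val, Units.val_mk0, ← mul_assoc, inv_mul_cancel₀ hc0, one_mul])
      exact sl_le_of_one hf h2 (by omega) ((Subgroup.closure_le _).2 (by
        rintro e ⟨u, w, hu, huw, he⟩
        exact hME u w e hu huw he)) hu0 hz0 hQu hTP

end CfsgH9.Og
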