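import Mathlib
import Cfsg.Agent.H9.UnComm

set_option autoImplicit false

/-! Maximality of stabilisers of non-degenerate subspaces in SU. -/

namespace CfsgH9.Un

open Matrix CfsgH9.Tv CfsgH9.SpGen CfsgH9.Witt Cfsg Cfsg.Geo
open CfsgH9.MaxSymp (inv_mulVec mulVec_inv two_nonzero)
open CfsgH9.MaxRedSL (mem_stab_of mem_stab_iff)

variable {ι : Type} [Fintype ι] [DecidableEq ι] {F : Type*} [Field F]
variable {σ : F →+* F} {f : (ι → F) → (ι → F) → F} {M : Subgroup (GL ι F)}

/-- non-degenerate on a subspace -/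
def ND (f : (ι → F) → (ι → F) → F) (E : Submodule F (ι → F)) : Prop := ∀ x ∈ E, x ≠ 0 → ∃ y ∈ E, f x y ≠ 0

lemma hyp_in (hf : Hm σ f) {E : Submodule F (ι → F)} (hE : ND f E) {a : ι → F} (ha : a ∈ E) (ha0 : a ≠ 0)
    (haa : f a a = 0) : ∃ b ∈ E, f b b = 0 ∧ f a b = 1 := by
  obtain ⟨z, hz, hza⟩ := hE a ha ha0
  obtain ⟨s, hs⟩ := exists_iso_add hf haa (hf.swap_ne hza)
  have huw0 : f a (z + s • a) ≠ 0 := by
    rw [hf.add_right, hf.smul_right, haa, mul_zero, add_zero]; exact hza
  refine ⟨(σ (f a (z + s • a)))⁻¹ • (z + s • a), E.smul_mem _ (E.add_mem hz (E.smul_mem _ ha)), ?_, ?_⟩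
  · rw [hf.smul_left, hf.smul_right, hs]; ring
  · rw [hf.smul_right, map_inv₀, hf.inv, inv_mul_cancel₀ huw0]

lemma dis (hf : Hm σ f) {W : Submodule F (ι → F)} (hW : ND f W) {x : ι → F} (h1 : x ∈ W) (h2 : x ∈ perp hf W) : x = 0 := by
  by_contra hne
  obtain ⟨y, hy, hyx⟩ := hW x h1 hne
  exact hyx (h2 y hy)

lemma decomp (hf : Hm σ f) {W : Submodule F (ι → F)} (hW : ND f W) (x : ι → F) : ∃ a ∈ W, ∃ b ∈ perp hf W, x = a + b := by
  have hdis : W ⊓ perp hf W = ⊥ := by
    rw [eq_bot_iff]
    rintro w ⟨hw, hw'⟩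
    exact dis hf hW hw hw'
  have h0 := finrank_perp_ge hf W
  have hsup : W ⊔ perp hf W = ⊤ := by
    apply Submodule.eq_top_of_finrank_eq
    have h1 := Submodule.finrank_sup_add_finrank_inf_eq W (perp hf W)
    rw [hdis, finrank_bot, add_zero] at h1
    have h2 := Submodule.finrank_le (W ⊔ perp hf W)
    rw [Module.finrank_fintype_fun_eq_card] at h2 ⊢
    omega
  have hx : x ∈ W ⊔ perp hf W := by rw [hsup]; trivial
  obtain ⟨a, ha, b, hb, rfl⟩ := Submodule.mem_sup.1 hx
  exact ⟨a, ha, b, hb, rfl⟩

lemma finrank_perp_nd (hf : Hm σ f) {W : Submodule F (ι → F)} (hW : ND f W) :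
    Module.finrank F (perp hf W) + Module.finrank F W = Fintype.card ι := by
  have hdis : W ⊓ perp hf W = ⊥ := by
    rw [eq_bot_iff]
    rintro w ⟨hw, hw'⟩
    exact dis hf hW hw hw'
  have h0 := finrank_perp_ge hf W
  have h1 := Submodule.finrank_sup_add_finrank_inf_eq W (perp hf W)
  rw [hdis, finrank_bot, add_zero] at h1
  have h2 := Submodule.finrank_le (W ⊔ perp hf W)
  rw [Module.finrank_fintype_fun_eq_card] at h2
  omega

lemma perp_nd (hf : Hm σ f) {W : Submodule F (ι → F)} (hW : ND f W) : ND f (perp hf W) := by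
  intro x hx hx0
  obtain ⟨y, hy⟩ := hf.nondeg x hx0
  obtain ⟨a, ha, b, hb, rfl⟩ := decomp hf hW y
  refine ⟨b, hb, ?_⟩
  rw [hf.add_right, hx a ha, zero_add] at hy
  exact hy

/-- unit vectors in `E` orthogonal to a vector -/
lemma exists_in_perp_vec [Finite F] (hf : Hm σ f) {W : Submodule F (ι → F)} (hW : ND f W)
    (hdim : Module.finrank F W + 3 ≤ Fintype.card ι) {b : ι → F} (hb : b ∈ perp hf W) {t : F} (ht : σ t = t) :
    ∃ e ∈ perp hf W, f e b = 0 ∧ f e e = t := by
  have h : ¬ perp hf (W ⊔ Submodule.span F {b}) ≤ W ⊔ Submodule.span F {b} := by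
    intro hle
    have h1 := finrank_perp_ge hf (W ⊔ Submodule.span F {b})
    have h2 : perp hf (W ⊔ Submodule.span F {b}) ≤ Submodule.span F {b} := by
      intro x hx
      obtain ⟨w, hw, c, rfl⟩ := mem_sup_span.1 (hle hx)
      have h3 : w ∈ perp hf W := by
        intro v hv
        have h4 := hx v (Submodule.mem_sup_left hv)
        rw [hf.add_left, hf.smul_left, hb v hv, mul_zero, add_zero] at h4
        exact h4
      rw [dis hf hW hw h3, zero_add]
      exact Submodule.smul_mem _ _ (Submodule.mem_span_singleton_self b)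
    have h3 := Submodule.finrank_mono h2
    have h4 : Module.finrank F (Submodule.span F {b}) ≤ 1 := by
      by_cases hb0 : b = 0
      · rw [hb0, Submodule.span_zero_singleton, finrank_bot]; exact Nat.zero_le 1
      · rw [finrank_span_singleton hb0]
    have h5 := Submodule.finrank_add_le_finrank_add_finrank W (Submodule.span F {b})
    omega
  obtain ⟨e, he, hee, -⟩ := exists_in_perp hf h ht
  exact ⟨e, fun w hw => he w (Submodule.mem_sup_left hw), he b (Submodule.mem_sup_right (Submodule.mem_span_singleton_self b)), hee⟩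

lemma XS_add (hf : Hm σ f) {u w : ι → F} (huu : f u u = 0) (hww : f w w = 0) (huw : f (w + u) (w + u) = 0)
    (h : f w u ≠ 0) (hu : XS σ f M u) (hw : XS σ f M w) (hM : ∀ h ∈ M, Iso f h) : XS σ f M (w + u) := by
  have h1 : f w u + σ (f w u) = 0 := by
    rw [hf.add_left, hf.add_right, hf.add_right, huu, hww, hf.symm w u] at huw
    linear_combination huw
  have hσ : σ (f w u) ≠ 0 := by rw [Ne, map_eq_zero]; exact h
  have h2 : (f w u)⁻¹ + σ (f w u)⁻¹ = 0 := by
    rw [map_inv₀]; field_simp; linear_combination h1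
  obtain ⟨g, hg⟩ := exists_R hf (Cd_of (f := f) huu h2)
  have hgM := hu _ g h2 hg
  have h3 := XS_map hf hgM (hM g hgM) hw
  rwa [hg, inv_mul_cancel₀ h, one_smul] at h3

/-- `M` contains the stabiliser: transitivity -/
lemma nd_trans [Finite F] (hf : Hm σ f) {K : Subgroup (GL ι F)} (hK : IsK f K) {W : Submodule F (ι → F)} (hW : ND f W)
    (hdim : Module.finrank F W + 3 ≤ Fintype.card ι) {a a' b b' : ι → F} (ha : a ∈ W) (ha' : a' ∈ W) (hb : b ∈ perp hf W)
    (hb' : b' ∈ perp hf W) (ha0 : a ≠ 0) (ha0' : a' ≠ 0) (hb0 : b ≠ 0) (hb0' : b' ≠ 0) (haa : f a a = f a' a')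
    (hbb : f b b = f b' b') : ∃ h ∈ subspaceStabilizer W ⊓ K, (h : Matrix ι ι F) *ᵥ (a + b) = a' + b' := by
  have hU := perp_nd hf hW
  have hPP := perp_perp hf W
  obtain ⟨g1, hg1, hg1U, hg1a⟩ := extend_one hf (W := perp hf W) (φ := LinearMap.id) (w := a) (w' := a')
    (fun _ _ _ _ => rfl) (fun _ _ h => h) (fun h => ha0 (dis hf hW ha h))
    (fun u hu h => ha0' (dis hf hW ha' (by rw [← h]; exact hu)))
    (fun u hu => by
      show f u a' = f u a
      rw [hu a' ha', hu a ha]) haa.symm
  obtain ⟨g2, hg2, hg2W, hg2b⟩ := extend_one hf (W := W) (φ := LinearMap.id) (w := b) (w' := b')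
    (fun _ _ _ _ => rfl) (fun _ _ h => h) (fun h => hb0 (dis hf hW h hb))
    (fun u hu h => hb0' (dis hf hW (by rw [← h]; exact hu) hb'))
    (fun u hu => by
      show f u b' = f u b
      rw [hf.swap (hb' u hu), hf.swap (hb u hu)]) hbb.symm
  obtain ⟨e, he, heb, hee⟩ := exists_in_perp_vec hf hW hdim hb' (t := 1) (map_one σ)
  have hgg := hg2.mul hg1
  have hdn := hgg.det_norm hf
  have hcd : Cd σ f e (σ ((g2 * g1 : GL ι F) : Matrix ι ι F).det - 1) := by
    rw [Cd, hee, map_sub, map_one, hf.inv]; linear_combination hdn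
  obtain ⟨r, hr⟩ := exists_R hf hcd
  refine ⟨r * (g2 * g1), ⟨?_, (hK _).2 ⟨(hr.iso hf hcd).mul hgg, ?_⟩⟩, ?_⟩
  · apply mem_stab_of
    intro w hw
    have h1 : (g1 : Matrix ι ι F) *ᵥ w ∈ W := by
      rw [← hPP]
      intro u hu
      have h2 : (g1 : Matrix ι ι F) *ᵥ u = u := hg1U u hu
      conv_lhs => rw [← h2]
      rw [hg1]
      exact hf.swap (hu w hw)
    rw [Units.val_mul, Units.val_mul, ← mulVec_mulVec, ← mulVec_mulVec]
    have h2 : (g2 : Matrix ι ι F) *ᵥ ((g1 : Matrix ι ι F) *ᵥ w) = (g1 : Matrix ι ι F) *ᵥ w := hg2W _ h1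
    rw [h2, hr, hf.swap (he _ h1), mul_zero, zero_smul, add_zero]
    exact h1
  · rw [Units.val_mul, Matrix.det_mul, hr.det hf, hee, mul_one]
    have : (1 + (σ ((g2 * g1 : GL ι F) : Matrix ι ι F).det - 1)) * ((g2 * g1 : GL ι F) : Matrix ι ι F).det =
      ((g2 * g1 : GL ι F) : Matrix ι ι F).det * σ ((g2 * g1 : GL ι F) : Matrix ι ι F).det := by ring
    rw [this, hdn]
  · have h1 : (g1 : Matrix ι ι F) *ᵥ b = b := hg1U b hb
    have h2 : (g2 : Matrix ι ι F) *ᵥ a' = a' := hg2W a' ha'
    rw [Units.val_mul, Units.val_mul, ← mulVec_mulVec, ← mulVec_mulVec, mulVec_add, hg1a, h1, mulVec_add, h2, hg2b, hr,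
      hf.add_left, hf.swap (he a' ha'), hf.swap heb]
    simp

theorem nd_max [Finite F] (hf : Hm σ f) (hn : 3 ≤ Fintype.card ι)
    (hn' : 4 ≤ Fintype.card ι ∨ ∃ b : F, b ≠ 0 ∧ b * σ b ≠ 1) {K : Subgroup (GL ι F)} (hK : IsK f K)
    (W : Submodule F (ι → F)) (hW0 : W ≠ ⊥) (hW : ND f W) (hdim : 2 * Module.finrank F W < Fintype.card ι)
    (hdim3 : Module.finrank F W + 3 ≤ Fintype.card ι) : IsMaximalIn K (subspaceStabilizer W ⊓ K) := by
  have hU := perp_nd hf hW
  have hPP := perp_perp hf W
  obtain ⟨κ, hk0, hk⟩ := hf.kappa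
  have hkk : κ + σ κ = 0 := by rw [hk]; ring
  have hfr := finrank_perp_nd hf hW
  obtain ⟨w, hw, hw0⟩ := (Submodule.ne_bot_iff _).1 hW0
  obtain ⟨w', hw', hww'⟩ := hW w hw hw0
  obtain ⟨e, he, hee, -⟩ := hf.exists_one ⟨w, hw, w', hw', hww'⟩ (b := 1) (map_one σ)
  obtain ⟨e', he', -, hee'⟩ := exists_in_perp_vec hf hW hdim3 (b := 0) (Submodule.zero_mem _) (t := -1) (by rw [map_neg, map_one])
  have hy : f (e + e') (e + e') = 0 := by
    rw [hf.add_left, hf.add_right, hf.add_right, hee, hee', he' e he, hf.swap (he' e he)]; ring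
  constructor
  · refine lt_of_le_of_ne inf_le_right ?_
    intro heq
    obtain ⟨g, hg⟩ := exists_R hf (Cd_of (f := f) hy hkk)
    have hgK : g ∈ K := tv_mem_K hf hK hy hkk hg
    rw [← heq] at hgK
    have h1 : (g : Matrix ι ι F) *ᵥ e ∈ W := (hgK.1 e).1 he
    rw [hg, hf.add_right, hee, hf.swap (he' e he), add_zero, mul_one] at h1
    have h2 := W.sub_mem h1 he
    rw [add_sub_cancel_left] at h2
    have h3 : e + e' ∈ W := by
      have := W.smul_mem κ⁻¹ h2
      rwa [smul_smul, inv_mul_cancel₀ hk0, one_smul] at this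
    have h4 : e' ∈ W := by
      have := W.sub_mem h3 he
      rwa [add_sub_cancel_left] at this
    have h5 := dis hf hW h4 he'
    rw [h5, hf.zero_left] at hee'
    exact (neg_ne_zero.2 one_ne_zero) hee'.symm
  · intro M hM hMK
    by_cases hsub : M ≤ subspaceStabilizer W
    · left
      exact le_antisymm (le_inf hsub hMK) hM
    · right
      refine le_antisymm hMK ?_
      obtain ⟨g, hg, hgn⟩ : ∃ g ∈ M, g ∉ subspaceStabilizer W := by
        by_contra hcon
        push Not at hcon
        exact hsub hcon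
      have hiso : ∀ h ∈ M, Iso f h := fun h hh => ((hK h).1 (hMK hh)).1
      have hXU : ∀ u ∈ perp hf W, f u u = 0 → XS σ f M u := by
        intro u hu huu a h ha hh
        refine hM ⟨?_, tv_mem_K hf hK huu ha hh⟩
        apply mem_stab_of
        intro v hv
        rw [hh, hf.swap (hu v hv), mul_zero, zero_smul, add_zero]; exact hv
      have hXW : ∀ u ∈ W, f u u = 0 → XS σ f M u := by
        intro u hu huu a h ha hh
        refine hM ⟨?_, tv_mem_K hf hK huu ha hh⟩
        apply mem_stab_of
        intro v hv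
        rw [hh]; exact W.add_mem hv (W.smul_mem _ hu)
      have hXtr : ∀ a a' b b', a ∈ W → a' ∈ W → b ∈ perp hf W → b' ∈ perp hf W → a ≠ 0 → a' ≠ 0 → b ≠ 0 → b' ≠ 0 →
          f a a = f a' a' → f b b = f b' b' → XS σ f M (a + b) → XS σ f M (a' + b') := by
        intro a a' b b' ha ha' hb hb' ha0 ha0' hb0 hb0' haa hbb hX
        obtain ⟨h, hh, hab⟩ := nd_trans hf hK hW hdim3 ha ha' hb hb' ha0 ha0' hb0 hb0' haa hbb
        have := XS_map hf (hM hh) (hiso h (hM hh)) hX
        rwa [hab] at this
      -- a vector moved outside W and W^⊥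
      obtain ⟨z, hz, hzz, hz1, hz2⟩ : ∃ z ∈ perp hf W, f z z = 0 ∧ (g : Matrix ι ι F) *ᵥ z ∉ W ∧
          (g : Matrix ι ι F) *ᵥ z ∉ perp hf W := by
        by_contra hcon
        push Not at hcon
        have hgi := hiso g hg
        have hg0 : ∀ x, (g : Matrix ι ι F) *ᵥ x = 0 → x = 0 := by
          intro x hx
          rw [← inv_mulVec g x, hx, mulVec_zero]
        -- connectivity
        have hstep : ∀ u v, u ∈ perp hf W → v ∈ perp hf W → f u u = 0 → f v v = 0 → f u v ≠ 0 →
            (g : Matrix ι ι F) *ᵥ u ∈ W → (g : Matrix ι ι F) *ᵥ v ∈ W := by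
          intro u v hu hv huu hvv huv huW
          by_contra hvW
          have h1 := hcon v hv hvv hvW
          apply huv
          rw [← hgi]
          exact hf.swap (h1 _ huW)
        have hconn : ∀ u v, u ∈ perp hf W → v ∈ perp hf W → u ≠ 0 → v ≠ 0 → f u u = 0 → f v v = 0 →
            (g : Matrix ι ι F) *ᵥ u ∈ W → (g : Matrix ι ι F) *ᵥ v ∈ W := by
          intro u v hu hv hu0 hv0 huu hvv huW
          by_cases huv : f u v = 0
          · obtain ⟨z, hz, h1, h2⟩ := two_nonzero (fun z => f z u) (fun z => f z v) (fun x z => hf.add_left _ _ _)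
              (fun x z => hf.add_left _ _ _) (fun z => z ∈ perp hf W) (fun x z hx hz => (perp hf W).add_mem hx hz)
              (by obtain ⟨y, hy, h⟩ := hU u hu hu0; exact ⟨y, hy, hf.swap_ne h⟩)
              (by obtain ⟨y, hy, h⟩ := hU v hv hv0; exact ⟨y, hy, hf.swap_ne h⟩)
            obtain ⟨s, hs⟩ := exists_iso_add hf huu h1
            have hw' : z + s • u ∈ perp hf W := (perp hf W).add_mem hz ((perp hf W).smul_mem _ hu)
            have h3 : f u (z + s • u) ≠ 0 := by
              rw [hf.add_right, hf.smul_right, huu, mul_zero, add_zero]; exact hf.swap_ne h1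
            have h4 : f (z + s • u) v ≠ 0 := by
              rw [hf.add_left, hf.smul_left, huv, mul_zero, add_zero]; exact h2
            exact hstep _ v hw' hv hs hvv h4 (hstep u _ hu hw' huu hs h3 huW)
          · exact hstep u v hu hv huu hvv huv huW
        -- the isotropic vectors span W^⊥
        set S := Submodule.span F {x | x ∈ perp hf W ∧ f x x = 0} with hS
        have hSP : S ≤ perp hf W := by
          rw [hS, Submodule.span_le]; intro x hx; exact hx.1
        have hSS : perp hf W ≤ S := by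
          have h1 : perp hf (S ⊔ W) = ⊥ := by
            rw [eq_bot_iff]
            intro y hy
            have hyU : y ∈ perp hf W := fun w hw => hy w (Submodule.mem_sup_right hw)
            have hyS : ∀ x ∈ perp hf W, f x x = 0 → f y x = 0 := fun x hx hxx =>
              hy x (Submodule.mem_sup_left (Submodule.subset_span ⟨hx, hxx⟩))
            rw [Submodule.mem_bot]
            by_contra hy0
            by_cases hyy : f y y = 0
            · obtain ⟨b, hb, hbb, hyb⟩ := hyp_in hf hU hyU hy0 hyy
              rw [hyS b hb hbb] at hyb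
              exact zero_ne_one hyb
            · obtain ⟨e1, he1, he1y, he11⟩ := exists_in_perp_vec hf hW hdim3 hyU (t := - f y y) (by rw [map_neg, hf.self])
              have h2 := hyS (y + e1) ((perp hf W).add_mem hyU he1) (by
                rw [hf.add_left, hf.add_right, hf.add_right, he11, he1y, hf.swap he1y]; ring)
              rw [hf.add_right, hf.swap he1y, add_zero] at h2
              exact hyy h2
          have h2 : S ⊔ W = ⊤ := by
            rw [← perp_perp hf (S ⊔ W), h1, eq_top_iff]
            intro x _ y hy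
            rw [(Submodule.mem_bot F).1 hy, hf.zero_right]
          intro x hx
          have hx' : x ∈ S ⊔ W := by rw [h2]; trivial
          obtain ⟨s, hs, w, hw, rfl⟩ := Submodule.mem_sup.1 hx'
          have h3 : w ∈ perp hf W := by
            have := (perp hf W).sub_mem hx (hSP hs)
            rwa [add_sub_cancel_left] at this
          rw [dis hf hW hw h3, add_zero]
          exact hs
        by_cases hcase : ∃ u ∈ perp hf W, u ≠ 0 ∧ f u u = 0 ∧ (g : Matrix ι ι F) *ᵥ u ∈ W
        · obtain ⟨u, hu, hu0, huu, huW⟩ := hcase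
          have h1 : (perp hf W).map (mulVecLin (g : Matrix ι ι F)) ≤ W := by
            refine (Submodule.map_mono hSS).trans ?_
            rw [hS, Submodule.map_span, Submodule.span_le]
            rintro _ ⟨x, ⟨hx, hxx⟩, rfl⟩
            by_cases hx0 : x = 0
            · rw [hx0, map_zero]; exact W.zero_mem
            · exact hconn u x hu hx hu0 hx0 huu hxx huW
          have h2 := Submodule.finrank_mono h1
          have h3 : Module.finrank F ((perp hf W).map (mulVecLin (g : Matrix ι ι F))) = Module.finrank F (perp hf W) :=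
            (LinearEquiv.finrank_eq (Submodule.equivMapOfInjective (mulVecLin (g : Matrix ι ι F))
              ((injective_iff_map_eq_zero _).2 hg0) (perp hf W))).symm
          rw [h3] at h2
          omega
        · push Not at hcase
          apply hgn
          have h1 : ∀ x ∈ perp hf W, (g : Matrix ι ι F) *ᵥ x ∈ perp hf W := by
            have h1 : (perp hf W).map (mulVecLin (g : Matrix ι ι F)) ≤ perp hf W := by
              refine (Submodule.map_mono hSS).trans ?_
              rw [hS, Submodule.map_span, Submodule.span_le]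
              rintro _ ⟨x, ⟨hx, hxx⟩, rfl⟩
              by_cases hx0 : x = 0
              · rw [hx0, map_zero]; exact Submodule.zero_mem _
              · exact hcon x hx hxx (hcase x hx hx0 hxx)
            intro x hx
            exact h1 ⟨x, hx, rfl⟩
          have h2 := mem_stab_of _ _ h1
          apply mem_stab_of
          intro x hx
          rw [← hPP]
          intro y hy
          have h3 : ((g⁻¹ : GL ι F) : Matrix ι ι F) *ᵥ y ∈ perp hf W := by
            have h4 := ((subspaceStabilizer (perp hf W)).inv_mem h2) y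
            exact h4.1 hy
          rw [← mulVec_inv g y, hgi]
          exact hf.swap (h3 x hx)
      have hXz := XS_map hf hg (hiso g hg) (hXU z hz hzz)
      have hgz : f ((g : Matrix ι ι F) *ᵥ z) ((g : Matrix ι ι F) *ᵥ z) = 0 := by rw [hiso g hg, hzz]
      obtain ⟨a, ha, b, hb, hab⟩ := decomp hf hW ((g : Matrix ι ι F) *ᵥ z)
      rw [hab] at hXz hz1 hz2 hgz
      have ha0 : a ≠ 0 := by
        rintro rfl
        apply hz2
        rw [zero_add]; exact hb
      have hb0 : b ≠ 0 := by
        rintro rfl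
        apply hz1
        rw [add_zero]; exact ha
      have hnorm : ∀ x ∈ W, ∀ y ∈ perp hf W, f (x + y) (x + y) = f x x + f y y := by
        intro x hx y hy
        rw [hf.add_left, hf.add_right, hf.add_right, hy x hx, hf.swap (hy x hx)]; ring
      rw [hnorm a ha b hb] at hgz
      obtain ⟨θ, hθ⟩ := hf.trace (b := 1) (map_one σ)
      -- a vector of type 1
      obtain ⟨a1, ha1, b1, hb1, hX1, h1ne, h1s⟩ : ∃ a1 ∈ W, ∃ b1 ∈ perp hf W, XS σ f M (a1 + b1) ∧ f a1 a1 ≠ 0 ∧
          f a1 a1 + f b1 b1 = 0 := by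
        by_cases haa : f a a = 0
        · have hbb : f b b = 0 := by rw [haa, zero_add] at hgz; exact hgz
          obtain ⟨a2, ha2, ha22, haa2⟩ := hyp_in hf hW ha ha0 haa
          obtain ⟨b2, hb2, hb22, hbb2⟩ := hyp_in hf hU hb hb0 hbb
          have ha20 : a2 ≠ 0 := by
            intro h; rw [h, hf.zero_right] at haa2; exact zero_ne_one haa2
          have hb20 : b2 ≠ 0 := by
            intro h; rw [h, hf.zero_right] at hbb2; exact zero_ne_one hbb2
          have hθ0 : θ ≠ 0 := by
            rintro rfl; rw [map_zero, add_zero] at hθ; exact zero_ne_one hθ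
          have hβ0 : κ - θ ≠ 0 := by
            intro h
            have : κ = θ := sub_eq_zero.1 h
            rw [← this, hkk] at hθ
            exact zero_ne_one hθ
          have hσθ : σ θ ≠ 0 := by rw [Ne, map_eq_zero]; exact hθ0
          have hσβ : σ (κ - θ) ≠ 0 := by rw [Ne, map_eq_zero]; exact hβ0
          have hA2 : σ θ • a2 ∈ W := W.smul_mem _ ha2
          have hB2 : σ (κ - θ) • b2 ∈ perp hf W := (perp hf W).smul_mem _ hb2
          have hX2 : XS σ f M (σ θ • a2 + σ (κ - θ) • b2) :=
            hXtr a _ b _ ha hA2 hb hB2 ha0 (smul_ne_zero hσθ ha20) hb0 (smul_ne_zero hσβ hb20)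
              (by rw [hf.smul_left, hf.smul_right, ha22, haa]; ring)
              (by rw [hf.smul_left, hf.smul_right, hb22, hbb]; ring) hXz
          have hs1 : f (σ θ • a2) (σ θ • a2) = 0 := by rw [hf.smul_left, hf.smul_right, ha22]; ring
          have hs2 : f (σ (κ - θ) • b2) (σ (κ - θ) • b2) = 0 := by rw [hf.smul_left, hf.smul_right, hb22]; ring
          have hf1 : f a (σ θ • a2) = θ := by rw [hf.smul_right, haa2, hf.inv, mul_one]
          have hf2 : f b (σ (κ - θ) • b2) = κ - θ := by rw [hf.smul_right, hbb2, hf.inv, mul_one]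
          have hsumA : f (a + σ θ • a2) (a + σ θ • a2) = 1 := by
            rw [hf.add_left, hf.add_right, hf.add_right, haa, hs1, hf1, hf.symm a, hf1]
            linear_combination hθ
          have hsumB : f (b + σ (κ - θ) • b2) (b + σ (κ - θ) • b2) = -1 := by
            rw [hf.add_left, hf.add_right, hf.add_right, hbb, hs2, hf2, hf.symm b, hf2, map_sub]
            linear_combination hkk - hθ
          refine ⟨a + σ θ • a2, W.add_mem ha hA2, b + σ (κ - θ) • b2, (perp hf W).add_mem hb hB2, ?_, ?_, ?_⟩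
          · have h5 := XS_add hf (u := σ θ • a2 + σ (κ - θ) • b2) (w := a + b) (M := M)
              (by rw [hnorm _ hA2 _ hB2, hs1, hs2, add_zero]) (by rw [hnorm _ ha _ hb, haa, hbb, add_zero])
              (by
                have : a + b + (σ θ • a2 + σ (κ - θ) • b2) = (a + σ θ • a2) + (b + σ (κ - θ) • b2) := by abel
                rw [this, hnorm _ (W.add_mem ha hA2) _ ((perp hf W).add_mem hb hB2), hsumA, hsumB]; ring)
              (by
                rw [hf.add_left, hf.add_right, hf.add_right, hf1, hf2, hf.swap (hB2 a ha), hb _ hA2]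
                have : θ + 0 + (0 + (κ - θ)) = κ := by ring
                rw [this]; exact hk0) hX2 hXz hiso
            have : a + b + (σ θ • a2 + σ (κ - θ) • b2) = (a + σ θ • a2) + (b + σ (κ - θ) • b2) := by abel
            rwa [this] at h5
          · rw [hsumA]; exact one_ne_zero
          · rw [hsumA, hsumB]; ring
        · exact ⟨a, ha, b, hb, hXz, haa, hgz⟩
      -- all vectors of type 1
      have hall1 : ∀ a' ∈ W, ∀ b' ∈ perp hf W, f a' a' ≠ 0 → f a' a' + f b' b' = 0 → XS σ f M (a' + b') := by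
        intro a' ha' b' hb' hne hs
        obtain ⟨c, hc⟩ := hf.norm (b := f a' a' * (f a1 a1)⁻¹) (by rw [map_mul, map_inv₀, hf.self, hf.self])
        have hc0 : c ≠ 0 := by
          rintro rfl
          rw [zero_mul] at hc
          exact mul_ne_zero hne (inv_ne_zero h1ne) hc.symm
        have hca : f (c • a1) (c • a1) = f a' a' := by
          rw [hf.smul_left, hf.smul_right, ← mul_assoc, hc, mul_assoc, inv_mul_cancel₀ h1ne, mul_one]
        have hb1' : f b1 b1 = - f a1 a1 := by linear_combination h1s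
        have hcb : f (c • b1) (c • b1) = f b' b' := by
          rw [hf.smul_left, hf.smul_right, ← mul_assoc, hc, hb1', mul_assoc, mul_neg, inv_mul_cancel₀ h1ne]
          linear_combination -hs
        have hne0 : ∀ x : ι → F, f x x ≠ 0 → x ≠ 0 := by
          rintro x hx rfl; exact hx (hf.zero_left 0)
        have hX := XS_smul hf hX1 c
        rw [smul_add] at hX
        refine hXtr _ a' _ b' (W.smul_mem c ha1) ha' ((perp hf W).smul_mem c hb1) hb' (hne0 _ (by rw [hca]; exact hne))
          (hne0 _ hne) (hne0 _ ?_) (hne0 _ ?_) hca hcb hX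
        · rw [hcb]
          intro h; apply hne; rw [h, add_zero] at hs; exact hs
        · intro h; apply hne; rw [h, add_zero] at hs; exact hs
      refine le_of_all_XS hf hn hn' hK ?_
      intro u hu
      obtain ⟨a', ha', b', hb', rfl⟩ := decomp hf hW u
      rw [hnorm _ ha' _ hb'] at hu
      by_cases ha0' : a' = 0
      · subst ha0'
        rw [zero_add]
        rw [hf.zero_left, zero_add] at hu
        exact hXU b' hb' hu
      by_cases hb0' : b' = 0
      · subst hb0'
        rw [add_zero]
        rw [hf.zero_left, add_zero] at hu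
        exact hXW a' ha' hu
      by_cases haa' : f a' a' = 0
      · have hbb' : f b' b' = 0 := by rw [haa', zero_add] at hu; exact hu
        -- write as a sum of two vectors of type 1
        obtain ⟨a2, ha2, ha22, haa2⟩ := hyp_in hf hW ha' ha0' haa'
        have ha2a : f a2 a' = 1 := by rw [hf.symm, haa2, map_one]
        obtain ⟨b3, hb3, hb3b, hb33⟩ := exists_in_perp_vec hf hW hdim3 hb' (t := -1) (by rw [map_neg, map_one])
        set x := σ (θ * κ⁻¹) with hx
        have hσx : κ * σ x = θ := by rw [hx, hf.inv, mul_comm θ, mul_inv_cancel_left₀ hk0]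
        set a3 := κ • a2 + x • a' with ha3
        have ha3W : a3 ∈ W := W.add_mem (W.smul_mem _ ha2) (W.smul_mem _ ha')
        have ha3a : f a3 a' = κ := by rw [ha3, hf.add_left, hf.smul_left, hf.smul_left, ha2a, haa']; ring
        have ha33 : f a3 a3 = 1 := by
          rw [ha3, hf.add_left, hf.add_right, hf.add_right]
          simp only [hf.smul_left, hf.smul_right, ha22, haa2, ha2a, haa', hk]
          have h6 : σ (κ * σ x) = -κ * x := by rw [map_mul, hf.inv, hk]
          rw [hσx] at h6
          linear_combination hθ + hσx - h6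
        have haa3 : f a' a3 = -κ := by rw [hf.symm, ha3a, hk]
        have hd1 : f (a' - a3) (a' - a3) = 1 := by
          rw [hf.sub_left, hf.sub_right, hf.sub_right, haa', ha3a, haa3, ha33]; ring
        have hd2 : f (b' - b3) (b' - b3) = -1 := by
          rw [hf.sub_left, hf.sub_right, hf.sub_right, hbb', hb3b, hf.swap hb3b, hb33]; ring
        have hW3 : a' - a3 ∈ W := W.sub_mem ha' ha3W
        have hU3 : b' - b3 ∈ perp hf W := (perp hf W).sub_mem hb' hb3
        have hX3 := hall1 a3 ha3W b3 hb3 (by rw [ha33]; exact one_ne_zero) (by rw [ha33, hb33]; ring)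
        have hX4 := hall1 (a' - a3) hW3 (b' - b3) hU3 (by rw [hd1]; exact one_ne_zero) (by rw [hd1, hd2]; ring)
        have heq : (a' - a3) + (b' - b3) + (a3 + b3) = a' + b' := by abel
        have h7 := XS_add hf (u := a3 + b3) (w := (a' - a3) + (b' - b3)) (M := M)
          (by rw [hnorm _ ha3W _ hb3, ha33, hb33]; ring) (by rw [hnorm _ hW3 _ hU3, hd1, hd2]; ring)
          (by rw [heq, hnorm _ ha' _ hb', haa', hbb', add_zero])
          (by
            have e1 : f (a' - a3) a3 = -κ - 1 := by rw [hf.sub_left, haa3, ha33]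
            have e2 : f (b' - b3) b3 = 1 := by rw [hf.sub_left, hf.swap hb3b, hb33]; ring
            have e3 : f (a' - a3) b3 = 0 := hf.swap (hb3 _ hW3)
            have e4 : f (b' - b3) a3 = 0 := hU3 _ ha3W
            have e5 : f (a' - a3 + (b' - b3)) (a3 + b3) = -κ := by
              rw [hf.add_left, hf.add_right (a' - a3), hf.add_right (b' - b3), e1, e2, e3, e4]; ring
            rw [e5]; exact neg_ne_zero.2 hk0) hX3 hX4 hiso
        rwa [heq] at h7
      · exact hall1 a' ha' b' hb' haa' hu

end CfsgH9.Un
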