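import Mathlib
import Cfsg.Agent.H9.UnMax2
import Cfsg.Agent.H9.UnK

set_option autoImplicit false

/-! Maximality of symplectic subgroups over the fixed field in special unitary groups. -/

namespace CfsgH9.Un

open Matrix Cfsg Cfsg.Geo CfsgH9.Tv CfsgH9.SpGen CfsgH9.Witt
open CfsgH9.MaxSymp (inv_mulVec mulVec_inv two_nonzero)

variable {ι : Type} [Fintype ι] [DecidableEq ι] {F : Type*} [Field F]
variable {σ : F →+* F} {f : (ι → F) → (ι → F) → F} {M : Subgroup (GL ι F)} {τ : (ι → F) → (ι → F)}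

/-- a semilinear involution whose fixed space carries an alternating form -/
structure RT (σ : F →+* F) (f : (ι → F) → (ι → F) → F) (τ : (ι → F) → (ι → F)) : Prop where
  add : ∀ x y, τ (x + y) = τ x + τ y
  smul : ∀ (c : F) x, τ (c • x) = σ c • τ x
  inv : ∀ x, τ (τ x) = x
  alt : ∀ x, τ x = x → f x x = 0
  anti : ∀ x y, τ x = x → τ y = y → σ (f x y) = - f x y

namespace RT

lemma sub (h : RT σ f τ) (x y : ι → F) : τ (x - y) = τ x - τ y := by
  have h1 : x - y = x + (-1 : F) • y := by module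
  rw [h1, h.add, h.smul, map_neg, map_one]; module

lemma skew (hf : Hm σ f) (h : RT σ f τ) {x y : ι → F} (hx : τ x = x) (hy : τ y = y) : f y x = - f x y := by
  rw [hf.symm, h.anti x y hx hy]

lemma zero (h : RT σ f τ) : τ 0 = 0 := by
  have := h.smul 0 0
  simpa using this

/-- decomposition -/
lemma split (h : RT σ f τ) {ω : F} (hω : σ ω ≠ ω) (hσ : ∀ a, σ (σ a) = a) (x : ι → F) :
    ∃ a b, τ a = a ∧ τ b = b ∧ x = a + ω • b := by
  have hd : ω - σ ω ≠ 0 := sub_ne_zero.2 (Ne.symm hω)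
  have hb : τ ((ω - σ ω)⁻¹ • (x - τ x)) = (ω - σ ω)⁻¹ • (x - τ x) := by
    rw [h.smul, h.sub, h.inv, map_inv₀, map_sub, hσ]
    have : (σ ω - ω)⁻¹ = -(ω - σ ω)⁻¹ := by rw [← neg_sub, inv_neg]
    rw [this]; module
  have h1 : (ω - σ ω) • ((ω - σ ω)⁻¹ • (x - τ x)) = x - τ x := by
    rw [smul_smul, mul_inv_cancel₀ hd, one_smul]
  rw [sub_smul] at h1
  generalize (ω - σ ω)⁻¹ • (x - τ x) = b at hb h1
  refine ⟨x - ω • b, b, ?_, hb, by abel⟩
  rw [h.sub, h.smul, hb]
  calc τ x - σ ω • b = x - (x - τ x) - σ ω • b := by abel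
    _ = x - (ω • b - σ ω • b) - σ ω • b := by rw [h1]
    _ = x - ω • b := by abel

lemma nondeg (hf : Hm σ f) (h : RT σ f τ) {ω : F} (hω : σ ω ≠ ω) {v : ι → F} (hv0 : v ≠ 0) :
    ∃ z, τ z = z ∧ f v z ≠ 0 := by
  obtain ⟨y, hy⟩ := hf.nondeg v hv0
  obtain ⟨a, b, ha, hb, rfl⟩ := h.split hω hf.inv y
  by_contra hcon
  push Not at hcon
  apply hy
  rw [hf.add_right, hf.smul_right, hcon a ha, hcon b hb]; ring

/-- ratios of fixed vectors -/
lemma ratio (h : RT σ f τ) {v : ι → F} {c : F} (hv : τ v = v) (hv0 : v ≠ 0) (hcv : τ (c • v) = c • v) : σ c = c := by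
  rw [h.smul, hv] at hcv
  have h1 : (σ c - c) • v = 0 := by rw [sub_smul, hcv, sub_self]
  rcases smul_eq_zero.1 h1 with h2 | h2
  · exact sub_eq_zero.1 h2
  · exact absurd h2 hv0

lemma ratio2 (h : RT σ f τ) {v w : ι → F} {c d : F} (hv : τ v = v) (hw : τ w = w)
    (hli : ∀ α β : F, α • v + β • w = 0 → α = 0 ∧ β = 0)
    (hc : τ (c • v + d • w) = c • v + d • w) : σ c = c ∧ σ d = d := by
  rw [h.add, h.smul, h.smul, hv, hw] at hc
  have h1 : (σ c - c) • v + (σ d - d) • w = 0 := by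
    have : (σ c - c) • v + (σ d - d) • w = (σ c • v + σ d • w) - (c • v + d • w) := by module
    rw [this, hc, sub_self]
  obtain ⟨h2, h3⟩ := hli _ _ h1
  exact ⟨sub_eq_zero.1 h2, sub_eq_zero.1 h3⟩

/-- a vector in the perpendicular space of `w` not orthogonal to `v` -/
lemma nondeg' (hf : Hm σ f) (h : RT σ f τ) {ω : F} (hω : σ ω ≠ ω) {v w : ι → F} (hw : τ w = w) (hv : τ v = v)
    (hw0 : w ≠ 0) (hvw : ∀ c : F, v ≠ c • w) : ∃ z, (τ z = z ∧ f w z = 0) ∧ f v z ≠ 0 := by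
  by_contra hcon
  push Not at hcon
  obtain ⟨z0, hz0, hwz0⟩ := h.nondeg hf hω hw0
  set κ := f v z0 * (f w z0)⁻¹ with hκ
  have h1 : ∀ z, τ z = z → f (v - κ • w) z = 0 := by
    intro z hz
    set c := f w z * (f w z0)⁻¹ with hc
    have hσc : σ c = c := by
      rw [hc, map_mul, map_inv₀, h.anti w z hw hz, h.anti w z0 hw hz0, inv_neg]; ring
    have h2 : f w (z - c • z0) = 0 := by
      rw [hf.sub_right, hf.smul_right, hσc, hc, mul_assoc, inv_mul_cancel₀ hwz0]; ring
    have h3 := hcon (z - c • z0) ⟨by rw [h.sub, h.smul, hσc, hz, hz0], h2⟩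
    rw [hf.sub_right, hf.smul_right, hσc] at h3
    rw [hf.sub_left, hf.smul_left, hκ]
    rw [hc] at h3
    linear_combination h3
  have h2 : v - κ • w = 0 := by
    by_contra hne
    obtain ⟨z, hz, hfz⟩ := h.nondeg hf hω hne
    exact hfz (h1 z hz)
  exact hvw κ (sub_eq_zero.1 h2)

end RT

/-- moving pairs of rational vectors -/
lemma rt_step (hf : Hm σ f) (h : RT σ f τ) (hXS : ∀ u, τ u = u → XS σ f M u)
    {ω : F} {v w u : ι → F} {a : F} (ha : a + σ a = 0) (hu : τ u = u)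
    (hX : XS σ f M (v + ω • w)) : XS σ f M ((v + (a * f v u) • u) + ω • (w + (a * f w u) • u)) := by
  have huu := h.alt u hu
  obtain ⟨g, hg⟩ := exists_R hf (Cd_of (f := f) huu ha)
  have hgM : g ∈ M := hXS u hu a g ha hg
  have h1 := XS_map hf hgM (hg.iso hf (Cd_of huu ha)) hX
  rw [hg] at h1
  have h2 : v + ω • w + (a * f (v + ω • w) u) • u = (v + (a * f v u) • u) + ω • (w + (a * f w u) • u) := by
    rw [hf.add_left, hf.smul_left]; module
  rwa [h2] at h1

lemma rt_first (hf : Hm σ f) (h : RT σ f τ) (hXS : ∀ u, τ u = u → XS σ f M u)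
    {ω : F} (hω : σ ω ≠ ω) {v w v' : ι → F} (hv : τ v = v) (hv' : τ v' = v') (hw : τ w = w) (hv0 : v ≠ 0) (hv'0 : v' ≠ 0)
    (hX : XS σ f M (v + ω • w)) : ∃ w', τ w' = w' ∧ f v' w' = f v w ∧ (∀ c : F, w' = c • v' → w = c • v) ∧ XS σ f M (v' + ω • w') := by
  have key : ∀ v v' w : ι → F, τ v = v → τ v' = v' → τ w = w → f v v' ≠ 0 → XS σ f M (v + ω • w) →
      ∃ w', τ w' = w' ∧ f v' w' = f v w ∧ (∀ c : F, w' = c • v' → w = c • v) ∧ XS σ f M (v' + ω • w') := by
    intro v v' w hv hv' hw hvv' hX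
    have hanti := h.anti v v' hv hv'
    have ha : (f v v')⁻¹ + σ (f v v')⁻¹ = 0 := by rw [map_inv₀, hanti, inv_neg]; ring
    have hu : τ (v' - v) = v' - v := by rw [h.sub, hv, hv']
    have h1 := rt_step hf h hXS ha hu hX
    have hfv : f v (v' - v) = f v v' := by rw [hf.sub_right, h.alt v hv, sub_zero]
    have h2 : v + ((f v v')⁻¹ * f v (v' - v)) • (v' - v) = v' := by
      rw [hfv, inv_mul_cancel₀ hvv', one_smul]; abel
    rw [h2] at h1
    set s := (f v v')⁻¹ * f w (v' - v) with hs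
    have hσs : σ s = s := by
      rw [hs, map_mul, h.anti w (v' - v) hw hu, map_inv₀, hanti, inv_neg]; ring
    refine ⟨w + s • (v' - v), ?_, ?_, ?_, h1⟩
    · rw [h.add, h.smul, hσs, hw, hu]
    · have h3 : f v' v = - f v v' := h.skew hf hv hv'
      have h4 : f w (v' - v) = - f (v' - v) w := h.skew hf hu hw
      rw [hf.add_right, hf.smul_right, hσs, hf.sub_right, h.alt v' hv', h3, hs, h4, hf.sub_left]
      field_simp
      ring
    · intro c hc
      -- apply the inverse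
      have h3 : f (w + s • (v' - v)) (v' - v) = c * f v' (v' - v) := by rw [hc, hf.smul_left]
      rw [hf.add_left, hf.smul_left, h.alt _ hu, mul_zero, add_zero] at h3
      have h4 : f v' (v' - v) = f v v' := by
        rw [hf.sub_right, h.alt v' hv', h.skew hf hv hv']; ring
      have h5 : s = c := by rw [hs, h3, h4]; field_simp
      have h6 : w = c • v' - s • (v' - v) := by rw [← hc]; abel
      rw [h6, h5]; module
  by_cases hvv' : f v v' = 0
  · obtain ⟨z, hz, h1, h2⟩ := two_nonzero (fun z => f v z) (fun z => f v' z) (fun x y => hf.add_right _ _ _)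
      (fun x y => hf.add_right _ _ _) (fun z => τ z = z) (fun x y hx hy => by show τ (x + y) = x + y; rw [h.add, hx, hy])
      (h.nondeg hf hω hv0) (h.nondeg hf hω hv'0)
    obtain ⟨w1, hw1, hf1, hc1, hX1⟩ := key v z w hv hz hw h1 hX
    obtain ⟨w2, hw2, hf2, hc2, hX2⟩ := key z v' w1 hz hv' hw1 (hf.swap_ne h2) hX1
    exact ⟨w2, hw2, hf2.trans hf1, fun c hc => hc1 c (hc2 c hc), hX2⟩
  · exact key v v' w hv hv' hw hvv' hX

lemma rt_second (hf : Hm σ f) (h : RT σ f τ) (hXS : ∀ u, τ u = u → XS σ f M u)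
    {ω : F} (hω : σ ω ≠ ω) {v w w' : ι → F} (hv : τ v = v) (hw : τ w = w) (hw' : τ w' = w') (hv0 : v ≠ 0)
    (hvw : f v w = 0) (hvw' : f v w' = 0) (hi : ∀ c : F, w ≠ c • v) (hi' : ∀ c : F, w' ≠ c • v)
    (hX : XS σ f M (v + ω • w)) : XS σ f M (v + ω • w') := by
  have key : ∀ w w' : ι → F, τ w = w → τ w' = w' → f v w = 0 → f v w' = 0 → f w w' ≠ 0 → XS σ f M (v + ω • w) →
      XS σ f M (v + ω • w') := by
    intro w w' hw hw' hvw hvw' hww' hX
    have ha : (f w w')⁻¹ + σ (f w w')⁻¹ = 0 := by rw [map_inv₀, h.anti w w' hw hw', inv_neg]; ring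
    have hu : τ (w' - w) = w' - w := by rw [h.sub, hw, hw']
    have h1 := rt_step hf h hXS ha hu hX
    have hfv : f v (w' - w) = 0 := by rw [hf.sub_right, hvw, hvw', sub_zero]
    have hfw : f w (w' - w) = f w w' := by rw [hf.sub_right, h.alt w hw, sub_zero]
    rw [hfv, hfw, inv_mul_cancel₀ hww', one_smul, mul_zero, zero_smul, add_zero, add_sub_cancel] at h1
    exact h1
  by_cases hww' : f w w' = 0
  · obtain ⟨z, hz, h1, h2⟩ := two_nonzero (fun z => f w z) (fun z => f w' z) (fun x y => hf.add_right _ _ _)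
      (fun x y => hf.add_right _ _ _) (fun z => τ z = z ∧ f v z = 0) (fun x y hx hy => by
        refine ⟨by rw [h.add, hx.1, hy.1], by rw [hf.add_right, hx.2, hy.2, add_zero]⟩)
      (h.nondeg' hf hω hv hw hv0 hi) (h.nondeg' hf hω hv hw' hv0 hi')
    exact key z w' hz.1 hw' hz.2 hvw' (hf.swap_ne h2) (key w z hw hz.1 hvw hz.2 h1 hX)
  · exact key w w' hw hw' hvw hvw' hww' hX

lemma indep_pair {a b : ι → F} (ha0 : a ≠ 0) (hi : ∀ c : F, b ≠ c • a) (α β : F) (h : α • a + β • b = 0) : α = 0 ∧ β = 0 := by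
  have hβ : β = 0 := by
    by_contra hβ
    apply hi (-(β⁻¹ * α))
    have h1 : b = β⁻¹ • (β • b) := by rw [smul_smul, inv_mul_cancel₀ hβ, one_smul]
    have h2 : β • b = -(α • a) := by rw [eq_neg_iff_add_eq_zero, add_comm]; exact h
    rw [h1, h2]; module
  rw [hβ, zero_smul, add_zero] at h
  rcases smul_eq_zero.1 h with h1 | h1
  · exact ⟨h1, hβ⟩
  · exact absurd h1 ha0

lemma GL_inj {g : GL ι F} {x : ι → F} (h : (g : Matrix ι ι F) *ᵥ x = 0) : x = 0 := by
  have := congrArg (fun z => ((g⁻¹ : GL ι F) : Matrix ι ι F) *ᵥ z) h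
  simp only [inv_mulVec, mulVec_zero] at this
  exact this

/-- elements mapping rational points to rational points -/
lemma rt_semi (h : RT σ f τ) {a : ι → F} (ha : τ a = a) (ha0 : a ≠ 0) {g : GL ι F}
    (hg : ∀ v, τ v = v → ∃ (c : F) (v' : ι → F), τ v' = v' ∧ (g : Matrix ι ι F) *ᵥ v = c • v') :
    ∃ c : F, c ≠ 0 ∧ ∀ x, τ x = x → τ (c • ((g : Matrix ι ι F) *ᵥ x)) = c • ((g : Matrix ι ι F) *ᵥ x) := by
  obtain ⟨c, a', ha', hga⟩ := hg a ha
  have hc : c ≠ 0 := by
    rintro rfl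
    rw [zero_smul] at hga
    exact ha0 (GL_inj hga)
  refine ⟨c⁻¹, inv_ne_zero hc, ?_⟩
  intro w hw
  by_cases hd : ∃ κ : F, w = κ • a
  · obtain ⟨κ, rfl⟩ := hd
    have hκ := h.ratio ha ha0 hw
    rw [mulVec_smul, hga, smul_smul κ, mul_comm κ c, mul_smul, smul_smul c⁻¹, inv_mul_cancel₀ hc, one_smul, h.smul, hκ, ha']
  · push Not at hd
    obtain ⟨d, w', hw', hgw⟩ := hg w hw
    have hw0 : w ≠ 0 := by rintro rfl; exact hd 0 (by rw [zero_smul])
    have hd0 : d ≠ 0 := by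
      rintro rfl
      rw [zero_smul] at hgw
      exact hw0 (GL_inj hgw)
    obtain ⟨e, z', hz', hgz⟩ := hg (a + w) (by rw [h.add, ha, hw])
    have haw0 : a + w ≠ 0 := by
      intro h0
      apply hd (-1)
      rw [eq_neg_of_add_eq_zero_right h0]; module
    have he0 : e ≠ 0 := by
      rintro rfl
      rw [zero_smul] at hgz
      exact haw0 (GL_inj hgz)
    have h1 : z' = (e⁻¹ * c) • a' + (e⁻¹ * d) • w' := by
      have h2 : z' = e⁻¹ • (e • z') := by rw [smul_smul, inv_mul_cancel₀ he0, one_smul]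
      rw [h2, ← hgz, mulVec_add, hga, hgw, smul_add, smul_smul, smul_smul]
    have hli : ∀ α β : F, α • a' + β • w' = 0 → α = 0 ∧ β = 0 := by
      intro α β hαβ
      have h2 : (g : Matrix ι ι F) *ᵥ ((α * c⁻¹) • a + (β * d⁻¹) • w) = 0 := by
        rw [mulVec_add, mulVec_smul, mulVec_smul, hga, hgw, smul_smul, smul_smul, mul_assoc, mul_assoc, inv_mul_cancel₀ hc,
          inv_mul_cancel₀ hd0, mul_one, mul_one]
        exact hαβ
      obtain ⟨h3, h4⟩ := indep_pair ha0 hd _ _ (GL_inj h2)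
      exact ⟨(mul_eq_zero.1 h3).resolve_right (inv_ne_zero hc), (mul_eq_zero.1 h4).resolve_right (inv_ne_zero hd0)⟩
    rw [h1] at hz'
    obtain ⟨h5, h6⟩ := h.ratio2 ha' hw' hli hz'
    have h7 : σ (c⁻¹ * d) = c⁻¹ * d := by
      have h8 : c⁻¹ * d = (e⁻¹ * c)⁻¹ * (e⁻¹ * d) := by field_simp
      rw [h8, map_mul, map_inv₀, h5, h6]
    rw [hgw, smul_smul, h.smul, h7, hw']

/-- the symplectic subgroup over the fixed field is maximal -/
theorem rt_max [Finite F] (hf : Hm σ f) (hn : 4 ≤ Fintype.card ι) {K : Subgroup (GL ι F)} (hK : IsK f K) (h : RT σ f τ)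
    {S : Subgroup (GL ι F)} (hS : ∀ g : GL ι F, g ∈ S ↔ ∃ c : F, c ≠ 0 ∧ ∀ x, τ x = x →
      τ (c • ((g : Matrix ι ι F) *ᵥ x)) = c • ((g : Matrix ι ι F) *ᵥ x)) : IsMaximalIn K (S ⊓ K) := by
  obtain ⟨ω, hω⟩ := SF.exists_ne (eqv_ne hf.ne hf.inv)
  have hω : σ ω ≠ ω := hω
  have hωd : σ ω - ω ≠ 0 := sub_ne_zero.2 hω
  -- a rational vector
  obtain ⟨a, ha, ha0⟩ : ∃ a, τ a = a ∧ a ≠ 0 := by
    by_contra hcon
    push Not at hcon
    obtain ⟨i⟩ : Nonempty ι := Fintype.card_pos_iff.1 (by omega)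
    obtain ⟨a, b, ha, hb, hab⟩ := h.split hω hf.inv (Pi.single i 1)
    have e1 : a = 0 := hcon a ha
    have e2 : b = 0 := hcon b hb
    rw [e1, e2, smul_zero, add_zero] at hab
    have := congrFun hab i
    simp at this
  -- isotropic vectors
  have hiso : ∀ a b, τ a = a → τ b = b → f (a + ω • b) (a + ω • b) = (σ ω - ω) * f a b := by
    intro a b ha hb
    rw [hf.add_left, hf.add_right, hf.add_right, hf.smul_left, hf.smul_right, hf.smul_left, hf.smul_right, h.alt a ha,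
      h.alt b hb, h.skew hf ha hb]
    ring
  have hTS : ∀ u, τ u = u → ∀ (c : F) (g : GL ι F), c + σ c = 0 → IsR f g u c → g ∈ S := by
    intro u hu c g hc hg
    rw [hS]
    refine ⟨1, one_ne_zero, fun x hx => ?_⟩
    rw [one_smul, hg, h.add, h.smul, hx, hu, map_mul, h.anti x u hx hu]
    have : σ c = -c := eq_neg_of_add_eq_zero_right hc
    rw [this, neg_mul_neg]
  constructor
  · refine lt_of_le_of_ne inf_le_right ?_
    intro heq
    -- an independent orthogonal rational vector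
    obtain ⟨b, hb, hab, hbi⟩ : ∃ b, τ b = b ∧ f a b = 0 ∧ ∀ c : F, b ≠ c • a := by
      by_contra hcon
      push Not at hcon
      have h1 : perp hf (Submodule.span F {a}) ≤ Submodule.span F {a} := by
        intro x hx
        rw [mem_perp_one] at hx
        have hx' := hf.swap hx
        obtain ⟨x0, x1, hx0, hx1, rfl⟩ := h.split hω hf.inv x
        rw [hf.add_right, hf.smul_right] at hx'
        have h2 := congrArg σ hx'
        rw [map_add, map_mul, hf.inv, h.anti a x0 ha hx0, h.anti a x1 ha hx1, map_zero] at h2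
        have h3 : (σ ω - ω) * f a x1 = 0 := by linear_combination hx' + h2
        have h4 : f a x1 = 0 := (mul_eq_zero.1 h3).resolve_left hωd
        have h5 : f a x0 = 0 := by rw [h4, mul_zero, add_zero] at hx'; exact hx'
        obtain ⟨c, hc⟩ := hcon x0 hx0 h5
        obtain ⟨d, hd⟩ := hcon x1 hx1 h4
        rw [hc, hd]
        exact Submodule.add_mem _ (Submodule.smul_mem _ _ (Submodule.mem_span_singleton_self a))
          (Submodule.smul_mem _ _ (Submodule.smul_mem _ _ (Submodule.mem_span_singleton_self a)))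
      have h2 := Submodule.finrank_mono h1
      have h3 := finrank_perp_ge hf (Submodule.span F {a})
      rw [finrank_span_singleton ha0] at h2 h3
      omega
    set y := a + ω • b with hy
    have hyy : f y y = 0 := by rw [hy, hiso a b ha hb, hab, mul_zero]
    obtain ⟨κ, hκ0, hκ⟩ := hf.kappa
    have hκ' : κ + σ κ = 0 := by rw [hκ]; ring
    obtain ⟨t, ht⟩ := exists_R hf (Cd_of (f := f) hyy hκ')
    have htK : t ∈ K := tv_mem_K hf hK hyy hκ' ht
    rw [← heq] at htK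
    obtain ⟨c, hc0, hc⟩ := (hS t).1 htK.1
    have hay : f a y = 0 := by rw [hy, hf.add_right, hf.smul_right, h.alt a ha, hab]; ring
    have hcσ : σ c = c := by
      have h1 := hc a ha
      rw [ht, hay, mul_zero, zero_smul, add_zero] at h1
      exact h.ratio ha ha0 h1
    have hy0 : y ≠ 0 := by
      intro h0
      have h1 : (1 : F) • a + ω • b = 0 := by rw [one_smul]; exact h0
      have := (indep_pair ha0 hbi 1 ω h1).1
      exact one_ne_zero this
    obtain ⟨x, hx, hyx⟩ := h.nondeg hf hω hy0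
    have h1 := hc x hx
    rw [h.smul, hcσ, ht, h.add, hx] at h1
    have h2 : τ ((κ * f x y) • y) = (κ * f x y) • y := by
      have h3 := congrArg (fun z => c⁻¹ • z) h1
      simp only [smul_smul, inv_mul_cancel₀ hc0, one_smul] at h3
      exact add_left_cancel h3
    set μ := κ * f x y with hμ
    have hμ0 : μ ≠ 0 := mul_ne_zero hκ0 (hf.swap_ne hyx)
    rw [hy, smul_add, smul_smul] at h2
    obtain ⟨h3, h4⟩ := h.ratio2 ha hb (indep_pair ha0 hbi) h2
    rw [map_mul, h3] at h4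
    exact hω (mul_left_cancel₀ hμ0 h4)
  · intro M hM hMK
    by_cases hsub : M ≤ S
    · left
      exact le_antisymm (le_inf hsub hMK) hM
    · right
      refine le_antisymm hMK ?_
      have hXS : ∀ u, τ u = u → XS σ f M u := by
        intro u hu c g hc hg
        exact hM ⟨hTS u hu c g hc hg, tv_mem_K hf hK (h.alt u hu) hc hg⟩
      obtain ⟨g, hg, hgn⟩ := SetLike.not_le_iff_exists.1 hsub
      have hgiso : Iso f g := ((hK g).1 (hMK hg)).1
      obtain ⟨v, hv, hgv⟩ : ∃ v, τ v = v ∧ ∀ (c : F) (v' : ι → F), τ v' = v' → (g : Matrix ι ι F) *ᵥ v ≠ c • v' := by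
        by_contra hcon
        push Not at hcon
        exact hgn ((hS g).2 (rt_semi h ha ha0 hcon))
      have hX := XS_map hf hg hgiso (hXS v hv)
      obtain ⟨x0, x1, hx0, hx1, hx⟩ := h.split hω hf.inv ((g : Matrix ι ι F) *ᵥ v)
      rw [hx] at hX
      have hx00 : x0 ≠ 0 := by
        rintro rfl
        exact hgv ω x1 hx1 (by rw [hx, zero_add])
      have hxi : ∀ c : F, x1 ≠ c • x0 := by
        rintro c rfl
        exact hgv (1 + ω * c) x0 hx0 (by rw [hx]; module)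
      have hfx : f x0 x1 = 0 := by
        have h1 : f ((g : Matrix ι ι F) *ᵥ v) ((g : Matrix ι ι F) *ᵥ v) = 0 := by rw [hgiso, h.alt v hv]
        rw [hx, hiso x0 x1 hx0 hx1] at h1
        exact (mul_eq_zero.1 h1).resolve_left hωd
      refine le_of_all_XS hf (by omega) (Or.inl hn) hK ?_
      intro y hyy
      obtain ⟨y0, y1, hy0, hy1, rfl⟩ := h.split hω hf.inv y
      by_cases hy00 : y0 = 0
      · rw [hy00, zero_add]
        exact XS_smul hf (hXS y1 hy1) ω
      by_cases hyd : ∃ c : F, y1 = c • y0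
      · obtain ⟨c, rfl⟩ := hyd
        have : y0 + ω • c • y0 = (1 + ω * c) • y0 := by module
        rw [this]
        exact XS_smul hf (hXS y0 hy0) _
      push Not at hyd
      have hfy : f y0 y1 = 0 := by
        rw [hiso y0 y1 hy0 hy1] at hyy
        exact (mul_eq_zero.1 hyy).resolve_left hωd
      obtain ⟨w, hw, hfw, hwc, hXw⟩ := rt_first hf h hXS hω hx0 hy0 hx1 hx00 hy00 hX
      exact rt_second hf h hXS hω hy0 hw hy1 hy00 (by rw [hfw, hfx]) hfy (fun c hc => hxi c (hwc c hc)) hyd hXw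

section bridge

variable {F₀ : Subfield F} {P : GL ι F}

/-- the semilinear map attached to a basis -/
def tau (σ : F →+* F) (P : GL ι F) (x : ι → F) : ι → F :=
  (P : Matrix ι ι F) *ᵥ (fun i => σ ((((P⁻¹ : GL ι F) : Matrix ι ι F) *ᵥ x) i))

lemma tau_add (x y : ι → F) : tau σ P (x + y) = tau σ P x + tau σ P y := by
  rw [tau, tau, tau, ← mulVec_add]
  congr 1
  funext i
  rw [mulVec_add]
  simp [map_add]

lemma tau_smul (c : F) (x : ι → F) : tau σ P (c • x) = σ c • tau σ P x := by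
  rw [tau, tau, ← mulVec_smul]
  congr 1
  funext i
  rw [mulVec_smul]
  simp [map_mul]

lemma tau_tau (hσ : ∀ a, σ (σ a) = a) (x : ι → F) : tau σ P (tau σ P x) = x := by
  rw [tau, tau, inv_mulVec]
  have : (fun i => σ ((fun i => σ ((((P⁻¹ : GL ι F) : Matrix ι ι F) *ᵥ x) i)) i)) = ((P⁻¹ : GL ι F) : Matrix ι ι F) *ᵥ x := by
    funext i; exact hσ _
  rw [this, mulVec_inv]

lemma tau_eq_iff (x : ι → F) : tau σ P x = x ↔ ∀ i, σ ((((P⁻¹ : GL ι F) : Matrix ι ι F) *ᵥ x) i) = (((P⁻¹ : GL ι F) : Matrix ι ι F) *ᵥ x) i := by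
  constructor
  · intro h i
    have h1 := congrArg (fun z => ((P⁻¹ : GL ι F) : Matrix ι ι F) *ᵥ z) h
    simp only [tau, inv_mulVec] at h1
    exact congrFun h1 i
  · intro h
    have h1 : (fun i => σ ((((P⁻¹ : GL ι F) : Matrix ι ι F) *ᵥ x) i)) = ((P⁻¹ : GL ι F) : Matrix ι ι F) *ᵥ x := funext h
    rw [tau, h1, mulVec_inv]

/-- membership in the subfield subgroup -/
theorem mem_subfield (hF0 : ∀ c : F, c ∈ F₀ ↔ σ c = c) (g : GL ι F) : g ∈ subfieldSubgroup F₀ P ↔
    ∃ c : F, c ≠ 0 ∧ ∀ x, tau σ P x = x → tau σ P (c • ((g : Matrix ι ι F) *ᵥ x)) = c • ((g : Matrix ι ι F) *ᵥ x) := by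
  constructor
  · rintro ⟨g', hg', rfl⟩
    have hnorm : (scalars ι F).Normal := by
      constructor
      intro n hn k
      obtain ⟨c, hc⟩ := (mem_scalars_iff n).1 hn
      rw [mem_scalars_iff]
      refine ⟨c, ?_⟩
      rw [Units.val_mul, Units.val_mul, hc, mul_smul_comm, mul_one, smul_mul_assoc, ← Units.val_mul, mul_inv_cancel, Units.val_one]
    obtain ⟨y, ⟨A, rfl⟩, z, hz, rfl⟩ := Subgroup.mem_sup_of_normal_right.1 hg'
    obtain ⟨c, hc⟩ := (mem_scalars_iff z).1 hz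
    refine ⟨(c : F)⁻¹, inv_ne_zero (Units.ne_zero c), ?_⟩
    intro x hx
    have h1 : (((MulAut.conj P).toMonoidHom (Matrix.GeneralLinearGroup.map (F₀.subtype : F₀ →+* F) A * z) : GL ι F) : Matrix ι ι F) *ᵥ x =
        (P : Matrix ι ι F) *ᵥ (((Matrix.GeneralLinearGroup.map (F₀.subtype : F₀ →+* F) A : GL ι F) : Matrix ι ι F) *ᵥ
          ((c : F) • (((P⁻¹ : GL ι F) : Matrix ι ι F) *ᵥ x))) := by
      show ((P * (Matrix.GeneralLinearGroup.map (F₀.subtype : F₀ →+* F) A * z) * P⁻¹ : GL ι F) : Matrix ι ι F) *ᵥ x = _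
      rw [Units.val_mul, Units.val_mul, Units.val_mul, hc, ← mulVec_mulVec, ← mulVec_mulVec, ← mulVec_mulVec, smul_mulVec, one_mulVec]
    rw [h1, mulVec_smul, mulVec_smul, smul_smul, inv_mul_cancel₀ (Units.ne_zero c), one_smul]
    rw [tau_eq_iff] at hx ⊢
    intro i
    rw [inv_mulVec]
    rw [← hF0]
    have h2 : ∀ j, (((P⁻¹ : GL ι F) : Matrix ι ι F) *ᵥ x) j ∈ F₀ := fun j => (hF0 _).2 (hx j)
    rw [mulVec, dotProduct]
    refine Subfield.sum_mem _ fun j _ => F₀.mul_mem ?_ (h2 j)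
    show F₀.subtype ((A : Matrix ι ι F₀) i j) ∈ F₀
    exact ((A : Matrix ι ι F₀) i j).2
  · rintro ⟨c, hc0, hc⟩
    -- the matrix with entries in F₀
    set B : Matrix ι ι F := c • (((P⁻¹ : GL ι F) : Matrix ι ι F) * (g : Matrix ι ι F) * (P : Matrix ι ι F)) with hB
    have hBe : ∀ i j, B i j ∈ F₀ := by
      intro i j
      rw [hF0]
      have h1 : tau σ P ((P : Matrix ι ι F) *ᵥ (Pi.single j 1)) = (P : Matrix ι ι F) *ᵥ (Pi.single j 1) := by
        rw [tau_eq_iff]
        intro k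
        rw [inv_mulVec]
        by_cases hkj : k = j
        · subst hkj; simp
        · rw [Pi.single_eq_of_ne hkj, map_zero]
      have h2 := (tau_eq_iff _).1 (hc _ h1) i
      have h3 : (((P⁻¹ : GL ι F) : Matrix ι ι F) *ᵥ (c • ((g : Matrix ι ι F) *ᵥ ((P : Matrix ι ι F) *ᵥ (Pi.single j 1))))) i = B i j := by
        rw [mulVec_smul, mulVec_mulVec, mulVec_mulVec, hB, mulVec_single_one]
        simp [Matrix.mul_assoc]
      rw [h3] at h2
      exact h2
    let A : Matrix ι ι F₀ := fun i j => ⟨B i j, hBe i j⟩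
    have hAB : A.map (F₀.subtype) = B := by
      ext i j; rfl
    have hdetB : B.det ≠ 0 := by
      rw [hB, det_smul, det_mul, det_mul]
      have e1 : ((P⁻¹ : GL ι F) : Matrix ι ι F).det ≠ 0 := (Matrix.isUnit_iff_isUnit_det _).1 (P⁻¹ : GL ι F).isUnit |>.ne_zero
      have e2 : (g : Matrix ι ι F).det ≠ 0 := (Matrix.isUnit_iff_isUnit_det _).1 g.isUnit |>.ne_zero
      have e3 : (P : Matrix ι ι F).det ≠ 0 := (Matrix.isUnit_iff_isUnit_det _).1 P.isUnit |>.ne_zero
      exact mul_ne_zero (pow_ne_zero _ hc0) (mul_ne_zero (mul_ne_zero e1 e2) e3)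
    have hdetA : A.det ≠ 0 := by
      intro h0
      apply hdetB
      rw [← hAB]
      have := RingHom.map_det (F₀.subtype) A
      rw [h0, map_zero] at this
      exact this.symm
    refine ⟨Matrix.GeneralLinearGroup.map (F₀.subtype : F₀ →+* F) (Matrix.GeneralLinearGroup.mkOfDetNeZero A hdetA) *
      (Units.map (Matrix.scalar ι : F →+* Matrix ι ι F).toMonoidHom (Units.mk0 c⁻¹ (inv_ne_zero hc0))), ?_, ?_⟩
    · exact Subgroup.mul_mem _ (Subgroup.mem_sup_left ⟨_, rfl⟩) (Subgroup.mem_sup_right ⟨_, rfl⟩)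
    · apply Units.ext
      show (P : Matrix ι ι F) * (A.map (F₀.subtype) * (Matrix.scalar ι c⁻¹)) * ((P⁻¹ : GL ι F) : Matrix ι ι F) = (g : Matrix ι ι F)
      rw [hAB, hB]
      have h1 : (P : Matrix ι ι F) * ((P⁻¹ : GL ι F) : Matrix ι ι F) = 1 := by rw [← Units.val_mul, mul_inv_cancel, Units.val_one]
      have h2 : (Matrix.scalar ι c⁻¹ : Matrix ι ι F) = c⁻¹ • 1 := by
        rw [Matrix.scalar_apply, Matrix.smul_one_eq_diagonal]
      rw [h2, mul_smul_comm, mul_one, smul_smul, inv_mul_cancel₀ hc0, one_smul]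
      rw [← Matrix.mul_assoc, ← Matrix.mul_assoc, h1, Matrix.one_mul, Matrix.mul_assoc, h1, Matrix.mul_one]

end bridge

end CfsgH9.Un
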