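import Mathlib
import Cfsg.Agent.H9.MxRat
import Cfsg.Agent.H9.MxOrt
import Cfsg.Agent.H9.MxGU

set_option autoImplicit false

/-! Maximality of orthogonal subgroups over the fixed field in special unitary groups. -/

namespace CfsgH9.Un

open Matrix Cfsg Cfsg.Geo CfsgH9.Tv CfsgH9.SpGen CfsgH9.Witt
open CfsgH9.MaxSymp (inv_mulVec mulVec_inv two_nonzero)
open CfsgH9.MaxImpSp (glOf glOf_mulVec)

variable {ι : Type} [Fintype ι] [DecidableEq ι] {F : Type*} [Field F]
variable {σ : F →+* F} {f : (ι → F) → (ι → F) → F} {M : Subgroup (GL ι F)}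

/-- Siegel elements -/
def IsU (f : (ι → F) → (ι → F) → F) (g : GL ι F) (v w : ι → F) (l : F) : Prop :=
  ∀ x, (g : Matrix ι ι F) *ᵥ x = x + f x v • w - (f x w + l * f x v) • v

/-- linear map -/
def uMap (hf : Hm σ f) (v w : ι → F) (l : F) : (ι → F) →ₗ[F] (ι → F) where
  toFun x := x + f x v • w - (f x w + l * f x v) • v
  map_add' x y := by rw [hf.add_left, hf.add_left]; module
  map_smul' c x := by rw [hf.smul_left, hf.smul_left, RingHom.id_apply]; module

omit [DecidableEq ι] [Fintype ι] in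
lemma uMap_apply (hf : Hm σ f) (v w : ι → F) (l : F) (x : ι → F) : uMap hf v w l x = x + f x v • w - (f x w + l * f x v) • v := rfl

omit [DecidableEq ι] [Fintype ι] in
lemma uMap_comp (hf : Hm σ f) {v w w' : ι → F} (l l' : F) (hv : f v v = 0) (hw : f w v = 0) (hw' : f w' v = 0) (x : ι → F) :
    uMap hf v w l (uMap hf v w' l' x) = uMap hf v (w + w') (l + l' + f w' w) x := by
  simp only [uMap_apply, hf.sub_left, hf.add_left, hf.smul_left, hv, hw, hw', hf.swap hw, hf.swap hw', hf.add_right]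
  module

omit [DecidableEq ι] [Fintype ι] in
lemma uMap_zero (hf : Hm σ f) (v x : ι → F) : uMap hf v 0 0 x = x := by
  rw [uMap_apply, hf.zero_right]; simp

lemma exists_U (hf : Hm σ f) {v w : ι → F} (l : F) (hv : f v v = 0) (hw : f w v = 0) : ∃ g : GL ι F, IsU f g v w l := by
  have hn : f (-w) v = 0 := by rw [hf.neg_left, hw, neg_zero]
  let e : (ι → F) ≃ₗ[F] (ι → F) := LinearEquiv.ofLinear (uMap hf v w l) (uMap hf v (-w) (f w w - l))
    (by
      refine LinearMap.ext fun x => ?_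
      rw [LinearMap.comp_apply, uMap_comp hf _ _ hv hw hn, add_neg_cancel, hf.neg_left]
      have : l + (f w w - l) + -f w w = 0 := by ring
      rw [this, uMap_zero, LinearMap.id_apply])
    (by
      refine LinearMap.ext fun x => ?_
      rw [LinearMap.comp_apply, uMap_comp hf _ _ hv hn hw, neg_add_cancel, hf.neg_right]
      have : f w w - l + l + -f w w = 0 := by ring
      rw [this, uMap_zero, LinearMap.id_apply])
  refine ⟨glOf e, ?_⟩
  intro x
  rw [glOf_mulVec]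
  rfl

lemma IsU.iso (hf : Hm σ f) {g : GL ι F} {v w : ι → F} {l : F} (hv : f v v = 0) (hw : f w v = 0) (hl : l + σ l = f w w)
    (hg : IsU f g v w l) : Iso f g := by
  intro x y
  rw [hg, hg]
  simp only [hf.sub_left, hf.add_left, hf.smul_left, hf.sub_right, hf.add_right, hf.smul_right, hv, hw, hf.swap hw, map_add, map_mul]
  rw [← hf.symm y v, ← hf.symm y w]
  linear_combination (- f x v * f v y) * hl

lemma IsU.unique {g h : GL ι F} {v w : ι → F} {l : F} (hg : IsU f g v w l) (hh : IsU f h v w l) : g = h :=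
  ext_mulVec fun x => by rw [hg, hh]

lemma IsU.mul (hf : Hm σ f) {g h : GL ι F} {v w w' : ι → F} {l l' : F} (hv : f v v = 0) (hw : f w v = 0) (hw' : f w' v = 0)
    (hg : IsU f g v w l) (hh : IsU f h v w' l') : IsU f (g * h) v (w + w') (l + l' + f w' w) := by
  intro x
  rw [Units.val_mul, ← mulVec_mulVec, hh, hg]
  exact uMap_comp hf l l' hv hw hw' x

lemma IsU.conj {g h : GL ι F} {v w : ι → F} {l : F} (hg : IsU f g v w l) (hh : Iso f h) :
    IsU f (h * g * h⁻¹) ((h : Matrix ι ι F) *ᵥ v) ((h : Matrix ι ι F) *ᵥ w) l := by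
  intro x
  rw [Units.val_mul, Units.val_mul, ← mulVec_mulVec, ← mulVec_mulVec, hg, mulVec_sub, mulVec_add, mulVec_smul, mulVec_smul, mulVec_inv,
    ← hh _ v, ← hh _ w, mulVec_inv]

variable {F₀ : Subfield F}

/-- the set of admissible vectors -/
def WW (σ : F →+* F) (f : (ι → F) → (ι → F) → F) (F₀ : Subfield F) (M : Subgroup (GL ι F)) (v w : ι → F) : Prop :=
  f w v = 0 ∧ ∀ c : F₀, ∃ (l : F) (g : GL ι F), g ∈ M ∧ l + σ l = f ((c : F) • w) ((c : F) • w) ∧ IsU f g v ((c : F) • w) l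

lemma WW.add (hf : Hm σ f) {v w w' : ι → F} (hv : f v v = 0) (h : WW σ f F₀ M v w) (h' : WW σ f F₀ M v w') : WW σ f F₀ M v (w + w') := by
  refine ⟨by rw [hf.add_left, h.1, h'.1, add_zero], fun c => ?_⟩
  obtain ⟨l, g, hg, hl, hU⟩ := h.2 c
  obtain ⟨l', g', hg', hl', hU'⟩ := h'.2 c
  have e1 : f ((c : F) • w) v = 0 := by rw [hf.smul_left, h.1, mul_zero]
  have e2 : f ((c : F) • w') v = 0 := by rw [hf.smul_left, h'.1, mul_zero]
  refine ⟨_, g * g', M.mul_mem hg hg', ?_, by rw [smul_add]; exact hU.mul hf hv e1 e2 hU'⟩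
  rw [smul_add, hf.add_left, hf.add_right, hf.add_right, ← hl, ← hl', map_add, map_add, ← hf.symm]
  ring

lemma WW.smul (hf : Hm σ f) {v w : ι → F} (h : WW σ f F₀ M v w) (d : F₀) : WW σ f F₀ M v ((d : F) • w) := by
  refine ⟨by rw [hf.smul_left, h.1, mul_zero], fun c => ?_⟩
  obtain ⟨l, g, hg, hl, hU⟩ := h.2 (c * d)
  refine ⟨l, g, hg, ?_, ?_⟩
  · rw [smul_smul]; exact hl
  · rw [smul_smul]; exact hU

lemma WW.sub (hf : Hm σ f) {v w w' : ι → F} (hv : f v v = 0) (h : WW σ f F₀ M v w) (h' : WW σ f F₀ M v w') : WW σ f F₀ M v (w - w') := by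
  have h1 := h.add hf hv (h'.smul hf (-1))
  have h2 : w + ((-1 : F₀) : F) • w' = w - w' := by
    rw [Subfield.coe_neg, Subfield.coe_one]; module
  rwa [h2] at h1

lemma WW.unscale (hf : Hm σ f) {v w : ι → F} {d : F₀} (hd : d ≠ 0) (h : WW σ f F₀ M v ((d : F) • w)) : WW σ f F₀ M v w := by
  have h1 := h.smul hf d⁻¹
  rwa [smul_smul, ← Subfield.coe_mul, inv_mul_cancel₀ hd, Subfield.coe_one, one_smul] at h1

lemma WW.map (hf : Hm σ f) {v w : ι → F} {h : GL ι F} (hh : h ∈ M) (hi : Iso f h) (hw : WW σ f F₀ M v w) :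
    WW σ f F₀ M ((h : Matrix ι ι F) *ᵥ v) ((h : Matrix ι ι F) *ᵥ w) := by
  refine ⟨by rw [hi]; exact hw.1, fun c => ?_⟩
  obtain ⟨l, g, hg, hl, hU⟩ := hw.2 c
  refine ⟨l, h * g * h⁻¹, M.mul_mem (M.mul_mem hh hg) (M.inv_mem hh), ?_, ?_⟩
  · rw [← mulVec_smul, hi]; exact hl
  · rw [← mulVec_smul]; exact hU.conj hi

lemma WW.fix (hf : Hm σ f) {v w : ι → F} {h : GL ι F} (hh : h ∈ M) (hi : Iso f h) (hv : (h : Matrix ι ι F) *ᵥ v = v)
    (hw : WW σ f F₀ M v w) : WW σ f F₀ M v ((h : Matrix ι ι F) *ᵥ w) := by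
  have := hw.map hf hh hi
  rwa [hv] at this

lemma WW.self (hf : Hm σ f) {v : ι → F} (hv : f v v = 0) (a : F) : WW σ f F₀ M v (a • v) := by
  refine ⟨by rw [hf.smul_left, hv, mul_zero], fun c => ?_⟩
  refine ⟨(c : F) * a - σ ((c : F) * a), 1, M.one_mem, ?_, ?_⟩
  · rw [map_sub, hf.inv, hf.smul_left, hf.smul_right, hf.smul_left, hf.smul_right, hv]; ring
  · intro x
    rw [Units.val_one, one_mulVec, smul_smul (c : F) a v, hf.smul_right, map_mul]; module

/-- values of the form -/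
lemma WW.comm (hf : Hm σ f) (hfix : ∀ c : F, c ∈ F₀ ↔ σ c = c) {v w w' : ι → F} (hv : f v v = 0) (hX : ¬ XS σ f M v)
    (h : WW σ f F₀ M v w) (h' : WW σ f F₀ M v w') : σ (f w w') = f w w' := by
  by_contra hne
  apply hX
  intro a g ha hg
  rw [← hf.symm] at hne
  have hd : f w w' - f w' w ≠ 0 := sub_ne_zero.2 (Ne.symm hne)
  have hσd : σ (f w w' - f w' w) = -(f w w' - f w' w) := by
    rw [map_sub, ← hf.symm, ← hf.symm]; ring
  have hσa : σ a = -a := by linear_combination ha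
  have hc : a * (f w w' - f w' w)⁻¹ ∈ F₀ := by
    rw [hfix, map_mul, map_inv₀, hσd, hσa, inv_neg]; ring
  obtain ⟨l, A, hA, -, hUA⟩ := h.2 ⟨_, hc⟩
  obtain ⟨l', B, hB, -, hUB⟩ := h'.2 1
  simp only [Subfield.coe_one, one_smul] at hUA hUB
  set c := a * (f w w' - f w' w)⁻¹ with hcd
  have hca : c * (f w w' - f w' w) = a := by rw [hcd, mul_assoc, inv_mul_cancel₀ hd, mul_one]
  have e1 : f (c • w) v = 0 := by rw [hf.smul_left, h.1, mul_zero]
  have h1 := hUA.mul hf hv e1 h'.1 hUB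
  have h2 := hUB.mul hf hv h'.1 e1 hUA
  have hσc : σ c = c := (hfix c).1 hc
  have h3 : (B * A) * g = A * B := by
    apply ext_mulVec
    intro x
    rw [Units.val_mul (B * A) g, ← mulVec_mulVec, h2, h1, hg]
    simp only [hf.add_left, hf.smul_left, hf.add_right, hf.smul_right, hv, hf.swap h.1, hf.swap h'.1, hσc]
    match_scalars <;> first | ring1 | (linear_combination (-(f x v)) * hca) | (linear_combination (f x v) * hca)
  have h4 : g = (B * A)⁻¹ * (A * B) := by rw [← h3]; group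
  rw [h4]
  exact M.mul_mem (M.inv_mem (M.mul_mem hB hA)) (M.mul_mem hA hB)

lemma c2 : ((2 : F₀) : F) = 2 := rfl

/-- real structure with symmetric form -/
structure RS (σ : F →+* F) (f : (ι → F) → (ι → F) → F) (F₀ : Subfield F) (Q₀ : (ι → F₀) → F₀) (f₀ : (ι → F₀) → (ι → F₀) → F₀)
    (e : (ι → F₀) →ₗ[F₀] (ι → F)) (κ : F) : Prop where
  hf : Hm σ f
  h2 : (2 : F) ≠ 0
  fix : ∀ c : F, c ∈ F₀ ↔ σ c = c
  q : Og.Qf Q₀ f₀
  form : ∀ x y, f (e x) (e y) = (f₀ x y : F)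
  hκ : σ κ = -κ
  hκ0 : κ ≠ 0
  split : ∀ v, ∃ a b, v = e a + κ • e b

variable {Q₀ : (ι → F₀) → F₀} {f₀ : (ι → F₀) → (ι → F₀) → F₀} {e : (ι → F₀) →ₗ[F₀] (ι → F)} {κ : F}

namespace RS

omit [DecidableEq ι] [Fintype ι] in
lemma smul (h : RS σ f F₀ Q₀ f₀ e κ) (c : F₀) (x : ι → F₀) : e (c • x) = (c : F) • e x := by
  rw [map_smul]; rfl

omit [DecidableEq ι] [Fintype ι] in
lemma sig (h : RS σ f F₀ Q₀ f₀ e κ) (c : F₀) : σ (c : F) = c := (h.fix c).1 c.2

omit [DecidableEq ι] [Fintype ι] in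
lemma pair_zero (h : RS σ f F₀ Q₀ f₀ e κ) {a b : F₀} (hab : (a : F) + κ * b = 0) : a = 0 ∧ b = 0 := by
  have h1 := congrArg σ hab
  rw [map_add, map_mul, h.hκ, map_zero, h.sig, h.sig] at h1
  have hb : (2 : F) * (κ * b) = 0 := by linear_combination hab - h1
  have hb0 : (b : F) = 0 := ((mul_eq_zero.1 ((mul_eq_zero.1 hb).resolve_left h.h2)).resolve_left h.hκ0)
  rw [hb0, mul_zero, add_zero] at hab
  exact ⟨by exact_mod_cast hab, by exact_mod_cast hb0⟩

omit [DecidableEq ι] [Fintype ι] in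
lemma f_split (h : RS σ f F₀ Q₀ f₀ e κ) (y a b : ι → F₀) : f (e y) (e a + κ • e b) = (f₀ y a : F) - κ * (f₀ y b : F) := by
  rw [h.hf.add_right, h.hf.smul_right, h.form, h.form, h.hκ]; ring

omit [DecidableEq ι] [Fintype ι] in
lemma perp_iff (h : RS σ f F₀ Q₀ f₀ e κ) {y a b : ι → F₀} : f (e y) (e a + κ • e b) = 0 ↔ f₀ y a = 0 ∧ f₀ y b = 0 := by
  rw [h.f_split]
  constructor
  · intro h1
    have h2 := h.pair_zero (a := f₀ y a) (b := - f₀ y b) (by push_cast; linear_combination h1)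
    exact ⟨h2.1, neg_eq_zero.1 h2.2⟩
  · rintro ⟨h1, h2⟩
    rw [h1, h2]; simp

omit [DecidableEq ι] [Fintype ι] in
lemma inj (h : RS σ f F₀ Q₀ f₀ e κ) {x : ι → F₀} (hx : e x = 0) : x = 0 := by
  by_contra hne
  obtain ⟨y, hy⟩ := h.q.nondeg x hne
  apply hy
  have h1 := h.form x y
  rw [hx, h.hf.zero_left] at h1
  exact_mod_cast h1.symm

omit [DecidableEq ι] [Fintype ι] in
lemma iso0 (h : RS σ f F₀ Q₀ f₀ e κ) {x : ι → F₀} (hx : Q₀ x = 0) : f (e x) (e x) = 0 := by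
  rw [h.form, h.q.self_of hx]; rfl

/-- real perpendicular vectors -/
lemma perp_real (h : RS σ f F₀ Q₀ f₀ e κ) {u : ι → F₀} {z : ι → F} (hz : ∀ x, f₀ x u = 0 → f (e x) z = 0) : ∃ c : F, z = c • e u := by
  obtain ⟨a, b, rfl⟩ := h.split z
  have h1 : ∀ x, f₀ x u = 0 → f₀ x a = 0 ∧ f₀ x b = 0 := fun x hx => h.perp_iff.1 (hz x hx)
  have h2 : a ∈ Og.perp h.q (Og.perp h.q (Submodule.span F₀ {u})) := by
    intro x hx
    exact h.q.swap (h1 x ((Og.mem_perp_one h.q).1 hx)).1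
  have h3 : b ∈ Og.perp h.q (Og.perp h.q (Submodule.span F₀ {u})) := by
    intro x hx
    exact h.q.swap (h1 x ((Og.mem_perp_one h.q).1 hx)).2
  rw [Og.perp_perp] at h2 h3
  obtain ⟨c, rfl⟩ := Submodule.mem_span_singleton.1 h2
  obtain ⟨d, rfl⟩ := Submodule.mem_span_singleton.1 h3
  exact ⟨c + κ * d, by rw [h.smul, h.smul]; module⟩

/-- hyperbolic pairs perpendicular to a vector -/
lemma hyp_v [Finite F] (h : RS σ f F₀ Q₀ f₀ e κ) (hn : 13 ≤ Fintype.card ι) (v : ι → F) : ∃ a b, Q₀ a = 0 ∧ Q₀ b = 0 ∧ f₀ a b = 1 ∧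
    f (e a) v = 0 ∧ f (e b) v = 0 := by
  obtain ⟨v1, v2, rfl⟩ := h.split v
  obtain ⟨a, ha, b, hb, hQa, hQb, hab, -⟩ := Og.exists_hyp h.q (Submodule.span F₀ {v1, v2}) (by
    have := Og.finrank_span_pair (F := F₀) v1 v2
    omega)
  exact ⟨a, b, hQa, hQb, hab, h.perp_iff.2 ((Og.mem_perp_pair h.q).1 ha), h.perp_iff.2 ((Og.mem_perp_pair h.q).1 hb)⟩

/-- nonsingular vectors perpendicular to a vector and a real vector -/
lemma nons_v [Finite F] (h : RS σ f F₀ Q₀ f₀ e κ) (hn : 13 ≤ Fintype.card ι) (v : ι → F) (y : ι → F₀) : ∃ a, Q₀ a ≠ 0 ∧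
    f (e a) v = 0 ∧ f₀ y a = 0 := by
  obtain ⟨v1, v2, rfl⟩ := h.split v
  obtain ⟨a, ha, b, hb, hQa, hQb, hab, -⟩ := Og.exists_hyp h.q (Submodule.span F₀ {v1, v2} ⊔ Submodule.span F₀ {y}) (by
    have h1 := Submodule.finrank_add_le_finrank_add_finrank (Submodule.span F₀ {v1, v2}) (Submodule.span F₀ {y})
    have h2 := Og.finrank_span_pair (F := F₀) v1 v2
    have h3 := Og.fss (F := F₀) y
    omega)
  have h4 := Submodule.add_mem _ ha hb
  refine ⟨a + b, ?_, h.perp_iff.2 ((Og.mem_perp_pair h.q).1 (Og.perp_anti h.q le_sup_left h4)), ?_⟩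
  · rw [h.q.add, hQa, hQb, hab]; simp
  · exact h.q.swap (h4 y (Submodule.mem_sup_right (Submodule.mem_span_singleton_self _)))

end RS

/-- the set-up -/
structure RM (σ : F →+* F) (f : (ι → F) → (ι → F) → F) (F₀ : Subfield F) (Q₀ : (ι → F₀) → F₀) (f₀ : (ι → F₀) → (ι → F₀) → F₀)
    (e : (ι → F₀) →ₗ[F₀] (ι → F)) (κ : F) (M : Subgroup (GL ι F)) : Prop extends RS σ f F₀ Q₀ f₀ e κ where
  iso : ∀ g ∈ M, Iso f g
  mem : ∀ u w : ι → F₀, Q₀ u = 0 → f₀ w u = 0 → ∀ g, IsU f g (e u) (e w) (Q₀ w) → g ∈ M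

lemma RM.real (h : RM σ f F₀ Q₀ f₀ e κ M) {u w : ι → F₀} (hu : Q₀ u = 0) (hw : f₀ w u = 0) : WW σ f F₀ M (e u) (e w) := by
  refine ⟨by rw [h.form, hw]; rfl, fun c => ?_⟩
  have h1 : f ((c : F) • e w) (e u) = 0 := by rw [h.hf.smul_left, h.form, hw]; simp
  obtain ⟨g, hg⟩ := exists_U h.hf (Q₀ (c • w) : F) (h.iso0 hu) h1
  refine ⟨_, g, ?_, ?_, hg⟩
  · rw [← h.smul] at hg
    exact h.mem u (c • w) hu (by rw [h.q.smul_left, hw, mul_zero]) g hg
  · rw [h.sig, ← h.smul, h.form, h.q.self, Subfield.coe_mul, c2]; ring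

lemma RM.step [Finite F] (h : RM σ f F₀ Q₀ f₀ e κ M) (hn : 13 ≤ Fintype.card ι) {v w : ι → F} (hv : f v v = 0)
    (hw : WW σ f F₀ M v w) {y : ι → F₀} (hy : Q₀ y = 0) (hyv : f (e y) v = 0) : WW σ f F₀ M v (f w (e y) • e y) := by
  obtain ⟨a, hQa, hav, hya⟩ := h.nons_v hn v y
  have hay := h.q.swap hya
  obtain ⟨g, hg⟩ := exists_U h.hf (w := e a) (Q₀ a : F) (h.iso0 hy) (by rw [h.form, hay]; rfl)
  obtain ⟨g', hg'⟩ := exists_U h.hf (w := e (-a)) (Q₀ (-a) : F) (h.iso0 hy) (by rw [h.form, h.q.neg_left, hay]; simp)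
  have hgM := h.mem y a hy hay g hg
  have hgM' := h.mem y (-a) hy (by rw [h.q.neg_left, hay, neg_zero]) g' hg'
  have hf := h.hf
  have ena : e (-a) = - e a := map_neg e a
  have hgv : (g : Matrix ι ι F) *ᵥ v = v := by
    rw [hg, hf.swap hyv, hf.swap hav]; simp
  have hgv' : (g' : Matrix ι ι F) *ᵥ v = v := by
    rw [hg', hf.swap hyv, ena, hf.neg_right, hf.swap hav]; simp
  have h1 := hw.fix hf hgM (h.iso g hgM) hgv
  have h2 := hw.fix hf hgM' (h.iso g' hgM') hgv'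
  have h3 := (h1.add hf hv h2).sub hf hv (hw.add hf hv hw)
  have h4 : (g : Matrix ι ι F) *ᵥ w + (g' : Matrix ι ι F) *ᵥ w - (w + w) = ((-2 * Q₀ a : F₀) : F) • (f w (e y) • e y) := by
    rw [hg, hg', ena, hf.neg_right, h.q.Q_neg, Subfield.coe_mul, Subfield.coe_neg, c2]; module
  rw [h4] at h3
  refine h3.unscale hf ?_
  refine mul_ne_zero (neg_ne_zero.2 ?_) hQa
  intro h5
  apply h.h2
  have h6 : ((2 : F₀) : F) = ((0 : F₀) : F) := by rw [h5]
  exact h6

lemma RM.lam [Finite F] (h : RM σ f F₀ Q₀ f₀ e κ M) (hn : 13 ≤ Fintype.card ι) {v w : ι → F} (hv : f v v = 0)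
    (hw : WW σ f F₀ M v w) {y b : ι → F₀} (hy : Q₀ y = 0) (hyv : f (e y) v = 0) (hbv : f (e b) v = 0) (hyb : f₀ y b = 1)
    (z : ι → F₀) (hz : f (e z) v = 0) : WW σ f F₀ M v (f w (e y) • e z) := by
  have hf := h.hf
  have h0 := h.step hn hv hw hy hyv
  have h1 : ∀ z, f (e z) v = 0 → f₀ y z ≠ 0 → WW σ f F₀ M v (f w (e y) • e z) := by
    intro z hz hyz
    have e1 : f (e (z + (-(Q₀ z / f₀ y z)) • y)) v = 0 := by
      rw [map_add, h.smul, hf.add_left, hf.smul_left, hz, hyv]; ring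
    have e2 : Q₀ (z + (-(Q₀ z / f₀ y z)) • y) = 0 := by
      rw [h.q.add, h.q.smul, h.q.smul_right, hy, h.q.symm y z]
      field_simp; ring
    have e3 : f₀ y (z + (-(Q₀ z / f₀ y z)) • y) = f₀ y z := by
      rw [h.q.add_right, h.q.smul_right, h.q.self_of hy]; ring
    have h2 := h.step hn hv h0 e2 e1
    rw [hf.smul_left, h.form, e3, mul_comm, mul_smul] at h2
    have h3 := h2.unscale hf hyz
    rw [map_add, h.smul, smul_add, smul_comm] at h3
    have h4 := h3.sub hf hv (h0.smul hf (-(Q₀ z / f₀ y z)))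
    rwa [add_sub_cancel_right] at h4
  by_cases hyz : f₀ y z = 0
  · have h2 := h1 (z + b) (by rw [map_add, hf.add_left, hz, hbv, add_zero]) (by rw [h.q.add_right, hyz, hyb, zero_add]; exact one_ne_zero)
    have h3 := h1 b hbv (by rw [hyb]; exact one_ne_zero)
    have h4 := h2.sub hf hv h3
    rwa [map_add, smul_add, add_sub_cancel_right] at h4
  · exact h1 z hz hyz

/-- the semilinear involution -/
structure TT (σ : F →+* F) (e : (ι → F₀) →ₗ[F₀] (ι → F)) (τ : (ι → F) → (ι → F)) : Prop where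
  add : ∀ x y, τ (x + y) = τ x + τ y
  smul : ∀ (c : F) x, τ (c • x) = σ c • τ x
  inv : ∀ x, τ (τ x) = x
  e : ∀ x, τ (e x) = e x

variable {τ : (ι → F) → (ι → F)}

omit [DecidableEq ι] [Fintype ι] in
lemma TT.sub (ht : TT σ e τ) (x y : ι → F) : τ (x - y) = τ x - τ y := by
  have h1 : x - y = x + (-1 : F) • y := by module
  rw [h1, ht.add, ht.smul, map_neg, map_one]; module

omit [DecidableEq ι] [Fintype ι] in
lemma RS.ftau (h : RS σ f F₀ Q₀ f₀ e κ) (ht : TT σ e τ) (x y : ι → F) : f (τ x) (τ y) = σ (f x y) := by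
  obtain ⟨a, b, rfl⟩ := h.split x
  obtain ⟨c, d, rfl⟩ := h.split y
  have hf := h.hf
  rw [ht.add, ht.add, ht.smul, ht.smul, ht.e, ht.e, ht.e, ht.e]
  simp only [hf.add_left, hf.add_right, hf.smul_left, hf.smul_right, h.form, map_add, map_mul, h.sig]

/-- vectors perpendicular to all real vectors perpendicular to `v` -/
lemma RS.span_v (h : RS σ f F₀ Q₀ f₀ e κ) (ht : TT σ e τ) {v z : ι → F} (hz : ∀ y, f (e y) v = 0 → f z (e y) = 0) :
    ∃ a b : F, z = a • v + b • τ v := by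
  have hf := h.hf
  have h1 : z ∈ perp hf (perp hf (Submodule.span F {v, τ v})) := by
    intro x hx
    obtain ⟨e1, e2⟩ := (mem_perp_pair hf).1 hx
    obtain ⟨a, b, rfl⟩ := h.split x
    have e3 : f (τ (e a + κ • e b)) v = 0 := by
      have := h.ftau ht (e a + κ • e b) (τ v)
      rw [ht.inv, e2, map_zero] at this
      exact this
    rw [ht.add, ht.smul, ht.e, ht.e, h.hκ, hf.add_left, hf.smul_left] at e3
    rw [hf.add_left, hf.smul_left] at e1
    have e4 : f (e a) v = 0 := by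
      apply mul_left_cancel₀ h.h2
      linear_combination e1 + e3
    have e5 : f (e b) v = 0 := by
      apply mul_left_cancel₀ h.h2
      apply mul_left_cancel₀ h.hκ0
      linear_combination e1 - e3
    rw [hf.add_right, hf.smul_right, hz a e4, hz b e5]; ring
  rw [perp_perp] at h1
  obtain ⟨a, b, hab⟩ := Submodule.mem_span_pair.1 h1
  exact ⟨a, b, hab.symm⟩

/-- the linear operator -/
def Top (g : GL ι F) (τ : (ι → F) → (ι → F)) (x : ι → F) : ι → F := ((g⁻¹ : GL ι F) : Matrix ι ι F) *ᵥ (τ ((g : Matrix ι ι F) *ᵥ (τ x)))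

lemma Top_add (ht : TT σ e τ) (g : GL ι F) (x y : ι → F) : Top g τ (x + y) = Top g τ x + Top g τ y := by
  rw [Top, Top, Top, ht.add, mulVec_add, ht.add, mulVec_add]

lemma Top_smul (h : RS σ f F₀ Q₀ f₀ e κ) (ht : TT σ e τ) (g : GL ι F) (c : F) (x : ι → F) : Top g τ (c • x) = c • Top g τ x := by
  rw [Top, Top, ht.smul, mulVec_smul, ht.smul, mulVec_smul, h.hf.inv]

lemma Top_e (ht : TT σ e τ) (g : GL ι F) (x : ι → F₀) : Top g τ (e x) = ((g⁻¹ : GL ι F) : Matrix ι ι F) *ᵥ (τ ((g : Matrix ι ι F) *ᵥ (e x))) := by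
  rw [Top, ht.e]

lemma Top_iso (h : RS σ f F₀ Q₀ f₀ e κ) (ht : TT σ e τ) {g : GL ι F} (hg : Iso f g) (x y : ι → F) :
    f (Top g τ x) (Top g τ y) = f x y := by
  rw [Top, Top, hg.inv, h.ftau ht, hg, h.ftau ht, h.hf.inv]

lemma Top_surj (ht : TT σ e τ) (g : GL ι F) (y : ι → F) : ∃ x, Top g τ x = y := by
  refine ⟨τ (((g⁻¹ : GL ι F) : Matrix ι ι F) *ᵥ (τ ((g : Matrix ι ι F) *ᵥ y))), ?_⟩
  rw [Top, ht.inv, mulVec_inv, ht.inv, inv_mulVec]

lemma RM.D [Finite F] (h : RM σ f F₀ Q₀ f₀ e κ M) (ht : TT σ e τ) (hn : 13 ≤ Fintype.card ι) {g : GL ι F} (hg : g ∈ M) {u : ι → F₀}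
    (hu0 : u ≠ 0) (hu : Q₀ u = 0) (hX : ¬ XS σ f M ((g : Matrix ι ι F) *ᵥ (e u))) :
    ∃ c : F, c * σ c = 1 ∧ ∀ x, f x (e u) = 0 → ∃ a b : F, Top g τ x - c • x = a • e u + b • Top g τ (e u) := by
  have hf := h.hf
  have hiso := h.iso g hg
  set v := (g : Matrix ι ι F) *ᵥ (e u) with hvd
  have hv : f v v = 0 := by rw [hvd, hiso]; exact h.iso0 hu
  obtain ⟨y, b, hy, -, hyb, hyv, hbv⟩ := h.hyp_v hn v
  have hWr : ∀ x, f₀ x u = 0 → WW σ f F₀ M v ((g : Matrix ι ι F) *ᵥ (e x)) := fun x hx => (h.real hu hx).map hf hg hiso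
  obtain ⟨x0, hx0, hx0y⟩ : ∃ x, f₀ x u = 0 ∧ f ((g : Matrix ι ι F) *ᵥ (e x)) (e y) ≠ 0 := by
    by_contra hcon
    push Not at hcon
    obtain ⟨c, hc⟩ := h.perp_real (u := u) (z := ((g⁻¹ : GL ι F) : Matrix ι ι F) *ᵥ (e y)) (fun x hx => by
      rw [← hiso, mulVec_inv]; exact hcon x hx)
    have h1 : e y = c • v := by rw [hvd, ← mulVec_smul, ← hc, mulVec_inv]
    have h2 := h.form y b
    rw [hyb, h1, hf.smul_left, hf.swap hbv, mul_zero, Subfield.coe_one] at h2
    exact zero_ne_one h2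
  set w := (g : Matrix ι ι F) *ᵥ (e x0) with hwd
  set l := f w (e y) with hld
  have hσl : σ l ≠ 0 := fun h0 => hx0y ((map_eq_zero σ).1 h0)
  have hlam := fun z hz => h.lam hn hv (hWr x0 hx0) hy hyv hbv hyb z hz
  have key : ∀ x, f₀ x u = 0 → ∃ a b : F, Top g τ (e x) - (σ l * l⁻¹) • e x = a • e u + b • Top g τ (e u) := by
    intro x hx
    have h1 : ∀ y', f (e y') v = 0 → f (σ l • ((g : Matrix ι ι F) *ᵥ (e x)) - l • τ ((g : Matrix ι ι F) *ᵥ (e x))) (e y') = 0 := by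
      intro y' hy'
      have h2 := WW.comm hf h.fix hv hX (hWr x hx) (hlam y' hy')
      have h3 := h.ftau ht ((g : Matrix ι ι F) *ᵥ (e x)) (e y')
      rw [ht.e] at h3
      rw [hf.smul_right, map_mul, hf.inv] at h2
      rw [hf.sub_left, hf.smul_left, hf.smul_left, h3]
      linear_combination -h2
    obtain ⟨a, b', hab⟩ := h.span_v ht h1
    have h2 := congrArg (fun z => ((g⁻¹ : GL ι F) : Matrix ι ι F) *ᵥ z) hab
    simp only [mulVec_sub, mulVec_add, mulVec_smul] at h2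
    rw [hvd, inv_mulVec, inv_mulVec, ← Top_e ht, ← Top_e ht] at h2
    refine ⟨-(l⁻¹ * a), -(l⁻¹ * b'), ?_⟩
    have h3 : Top g τ (e x) = l⁻¹ • (l • Top g τ (e x)) := by rw [smul_smul, inv_mul_cancel₀ hx0y, one_smul]
    have h4 : l • Top g τ (e x) = σ l • e x - (a • e u + b' • Top g τ (e u)) := by rw [← h2]; abel
    rw [h3, h4]; module
  refine ⟨σ l * l⁻¹, ?_, ?_⟩
  · rw [map_mul, map_inv₀, hf.inv]
    field_simp
  · intro x hx
    obtain ⟨a, b', rfl⟩ := h.split x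
    have hab : f₀ a u = 0 ∧ f₀ b' u = 0 := by
      rw [hf.add_left, hf.smul_left, h.form, h.form] at hx
      exact h.pair_zero hx
    obtain ⟨a1, b1, e1⟩ := key a hab.1
    obtain ⟨a2, b2, e2⟩ := key b' hab.2
    refine ⟨a1 + κ * a2, b1 + κ * b2, ?_⟩
    rw [Top_add ht, Top_smul h.toRS ht]
    have h5 : Top g τ (e a) + κ • Top g τ (e b') - (σ l * l⁻¹) • (e a + κ • e b') =
      (Top g τ (e a) - (σ l * l⁻¹) • e a) + κ • (Top g τ (e b') - (σ l * l⁻¹) • e b') := by module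
    rw [h5, e1, e2]; module

/-- everything is scalar -/
theorem RM.scalar [Finite F] (h : RM σ f F₀ Q₀ f₀ e κ M) (ht : TT σ e τ) (hn : 13 ≤ Fintype.card ι) {g : GL ι F} (hg : g ∈ M)
    (hX : ∀ v, v ≠ 0 → f v v = 0 → ¬ XS σ f M v) : ∃ c : F, c * σ c = 1 ∧ ∀ x, Top g τ x = c • x := by
  have hf := h.hf
  have hiso := h.iso g hg
  have hD : ∀ u, u ≠ 0 → Q₀ u = 0 → ∃ c : F, c * σ c = 1 ∧ ∀ x, f x (e u) = 0 → ∃ a b : F, Top g τ x - c • x = a • e u + b • Top g τ (e u) := by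
    intro u hu0 hu
    refine h.D ht hn hg hu0 hu (hX _ ?_ ?_)
    · intro h0
      exact hu0 (h.inj (GL_inj h0))
    · rw [hiso]; exact h.iso0 hu
  obtain ⟨u, u', hQu, hQu', huu', -, -⟩ := h.hyp_v hn 0
  have hu0 : u ≠ 0 := by rintro rfl; rw [h.q.zero_left] at huu'; exact zero_ne_one huu'
  obtain ⟨c, hc, hcD⟩ := hD u hu0 hQu
  refine ⟨c, hc, ?_⟩
  have hc0 : c ≠ 0 := by rintro rfl; rw [zero_mul] at hc; exact zero_ne_one hc
  have hall : ∀ z, z ≠ 0 → Q₀ z = 0 → ∀ x, f x (e z) = 0 → ∃ a b : F, Top g τ x - c • x = a • e z + b • Top g τ (e z) := by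
    intro z hz0 hz
    obtain ⟨c', hc', hcD'⟩ := hD z hz0 hz
    have hcc : c = c' := by
      by_contra hne
      have h1 : perp hf (Submodule.span F {e u, e z}) ≤ Submodule.span F {e u, Top g τ (e u)} ⊔ Submodule.span F {e z, Top g τ (e z)} := by
        intro x hx
        obtain ⟨e1, e2⟩ := (mem_perp_pair hf).1 hx
        obtain ⟨a, b, h2⟩ := hcD x e1
        obtain ⟨a', b', h3⟩ := hcD' x e2
        have h4 : x = (c' - c)⁻¹ • ((a • e u + b • Top g τ (e u)) - (a' • e z + b' • Top g τ (e z))) := by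
          rw [← h2, ← h3]
          have : Top g τ x - c • x - (Top g τ x - c' • x) = (c' - c) • x := by module
          rw [this, smul_smul, inv_mul_cancel₀ (sub_ne_zero.2 (Ne.symm hne)), one_smul]
        rw [h4]
        refine Submodule.smul_mem _ _ (Submodule.sub_mem _ (Submodule.mem_sup_left (Submodule.mem_span_pair.2 ⟨_, _, rfl⟩))
          (Submodule.mem_sup_right (Submodule.mem_span_pair.2 ⟨_, _, rfl⟩)))
      have h2 := Submodule.finrank_mono h1
      have h3 := finrank_perp_ge hf (Submodule.span F {e u, e z})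
      have h4 := finrank_span_pair (F := F) (e u) (e z)
      have h5 := finrank_span_pair (F := F) (e u) (Top g τ (e u))
      have h6 := finrank_span_pair (F := F) (e z) (Top g τ (e z))
      have h7 := Submodule.finrank_add_le_finrank_add_finrank (Submodule.span F {e u, Top g τ (e u)}) (Submodule.span F {e z, Top g τ (e z)})
      omega
    rw [hcc]; exact hcD'
  -- kernel vectors
  obtain ⟨a1, b1, h1⟩ := h.split (Top g τ (e u))
  obtain ⟨a2, b2, h2⟩ := h.split (Top g τ (e u') - c • e u')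
  obtain ⟨a, ha, b, hb, hQa, hQb, hab, -⟩ := Og.exists_hyp h.q (Submodule.span F₀ {u} ⊔ (Submodule.span F₀ {a1, b1} ⊔ Submodule.span F₀ {a2, b2})) (by
    have k1 := Submodule.finrank_add_le_finrank_add_finrank (Submodule.span F₀ {u}) (Submodule.span F₀ {a1, b1} ⊔ Submodule.span F₀ {a2, b2})
    have k2 := Submodule.finrank_add_le_finrank_add_finrank (Submodule.span F₀ {a1, b1}) (Submodule.span F₀ {a2, b2})
    have k3 := Og.finrank_span_pair (F := F₀) a1 b1
    have k4 := Og.finrank_span_pair (F := F₀) a2 b2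
    have k5 := Og.fss (F := F₀) u
    omega)
  have hker : ∀ z, z ∈ Og.perp h.q (Submodule.span F₀ {u} ⊔ (Submodule.span F₀ {a1, b1} ⊔ Submodule.span F₀ {a2, b2})) → Top g τ (e z) = c • e z := by
    intro z hz
    have z1 : f (e z) (e u) = 0 := by
      rw [h.form, hz u (Submodule.mem_sup_left (Submodule.mem_span_singleton_self _))]; rfl
    have z2 : f (e z) (Top g τ (e u)) = 0 := by
      rw [h1]
      exact h.perp_iff.2 ((Og.mem_perp_pair h.q).1 (Og.perp_anti h.q (le_sup_left.trans le_sup_right) hz))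
    have z3 : f (e z) (Top g τ (e u') - c • e u') = 0 := by
      rw [h2]
      exact h.perp_iff.2 ((Og.mem_perp_pair h.q).1 (Og.perp_anti h.q (le_sup_right.trans le_sup_right) hz))
    have z4 : ∀ y, f (e z) (Top g τ y - c • y) = 0 := by
      intro y
      have hy : f (y - f y (e u) • e u') (e u) = 0 := by
        rw [hf.sub_left, hf.smul_left, h.form u' u, h.q.symm u u', huu', Subfield.coe_one]; ring
      obtain ⟨α, β, hαβ⟩ := hcD _ hy
      have h5 : Top g τ y - c • y = (Top g τ (y - f y (e u) • e u') - c • (y - f y (e u) • e u')) + f y (e u) • (Top g τ (e u') - c • e u') := by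
        have h6 : Top g τ y = Top g τ (y - f y (e u) • e u') + f y (e u) • Top g τ (e u') := by
          rw [← Top_smul h.toRS ht, ← Top_add ht, sub_add_cancel]
        rw [h6]; module
      rw [h5, hαβ, hf.add_right, hf.add_right, hf.smul_right, hf.smul_right, hf.smul_right, z1, z2, z3]; ring
    rw [← sub_eq_zero]
    by_contra hne
    obtain ⟨y, hy⟩ := hf.nondeg _ hne
    obtain ⟨y', rfl⟩ := Top_surj ht g y
    apply hy
    rw [hf.sub_left, hf.smul_left, Top_iso h.toRS ht hiso]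
    have h6 := z4 y'
    rw [hf.sub_right, hf.smul_right] at h6
    linear_combination (f (e z) y') * (-hc) - c * h6
  have hTa := hker a ha
  have hTb := hker b hb
  have ha0 : a ≠ 0 := by rintro rfl; rw [h.q.zero_left] at hab; exact zero_ne_one hab
  have hb0 : b ≠ 0 := by rintro rfl; rw [h.q.zero_right] at hab; exact zero_ne_one hab
  intro x
  -- in K e a
  have k1 : ∃ α : F, Top g τ x - c • x = α • e a := by
    have hy : f (x - f x (e a) • e b) (e a) = 0 := by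
      rw [hf.sub_left, hf.smul_left, h.form b a, h.q.symm a b, hab, Subfield.coe_one]; ring
    obtain ⟨α, β, hαβ⟩ := hall a ha0 hQa _ hy
    rw [hTa, smul_smul, ← add_smul] at hαβ
    refine ⟨α + β * c, ?_⟩
    rw [← hαβ]
    have h6 : Top g τ x = Top g τ (x - f x (e a) • e b) + f x (e a) • Top g τ (e b) := by
      rw [← Top_smul h.toRS ht, ← Top_add ht, sub_add_cancel]
    rw [h6, hTb]; module
  have k2 : ∃ α : F, Top g τ x - c • x = α • e b := by
    have hy : f (x - f x (e b) • e a) (e b) = 0 := by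
      rw [hf.sub_left, hf.smul_left, h.form a b, hab, Subfield.coe_one]; ring
    obtain ⟨α, β, hαβ⟩ := hall b hb0 hQb _ hy
    rw [hTb, smul_smul, ← add_smul] at hαβ
    refine ⟨α + β * c, ?_⟩
    rw [← hαβ]
    have h6 : Top g τ x = Top g τ (x - f x (e b) • e a) + f x (e b) • Top g τ (e a) := by
      rw [← Top_smul h.toRS ht, ← Top_add ht, sub_add_cancel]
    rw [h6, hTa]; module
  obtain ⟨α, hα⟩ := k1
  obtain ⟨β, hβ⟩ := k2
  have h7 : α = 0 := by
    have h8 := congrArg (fun z => f z (e b)) (hα.symm.trans hβ)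
    simp only [hf.smul_left, h.form, hab, h.q.self_of hQb] at h8
    simpa using h8
  rw [h7, zero_smul] at hα
  exact sub_eq_zero.1 hα

lemma IsR_of (h : RS σ f F₀ Q₀ f₀ e κ) {v : ι → F} (hv : f v v = 0) : κ + σ κ = 0 ∧ ∃ t : GL ι F, IsR f t v κ := by
  have h1 : κ + σ κ = 0 := by rw [h.hκ]; ring
  exact ⟨h1, exists_R h.hf (Cd_of hv h1)⟩

/-- spreading transvections -/
lemma RM.spread (h : RM σ f F₀ Q₀ f₀ e κ M) {v : ι → F} (hv0 : v ≠ 0) (hv : f v v = 0) (hX : XS σ f M v) {u : ι → F₀} (hu : Q₀ u = 0)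
    (huv : f (e u) v = 0) (hne : ∀ c : F, e u ≠ c • v) : XS σ f M (e u) := by
  by_contra hn
  have hf := h.hf
  obtain ⟨hκ, t, ht⟩ := IsR_of h.toRS hv
  have htM := hX κ t hκ ht
  have htu : (t : Matrix ι ι F) *ᵥ (e u) = e u := by rw [ht, huv]; simp
  have h1 : ∀ x, f₀ x u = 0 → f (e x) v = 0 := by
    intro x hx
    have hW := h.real hu hx
    have h2 := (hW.fix hf htM (h.iso t htM) htu).sub hf (h.iso0 hu) hW
    rw [ht, add_sub_cancel_left] at h2
    have h3 := WW.comm hf h.fix (h.iso0 hu) hn hW h2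
    rw [hf.smul_right, map_mul, map_mul, map_mul, hf.inv, hf.inv, h.hκ] at h3
    have h4 : 2 * (κ * (f (e x) v * σ (f (e x) v))) = 0 := by linear_combination h3
    rcases mul_eq_zero.1 h4 with h5 | h5
    · exact absurd h5 h.h2
    rcases mul_eq_zero.1 h5 with h6 | h6
    · exact absurd h6 h.hκ0
    rcases mul_eq_zero.1 h6 with h7 | h7
    · exact h7
    · exact (map_eq_zero σ).1 h7
  obtain ⟨c, hc⟩ := h.perp_real h1
  have hc0 : c ≠ 0 := by
    rintro rfl
    rw [zero_smul] at hc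
    exact hv0 hc
  apply hne c⁻¹
  rw [hc, smul_smul, inv_mul_cancel₀ hc0, one_smul]

lemma RM.allreal [Finite F] (h : RM σ f F₀ Q₀ f₀ e κ M) (hn : 13 ≤ Fintype.card ι) {v : ι → F} (hv0 : v ≠ 0) (hv : f v v = 0)
    (hX : XS σ f M v) {u : ι → F₀} (hu0 : u ≠ 0) (hu : Q₀ u = 0) : XS σ f M (e u) := by
  have hf := h.hf
  -- step 1
  obtain ⟨a, b, hQa, hQb, hab, hav, hbv⟩ := h.hyp_v hn v
  have ha0 : a ≠ 0 := by rintro rfl; rw [h.q.zero_left] at hab; exact zero_ne_one hab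
  have hfab : f (e a) (e b) = 1 := by rw [h.form, hab]; rfl
  have hXa : XS σ f M (e a) := h.spread hv0 hv hX hQa hav (by
    intro c hc
    rw [hc, hf.smul_left, hf.swap hbv, mul_zero] at hfab
    exact zero_ne_one hfab)
  have hea0 : e a ≠ 0 := fun h0 => ha0 (h.inj h0)
  -- step 2
  obtain ⟨y, hy, z, hz, hQy, hQz, hyz, -⟩ := Og.exists_hyp h.q (Submodule.span F₀ {a, u}) (by
    have := Og.finrank_span_pair (F := F₀) a u
    omega)
  obtain ⟨hya, hyu⟩ := (Og.mem_perp_pair h.q).1 hy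
  obtain ⟨hza, hzu⟩ := (Og.mem_perp_pair h.q).1 hz
  have hy0 : y ≠ 0 := by rintro rfl; rw [h.q.zero_left] at hyz; exact zero_ne_one hyz
  have hey0 : e y ≠ 0 := fun h0 => hy0 (h.inj h0)
  have hfyz : f (e y) (e z) = 1 := by rw [h.form, hyz]; rfl
  have hXy : XS σ f M (e y) := h.spread hea0 (h.iso0 hQa) hXa hQy (by rw [h.form, hya]; rfl) (by
    intro c hc
    rw [hc, hf.smul_left, h.form a z, h.q.symm z a, hza] at hfyz
    simp at hfyz)
  refine h.spread hey0 (h.iso0 hQy) hXy hu (by rw [h.form, h.q.symm y u, hyu]; rfl) ?_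
  intro c hc
  have h1 : f (e u) (e z) = c := by rw [hc, hf.smul_left, hfyz, mul_one]
  rw [h.form, h.q.symm z u, hzu] at h1
  rw [← h1] at hc
  apply hu0
  apply h.inj
  rw [hc]; simp

lemma RM.allW [Finite F] (h : RM σ f F₀ Q₀ f₀ e κ M) (hn : 13 ≤ Fintype.card ι)
    (hX : ∀ u : ι → F₀, u ≠ 0 → Q₀ u = 0 → XS σ f M (e u)) {u : ι → F₀} (hu0 : u ≠ 0) (hu : Q₀ u = 0) {x : ι → F}
    (hx : f x (e u) = 0) : WW σ f F₀ M (e u) x := by
  have hf := h.hf
  have hfu := h.iso0 hu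
  let P : Submodule F₀ (ι → F₀) :=
    { carrier := {a | WW σ f F₀ M (e u) (κ • e a)}
      add_mem' := by
        intro a b ha hb
        have := WW.add hf hfu ha hb
        rw [← smul_add, ← map_add] at this
        exact this
      zero_mem' := by
        have := WW.self (M := M) (F₀ := F₀) hf hfu 0
        show WW σ f F₀ M (e u) (κ • e 0)
        rw [map_zero, smul_zero]
        rwa [zero_smul] at this
      smul_mem' := by
        intro c a ha
        have := WW.smul hf ha c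
        show WW σ f F₀ M (e u) (κ • e (c • a))
        rw [h.smul, smul_comm]; exact this }
  have h1 : Og.perp h.q (Submodule.span F₀ {u}) ≤ P := by
    refine Og.sing_span_perp h.q (by omega) hu0 hu ?_
    intro y hyu hy
    by_cases hdep : y ∈ Submodule.span F₀ {u}
    · obtain ⟨c, rfl⟩ := Submodule.mem_span_singleton.1 hdep
      show WW σ f F₀ M (e u) (κ • e (c • u))
      rw [h.smul, smul_smul]
      exact WW.self hf hfu _
    · obtain ⟨w, hw, hwy⟩ := Og.exists_perp h.q hdep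
      have hwu := (Og.mem_perp_one h.q).1 hw
      have hy0 : y ≠ 0 := by rintro rfl; exact hdep (Submodule.zero_mem _)
      obtain ⟨hκ, t, ht⟩ := IsR_of h.toRS (h.iso0 hy)
      have htM := hX y hy0 hy κ t hκ ht
      have htu : (t : Matrix ι ι F) *ᵥ (e u) = e u := by
        rw [ht, h.form u y, h.q.symm y u, hyu]; simp
      have hW := h.real hu hwu
      have h2 := (hW.fix hf htM (h.iso t htM) htu).sub hf hfu hW
      rw [ht, add_sub_cancel_left, h.form, hwy, Subfield.coe_one, mul_one] at h2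
      exact h2
  obtain ⟨a, b, rfl⟩ := h.split x
  have hab : f₀ a u = 0 ∧ f₀ b u = 0 := by
    rw [hf.add_left, hf.smul_left, h.form, h.form] at hx
    exact h.pair_zero hx
  exact (h.real hu hab.1).add hf hfu (h1 ((Og.mem_perp_one h.q).2 hab.2))

lemma RM.allX [Finite F] (h : RM σ f F₀ Q₀ f₀ e κ M) (hn : 13 ≤ Fintype.card ι)
    (hX : ∀ u : ι → F₀, u ≠ 0 → Q₀ u = 0 → XS σ f M (e u)) {v : ι → F} (hv0 : v ≠ 0) (hv : f v v = 0) : XS σ f M v := by
  have hf := h.hf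
  -- a real singular vector not perpendicular to v
  obtain ⟨u, hu, huv⟩ : ∃ u, Q₀ u = 0 ∧ f (e u) v ≠ 0 := by
    by_contra hcon
    push Not at hcon
    obtain ⟨a, b, rfl⟩ := h.split v
    have h1 : ∀ x, f₀ x a = 0 ∧ f₀ x b = 0 := by
      have h2 := fun x => Og.sing_span_top h.q (by omega) (P := Og.perp h.q (Submodule.span F₀ {a, b}))
        (fun y hy => (Og.mem_perp_pair h.q).2 (h.perp_iff.1 (hcon y hy))) x
      exact fun x => (Og.mem_perp_pair h.q).1 (h2 x)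
    have ha : a = 0 := by
      by_contra ha
      obtain ⟨y, hy⟩ := h.q.nondeg a ha
      exact hy (h.q.swap (h1 y).1)
    have hb : b = 0 := by
      by_contra hb
      obtain ⟨y, hy⟩ := h.q.nondeg b hb
      exact hy (h.q.swap (h1 y).2)
    apply hv0
    rw [ha, hb, map_zero, smul_zero, add_zero]
  have hu0 : u ≠ 0 := by rintro rfl; rw [map_zero, hf.zero_left] at huv; exact huv rfl
  obtain ⟨u', hu', huu'⟩ := Og.exists_partner h.q hu0 hu
  have hu'0 : u' ≠ 0 := by rintro rfl; rw [h.q.zero_right] at huu'; exact zero_ne_one huu'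
  have hvu : f v (e u) ≠ 0 := hf.swap_ne huv
  apply XS_of_smul hf (inv_ne_zero hvu)
  obtain ⟨v', hv'd⟩ : ∃ v', v' = (f v (e u))⁻¹ • v := ⟨_, rfl⟩
  rw [← hv'd]
  have hv'u : f v' (e u) = 1 := by rw [hv'd, hf.smul_left, inv_mul_cancel₀ hvu]
  have hv'v' : f v' v' = 0 := by rw [hv'd, hf.smul_left, hf.smul_right, hv]; ring
  have hu'u : f (e u') (e u) = 1 := by rw [h.form, h.q.symm u u', huu']; rfl
  have hW := h.allW hn hX hu0 hu (x := v' - e u') (by rw [hf.sub_left, hv'u, hu'u, sub_self])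
  obtain ⟨l, g, hg, hl, hU⟩ := hW.2 1
  rw [Subfield.coe_one, one_smul] at hl hU
  have h1 := XS_map hf hg (h.iso g hg) (hX u' hu'0 hu')
  rw [hU, hu'u, one_smul, mul_one] at h1
  set c := f (e u') (v' - e u') + l with hcd
  have h2 : e u' + (v' - e u') - c • e u = v' - c • e u := by abel
  rw [h2] at h1
  have hcσ : c + σ c = 0 := by
    have h3 : f (v' - c • e u) (v' - c • e u) = 0 := by
      rw [← h2]
      have h4 := h.iso g hg (e u') (e u')
      rw [hU, hu'u, one_smul, mul_one, ← hcd] at h4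
      rw [h4]; exact h.iso0 hu'
    have h5 : f (e u) v' = 1 := by rw [hf.symm, hv'u, map_one]
    rw [hf.sub_left, hf.sub_right, hf.sub_right, hf.smul_left, hf.smul_left, hf.smul_right, hf.smul_right, hv'v', hv'u, h5, h.iso0 hu] at h3
    linear_combination -h3
  obtain ⟨t, ht⟩ := exists_R hf (Cd_of (σ := σ) (h.iso0 hu) hcσ)
  have htM := hX u hu0 hu c t hcσ ht
  have h6 := XS_map hf htM (h.iso t htM) h1
  rw [ht, hf.sub_left, hf.smul_left, hv'u, h.iso0 hu, mul_zero, sub_zero, mul_one, sub_add_cancel] at h6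
  exact h6

/-- the maximality theorem -/
theorem rs_max [Finite F] (h : RS σ f F₀ Q₀ f₀ e κ) (ht : TT σ e τ) (hn : 13 ≤ Fintype.card ι) {K : Subgroup (GL ι F)} (hK : IsK f K)
    (hcol : ∀ x, τ x = x → ∃ a, x = e a)
    {S : Subgroup (GL ι F)} (hS : ∀ g : GL ι F, g ∈ S ↔ ∃ c : F, c ≠ 0 ∧ ∀ x, τ x = x →
      τ (c • ((g : Matrix ι ι F) *ᵥ x)) = c • ((g : Matrix ι ι F) *ᵥ x))
    (hmem : ∀ u w : ι → F₀, Q₀ u = 0 → f₀ w u = 0 → ∀ g, IsU f g (e u) (e w) (Q₀ w) → g ∈ S ⊓ K) : IsMaximalIn K (S ⊓ K) := by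
  have hf := h.hf
  constructor
  · refine lt_of_le_of_ne inf_le_right ?_
    intro heq
    obtain ⟨u, u', hu, hu', huu', -, -⟩ := h.hyp_v hn 0
    have hu0 : u ≠ 0 := by rintro rfl; rw [h.q.zero_left] at huu'; exact zero_ne_one huu'
    have hu'u : f (e u') (e u) = 1 := by rw [h.form, h.q.symm u u', huu']; rfl
    obtain ⟨hκ, t, htt⟩ := IsR_of h (h.iso0 hu)
    have htK : t ∈ K := tv_mem_K hf hK (h.iso0 hu) hκ htt
    rw [← heq] at htK
    obtain ⟨c, hc0, hc⟩ := (hS t).1 htK.1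
    have h1 := hc (e u) (ht.e u)
    rw [htt, h.iso0 hu, mul_zero, zero_smul, add_zero, ht.smul, ht.e] at h1
    have hσc : σ c = c := by
      have h2 : (σ c - c) • e u = 0 := by rw [sub_smul, h1, sub_self]
      rcases smul_eq_zero.1 h2 with h3 | h3
      · exact sub_eq_zero.1 h3
      · exact absurd (h.inj h3) hu0
    have h4 := hc (e u') (ht.e u')
    rw [htt, hu'u, mul_one, ht.smul, hσc, ht.add, ht.smul, ht.e, ht.e, h.hκ] at h4
    have h5 : (2 * (c * κ)) • e u = 0 := by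
      have : (2 * (c * κ)) • e u = c • (e u' + κ • e u) - c • (e u' + -κ • e u) := by module
      rw [this, h4, sub_self]
    rcases smul_eq_zero.1 h5 with h6 | h6
    · exact mul_ne_zero h.h2 (mul_ne_zero hc0 h.hκ0) h6
    · exact hu0 (h.inj h6)
  · intro M hM hMK
    have hRM : RM σ f F₀ Q₀ f₀ e κ M := ⟨h, fun g hg => ((hK g).1 (hMK hg)).1, fun u w hu hw g hg => hM (hmem u w hu hw g hg)⟩
    by_cases hX : ∀ v, v ≠ 0 → f v v = 0 → ¬ XS σ f M v
    · left
      refine le_antisymm (le_inf ?_ hMK) hM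
      intro g hg
      rw [hS]
      obtain ⟨c, hc, hcT⟩ := hRM.scalar ht hn hg hX
      obtain ⟨μ, hμ0, hμ⟩ := hf.h90 hc
      refine ⟨μ, hμ0, ?_⟩
      intro x hx
      have h1 := hcT x
      rw [Top, hx] at h1
      have h2 := congrArg (fun z => (g : Matrix ι ι F) *ᵥ z) h1
      simp only [mulVec_inv, mulVec_smul] at h2
      rw [ht.smul, h2, smul_smul, mul_comm, ← hμ]
    · right
      push Not at hX
      obtain ⟨v, hv0, hv, hXv⟩ := hX
      refine le_antisymm hMK (le_of_all_XS hf (by omega) (Or.inl (by omega)) hK ?_)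
      intro x hx
      by_cases hx0 : x = 0
      · have : x = (0 : F) • v := by rw [hx0, zero_smul]
        rw [this]; exact XS_smul hf hXv 0
      · exact hRM.allX hn (fun u hu0 hu => hRM.allreal hn hv0 hv hXv hu0 hu) hx0 hx

end CfsgH9.Un
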