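import Mathlib
import Cfsg.Agent.H9.MxGU
import Cfsg.Agent.H9.MaxSingSp

set_option autoImplicit false

/-! Maximality of the unitary group in a symplectic group. -/

namespace CfsgH9.Og

open Matrix Cfsg Cfsg.Geo CfsgH9.Tv CfsgH9.Witt
open CfsgH9.MaxSymp (inv_mulVec mulVec_inv IsT exists_IsT isom_IsT)
open CfsgH9.MaxRedSL (mem_stab_of mem_stab_iff)
open CfsgH9.MaxRedSp (XS XS_map XS_add XS_smul XS_zero XS_exists le_of_all_XS)
open CfsgH9.MaxSingSp (IsS exists_IsS isom_IsS)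

variable {ι : Type} [Fintype ι] [DecidableEq ι] {F : Type*} [Field F]
variable {f : (ι → F) → (ι → F) → F} {M : Subgroup (GL ι F)}

/-- preserving singular vectors implies a similarity -/
theorem sim_of_sing [Finite F] {Q : (ι → F) → F} (hf : Qf Q f) (hn : 5 ≤ Fintype.card ι) {g : GL ι F}
    (hg : ∀ x, Q x = 0 → Q ((g : Matrix ι ι F) *ᵥ x) = 0) :
    ∃ c : F, ∀ x y, f ((g : Matrix ι ι F) *ᵥ x) ((g : Matrix ι ι F) *ᵥ y) = c * f x y := by
  have h1 : ∀ u, ∃ c : F, Q u = 0 → u ≠ 0 → ∀ x, f ((g : Matrix ι ι F) *ᵥ u) ((g : Matrix ι ι F) *ᵥ x) = c * f u x := by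
    intro u
    by_cases hu : Q u = 0
    swap
    · exact ⟨0, fun h => absurd h hu⟩
    by_cases hu0 : u = 0
    · exact ⟨0, fun _ h => absurd hu0 h⟩
    obtain ⟨v, hv, huv⟩ := exists_partner hf hu0 hu
    refine ⟨f ((g : Matrix ι ι F) *ᵥ u) ((g : Matrix ι ι F) *ᵥ v), fun _ _ x => ?_⟩
    let P : Submodule F (ι → F) := (perp hf (Submodule.span F {(g : Matrix ι ι F) *ᵥ u})).comap (mulVecLin (g : Matrix ι ι F))
    have hP : ∀ x, x ∈ P ↔ f ((g : Matrix ι ι F) *ᵥ x) ((g : Matrix ι ι F) *ᵥ u) = 0 := fun x => mem_perp_one hf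
    have h2 : perp hf (Submodule.span F {u}) ≤ P := by
      refine sing_span_perp hf hn hu0 hu ?_
      intro x hxu hx
      rw [hP]
      have h3 := hg (x + u) (by rw [hf.add, hx, hu, hxu]; ring)
      rw [mulVec_add, hf.add, hg x hx, hg u hu] at h3
      simpa using h3
    have h3 := (hP _).1 (h2 ((mem_perp_one hf).2 (show f (x - f u x • v) u = 0 by
      rw [hf.sub_left, hf.smul_left, hf.symm u v, huv, hf.symm u x]; ring)))
    rw [mulVec_sub, mulVec_smul, hf.sub_left, hf.smul_left, hf.symm ((g : Matrix ι ι F) *ᵥ u) ((g : Matrix ι ι F) *ᵥ x),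
      hf.symm ((g : Matrix ι ι F) *ᵥ u) ((g : Matrix ι ι F) *ᵥ v)] at h3
    linear_combination h3
  choose c hc using h1
  have h2 : ∀ u v, u ≠ 0 → v ≠ 0 → Q u = 0 → Q v = 0 → f u v ≠ 0 → c u = c v := by
    intro u v hu0 hv0 hu hv huv
    have e1 := hc u hu hu0 v
    have e2 := hc v hv hv0 u
    rw [hf.symm ((g : Matrix ι ι F) *ᵥ u) ((g : Matrix ι ι F) *ᵥ v), hf.symm u v, e1] at e2
    exact mul_right_cancel₀ huv e2
  have h3 : ∀ u v, u ≠ 0 → v ≠ 0 → Q u = 0 → Q v = 0 → c u = c v := by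
    intro u v hu0 hv0 hu hv
    by_cases hdep : v ∈ Submodule.span F {u}
    · obtain ⟨d, hd⟩ := Submodule.mem_span_singleton.1 hdep
      have hd0 : d ≠ 0 := by rintro rfl; rw [zero_smul] at hd; exact hv0 hd.symm
      obtain ⟨w, hw, huw⟩ := exists_partner hf hu0 hu
      have hw0 : w ≠ 0 := by rintro rfl; rw [hf.zero_right] at huw; exact zero_ne_one huw
      rw [h2 u w hu0 hw0 hu hw (by rw [huw]; exact one_ne_zero),
        h2 v w hv0 hw0 hv hw (by rw [← hd, hf.smul_left, huw, mul_one]; exact hd0)]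
    · obtain ⟨a, ha, hua, hva⟩ := exists_a hf hn hu0 hdep
      have ha0 : a ≠ 0 := by rintro rfl; rw [hf.zero_right] at hua; exact zero_ne_one hua
      rw [h2 u a hu0 ha0 hu ha (by rw [hua]; exact one_ne_zero), h2 v a hv0 ha0 hv ha (by rw [hva]; exact one_ne_zero)]
  obtain ⟨u, -, hu0, hu⟩ := exists_sing hf (E := ⊤) (by rw [finrank_top, Module.finrank_fintype_fun_eq_card]; omega)
  refine ⟨c u, ?_⟩
  intro x y
  let P : Submodule F (ι → F) :=
    { carrier := {x | ∀ y, f ((g : Matrix ι ι F) *ᵥ x) ((g : Matrix ι ι F) *ᵥ y) = c u * f x y}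
      add_mem' := by
        intro a b ha hb y
        rw [mulVec_add, hf.add_left, ha, hb, hf.add_left]; ring
      zero_mem' := by intro y; rw [mulVec_zero, hf.zero_left, hf.zero_left, mul_zero]
      smul_mem' := by
        intro d a ha y
        rw [mulVec_smul, hf.smul_left, ha, hf.smul_left]; ring }
  have h4 := sing_span_top hf hn (P := P) (fun z hz y => by
    by_cases hz0 : z = 0
    · rw [hz0, mulVec_zero, hf.zero_left, hf.zero_left, mul_zero]
    · rw [hc z hz hz0, h3 z u hz0 hu0 hz hu]) x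
  exact h4 y

/-- the unitary data -/
structure UD (f : (ι → F) → (ι → F) → F) (κ : Matrix ι ι F) (ν : F) : Prop where
  sp : IsSymplecticForm f
  h2 : (2 : F) ≠ 0
  hν : ν ≠ 0
  adj : ∀ x y, f (κ *ᵥ x) y = - f x (κ *ᵥ y)
  sq : ∀ x, κ *ᵥ (κ *ᵥ x) = (-ν) • x
  irr : ∀ c : F, c * c + ν ≠ 0

variable {κ : Matrix ι ι F} {ν : F}

omit [DecidableEq ι] in
lemma UD.sy (h : UD f κ ν) (x y : ι → F) : f y (κ *ᵥ x) = f x (κ *ᵥ y) := by
  have h1 := h.adj y x
  have h2 := h.sp.skew (κ *ᵥ y) x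
  linear_combination h1 - h2

omit [DecidableEq ι] in
lemma UD.kk (h : UD f κ ν) (x y : ι → F) : f (κ *ᵥ x) (κ *ᵥ y) = ν * f x y := by
  rw [h.adj, h.sq, h.sp.bilinear.smul_right]; ring

/-- the hermitian norm -/
def q1 (f : (ι → F) → (ι → F) → F) (κ : Matrix ι ι F) (x : ι → F) : F := f x (κ *ᵥ x)

/-- its polar form -/
def p1 (f : (ι → F) → (ι → F) → F) (κ : Matrix ι ι F) (x y : ι → F) : F := 2 * f x (κ *ᵥ y)

omit [DecidableEq ι] in
lemma UD.qf (h : UD f κ ν) : Qf (q1 f κ) (p1 f κ) := by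
  have hb := h.sp.bilinear
  refine ⟨?_, ?_, ?_, ?_, ?_⟩
  · intro x y
    simp only [q1, p1, mulVec_add, hb.add_left, hb.add_right, h.sy x y]; ring
  · intro c x
    simp only [q1, mulVec_smul, hb.smul_left, hb.smul_right]; ring
  · intro x y z
    simp only [p1, hb.add_left]; ring
  · intro c x y
    simp only [p1, hb.smul_left]; ring
  · intro x hx
    obtain ⟨y, hy⟩ := (h.sp.nondegenerate x hx).2
    refine ⟨κ *ᵥ y, ?_⟩
    simp only [p1]
    rw [h.sq, hb.smul_right]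
    exact mul_ne_zero h.h2 (mul_ne_zero (neg_ne_zero.2 h.hν) hy)

omit [DecidableEq ι] in
lemma UD.kd (h : UD f κ ν) : KD (q1 f κ) (p1 f κ) κ ν 0 := by
  have hb := h.sp.bilinear
  refine ⟨h.hν, ?_, ?_, ?_, ?_, ?_, ?_⟩
  · intro x
    simp only [q1]; rw [h.kk]
  · intro x y
    simp only [p1]; rw [h.kk]; ring
  · intro x y
    simp only [p1]; rw [h.adj]; ring
  · intro x
    simp only [p1]; rw [h.sq, hb.smul_right, h.sp.alternating]; ring
  · intro x
    rw [h.sq]; module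
  · intro c
    have := h.irr c
    intro h0
    apply this
    linear_combination h0

/-- the unitary transvections -/
def IsA (f : (ι → F) → (ι → F) → F) (ν : F) (g : GL ι F) (v a : ι → F) (c : F) : Prop :=
  ∀ x, (g : Matrix ι ι F) *ᵥ x = x + (c * ν * f x v) • v + (c * f x a) • a

lemma exists_A (hs : IsSymplecticForm f) {v a : ι → F} (hva : f v a = 0) (c : F) :
    ∃ g : GL ι F, IsA f ν g v a c ∧ ∀ x y, f ((g : Matrix ι ι F) *ᵥ x) ((g : Matrix ι ι F) *ᵥ y) = f x y := by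
  have hb := hs.bilinear
  have hav : f a v = 0 := by rw [hs.skew, hva, neg_zero]
  obtain ⟨g1, hg1, -⟩ := exists_IsT hb v ((c * ν) • v) (by rw [hb.smul_right, hs.alternating, mul_zero])
  obtain ⟨g2, hg2, -⟩ := exists_IsT hb a (c • a) (by rw [hb.smul_right, hs.alternating, mul_zero])
  refine ⟨g1 * g2, fun x => ?_, fun x y => ?_⟩
  · rw [Units.val_mul, ← mulVec_mulVec, hg2 x, hg1]
    simp only [hb.add_left, hb.smul_left, hb.smul_right, hav]
    module
  · rw [Units.val_mul, ← mulVec_mulVec, ← mulVec_mulVec, isom_IsT hs hg1, isom_IsT hs hg2]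

lemma IsA.iso (hs : IsSymplecticForm f) {g : GL ι F} {v a : ι → F} {c : F} (hva : f v a = 0) (hg : IsA f ν g v a c) :
    ∀ x y, f ((g : Matrix ι ι F) *ᵥ x) ((g : Matrix ι ι F) *ᵥ y) = f x y := by
  obtain ⟨g', hg', hi⟩ := exists_A (ν := ν) hs hva c
  have : g = g' := ext_mulVec fun x => by rw [hg, hg']
  rw [this]; exact hi

lemma IsA.conj {g h : GL ι F} {v a : ι → F} {c : F} (hg : IsA f ν g v a c)
    (hh : ∀ x y, f ((h : Matrix ι ι F) *ᵥ x) ((h : Matrix ι ι F) *ᵥ y) = f x y) :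
    IsA f ν (h * g * h⁻¹) ((h : Matrix ι ι F) *ᵥ v) ((h : Matrix ι ι F) *ᵥ a) c := by
  intro x
  rw [Units.val_mul, Units.val_mul, ← mulVec_mulVec, ← mulVec_mulVec, hg, mulVec_add, mulVec_add, mulVec_smul, mulVec_smul, mulVec_inv,
    ← hh _ v, ← hh _ a, mulVec_inv]

/-- the set-up -/
structure UM (f : (ι → F) → (ι → F) → F) (κ : Matrix ι ι F) (ν : F) (M : Subgroup (GL ι F)) : Prop extends UD f κ ν where
  iso : ∀ g ∈ M, ∀ x y, f ((g : Matrix ι ι F) *ᵥ x) ((g : Matrix ι ι F) *ᵥ y) = f x y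
  mem : ∀ g : GL ι F, (∀ x y, f ((g : Matrix ι ι F) *ᵥ x) ((g : Matrix ι ι F) *ᵥ y) = f x y) →
    (∀ x, (g : Matrix ι ι F) *ᵥ (κ *ᵥ x) = κ *ᵥ ((g : Matrix ι ι F) *ᵥ x)) → g ∈ M

lemma UM.A_mem (h : UM f κ ν M) {u : ι → F} (hu : q1 f κ u = 0) {c : F} {g : GL ι F} (hg : IsA f ν g u (κ *ᵥ u) c) : g ∈ M := by
  refine h.mem g (hg.iso h.sp hu) fun x => ?_
  rw [hg, hg, h.kk, h.adj, mulVec_add, mulVec_add, mulVec_smul, mulVec_smul, h.sq]
  module

/-- perpendicularity -/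
lemma UD.perp_iff (h : UD f κ ν) {x y : ι → F} : p1 f κ x y = 0 ↔ f x (κ *ᵥ y) = 0 := by
  rw [p1]; exact mul_eq_zero_iff_left h.h2 |>.trans Iff.rfl

lemma UD.perp_k (h : UD f κ ν) {x y : ι → F} : p1 f κ x (κ *ᵥ y) = -(2 * ν) * f x y := by
  rw [p1, h.sq, h.sp.bilinear.smul_right]; ring

lemma UD.f_zero (h : UD f κ ν) {x y : ι → F} (hxy : p1 f κ x (κ *ᵥ y) = 0) : f x y = 0 := by
  rw [h.perp_k] at hxy
  exact (mul_eq_zero.1 hxy).resolve_left (neg_ne_zero.2 (mul_ne_zero h.h2 h.hν))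

/-- step -/
lemma UM.step (h : UM f κ ν M) {s w : ι → F} (hw : q1 f κ w = 0) (h1 : f s (κ *ᵥ w) = 0)
    (h2 : f s w ≠ 0) (hX : XS f M s) : XS f M w := by
  obtain ⟨g, hg, -⟩ := exists_A (ν := ν) h.sp (show f w (κ *ᵥ w) = 0 from hw) (ν * f s w)⁻¹
  have hgM := h.A_mem hw hg
  have h3 := XS_map h.sp hgM (h.iso g hgM) hX
  rw [hg, h1, mul_zero, zero_smul, add_zero, mul_assoc, inv_mul_cancel₀ (mul_ne_zero h.hν h2), one_smul] at h3
  have h4 := XS_add h.sp (XS_smul h.sp hX (-1)) h3 (by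
    rw [h.sp.bilinear.smul_right, h.sp.bilinear.add_left, h.sp.alternating, zero_add, h.sp.skew]
    exact mul_ne_zero (neg_ne_zero.2 one_ne_zero) (neg_ne_zero.2 h2))
  have h5 : s + w + (-1 : F) • s = w := by module
  rwa [h5] at h4

lemma UM.link [Finite F] (h : UM f κ ν M) (hn : 13 ≤ Fintype.card ι) {s z : ι → F} (hs0 : s ≠ 0)
    (hs : q1 f κ s = 0) (hz : q1 f κ z = 0) (hzs : z ∈ perp h.qf (KL κ s)) (hzn : z ∉ KL κ s) (hX : XS f M s) : XS f M z := by
  have hf := h.qf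
  have hk := h.kd
  obtain ⟨e1, e2⟩ := (mem_perp_KL hf).1 hzs
  have hksz : κ *ᵥ s ∉ KL κ z ⊔ Submodule.span F {s} := by
    intro hmem
    obtain ⟨t, ht, r, hr, htr⟩ := Submodule.mem_sup.1 hmem
    obtain ⟨d, rfl⟩ := Submodule.mem_span_singleton.1 hr
    apply hzn
    apply hk.symm_mem hs0
    apply hk.div (fun y hy => hk.stab hy) (c := -d) (d := 1) (by rintro ⟨-, h1⟩; exact one_ne_zero h1)
    have : -d • s + (1 : F) • (κ *ᵥ s) = t := by rw [← htr]; module
    rw [this]; exact ht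
  have hf1 : Module.finrank F (KL κ z ⊔ Submodule.span F {s} : Submodule F (ι → F)) ≤ 3 := by
    have h1 := Submodule.finrank_add_le_finrank_add_finrank (KL κ z) (Submodule.span F {s})
    have h2 := KL_finrank (κ := κ) z
    have h3 := fss (F := F) s
    omega
  obtain ⟨a, ha, hQa, hsa⟩ := sing_out hf (by omega) hksz
  have has : p1 f κ a s = 0 := ha s (Submodule.mem_sup_right (Submodule.mem_span_singleton_self s))
  have haz : p1 f κ a z = 0 := ha z (Submodule.mem_sup_left (KL_self z))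
  have hakz : p1 f κ a (κ *ᵥ z) = 0 := ha _ (Submodule.mem_sup_left (KL_k z))
  have hf2 : Module.finrank F (KL κ s ⊔ Submodule.span F {z, a} : Submodule F (ι → F)) ≤ 4 := by
    have h1 := Submodule.finrank_add_le_finrank_add_finrank (KL κ s) (Submodule.span F {z, a})
    have h2 := KL_finrank (κ := κ) s
    have h3 := finrank_span_pair (F := F) z a
    omega
  have hkzs : κ *ᵥ z ∉ KL κ s ⊔ Submodule.span F {z, a} := by
    intro hmem
    obtain ⟨t, ht, r, hr, htr⟩ := Submodule.mem_sup.1 hmem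
    obtain ⟨α, β, rfl⟩ := Submodule.mem_span_pair.1 hr
    have e3 : p1 f κ (κ *ᵥ s) (κ *ᵥ z) = 0 := by rw [hk.ff, hf.swap e1, mul_zero]
    have e4 : p1 f κ (κ *ᵥ s) t = 0 := by
      obtain ⟨b1, b2, rfl⟩ := KL_mem.1 ht
      rw [hf.add_right, hf.smul_right, hf.smul_right, hf.self_of (by rw [hk.hQ, hs, mul_zero]), hk.fk, hf.self_of hs, hk.self, hs]
      ring
    have hβ : β = 0 := by
      rw [← htr, hf.add_right, hf.add_right, hf.smul_right, hf.smul_right, e4, hf.swap e2, hsa] at e3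
      simpa using e3
    rw [hβ, zero_smul, add_zero] at htr
    apply hzn
    apply hk.div (fun y hy => hk.stab hy) (c := -α) (d := 1) (by rintro ⟨-, h1⟩; exact one_ne_zero h1)
    have : -α • z + (1 : F) • (κ *ᵥ z) = t := by rw [← htr]; module
    rw [this]; exact ht
  obtain ⟨b, hb, hQb, hzb⟩ := sing_out hf (by omega) hkzs
  have hbs : p1 f κ b s = 0 := hb s (Submodule.mem_sup_left (KL_self s))
  have hbks : p1 f κ b (κ *ᵥ s) = 0 := hb _ (Submodule.mem_sup_left (KL_k s))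
  have hbz : p1 f κ b z = 0 := hb z (Submodule.mem_sup_right (Submodule.subset_span (by simp)))
  have hba : p1 f κ b a = 0 := hb a (Submodule.mem_sup_right (Submodule.subset_span (by simp)))
  have hx : q1 f κ (a + b) = 0 := by rw [hf.add, hQa, hQb, hf.swap hba]; ring
  have x1 : f s (κ *ᵥ (a + b)) = 0 := by
    rw [← h.perp_iff, hf.add_right, hf.swap has, hf.swap hbs, add_zero]
  have x2 : f s (a + b) ≠ 0 := by
    intro h0
    have h1 : p1 f κ (κ *ᵥ s) (a + b) = 0 := by rw [p1, h.kk, h0]; ring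
    rw [hf.add_right, hsa, hf.swap hbks, add_zero] at h1
    exact one_ne_zero h1
  have x3 : f (a + b) (κ *ᵥ z) = 0 := by
    rw [← h.perp_iff, hf.add_left, haz, hbz, add_zero]
  have x4 : f (a + b) z ≠ 0 := by
    intro h0
    have h1 : p1 f κ (κ *ᵥ z) (a + b) = 0 := by rw [p1, h.kk, h.sp.skew, h0]; ring
    rw [hf.add_right, hzb, hf.swap hakz, zero_add] at h1
    exact one_ne_zero h1
  exact h.step hz x3 x4 (h.step hx x1 x2 hX)

lemma UM.allsing [Finite F] (h : UM f κ ν M) (hn : 13 ≤ Fintype.card ι) {s z : ι → F} (hs0 : s ≠ 0) (hz0 : z ≠ 0)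
    (hs : q1 f κ s = 0) (hz : q1 f κ z = 0) (hX : XS f M s) : XS f M z := by
  have hf := h.qf
  have hk := h.kd
  have hXf : Module.finrank F (KL κ s ⊔ KL κ z : Submodule F (ι → F)) ≤ 4 := by
    have h1 := Submodule.finrank_add_le_finrank_add_finrank (KL κ s) (KL κ z)
    have h2 := KL_finrank (κ := κ) s
    have h3 := KL_finrank (κ := κ) z
    omega
  obtain ⟨y, hy, -, -, hQy, -, -, hyX⟩ := exists_hyp hf (KL κ s ⊔ KL κ z) (by omega)
  have hy0 : y ≠ 0 := by rintro rfl; exact hyX (Submodule.zero_mem _)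
  have hys := perp_anti hf (le_sup_left : KL κ s ≤ KL κ s ⊔ KL κ z) hy
  have hyz := perp_anti hf (le_sup_right : KL κ z ≤ KL κ s ⊔ KL κ z) hy
  obtain ⟨e1, e2⟩ := (mem_perp_KL hf).1 hyz
  have h1 := h.link hn hs0 hs hQy hys (fun h1 => hyX (Submodule.mem_sup_left h1)) hX
  refine h.link hn hy0 hQy hz ?_ (fun h4 => hyX (Submodule.mem_sup_right (hk.symm_mem hz0 h4))) h1
  exact (mem_perp_KL hf).2 ⟨hf.swap e1, by rw [hk.fk', hf.swap e2]; ring⟩

lemma UM.all [Finite F] (h : UM f κ ν M) (hn : 13 ≤ Fintype.card ι) {s : ι → F} (hs0 : s ≠ 0) (hs : q1 f κ s = 0)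
    (hX : XS f M s) (x : ι → F) : XS f M x := by
  have hf := h.qf
  have hk := h.kd
  have hsing : ∀ z, q1 f κ z = 0 → XS f M z := by
    intro z hz
    by_cases hz0 : z = 0
    · rw [hz0]; exact XS_zero
    · exact h.allsing hn hs0 hz0 hs hz hX
  by_cases hx : q1 f κ x = 0
  · exact hsing x hx
  have hx0 : x ≠ 0 := by rintro rfl; exact hx hf.Q_zero
  have h1 : x ∉ Submodule.span F {κ *ᵥ x} := by
    intro hmem
    obtain ⟨d, hd⟩ := Submodule.mem_span_singleton.1 hmem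
    apply hx0
    rw [← Submodule.mem_bot F]
    apply hk.div (Y := ⊥) (by intro y hy; rw [Submodule.mem_bot] at hy ⊢; rw [hy, mulVec_zero]) (c := 1) (d := -d)
      (by rintro ⟨h1, -⟩; exact one_ne_zero h1)
    rw [Submodule.mem_bot, neg_smul, hd]; module
  obtain ⟨a, ha, hQa, hxa⟩ := sing_out hf (X := Submodule.span F {κ *ᵥ x}) (by have := fss (F := F) (κ *ᵥ x); omega) h1
  have hak : p1 f κ a (κ *ᵥ x) = 0 := (mem_perp_one hf).1 ha
  have h2 : κ *ᵥ x ∉ Submodule.span F {x, a} := by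
    intro hmem
    obtain ⟨α, β, hαβ⟩ := Submodule.mem_span_pair.1 hmem
    have e1 : p1 f κ (κ *ᵥ x) (κ *ᵥ x) = 0 := by
      have h5 : p1 f κ (α • x + β • a) (κ *ᵥ x) = 0 := by
        rw [hf.add_left, hf.smul_left, hf.smul_left, hak, hk.self]; ring
      rwa [hαβ] at h5
    rw [hk.ff, hf.self] at e1
    exact mul_ne_zero h.hν (mul_ne_zero h.h2 hx) e1
  obtain ⟨b, hb, hQb, hxb⟩ := sing_out hf (X := Submodule.span F {x, a}) (by have := finrank_span_pair (F := F) x a; omega) h2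
  obtain ⟨hbx, hba⟩ := (mem_perp_pair hf).1 hb
  set v := q1 f κ x • (a + b) with hv
  have hqv : q1 f κ v = 0 := by rw [hv, hf.smul, hf.add, hQa, hQb, hf.swap hba]; ring
  have hpv : p1 f κ x v = q1 f κ x := by rw [hv, hf.smul_right, hf.add_right, hxa, hf.swap hbx]; ring
  have hqxv : q1 f κ (x - v) = 0 := by rw [hf.Q_sub, hqv, hpv]; ring
  have hfv : f (x - v) v ≠ 0 := by
    intro h0
    rw [SpGen.sub_left h.sp, h.sp.alternating, sub_zero] at h0
    have h1 : p1 f κ (κ *ᵥ x) v = 0 := by rw [p1, h.kk, h0]; ring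
    rw [hv, hf.smul_right, hf.add_right, hf.swap hak, hxb] at h1
    apply hx
    linear_combination h1
  have h3 := XS_add h.sp (hsing v hqv) (hsing _ hqxv) hfv
  rwa [sub_add_cancel] at h3

/-- unitary Siegel elements -/
def IsH (f : (ι → F) → (ι → F) → F) (κ : Matrix ι ι F) (g : GL ι F) (s y : ι → F) : Prop :=
  ∀ x, (g : Matrix ι ι F) *ᵥ x = x + f x (κ *ᵥ y) • s + f x s • (κ *ᵥ y) - f x y • (κ *ᵥ s) - f x (κ *ᵥ s) • y

lemma UM.exists_H (h : UM f κ ν M) {s y : ι → F} (hs : q1 f κ s = 0) (hy : q1 f κ y = 0) (h1 : f s y = 0) (h2 : f s (κ *ᵥ y) = 0) :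
    ∃ g ∈ M, IsH f κ g s y := by
  have hb := h.sp.bilinear
  have hneg : ∀ x, f x (-(κ *ᵥ s)) = - f x (κ *ᵥ s) := fun x => by rw [← neg_one_smul F, hb.smul_right]; ring
  have hneg' : ∀ x, f (-(κ *ᵥ s)) x = - f (κ *ᵥ s) x := fun x => by rw [← neg_one_smul F, hb.smul_left]; ring
  have hsub : ∀ x y z, f (x - y) z = f x z - f y z := SpGen.sub_left h.sp
  have hss : f s (κ *ᵥ s) = 0 := hs
  have hyy : f y (κ *ᵥ y) = 0 := hy
  have hks : f (κ *ᵥ s) s = 0 := by rw [h.adj, hss, neg_zero]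
  have hys : f y s = 0 := by rw [h.sp.skew, h1, neg_zero]
  have hksy : f (κ *ᵥ s) y = 0 := by rw [h.adj, h2, neg_zero]
  obtain ⟨g1, hg1, hi1⟩ := exists_IsS h.sp h2
  obtain ⟨g2, hg2, hi2⟩ := exists_IsS h.sp (u := -(κ *ᵥ s)) (v := y) (by rw [hneg', hksy, neg_zero])
  have hg : IsH f κ (g1 * g2) s y := by
    intro x
    rw [Units.val_mul, ← mulVec_mulVec, hg1, hg2]
    simp only [hb.add_left, hb.smul_left, hneg', hneg, h.kk, h1, hyy, hks, hys]
    module
  refine ⟨g1 * g2, h.mem _ ?_ ?_, hg⟩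
  · intro x y
    rw [Units.val_mul, ← mulVec_mulVec, ← mulVec_mulVec, hi1, hi2]
  · intro x
    rw [hg, hg, h.kk, h.kk, h.adj, h.adj]
    simp only [mulVec_add, mulVec_sub, mulVec_smul, h.sq]
    module

lemma UM.perp_facts (h : UM f κ ν M) {s x : ι → F} (hs : s ∈ perp h.qf (KL κ x)) : f s x = 0 ∧ f s (κ *ᵥ x) = 0 := by
  obtain ⟨e1, e2⟩ := (mem_perp_KL h.qf).1 hs
  exact ⟨h.f_zero e2, h.perp_iff.1 e1⟩

/-- getting transvections -/
theorem UM.getS [Finite F] (h : UM f κ ν M) (hn : 13 ≤ Fintype.card ι) {v a : ι → F} (hva : f v a = 0) (haK : a ∉ KL κ v)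
    (hT : ∀ (c : F) (g : GL ι F), IsA f ν g v a c → g ∈ M) : ∃ s, s ≠ 0 ∧ q1 f κ s = 0 ∧ XS f M s := by
  have hf := h.qf
  have hk := h.kd
  have hb := h.sp.bilinear
  have haX : a ∉ KL κ v ⊔ Submodule.span F {κ *ᵥ a} := by
    intro hmem
    obtain ⟨t, ht, r, hr, htr⟩ := Submodule.mem_sup.1 hmem
    obtain ⟨d, rfl⟩ := Submodule.mem_span_singleton.1 hr
    apply haK
    apply hk.div (fun y hy => hk.stab hy) (c := 1) (d := -d) (by rintro ⟨h1, -⟩; exact one_ne_zero h1)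
    have : (1 : F) • a + -d • (κ *ᵥ a) = t := by
      rw [eq_comm, ← sub_eq_zero]
      have : t = a - d • (κ *ᵥ a) := by rw [eq_sub_iff_add_eq]; exact htr
      rw [this]; module
    rw [this]; exact ht
  have hf1 : Module.finrank F (KL κ v ⊔ Submodule.span F {κ *ᵥ a} : Submodule F (ι → F)) ≤ 3 := by
    have h1 := Submodule.finrank_add_le_finrank_add_finrank (KL κ v) (Submodule.span F {κ *ᵥ a})
    have h2 := KL_finrank (κ := κ) v
    have h3 := fss (F := F) (κ *ᵥ a)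
    omega
  obtain ⟨y, hy, hQy, hay⟩ := sing_out hf (by omega) haX
  have hyv := h.perp_facts (perp_anti hf le_sup_left hy)
  have hyka : p1 f κ y (κ *ᵥ a) = 0 := hy _ (Submodule.mem_sup_right (Submodule.mem_span_singleton_self _))
  have hya : f y a = 0 := h.f_zero hyka
  -- s
  obtain ⟨s, hs, hs0, hQs⟩ := exists_sing hf (E := perp hf (KL κ v ⊔ KL κ a ⊔ KL κ y)) (by
    have h1 := Submodule.finrank_add_le_finrank_add_finrank (KL κ v ⊔ KL κ a) (KL κ y)
    have h2 := Submodule.finrank_add_le_finrank_add_finrank (KL κ v) (KL κ a)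
    have h3 := KL_finrank (κ := κ) v
    have h4 := KL_finrank (κ := κ) a
    have h5 := KL_finrank (κ := κ) y
    have h6 := finrank_perp hf (KL κ v ⊔ KL κ a ⊔ KL κ y)
    omega)
  obtain ⟨hsv, hskv⟩ := h.perp_facts (perp_anti hf (le_sup_left.trans le_sup_left) hs)
  obtain ⟨hsa, hska⟩ := h.perp_facts (perp_anti hf (le_sup_right.trans le_sup_left) hs)
  obtain ⟨hsy, hsky⟩ := h.perp_facts (perp_anti hf le_sup_right hs)
  have hsw : ∀ {x y : ι → F}, f x y = 0 → f y x = 0 := fun h1 => by rw [h.sp.skew, h1, neg_zero]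
  refine ⟨s, hs0, hQs, ?_⟩
  obtain ⟨g, hgM, hg⟩ := h.exists_H (s := s) (y := (2 : F) • y) hQs (by rw [hf.smul, hQy, mul_zero])
    (by rw [hb.smul_right, hsy, mul_zero]) (by rw [mulVec_smul, hb.smul_right, hsky, mul_zero])
  have hiso := h.iso g hgM
  have hgv : (g : Matrix ι ι F) *ᵥ v = v := by
    have e1 : f v (κ *ᵥ ((2 : F) • y)) = 0 := by rw [mulVec_smul, hb.smul_right, h.sy y v, hyv.2, mul_zero]
    have e2 : f v ((2 : F) • y) = 0 := by rw [hb.smul_right, hsw hyv.1, mul_zero]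
    have e3 : f v (κ *ᵥ s) = 0 := by rw [h.sy s v, hskv]
    rw [hg, e1, e2, e3, hsw hsv]; simp
  have hga : (g : Matrix ι ι F) *ᵥ a = a + s := by
    have e1 : f a (κ *ᵥ ((2 : F) • y)) = 1 := by
      have := hay
      rw [p1] at this
      rw [mulVec_smul, hb.smul_right, this]
    have e2 : f a ((2 : F) • y) = 0 := by rw [hb.smul_right, hsw hya, mul_zero]
    have e3 : f a (κ *ᵥ s) = 0 := by rw [h.sy s a, hska]
    rw [hg, e1, e2, e3, hsw hsa]; simp
  have hgs : (g : Matrix ι ι F) *ᵥ s = s := by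
    have e1 : f s (κ *ᵥ ((2 : F) • y)) = 0 := by rw [mulVec_smul, hb.smul_right, hsky, mul_zero]
    have e2 : f s ((2 : F) • y) = 0 := by rw [hb.smul_right, hsy, mul_zero]
    have e3 : f s (κ *ᵥ s) = 0 := hQs
    rw [hg, e1, e2, e3, h.sp.alternating]; simp
  have hgv' : ((g⁻¹ : GL ι F) : Matrix ι ι F) *ᵥ v = v := by
    conv_lhs => rw [← hgv]
    exact inv_mulVec g v
  have hga' : ((g⁻¹ : GL ι F) : Matrix ι ι F) *ᵥ a = a - s := by
    have : (g : Matrix ι ι F) *ᵥ (a - s) = a := by rw [mulVec_sub, hga, hgs, add_sub_cancel_right]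
    conv_lhs => rw [← this]
    exact inv_mulVec g _
  intro c k hkT
  obtain ⟨T, hTA, -⟩ := exists_A (ν := ν) h.sp hva (2⁻¹ * c)
  have hTM := hT _ T hTA
  have t1 := hTA.conj hiso
  have t2 := hTA.conj (h.iso _ (M.inv_mem hgM))
  rw [hgv, hga] at t1
  rw [hgv', hga'] at t2
  have hsub := SpGen.sub_left h.sp
  have hsubr := SpGen.sub_right h.sp
  have key : k * T * T = (g * T * g⁻¹) * (g⁻¹ * T * g⁻¹⁻¹) := by
    apply ext_mulVec
    intro x
    rw [Units.val_mul (g * T * g⁻¹), ← mulVec_mulVec, t2 x, t1]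
    rw [Units.val_mul, Units.val_mul, ← mulVec_mulVec, ← mulVec_mulVec, hTA x, hTA, hkT]
    simp only [hb.add_left, hb.add_right, hb.smul_left, hb.smul_right, hsub, hsubr, h.sp.alternating, hva, hsw hva, hsv, hsa, hsw hsa, hsw hsv]
    have h22 : (2 : F)⁻¹ * c * 2 = c := by rw [mul_comm, ← mul_assoc, mul_inv_cancel₀ h.h2, one_mul]
    match_scalars <;> first | ring1 | (linear_combination (-(f x s)) * h22) | (linear_combination (f x s) * h22)
  have h3 : k = (g * T * g⁻¹) * (g⁻¹ * T * g⁻¹⁻¹) * T⁻¹ * T⁻¹ := by rw [← key]; group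
  rw [h3]
  exact M.mul_mem (M.mul_mem (M.mul_mem (M.mul_mem (M.mul_mem hgM hTM) (M.inv_mem hgM)) (M.mul_mem (M.mul_mem (M.inv_mem hgM) hTM)
    (M.inv_mem (M.inv_mem hgM)))) (M.inv_mem hTM)) (M.inv_mem hTM)

/-- elements of a quadratic field -/
lemma K_mem {K : Subalgebra F (Matrix ι ι F)} (hK : IsFieldSubalgebra 2 K) {κ : Matrix ι ι F} (hκ : κ ∈ K)
    (hscal : ∀ c : F, κ - c • 1 ≠ 0) {e : ι → F} (he0 : e ≠ 0) (k : Matrix ι ι F) : k ∈ K ↔ ∃ a b : F, k = a • 1 + b • κ := by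
  constructor
  swap
  · rintro ⟨a, b, rfl⟩
    exact K.add_mem (K.smul_mem K.one_mem a) (K.smul_mem hκ b)
  · intro hk
    have hli : LinearIndependent F ![(1 : Matrix ι ι F), κ] := by
      rw [LinearIndependent.pair_iff]
      intro s t hst
      have ht : t = 0 := by
        by_contra ht
        apply hscal (-(t⁻¹ * s))
        have : κ - (-(t⁻¹ * s)) • (1 : Matrix ι ι F) = t⁻¹ • (s • 1 + t • κ) := by
          rw [smul_add, smul_smul, smul_smul, inv_mul_cancel₀ ht]; module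
        rw [this, hst, smul_zero]
      rw [ht, zero_smul, add_zero] at hst
      refine ⟨?_, ht⟩
      by_contra hs
      have h1 := congrArg (fun A : Matrix ι ι F => A *ᵥ e) hst
      simp only [smul_mulVec, one_mulVec, zero_mulVec] at h1
      exact he0 ((smul_eq_zero.1 h1).resolve_left hs)
    have h1 : Submodule.span F (Set.range ![(1 : Matrix ι ι F), κ]) ≤ Subalgebra.toSubmodule K := by
      rw [Submodule.span_le]
      rintro _ ⟨i, rfl⟩
      fin_cases i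
      · exact K.one_mem
      · exact hκ
    have h2 : Submodule.span F (Set.range ![(1 : Matrix ι ι F), κ]) = Subalgebra.toSubmodule K := by
      apply Submodule.eq_of_le_of_finrank_eq h1
      rw [finrank_span_eq_card hli, Fintype.card_fin]
      exact hK.finrank_eq.symm
    have h3 : k ∈ Submodule.span F (Set.range ![(1 : Matrix ι ι F), κ]) := by rw [h2]; exact hk
    rw [Matrix.range_cons, Matrix.range_cons, Matrix.range_empty, Set.union_empty, Set.singleton_union, Submodule.mem_span_pair] at h3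
    obtain ⟨a, b, hab⟩ := h3
    exact ⟨a, b, hab.symm⟩

lemma K_conj {K : Subalgebra F (Matrix ι ι F)} {κ : Matrix ι ι F} (hKmem : ∀ k, k ∈ K ↔ ∃ a b : F, k = a • 1 + b • κ) (g : GL ι F)
    (hg : ∃ a b : F, ∀ x, ((g : Matrix ι ι F) * κ * ((g⁻¹ : GL ι F) : Matrix ι ι F)) *ᵥ x = a • x + b • (κ *ᵥ x)) :
    ∀ k ∈ K, (g : Matrix ι ι F) * k * ((g⁻¹ : GL ι F) : Matrix ι ι F) ∈ K := by
  obtain ⟨a, b, hab⟩ := hg
  intro k hk
  obtain ⟨c, d, rfl⟩ := (hKmem k).1 hk
  have h1 : (g : Matrix ι ι F) * κ * ((g⁻¹ : GL ι F) : Matrix ι ι F) = a • 1 + b • κ := by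
    apply Matrix.ext_of_mulVec_single
    intro i
    rw [hab, add_mulVec, smul_mulVec, smul_mulVec, one_mulVec]
  have h2 : (g : Matrix ι ι F) * (c • 1 + d • κ) * ((g⁻¹ : GL ι F) : Matrix ι ι F) = c • 1 + d • (a • 1 + b • κ) := by
    rw [mul_add, add_mul, mul_smul_comm, mul_smul_comm, smul_mul_assoc, smul_mul_assoc, h1, mul_one, ← Units.val_mul, mul_inv_cancel,
      Units.val_one]
  rw [h2, hKmem]
  exact ⟨c + d * a, d * b, by module⟩

lemma K_norm {K : Subalgebra F (Matrix ι ι F)} (g : GL ι F) (h1 : ∀ k ∈ K, (g : Matrix ι ι F) * k * ((g⁻¹ : GL ι F) : Matrix ι ι F) ∈ K)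
    (h2 : ∀ k ∈ K, ((g⁻¹ : GL ι F) : Matrix ι ι F) * k * (g : Matrix ι ι F) ∈ K) : g ∈ subalgebraNormalizer K := by
  intro k
  refine ⟨h1 k, fun h3 => ?_⟩
  have h4 := h2 _ h3
  have h5 : ((g⁻¹ : GL ι F) : Matrix ι ι F) * ((g : Matrix ι ι F) * k * ((g⁻¹ : GL ι F) : Matrix ι ι F)) * (g : Matrix ι ι F) = k := by
    have e1 : ((g⁻¹ : GL ι F) : Matrix ι ι F) * (g : Matrix ι ι F) = 1 := by rw [← Units.val_mul, inv_mul_cancel, Units.val_one]
    calc _ = (((g⁻¹ : GL ι F) : Matrix ι ι F) * (g : Matrix ι ι F)) * k * (((g⁻¹ : GL ι F) : Matrix ι ι F) * (g : Matrix ι ι F)) := by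
          simp only [Matrix.mul_assoc]
      _ = k := by rw [e1, Matrix.one_mul, Matrix.mul_one]
  rwa [h5] at h4

lemma K_comm {K : Subalgebra F (Matrix ι ι F)} {κ : Matrix ι ι F} (hKmem : ∀ k, k ∈ K ↔ ∃ a b : F, k = a • 1 + b • κ) (g : GL ι F)
    (hg : ∀ x, (g : Matrix ι ι F) *ᵥ (κ *ᵥ x) = κ *ᵥ ((g : Matrix ι ι F) *ᵥ x)) : g ∈ subalgebraNormalizer K := by
  refine K_norm g (K_conj hKmem g ⟨0, 1, fun x => ?_⟩) ?_
  · rw [← mulVec_mulVec, ← mulVec_mulVec, hg, mulVec_inv]; module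
  · have := K_conj hKmem g⁻¹ ⟨0, 1, fun x => ?_⟩
    · rwa [inv_inv] at this
    · rw [← mulVec_mulVec, ← mulVec_mulVec, inv_inv]
      have h1 := hg (((g⁻¹ : GL ι F) : Matrix ι ι F) *ᵥ (((g : Matrix ι ι F)) *ᵥ x))
      rw [inv_mulVec] at h1
      rw [← h1, inv_mulVec]; module

/-- the maximality theorem -/
theorem spU_max [Finite F] (hs : IsSymplecticForm f) (h2 : (2 : F) ≠ 0) (hn : 13 ≤ Fintype.card ι) {S : Subgroup (GL ι F)}
    (hS : ∀ g : GL ι F, g ∈ S ↔ ∀ x y, f ((g : Matrix ι ι F) *ᵥ x) ((g : Matrix ι ι F) *ᵥ y) = f x y)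
    {K : Subalgebra F (Matrix ι ι F)} (hK : IsFieldSubalgebra 2 K) (hac : IsAdjointClosedFor f K)
    (hnsa : ¬ IsSelfAdjointFor f K) : IsMaximalIn S (subalgebraNormalizer K ⊓ S) := by
  have hb := hs.bilinear
  rw [IsSelfAdjointFor] at hnsa
  push Not at hnsa
  obtain ⟨κ0, hκ0, x0, y0, hxy⟩ := hnsa
  obtain ⟨κ1, hκ1, hadj1⟩ := hac κ0 hκ0
  have hadj2 : ∀ x y, f (κ1 *ᵥ x) y = f x (κ0 *ᵥ y) := by
    intro x y
    rw [hs.skew, ← hadj1, ← hs.skew]
  set κ := κ0 - κ1 with hκd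
  have hκ : κ ∈ K := K.sub_mem hκ0 hκ1
  have hadj : ∀ x y, f (κ *ᵥ x) y = - f x (κ *ᵥ y) := by
    intro x y
    rw [hκd, sub_mulVec, sub_mulVec, SpGen.sub_left hs, SpGen.sub_right hs, hadj1, hadj2]; ring
  have hκne : κ ≠ 0 := by
    intro h0
    apply hxy
    rw [hadj1, ← sub_eq_zero.1 h0]
  obtain ⟨e, he0⟩ : ∃ e : ι → F, e ≠ 0 := by
    by_contra hcon
    push Not at hcon
    apply hxy
    rw [hcon (κ0 *ᵥ x0), hcon (κ0 *ᵥ y0), hcon y0, hcon x0]
  have hunit : ∀ k ∈ K, k ≠ 0 → ∀ x, k *ᵥ x = 0 → x = 0 := by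
    intro k hk hk0 x hx
    obtain ⟨y, hy, hky⟩ := hK.inv k hk hk0
    rw [hK.comm _ hk _ hy] at hky
    have h1 : (y * k) *ᵥ x = x := by rw [hky, one_mulVec]
    rw [← mulVec_mulVec, hx, mulVec_zero] at h1
    exact h1.symm
  have hscal : ∀ c : F, κ - c • 1 ≠ 0 := by
    intro c h0
    have h1 := sub_eq_zero.1 h0
    have hc : c ≠ 0 := by
      rintro rfl
      rw [zero_smul] at h1; exact hκne h1
    obtain ⟨y, hy⟩ := (hs.nondegenerate e he0).2
    have h3 := hadj e y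
    rw [h1, smul_mulVec, smul_mulVec, one_mulVec, one_mulVec, hb.smul_left, hb.smul_right] at h3
    have h4 : 2 * (c * f e y) = 0 := by linear_combination h3
    exact mul_ne_zero h2 (mul_ne_zero hc hy) h4
  have hKmem := K_mem hK hκ hscal he0
  obtain ⟨a, b, hab⟩ := (hKmem (κ * κ)).1 (K.mul_mem hκ hκ)
  have hb0 : b = 0 := by
    by_contra hb0
    -- b κ is skew and self-adjoint
    apply hκne
    by_contra _
    have h1 : ∀ x y, 2 * (b * f x (κ *ᵥ y)) = 0 := by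
      intro x y
      have e1 : (κ * κ) *ᵥ x = a • x + b • (κ *ᵥ x) := by rw [hab, add_mulVec, smul_mulVec, smul_mulVec, one_mulVec]
      have e2 : (κ * κ) *ᵥ y = a • y + b • (κ *ᵥ y) := by rw [hab, add_mulVec, smul_mulVec, smul_mulVec, one_mulVec]
      have e3 : f ((κ * κ) *ᵥ x) y = f x ((κ * κ) *ᵥ y) := by
        rw [← mulVec_mulVec, ← mulVec_mulVec, hadj, hadj, neg_neg]
      rw [e1, e2, hb.add_left, hb.add_right, hb.smul_left, hb.smul_left, hb.smul_right, hb.smul_right, hadj] at e3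
      linear_combination -e3
    have hke : κ *ᵥ e ≠ 0 := fun h0 => he0 (hunit κ hκ hκne e h0)
    obtain ⟨y, hy⟩ := (hs.nondegenerate _ hke).1
    exact mul_ne_zero h2 (mul_ne_zero hb0 hy) (h1 y e)
  have hsq : ∀ x, κ *ᵥ (κ *ᵥ x) = (-(-a)) • x := by
    intro x
    rw [mulVec_mulVec, hab, hb0, zero_smul, add_zero, smul_mulVec, one_mulVec, neg_neg]
  have ha0 : a ≠ 0 := by
    intro h0
    apply he0
    apply hunit κ hκ hκne
    apply hunit κ hκ hκne
    rw [hsq, h0]; simp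
  have hUD : UD f κ (-a) := by
    refine ⟨hs, h2, neg_ne_zero.2 ha0, hadj, hsq, ?_⟩
    intro c hc
    have h1 : κ *ᵥ (κ *ᵥ e + c • e) = c • (κ *ᵥ e + c • e) := by
      rw [mulVec_add, mulVec_smul, hsq]
      have : a = c * c := by linear_combination -hc
      rw [this]; module
    have h3 : κ *ᵥ e + c • e = 0 := by
      apply hunit _ (K.sub_mem hκ (K.smul_mem K.one_mem c)) (hscal c)
      rw [sub_mulVec, smul_mulVec, one_mulVec, h1, sub_self]
    apply he0
    apply hunit _ (K.sub_mem hκ (K.smul_mem K.one_mem (-c))) (hscal (-c))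
    rw [sub_mulVec, smul_mulVec, one_mulVec, neg_smul, sub_neg_eq_add, h3]
  have hf := hUD.qf
  have hk := hUD.kd
  obtain ⟨u, -, hu0, hu⟩ := exists_sing hf (E := ⊤) (by rw [finrank_top, Module.finrank_fintype_fun_eq_card]; omega)
  constructor
  · refine lt_of_le_of_ne inf_le_right ?_
    intro heq
    obtain ⟨t, ht, -⟩ := exists_IsT hb u ((1 : F) • u) (by rw [one_smul]; exact hs.alternating u)
    have h1 : t ∈ S := (hS t).2 (isom_IsT hs ht)
    rw [← heq] at h1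
    obtain ⟨α, β, hαβ⟩ := (hKmem _).1 ((h1.1 κ).1 hκ)
    have h3 : ∀ x, (t : Matrix ι ι F) *ᵥ (κ *ᵥ x) = α • ((t : Matrix ι ι F) *ᵥ x) + β • (κ *ᵥ ((t : Matrix ι ι F) *ᵥ x)) := by
      intro x
      have h4 := congrArg (fun A : Matrix ι ι F => A *ᵥ ((t : Matrix ι ι F) *ᵥ x)) hαβ
      simp only [← mulVec_mulVec, inv_mulVec] at h4
      rw [h4, add_mulVec, smul_mulVec, smul_mulVec, one_mulVec]
    have huku : f u (κ *ᵥ u) = 0 := hu
    have htu : (t : Matrix ι ι F) *ᵥ u = u := by rw [ht, one_smul, hs.alternating]; simp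
    have h4 := h3 u
    rw [htu, ht, one_smul, hadj, huku, neg_zero, zero_smul, add_zero] at h4
    have h5 : α = 0 ∧ β - 1 = 0 := by
      by_contra hne
      apply hu0
      rw [← Submodule.mem_bot F]
      apply hk.div (Y := ⊥) (by intro y hy; rw [Submodule.mem_bot] at hy ⊢; rw [hy, mulVec_zero]) hne
      rw [Submodule.mem_bot, sub_smul]
      rw [← sub_eq_zero] at h4
      rw [← neg_eq_zero, ← h4]; module
    obtain ⟨y, hy⟩ := (hs.nondegenerate u hu0).1
    have h6 := h3 y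
    rw [h5.1, sub_eq_zero.1 h5.2, ht, ht, one_smul, mulVec_add, mulVec_smul] at h6
    apply hy
    by_contra _
    have h7 : ¬ (-(f (κ *ᵥ y) u) = 0 ∧ f y u = 0) := fun h8 => hy h8.2
    apply hu0
    rw [← Submodule.mem_bot F]
    apply hk.div (Y := ⊥) (by intro y hy; rw [Submodule.mem_bot] at hy ⊢; rw [hy, mulVec_zero]) h7
    rw [Submodule.mem_bot]
    rw [← sub_eq_zero] at h6
    rw [← neg_eq_zero, ← h6]; module
  · intro M hM hMK
    have hUM : UM f κ (-a) M := by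
      refine ⟨hUD, fun g hg => (hS g).1 (hMK hg), fun g h1 h3 => hM ⟨K_comm hKmem g h3, (hS g).2 h1⟩⟩
    by_cases hcase : ∀ g ∈ M, ∀ x, q1 f κ x = 0 → q1 f κ ((g : Matrix ι ι F) *ᵥ x) = 0
    · left
      refine le_antisymm (le_inf ?_ hMK) hM
      have hall : ∀ g ∈ M, ∀ k ∈ K, (g : Matrix ι ι F) * k * ((g⁻¹ : GL ι F) : Matrix ι ι F) ∈ K := by
        intro g hg
        obtain ⟨c, hc⟩ := sim_of_sing hf (by omega) (hcase g⁻¹ (M.inv_mem hg))
        apply K_conj hKmem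
        refine ⟨0, c, fun x => ?_⟩
        rw [zero_smul, zero_add, ← mulVec_mulVec, ← mulVec_mulVec, ← sub_eq_zero]
        by_contra hne
        obtain ⟨y, hy⟩ := (hs.nondegenerate _ hne).1
        apply hy
        have h3 := hc y x
        simp only [p1] at h3
        rw [SpGen.sub_right hs, hb.smul_right]
        have h4 := hUM.iso g hg (((g⁻¹ : GL ι F) : Matrix ι ι F) *ᵥ y) (κ *ᵥ (((g⁻¹ : GL ι F) : Matrix ι ι F) *ᵥ x))
        rw [mulVec_inv] at h4
        rw [h4]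
        apply mul_left_cancel₀ h2
        linear_combination h3
      intro g hg
      refine K_norm g (hall g hg) ?_
      have := hall g⁻¹ (M.inv_mem hg)
      rwa [inv_inv] at this
    · right
      push Not at hcase
      obtain ⟨g, hg, x, hx, hgx⟩ := hcase
      have hx0 : x ≠ 0 := by
        rintro rfl
        rw [mulVec_zero] at hgx
        exact hgx hx
      have hiso := hUM.iso g hg
      obtain ⟨s, hs0, hQs, hXS⟩ := hUM.getS hn (v := (g : Matrix ι ι F) *ᵥ x) (a := (g : Matrix ι ι F) *ᵥ (κ *ᵥ x)) (by rw [hiso]; exact hx) (by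
          intro hmem
          obtain ⟨α, β, hαβ⟩ := KL_mem.1 hmem
          have h1 : f ((g : Matrix ι ι F) *ᵥ x) ((g : Matrix ι ι F) *ᵥ (κ *ᵥ x)) = 0 := by rw [hiso]; exact hx
          rw [← hαβ, hb.add_right, hb.smul_right, hb.smul_right, hs.alternating, mul_zero, zero_add] at h1
          have hβ : β = 0 := (mul_eq_zero.1 h1).resolve_right hgx
          rw [hβ, zero_smul, add_zero, ← mulVec_smul] at hαβ
          have h3 : α • x = κ *ᵥ x := by
            rw [← inv_mulVec g (α • x), hαβ, inv_mulVec]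
          apply hx0
          apply hunit _ (K.sub_mem hκ (K.smul_mem K.one_mem α)) (hscal α)
          rw [sub_mulVec, smul_mulVec, one_mulVec, h3, sub_self]) (by
          intro c k hkA
          have h1 := hkA.conj (hUM.iso _ (M.inv_mem hg))
          rw [inv_mulVec, inv_mulVec] at h1
          have h3 := hUM.A_mem hx h1
          have h4 := M.mul_mem (M.mul_mem hg h3) (M.inv_mem hg)
          have h5 : g * (g⁻¹ * k * g⁻¹⁻¹) * g⁻¹ = k := by group
          rwa [h5] at h4)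
      exact le_antisymm hMK (le_of_all_XS hs hS (hUM.all hn hs0 hQs hXS))

end CfsgH9.Og
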