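import Mathlib
import Cfsg.Agent.H9.NDec

set_option autoImplicit false

/-! Imprimitive subgroups of special linear groups over small fields. -/

namespace CfsgH9.NDec

open Matrix Cfsg Cfsg.Geo
open CfsgH9.MaxImpSp (glOf glOf_mulVec mem_decomp_of)
open CfsgH9.MaxSymp (inv_mulVec mulVec_inv)

variable {ι : Type} [Fintype ι] [DecidableEq ι] {F : Type*} [Field F] {t k : ℕ} {D : Fin t → Submodule F (ι → F)}

lemma N_add_disj (hD : IsMDecomposition k D) {i j : Fin t} (hij : i ≠ j) {x y : ι → F} (hx : x ∈ D i) (hy : y ∈ D j) :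
    N hD (x + y) = N hD x + N hD y := by
  classical
  rw [N, N, N, ← Finset.sum_add_distrib]
  apply Finset.sum_congr rfl
  intro l _
  rw [cmp_add, cmp_of_mem hD hx, cmp_of_mem hD hy, Pi.add_apply]
  by_cases hl : l = i
  · subst hl
    rw [Pi.single_eq_of_ne hij, add_zero]; simp
  · rw [Pi.single_eq_of_ne hl, zero_add]; simp

omit [Fintype ι] [DecidableEq ι] in
lemma exists_fn {a : ι → F} {W : Submodule F (ι → F)} (ha : a ∉ W) : ∃ ψ : (ι → F) →ₗ[F] F, ψ a = 1 ∧ ∀ x ∈ W, ψ x = 0 := by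
  obtain ⟨ψ, hψ, hW⟩ := Submodule.exists_dual_map_eq_bot_of_notMem ha inferInstance
  refine ⟨(ψ a)⁻¹ • ψ, ?_, ?_⟩
  · rw [LinearMap.smul_apply, smul_eq_mul, inv_mul_cancel₀ hψ]
  · intro x hx
    have : ψ x ∈ W.map ψ := ⟨x, hx, rfl⟩
    rw [hW, Submodule.mem_bot] at this
    rw [LinearMap.smul_apply, this, smul_zero]

theorem lt_SL (hD : IsMDecomposition k D) : stabF (N hD) ⊓ specialLinear ι F < specialLinear ι F := by
  classical
  refine lt_of_le_of_ne inf_le_right ?_
  intro heq
  obtain ⟨i1, hi1⟩ : ∃ i : Fin t, i = ⟨0, by have := hD.two_le; omega⟩ := ⟨_, rfl⟩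
  obtain ⟨i2, hi2⟩ : ∃ i : Fin t, i = ⟨1, by have := hD.two_le; omega⟩ := ⟨_, rfl⟩
  have h12 : i1 ≠ i2 := by rw [hi1, hi2]; intro h; simp at h
  obtain ⟨a1, ha1, ha10⟩ := exists_ne hD i1
  obtain ⟨a2, ha2, ha20⟩ := exists_ne hD i2
  obtain ⟨ψ, hψ, -⟩ := exists_fn (a := a1) (W := ⊥) (by simpa using ha10)
  have e2 : (ψ.comp (pr hD i1)) a2 = 0 := by
    show ψ (cmp hD a2 i1) = 0
    rw [cmp_of_mem hD ha2, Pi.single_eq_of_ne h12, map_zero]
  have e1 : (ψ.comp (pr hD i1)) a1 = 1 := by
    show ψ (cmp hD a1 i1) = 1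
    rw [cmp_of_mem hD ha1, Pi.single_eq_same, hψ]
  obtain ⟨g, hg, hdet⟩ := exists_dil (ψ.comp (pr hD i1)) a2 (by rw [e2, add_zero]; exact one_ne_zero)
  have hgS : g ∈ specialLinear ι F := by
    show Matrix.GeneralLinearGroup.det g = 1
    apply Units.ext
    rw [Matrix.GeneralLinearGroup.val_det_apply, hdet, e2, add_zero]; rfl
  rw [← heq] at hgS
  have h1 := hgS.1 a1
  rw [hg, e1, one_smul, N_add_disj hD h12 ha1 ha2, N_of_mem hD ha1, N_of_mem hD ha2, if_neg ha10, if_neg ha20] at h1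
  exact one_ne_zero (add_eq_left.1 h1)

theorem not_max_of (hD : IsMDecomposition k D) {g : GL ι F} (hdet : (g : Matrix ι ι F).det = 1) (hN : g ∈ stabF (N hD))
    (hn : g ∉ decompositionStabilizer D) :
    ∃ K : Subgroup (GL ι F), decompositionStabilizer D ⊓ specialLinear ι F < K ∧ K < specialLinear ι F := by
  refine ⟨stabF (N hD) ⊓ specialLinear ι F, ?_, lt_SL hD⟩
  refine lt_of_le_of_ne (le_inf (fun g hg => fun x => N_stab hD hg.1 x) inf_le_right) ?_
  intro heq
  have hgS : g ∈ specialLinear ι F := by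
    show Matrix.GeneralLinearGroup.det g = 1
    apply Units.ext
    rw [Matrix.GeneralLinearGroup.val_det_apply, hdet]; rfl
  have h1 : g ∈ stabF (N hD) ⊓ specialLinear ι F := ⟨hN, hgS⟩
  rw [← heq] at h1
  exact hn h1.1

omit [DecidableEq ι] in
lemma exists_co [DecidableEq ι] (hD : IsMDecomposition 1 D) : ∃ (a : Fin t → (ι → F)) (φ : Fin t → ((ι → F) →ₗ[F] F)),
    (∀ i, a i ∈ D i) ∧ (∀ i, a i ≠ 0) ∧ ∀ x i, cmp hD x i = φ i x • a i := by
  choose a haD ha0 using exists_ne hD
  have hψ : ∀ i, ∃ ψ : (ι → F) →ₗ[F] F, ψ (a i) = 1 := by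
    intro i
    obtain ⟨ψ, hψ, -⟩ := exists_fn (a := a i) (W := ⊥) (by simpa using ha0 i)
    exact ⟨ψ, hψ⟩
  choose ψ hψ using hψ
  refine ⟨a, fun i => (ψ i).comp (pr hD i), haD, ha0, ?_⟩
  intro x i
  show _ = ψ i (cmp hD x i) • a i
  have h1 := cmp_mem hD x i
  have h2 : Submodule.span F {a i} = D i := by
    apply Submodule.eq_of_le_of_finrank_eq
    · rw [Submodule.span_singleton_le_iff_mem]; exact haD i
    · rw [finrank_span_singleton (ha0 i), hD.finrank_eq]
  rw [← h2] at h1
  obtain ⟨c, hc⟩ := Submodule.mem_span_singleton.1 h1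
  rw [← hc, map_smul, hψ, smul_eq_mul, mul_one]

theorem exists_r [Fintype F] (hq : Fintype.card F = 2 ∨ Fintype.card F = 3 ∨ Fintype.card F = 4) (hD : IsMDecomposition 1 D)
    (ht : 5 ≤ t) : ∃ g : GL ι F, (g : Matrix ι ι F).det = 1 ∧ g ∈ stabF (N hD) ∧ g ∉ decompositionStabilizer D := by
  classical
  obtain ⟨a, φ, haD, ha0, hφ⟩ := exists_co hD
  have hφa : ∀ i j, φ i (a j) = if i = j then 1 else 0 := by
    intro i j
    have h1 := hφ (a j) i
    rw [cmp_of_mem hD (haD j)] at h1
    by_cases hij : i = j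
    · subst hij
      rw [Pi.single_eq_same] at h1
      rw [if_pos rfl]
      have h2 : (φ i (a i) - 1) • a i = 0 := by rw [sub_smul, ← h1, one_smul, sub_self]
      exact sub_eq_zero.1 ((smul_eq_zero.1 h2).resolve_right (ha0 i))
    · rw [Pi.single_eq_of_ne hij] at h1
      rw [if_neg hij]
      exact (smul_eq_zero.1 h1.symm).resolve_right (ha0 i)
  obtain ⟨e, he⟩ : ∃ e, Fintype.card F - 1 = e := ⟨_, rfl⟩
  have he0 : e ≠ 0 := by omega
  have hN : ∀ x, N hD x = ∑ i, (φ i x) ^ e := by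
    intro x
    rw [N]
    apply Finset.sum_congr rfl
    intro i _
    rw [hφ]
    by_cases h : φ i x = 0
    · rw [h, zero_smul, if_pos rfl, zero_pow he0]
    · rw [if_neg (smul_ne_zero h (ha0 i)), ← he, FiniteField.pow_card_sub_one_eq_one _ h]
  obtain ⟨S, -, hS⟩ := Finset.exists_subset_card_eq (s := (Finset.univ : Finset (Fin t))) (n := 4) (by rw [Finset.card_univ, Fintype.card_fin]; omega)
  obtain ⟨w, hw⟩ : ∃ w, w = ∑ j ∈ S, a j := ⟨_, rfl⟩
  have hφw : ∀ i, φ i w = if i ∈ S then 1 else 0 := by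
    intro i
    rw [hw, map_sum]
    simp only [hφa]
    rw [Finset.sum_ite_eq]
  let h : (ι → F) →ₗ[F] F := ∑ i ∈ S, φ i
  have hh : ∀ x, h x = ∑ i ∈ S, φ i x := fun x => by simp [h]
  have hhw : h w = 4 := by
    rw [hh, Finset.sum_congr rfl (fun i hi => by rw [hφw, if_pos hi]), Finset.sum_const, hS]; simp
  -- characteristic facts
  have hchar : ((2 : F) = 0 ∧ (e = 1 ∨ e = 3)) ∨ ((3 : F) = 0 ∧ e = 2) := by
    have h1 : ((Fintype.card F : ℕ) : F) = 0 := FiniteField.cast_card_eq_zero F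
    rcases hq with hq | hq | hq
    · left
      rw [hq] at h1 he
      exact ⟨by exact_mod_cast h1, by omega⟩
    · right
      rw [hq] at h1 he
      exact ⟨by exact_mod_cast h1, by omega⟩
    · left
      rw [hq] at h1 he
      refine ⟨?_, by omega⟩
      have h2 : (2 : F) * 2 = 0 := by norm_num; exact_mod_cast h1
      exact mul_self_eq_zero.1 h2
  have h5 : (1 : F) + 4 ≠ 0 := by
    rcases hchar with ⟨h2, -⟩ | ⟨h3, -⟩
    · intro h0
      apply one_ne_zero (α := F)
      linear_combination h0 - 2 * h2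
    · intro h0
      apply one_ne_zero (α := F)
      linear_combination 2 * h3 - h0
  obtain ⟨r, hr, hrdet⟩ := exists_dil h w (by rw [hhw]; exact h5)
  have hNr : r ∈ stabF (N hD) := by
    intro x
    rw [hr, hN, hN, ← sub_eq_zero, ← Finset.sum_sub_distrib]
    have e1 : ∀ i ∈ (Finset.univ : Finset (Fin t)), (φ i (x + h x • w)) ^ e - (φ i x) ^ e =
        if i ∈ S then ((φ i x + h x) ^ e - (φ i x) ^ e) else 0 := by
      intro i _
      rw [map_add, map_smul, hφw]
      by_cases hi : i ∈ S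
      · rw [if_pos hi, if_pos hi, smul_eq_mul, mul_one]
      · rw [if_neg hi, if_neg hi, smul_eq_mul, mul_zero, add_zero, sub_self]
    rw [Finset.sum_congr rfl e1, Finset.sum_ite_mem, Finset.univ_inter]
    rcases hchar with ⟨h2, rfl | rfl⟩ | ⟨h3, rfl⟩
    · simp only [pow_one, add_sub_cancel_left]
      rw [Finset.sum_const, hS]
      simp only [nsmul_eq_mul, Nat.cast_ofNat]
      linear_combination (2 * h x) * h2
    · have hc : CharP F 2 := CharTwo.of_one_ne_zero_of_two_eq_zero one_ne_zero h2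
      have e2 : (∑ i ∈ S, (φ i x) ^ 2) = (h x) ^ 2 := by
        rw [hh, sum_pow_char 2 S (fun i => φ i x)]
      have e3 : ∑ i ∈ S, ((φ i x + h x) ^ 3 - (φ i x) ^ 3) = 3 * h x * (∑ i ∈ S, (φ i x) ^ 2) + 3 * (h x) ^ 2 * (∑ i ∈ S, φ i x) + 4 * (h x) ^ 3 := by
        rw [Finset.mul_sum, Finset.mul_sum, ← Finset.sum_add_distrib]
        have : (4 : F) * (h x) ^ 3 = ∑ i ∈ S, (h x) ^ 3 := by rw [Finset.sum_const, hS]; simp
        rw [this, ← Finset.sum_add_distrib]
        apply Finset.sum_congr rfl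
        intro i _
        ring
      rw [e3, e2, ← hh]
      linear_combination (5 * (h x) ^ 3) * h2
    · have e3 : ∑ i ∈ S, ((φ i x + h x) ^ 2 - (φ i x) ^ 2) = 2 * h x * (∑ i ∈ S, φ i x) + 4 * (h x) ^ 2 := by
        rw [Finset.mul_sum]
        have : (4 : F) * (h x) ^ 2 = ∑ i ∈ S, (h x) ^ 2 := by rw [Finset.sum_const, hS]; simp
        rw [this, ← Finset.sum_add_distrib]
        apply Finset.sum_congr rfl
        intro i _
        ring
      rw [e3, ← hh]
      linear_combination (2 * (h x) ^ 2) * h3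
  -- not monomial
  obtain ⟨i1, hi1⟩ : ∃ i1, i1 ∈ S := Finset.card_pos.1 (by omega)
  obtain ⟨i2, hi2, i3, hi3, h23⟩ := Finset.one_lt_card.1 (show 1 < (S.erase i1).card by rw [Finset.card_erase_of_mem hi1]; omega)
  have hha : h (a i1) = 1 := by
    rw [hh]
    simp only [hφa]
    rw [Finset.sum_ite_eq', if_pos hi1]
  have hcw : ∀ i ∈ S.erase i1, cmp hD (a i1 + w) i ≠ 0 := by
    intro i hi
    rw [hφ, map_add, hφa, hφw, if_neg (Finset.ne_of_mem_erase hi), if_pos (Finset.mem_of_mem_erase hi), zero_add, one_smul]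
    exact ha0 i
  have hbad : ∀ l, (a i1 + w) ∉ D l := fun l => not_mem_of_two hD h23 (hcw i2 hi2) (hcw i3 hi3)
  rcases hchar with ⟨h2, -⟩ | ⟨h3, he3⟩
  · refine ⟨r, by rw [hrdet, hhw]; linear_combination 2 * h2, hNr, ?_⟩
    rintro ⟨σ, hσ⟩
    apply hbad (σ i1)
    rw [← hσ i1]
    exact ⟨a i1, haD i1, by rw [toLin'_apply, hr, hha, one_smul]⟩
  · obtain ⟨i5, hi5⟩ : ∃ i5, i5 ∉ S := by
      by_contra hcon
      push Not at hcon
      have : S = Finset.univ := Finset.eq_univ_of_forall hcon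
      rw [this, Finset.card_univ, Fintype.card_fin] at hS
      omega
    have h55 : φ i5 (a i5) = 1 := by rw [hφa, if_pos rfl]
    obtain ⟨s, hs, hsdet⟩ := exists_dil (φ i5) (a i5) (by
      rw [h55]
      intro h0
      apply one_ne_zero (α := F)
      linear_combination h3 - h0)
    have hNs : s ∈ stabF (N hD) := by
      intro x
      rw [hs, hN, hN]
      apply Finset.sum_congr rfl
      intro i _
      rw [map_add, map_smul, hφa, he3]
      by_cases hi : i = i5
      · subst hi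
        rw [if_pos rfl, smul_eq_mul]
        linear_combination ((φ i x) ^ 2) * h3
      · rw [if_neg hi, smul_zero, add_zero]
    refine ⟨r * s, ?_, (stabF (N hD)).mul_mem hNr hNs, ?_⟩
    · rw [Units.val_mul, det_mul, hrdet, hsdet, hhw, h55]
      linear_combination 3 * h3
    · rintro ⟨σ, hσ⟩
      apply hbad (σ i1)
      rw [← hσ i1]
      refine ⟨a i1, haD i1, ?_⟩
      have h51 : φ i5 (a i1) = 0 := by
        rw [hφa, if_neg]
        rintro rfl
        exact hi5 hi1
      rw [toLin'_apply, Units.val_mul, ← mulVec_mulVec, hs, h51, zero_smul, add_zero, hr, hha, one_smul]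

theorem exists_r2 [Fintype F] (hq : Fintype.card F = 2) (hD : IsMDecomposition 2 D)
    (ht : 3 ≤ t) : ∃ g : GL ι F, (g : Matrix ι ι F).det = 1 ∧ g ∈ stabF (N hD) ∧ g ∉ decompositionStabilizer D := by
  classical
  have h2 := el2 hq
  have hc2 := char2 h2
  choose a haD ha0 using exists_ne hD
  have hb : ∀ i, ∃ b ∈ D i, b ∉ Submodule.span F {a i} := by
    intro i
    by_contra hcon
    push Not at hcon
    have h1 : D i ≤ Submodule.span F {a i} := hcon
    have h3 := Submodule.finrank_mono h1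
    rw [hD.finrank_eq, finrank_span_singleton (ha0 i)] at h3
    omega
  choose b hbD hbn using hb
  have hψ := fun i => exists_fn (hbn i)
  choose ψ hψb hψa using hψ
  have hψa' : ∀ i, ψ i (a i) = 0 := fun i => hψa i _ (Submodule.mem_span_singleton_self _)
  obtain ⟨S, -, hS⟩ := Finset.exists_subset_card_eq (s := (Finset.univ : Finset (Fin t))) (n := 3) (by rw [Finset.card_univ, Fintype.card_fin]; omega)
  obtain ⟨v, hv⟩ : ∃ v, v = ∑ j ∈ S, a j := ⟨_, rfl⟩
  have hcv : cmp hD v = fun i => if i ∈ S then a i else 0 := by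
    refine cmp_unique hD ?_ ?_
    · intro i
      show (if i ∈ S then a i else 0) ∈ D i
      by_cases hi : i ∈ S
      · rw [if_pos hi]; exact haD i
      · rw [if_neg hi]; exact (D i).zero_mem
    · rw [hv, Finset.sum_ite_mem, Finset.univ_inter]
  let φ : (ι → F) →ₗ[F] F := ∑ i ∈ S, (ψ i).comp (pr hD i)
  have hφ : ∀ x, φ x = ∑ i ∈ S, ψ i (cmp hD x i) := fun x => by
    simp only [φ, LinearMap.sum_apply]; rfl
  have hφm : ∀ i, ∀ u ∈ D i, φ u = if i ∈ S then ψ i u else 0 := by
    intro i u hu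
    rw [hφ, cmp_of_mem hD hu]
    by_cases hi : i ∈ S
    · rw [if_pos hi, Finset.sum_eq_single i]
      · rw [Pi.single_eq_same]
      · intro j _ hj; rw [Pi.single_eq_of_ne hj, map_zero]
      · intro h; exact absurd hi h
    · rw [if_neg hi]
      apply Finset.sum_eq_zero
      intro j hj
      rw [Pi.single_eq_of_ne (by rintro rfl; exact hi hj), map_zero]
  have hφv : φ v = 0 := by
    rw [hφ, hcv]
    apply Finset.sum_eq_zero
    intro i hi
    show ψ i (if i ∈ S then a i else 0) = 0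
    rw [if_pos hi, hψa']
  have hNv : N hD v = 1 := by
    rw [N, hcv]
    have e1 : ∀ i ∈ (Finset.univ : Finset (Fin t)), (if (if i ∈ S then a i else 0) = 0 then (0 : F) else 1) = if i ∈ S then 1 else 0 := by
      intro i _
      by_cases hi : i ∈ S
      · rw [if_pos hi, if_pos hi, if_neg (ha0 i)]
      · rw [if_neg hi, if_neg hi, if_pos rfl]
    rw [Finset.sum_congr rfl e1, Finset.sum_ite_mem, Finset.univ_inter, Finset.sum_const, hS]
    simp only [nsmul_eq_mul, mul_one, Nat.cast_ofNat]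
    linear_combination hc2
  have hadd : ∀ x, N hD (x + v) = N hD x + N hD v + φ x := by
    refine N_add_of hD ?_ ?_
    · intro x
      conv_lhs => rw [← cmp_sum hD x]
      rw [map_sum]
    · intro i u hu
      rw [hcv, hφm i u hu]
      show N hD (u + (if i ∈ S then a i else 0)) = N hD u + N hD (if i ∈ S then a i else 0) + _
      by_cases hi : i ∈ S
      · rw [if_pos hi, if_pos hi, N_of_mem hD ((D i).add_mem hu (haD i)), N_of_mem hD hu, N_of_mem hD (haD i), if_neg (ha0 i)]
        by_cases hu0 : u = 0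
        · rw [hu0, zero_add, if_neg (ha0 i), if_pos rfl, map_zero]; ring
        · by_cases hua : u = a i
          · rw [hua, if_pos (add_self2 h2 _), if_neg (ha0 i), hψa', hc2, add_zero]
          · have hne : u + a i ≠ 0 := by
              intro h
              apply hua
              have := add_self2 h2 (a i)
              rw [← h] at this
              exact (add_right_cancel this).symm
            have hψu : ψ i u ≠ 0 := by
              intro h0
              obtain ⟨s, r, hsr⟩ := plane_span h2 (hD.finrank_eq i) (haD i) hu (ha0 i) hu0 hua (hbD i)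
              have := hψb i
              rw [hsr, map_add, map_smul, map_smul, hψa', h0, smul_zero, smul_zero, add_zero] at this
              exact zero_ne_one this
            rw [if_neg hne, if_neg hu0, (h2 _).resolve_left hψu, hc2, zero_add]
      · rw [if_neg hi, if_neg hi, add_zero, N_of_mem hD (D i).zero_mem, if_pos rfl]; ring
  obtain ⟨g, hg, hdet⟩ := exists_dil φ v (by rw [hφv, add_zero]; exact one_ne_zero)
  refine ⟨g, by rw [hdet, hφv, add_zero], ?_, ?_⟩
  · intro x
    rw [hg]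
    rcases h2 (φ x) with h0 | h0
    · rw [h0, zero_smul, add_zero]
    · rw [h0, one_smul, hadd, hNv, h0]
      linear_combination hc2
  · rintro ⟨σ, hσ⟩
    obtain ⟨i1, hi1⟩ : ∃ i1, i1 ∈ S := Finset.card_pos.1 (by omega)
    obtain ⟨i2, hi2, i3, hi3, h23⟩ := Finset.one_lt_card.1 (show 1 < (S.erase i1).card by rw [Finset.card_erase_of_mem hi1]; omega)
    have hcw : ∀ i ∈ S.erase i1, cmp hD (b i1 + v) i ≠ 0 := by
      intro i hi
      rw [cmp_add, cmp_of_mem hD (hbD i1), hcv, Pi.add_apply, Pi.single_eq_of_ne (Finset.ne_of_mem_erase hi)]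
      show 0 + (if i ∈ S then a i else 0) ≠ 0
      rw [if_pos (Finset.mem_of_mem_erase hi), zero_add]
      exact ha0 i
    refine not_mem_of_two hD h23 (hcw i2 hi2) (hcw i3 hi3) (l := σ i1) ?_
    rw [← hσ i1]
    refine ⟨b i1, hbD i1, ?_⟩
    rw [toLin'_apply, hg, hφm i1 _ (hbD i1), if_pos hi1, hψb, one_smul]

end CfsgH9.NDec
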