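import Mathlib
import Cfsg.Agent.H9.NDec
import Cfsg.Agent.H9.UnK
import Cfsg.Agent.H9.Un

set_option autoImplicit false

/-! Imprimitive subgroups of unitary groups over the field with four elements. -/

namespace CfsgH9.NDecU

open Matrix Cfsg Cfsg.Geo CfsgH9.NDec CfsgH9.Un
open CfsgH9.MaxSymp (inv_mulVec mulVec_inv)

variable {ι : Type} [Fintype ι] [DecidableEq ι] {F : Type*} [Field F] {t k : ℕ} {D : Fin t → Submodule F (ι → F)}
variable {σ : F →+* F} {f : (ι → F) → (ι → F) → F}

lemma norm_one [Fintype F] (hq : Fintype.card F = 4) {c : F} (hc : c ≠ 0) : c ^ 3 = 1 := by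
  have := FiniteField.pow_card_sub_one_eq_one c hc
  rwa [hq] at this

lemma two4 [Fintype F] (hq : Fintype.card F = 4) : (2 : F) = 0 := by
  have h1 : ((Fintype.card F : ℕ) : F) = 0 := FiniteField.cast_card_eq_zero F
  rw [hq] at h1
  have h2 : (2 : F) * 2 = 0 := by norm_num; exact_mod_cast h1
  exact mul_self_eq_zero.1 h2

omit [DecidableEq ι] in
/-- orthonormal bases of planes -/
lemma exists_on [DecidableEq ι] [Finite F] (hf : Hm σ f) (hσ : ∀ x, σ x = x ^ 2) {W : Submodule F (ι → F)} (hW : Module.finrank F W = 2)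
    (hnd : IsNondegenerateOn f W) : ∃ a ∈ W, ∃ b ∈ W, f a a = 1 ∧ f b b = 1 ∧ f a b = 0 ∧ f b a = 0 ∧
      ∀ x ∈ W, ∃ c d : F, x = c • a + d • b := by
  have hW0 : W ≠ ⊥ := by
    intro h
    rw [h, finrank_bot] at hW
    omega
  obtain ⟨x, hx, hx0⟩ := (Submodule.ne_bot_iff _).1 hW0
  obtain ⟨⟨y, hy, hyx⟩, -⟩ := hnd x hx hx0
  obtain ⟨a, ha, haa, ha0⟩ := hf.exists_one (E := W) ⟨y, hy, x, hx, hyx⟩ (map_one σ)
  have ha0 := ha0 one_ne_zero
  obtain ⟨b', hb', hb'n⟩ : ∃ b ∈ W, b ∉ Submodule.span F {a} := by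
    by_contra hcon
    push Not at hcon
    have h1 : W ≤ Submodule.span F {a} := hcon
    have h3 := Submodule.finrank_mono h1
    rw [hW, finrank_span_singleton ha0] at h3
    omega
  obtain ⟨b, hbe⟩ : ∃ b, b = b' - f b' a • a := ⟨_, rfl⟩
  have hb : b ∈ W := by rw [hbe]; exact W.sub_mem hb' (W.smul_mem _ ha)
  have hba : f b a = 0 := by rw [hbe, hf.sub_left, hf.smul_left, haa]; ring
  have hb0 : b ≠ 0 := by
    intro h
    apply hb'n
    rw [hbe, sub_eq_zero] at h
    rw [h]
    exact Submodule.smul_mem _ _ (Submodule.mem_span_singleton_self a)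
  have hbn : b ∉ Submodule.span F {a} := by
    intro hmem
    obtain ⟨c, hc⟩ := Submodule.mem_span_singleton.1 hmem
    apply hb0
    have h1 : f (c • a) a = 0 := by rw [hc]; exact hba
    rw [hf.smul_left, haa, mul_one] at h1
    rw [← hc, h1, zero_smul]
  have hspan : Submodule.span F {a} ⊔ Submodule.span F {b} = W := by
    apply Submodule.eq_of_le_of_finrank_eq
    · apply sup_le
      · rw [Submodule.span_singleton_le_iff_mem]; exact ha
      · rw [Submodule.span_singleton_le_iff_mem]; exact hb
    · rw [CfsgH9.Og.finrank_sup_span_eq hbn, finrank_span_singleton ha0, hW]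
  have hsp : ∀ x ∈ W, ∃ c d : F, x = c • a + d • b := by
    intro x hx
    rw [← hspan] at hx
    obtain ⟨y, hy, z, hz, rfl⟩ := Submodule.mem_sup.1 hx
    obtain ⟨s, rfl⟩ := Submodule.mem_span_singleton.1 hy
    obtain ⟨r, rfl⟩ := Submodule.mem_span_singleton.1 hz
    exact ⟨s, r, rfl⟩
  have hbb : f b b ≠ 0 := by
    intro h0
    obtain ⟨⟨x, hx, hxb⟩, -⟩ := hnd b hb hb0
    obtain ⟨c, d, rfl⟩ := hsp x hx
    apply hxb
    rw [hf.add_left, hf.smul_left, hf.smul_left, hf.swap hba, h0]; ring
  have hbb1 : f b b = 1 := by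
    have h1 := hf.self b
    rw [hσ] at h1
    have h2 : f b b * (f b b - 1) = 0 := by linear_combination h1
    exact sub_eq_zero.1 ((mul_eq_zero.1 h2).resolve_left hbb)
  exact ⟨a, ha, b, hb, haa, hbb1, hf.swap hba, hba, hsp⟩

theorem gu2_not_max [Fintype F] (hf : Hm σ f) (hσ : ∀ x, σ x = x ^ 2) (hq : Fintype.card F = 4) {K : Subgroup (GL ι F)}
    (hK : IsK f K) (hD : IsNondegenerateMDecomposition f 2 D) :
    ∃ L : Subgroup (GL ι F), decompositionStabilizer D ⊓ K < L ∧ L < K := by
  classical
  have h2 := two4 hq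
  have hD' := hD.decomp
  obtain ⟨i1, hi1⟩ : ∃ i : Fin t, i = ⟨0, by have := hD'.two_le; omega⟩ := ⟨_, rfl⟩
  obtain ⟨i2, hi2⟩ : ∃ i : Fin t, i = ⟨1, by have := hD'.two_le; omega⟩ := ⟨_, rfl⟩
  have h12 : i1 ≠ i2 := by rw [hi1, hi2]; intro h; simp at h
  obtain ⟨a1, ha1, b1, hb1, haa1, hbb1, hab1, hba1, hsp1⟩ := exists_on hf hσ (hD'.finrank_eq i1) (hD.nondegenerate i1)
  obtain ⟨a2, ha2, b2, hb2, haa2, hbb2, hab2, hba2, hsp2⟩ := exists_on hf hσ (hD'.finrank_eq i2) (hD.nondegenerate i2)
  have o : ∀ x ∈ D i1, ∀ y ∈ D i2, f x y = 0 := hD.orthogonal i1 i2 h12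
  have o' : ∀ x ∈ D i2, ∀ y ∈ D i1, f x y = 0 := hD.orthogonal i2 i1 h12.symm
  have ha10 : a1 ≠ 0 := by rintro rfl; rw [hf.zero_left] at haa1; exact zero_ne_one haa1
  have hb10 : b1 ≠ 0 := by rintro rfl; rw [hf.zero_left] at hbb1; exact zero_ne_one hbb1
  have ha20 : a2 ≠ 0 := by rintro rfl; rw [hf.zero_left] at haa2; exact zero_ne_one haa2
  let P : (ι → F) → Prop := fun x => ∃ i, x ∈ D i ∧ f x x ≠ 0
  let χ : (ι → F) → F := fun x => if P x then 1 else 0
  have hχ : ∀ {g : GL ι F}, (∀ x, P ((g : Matrix ι ι F) *ᵥ x) ↔ P x) → g ∈ stabF χ := by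
    intro g h x
    show (if P ((g : Matrix ι ι F) *ᵥ x) then (1 : F) else 0) = if P x then 1 else 0
    by_cases hx : P x
    · rw [if_pos hx, if_pos ((h x).2 hx)]
    · rw [if_neg hx, if_neg (fun h' => hx ((h x).1 h'))]
  -- the elements
  have htv : ∀ w, f w w = 0 → ∃ g : GL ι F, g ∈ K ∧ ∀ x, (g : Matrix ι ι F) *ᵥ x = x + f x w • w := by
    intro w hw
    obtain ⟨g, hg⟩ := exists_R hf (e := w) (a := 1) (by unfold Cd; rw [map_one, hw]; linear_combination h2)
    refine ⟨g, (hK g).2 ⟨hg.iso hf (by unfold Cd; rw [map_one, hw]; linear_combination h2), ?_⟩, ?_⟩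
    · rw [hg.det hf, hw]; ring
    · intro x; rw [hg, one_mul]
  have hw1 : f (a1 + a2) (a1 + a2) = 0 := by
    rw [hf.add_left, hf.add_right, hf.add_right, haa1, haa2, o _ ha1 _ ha2, o' _ ha2 _ ha1]; linear_combination h2
  have hw2 : f (a1 + b1 + (a2 + b2)) (a1 + b1 + (a2 + b2)) = 0 := by
    simp only [hf.add_left, hf.add_right, haa1, hbb1, hab1, hba1, haa2, hbb2, hab2, hba2, o _ ha1 _ ha2, o _ ha1 _ hb2, o _ hb1 _ ha2,
      o _ hb1 _ hb2, o' _ ha2 _ ha1, o' _ ha2 _ hb1, o' _ hb2 _ ha1, o' _ hb2 _ hb1]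
    linear_combination 2 * h2
  obtain ⟨g, hgK, hg⟩ := htv _ hw1
  obtain ⟨h, hhK, hh⟩ := htv _ hw2
  refine ⟨stabF χ ⊓ K, ?_, ?_⟩
  · refine lt_of_le_of_ne (le_inf ?_ inf_le_right) ?_
    · rintro s ⟨⟨τ, hτ⟩, hsK⟩
      have hiso := ((hK s).1 hsK).1
      apply hχ
      intro x
      constructor
      · rintro ⟨i, hi, hne⟩
        have e1 := hτ (τ.symm i)
        rw [Equiv.apply_symm_apply] at e1
        rw [← e1] at hi
        obtain ⟨y, hy, hyx⟩ := hi
        rw [toLin'_apply] at hyx
        have e2 : y = x := by rw [← inv_mulVec s y, hyx, inv_mulVec]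
        exact ⟨_, e2 ▸ hy, by rwa [hiso] at hne⟩
      · rintro ⟨i, hi, hne⟩
        exact ⟨τ i, by rw [← hτ i]; exact ⟨x, hi, by rw [toLin'_apply]⟩, by rwa [hiso]⟩
    · intro heq
      have hone : ∀ x, P x → P ((g : Matrix ι ι F) *ᵥ x) := by
        rintro x ⟨i, hi, hne⟩
        by_cases hi1' : i = i1
        · subst hi1'
          obtain ⟨c, d, rfl⟩ := hsp1 x hi
          have e1 : f (c • a1 + d • b1) (a1 + a2) = c := by
            rw [hf.add_right, o _ hi _ ha2, hf.add_left, hf.smul_left, hf.smul_left, haa1, hba1]; ring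
          rw [hg, e1]
          by_cases hc : c = 0
          · rw [hc] at hi hne ⊢
            rw [zero_smul, zero_smul, zero_add, add_zero] at *
            exact ⟨i, hi, hne⟩
          · have hd : d = 0 := by
              by_contra hd
              apply hne
              rw [hf.add_left, hf.add_right, hf.add_right, hf.smul_left, hf.smul_left, hf.smul_left, hf.smul_left, hf.smul_right, hf.smul_right,
                hf.smul_right, hf.smul_right, haa1, hab1, hba1, hbb1, hσ, hσ]
              linear_combination norm_one hq hc + norm_one hq hd + h2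
            rw [hd, zero_smul, add_zero]
            have e2 : c • a1 + c • (a1 + a2) = c • a2 := by
              have : c • a1 + c • a1 = 0 := by rw [← add_smul]; rw [show c + c = 0 by linear_combination c * h2, zero_smul]
              rw [smul_add, ← add_assoc, this, zero_add]
            rw [e2]
            refine ⟨i2, (D i2).smul_mem _ ha2, ?_⟩
            rw [hf.smul_left, hf.smul_right, haa2, hσ]
            intro h0
            have := norm_one hq hc
            apply one_ne_zero (α := F)
            linear_combination h0 - this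
        · by_cases hi2' : i = i2
          · subst hi2'
            obtain ⟨c, d, rfl⟩ := hsp2 x hi
            have e1 : f (c • a2 + d • b2) (a1 + a2) = c := by
              rw [hf.add_right, o' _ hi _ ha1, hf.add_left, hf.smul_left, hf.smul_left, haa2, hba2]; ring
            rw [hg, e1]
            by_cases hc : c = 0
            · rw [hc] at hi hne ⊢
              rw [zero_smul, zero_smul, zero_add, add_zero] at *
              exact ⟨i, hi, hne⟩
            · have hd : d = 0 := by
                by_contra hd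
                apply hne
                rw [hf.add_left, hf.add_right, hf.add_right, hf.smul_left, hf.smul_left, hf.smul_left, hf.smul_left, hf.smul_right, hf.smul_right,
                  hf.smul_right, hf.smul_right, haa2, hab2, hba2, hbb2, hσ, hσ]
                linear_combination norm_one hq hc + norm_one hq hd + h2
              rw [hd, zero_smul, add_zero]
              have e2 : c • a2 + c • (a1 + a2) = c • a1 := by
                have : c • a2 + c • a2 = 0 := by rw [← add_smul]; rw [show c + c = 0 by linear_combination c * h2, zero_smul]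
                rw [smul_add, add_comm (c • a1), ← add_assoc, this, zero_add]
              rw [e2]
              refine ⟨i1, (D i1).smul_mem _ ha1, ?_⟩
              rw [hf.smul_left, hf.smul_right, haa1, hσ]
              intro h0
              have := norm_one hq hc
              apply one_ne_zero (α := F)
              linear_combination h0 - this
          · have e1 : f x (a1 + a2) = 0 := by
              rw [hf.add_right, hD.orthogonal i i1 hi1' _ hi _ ha1, hD.orthogonal i i2 hi2' _ hi _ ha2, add_zero]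
            rw [hg, e1, zero_smul, add_zero]
            exact ⟨i, hi, hne⟩
      have hinv : ∀ x, (g : Matrix ι ι F) *ᵥ ((g : Matrix ι ι F) *ᵥ x) = x := by
        intro x
        rw [hg, hg x, hf.add_left, hf.smul_left, hw1, mul_zero, add_zero]
        have : f x (a1 + a2) • (a1 + a2) + f x (a1 + a2) • (a1 + a2) = 0 := by
          rw [← add_smul]; rw [show f x (a1 + a2) + f x (a1 + a2) = 0 by linear_combination (f x (a1 + a2)) * h2, zero_smul]
        rw [add_assoc, this, add_zero]
      have hgS : g ∈ stabF χ ⊓ K := by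
        refine ⟨hχ (fun x => ⟨fun h' => ?_, hone x⟩), hgK⟩
        have := hone _ h'
        rwa [hinv] at this
      rw [← heq] at hgS
      obtain ⟨τ, hτ⟩ := hgS.1
      have e1 : a2 ∈ D (τ i1) := by
        rw [← hτ i1]
        refine ⟨a1, ha1, ?_⟩
        rw [toLin'_apply, hg, hf.add_right, haa1, o _ ha1 _ ha2, add_zero, one_smul, ← add_assoc]
        rw [show a1 + a1 = 0 from by
          have : (2 : F) • a1 = 0 := by rw [h2, zero_smul]
          rwa [two_smul] at this, zero_add]
      have e2 : b1 ∈ D (τ i1) := by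
        rw [← hτ i1]
        refine ⟨b1, hb1, ?_⟩
        rw [toLin'_apply, hg, hf.add_right, hba1, o _ hb1 _ ha2, add_zero, zero_smul, add_zero]
      have e3 : τ i1 = i2 := by
        by_contra hne
        have := cmp_of_mem hD' e1
        rw [cmp_of_mem hD' ha2] at this
        have := congrFun this i2
        rw [Pi.single_eq_same, Pi.single_eq_of_ne (Ne.symm hne)] at this
        exact ha20 this
      have e4 : τ i1 = i1 := by
        by_contra hne
        have := cmp_of_mem hD' e2
        rw [cmp_of_mem hD' hb1] at this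
        have := congrFun this i1
        rw [Pi.single_eq_same, Pi.single_eq_of_ne (Ne.symm hne)] at this
        exact hb10 this
      exact h12 (e4.symm.trans e3)
  · refine lt_of_le_of_ne inf_le_right ?_
    intro heq
    have hhS := hhK
    rw [← heq] at hhS
    have e0 : P a1 := ⟨i1, ha1, by rw [haa1]; exact one_ne_zero⟩
    have e1 : P ((h : Matrix ι ι F) *ᵥ a1) := by
      have := hhS.1 a1
      by_contra hne
      have e2 : (if P ((h : Matrix ι ι F) *ᵥ a1) then (1 : F) else 0) = if P a1 then 1 else 0 := this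
      rw [if_neg hne, if_pos e0] at e2
      exact zero_ne_one e2
    obtain ⟨l, hl, -⟩ := e1
    have e2 : (h : Matrix ι ι F) *ᵥ a1 = b1 + (a2 + b2) := by
      rw [hh, hf.add_right, o _ ha1 _ ((D i2).add_mem ha2 hb2), add_zero, hf.add_right, haa1, hab1, add_zero, one_smul, add_assoc, ← add_assoc]
      rw [show a1 + a1 = 0 from by
          have : (2 : F) • a1 = 0 := by rw [h2, zero_smul]
          rwa [two_smul] at this, zero_add]
    rw [e2] at hl
    have hab : a2 + b2 ≠ 0 := by
      intro h0
      have : f (a2 + b2) a2 = 0 := by rw [h0, hf.zero_left]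
      rw [hf.add_left, haa2, hba2, add_zero] at this
      exact one_ne_zero this
    refine not_mem_of_two hD' h12 ?_ ?_ hl
    · rw [cmp_add, cmp_of_mem hD' hb1, cmp_of_mem hD' ((D i2).add_mem ha2 hb2), Pi.add_apply, Pi.single_eq_same, Pi.single_eq_of_ne h12, add_zero]
      exact hb10
    · rw [cmp_add, cmp_of_mem hD' hb1, cmp_of_mem hD' ((D i2).add_mem ha2 hb2), Pi.add_apply, Pi.single_eq_same, Pi.single_eq_of_ne h12.symm,
        zero_add]
      exact hab

end CfsgH9.NDecU
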