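import Mathlib
import Cfsg.Agent.H9.Frame3
import Cfsg.Agent.H9.NMax

set_option autoImplicit false

/-! Tensor product subgroups of orthogonal groups over the field with three elements. -/

namespace CfsgH9.NTen

open Matrix Cfsg Cfsg.Geo CfsgH9.NDec CfsgH9.Og CfsgH9.Frame3
open scoped Kronecker
open CfsgH9.MaxSymp (inv_mulVec mulVec_inv)

variable {ι : Type} [Fintype ι] [DecidableEq ι] {F : Type*} [Field F] {n₂ : ℕ}

section

variable {κ : Type} [Fintype κ] [DecidableEq κ]

/-- the quadratic form of a symmetric bilinear form over the field with three elements -/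
lemma qf_sym [Fintype F] (hq : Fintype.card F = 3) {g : (κ → F) → (κ → F) → F} (hg : IsSymmetricForm g) :
    Qf (fun x => 2 * g x x) g where
  add x y := by
    rw [hg.bilinear.add_left, hg.bilinear.add_right, hg.bilinear.add_right, hg.symm y x]
    linear_combination (g x y) * three hq
  smul c x := by rw [hg.bilinear.smul_left, hg.bilinear.smul_right]; ring
  add_left := hg.bilinear.add_left
  smul_left := hg.bilinear.smul_left
  nondeg x hx := (hg.nondegenerate x hx).2

end

lemma T_sub_right {n₁ : ℕ} {e : ι ≃ Fin n₁ × Fin n₂} {P : GL ι F} (x : Fin n₁ → F) (y y' : Fin n₂ → F) :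
    T e P x (y - y') = T e P x y - T e P x y' := by
  have h1 : y - y' = y + (-1 : F) • y' := by module
  rw [h1, T_add_right, T_smul_right]
  module

theorem o3_tensor_not_max [Fintype F] (hq : Fintype.card F = 3) {e : ι ≃ Fin 3 × Fin n₂} {P : GL ι F}
    {Q : (ι → F) → F} {f : (ι → F) → (ι → F) → F} (hf : Qf Q f) {f₁ : (Fin 3 → F) → (Fin 3 → F) → F} {f₂ : (Fin n₂ → F) → (Fin n₂ → F) → F}
    (hf₁ : IsSymmetricForm f₁) (hf₂ : IsSymmetricForm f₂) (hn : 3 ≤ n₂) {c : F} (hc : c ≠ 0)
    (hT : ∀ x y x' y', f (T e P x y) (T e P x' y') = c * (f₁ x x' * f₂ y y')) :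
    ∃ L : Subgroup (GL ι F), tensorProductSubgroup 3 n₂ e P ⊓ omegaGL Q < L ∧ L < omegaGL Q := by
  classical
  have h3 := three hq
  have h2 : (2 : F) ≠ 0 := by
    intro h
    apply one_ne_zero (α := F)
    linear_combination h3 - h
  have hcard : 5 ≤ Fintype.card ι := by
    have := Fintype.card_congr e
    rw [Fintype.card_prod, Fintype.card_fin, Fintype.card_fin] at this
    omega
  obtain ⟨ε, a, ha⟩ := exists_frame hq hf₁
  have hε := ha.ne
  have hQf : ∀ x, 2 * Q x = f x x := fun x => (hf.self x).symm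
  have hq2 := qf_sym hq hf₂
  have h22 : ∀ y, 2 * f₂ y y = 0 → f₂ y y = 0 := fun y h => (mul_eq_zero.1 h).resolve_left h2
  have hb2 := hf₂.bilinear
  -- isotropic vector of the second factor
  obtain ⟨u, -, hu0, huu⟩ := exists_sing hq2 (E := ⊤) (by rw [finrank_top, Module.finrank_fintype_fun_eq_card, Fintype.card_fin]; exact hn)
  have huu := h22 u huu
  obtain ⟨z, hz⟩ : ∃ z, f₂ z u ≠ 0 := (hf₂.nondegenerate u hu0).1
  obtain ⟨v, hvu, hvn⟩ : ∃ v, f₂ v u = 0 ∧ v ∉ Submodule.span F {u} := by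
    by_contra hcon
    push Not at hcon
    have h1 : perp hq2 (Submodule.span F {u}) ≤ Submodule.span F {u} := fun x hx => hcon x ((mem_perp_one hq2).1 hx)
    have h4 := Submodule.finrank_mono h1
    have h5 := finrank_perp hq2 (Submodule.span F {u})
    rw [finrank_span_singleton hu0] at h4 h5
    rw [Fintype.card_fin] at h5
    omega
  have hv0 : v ≠ 0 := by rintro rfl; exact hvn (Submodule.zero_mem _)
  have huv : f₂ u v = 0 := by rw [hf₂.symm]; exact hvu
  let Qs : (ι → F) → Prop := fun v => ∃ i y, v = T e P (a i) y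
  let χ : (ι → F) → F := fun x => if Qs x then 1 else 0
  have hχ : ∀ {g : GL ι F}, (∀ x, Qs ((g : Matrix ι ι F) *ᵥ x) ↔ Qs x) → g ∈ stabF χ := by
    intro g h x
    show (if Qs ((g : Matrix ι ι F) *ᵥ x) then (1 : F) else 0) = if Qs x then 1 else 0
    by_cases hx : Qs x
    · rw [if_pos hx, if_pos ((h x).2 hx)]
    · rw [if_neg hx, if_neg (fun h' => hx ((h x).1 h'))]
  have hχ' : ∀ {g : GL ι F}, g ∈ stabF χ → ∀ x, Qs x → Qs ((g : Matrix ι ι F) *ᵥ x) := by
    intro g h x hx
    by_contra hne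
    have e2 : (if Qs ((g : Matrix ι ι F) *ᵥ x) then (1 : F) else 0) = if Qs x then 1 else 0 := h x
    rw [if_neg hne, if_pos hx] at e2
    exact zero_ne_one e2
  have hstep : ∀ g ∈ tensorProductSubgroup 3 n₂ e P ⊓ omegaGL Q, ∀ x, Qs x → Qs ((g : Matrix ι ι F) *ᵥ x) := by
    rintro g ⟨hgT, hgK⟩ x ⟨i, y, rfl⟩
    obtain ⟨A, B, hAB⟩ := exists_of_mem hgT
    have hiso := mem_iso_of_omega hgK
    have hform := hiso.form hf
    have key : ∀ x x' y y', f₁ ((A : Matrix _ _ F) *ᵥ x) ((A : Matrix _ _ F) *ᵥ x') * f₂ ((B : Matrix (Fin n₂) (Fin n₂) F) *ᵥ y) ((B : Matrix (Fin n₂) (Fin n₂) F) *ᵥ y') =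
        f₁ x x' * f₂ y y' := by
      intro x x' y y'
      have h4 := hform (T e P x y) (T e P x' y')
      rw [hAB, hAB, hT, hT] at h4
      exact mul_left_cancel₀ hc h4
    have h6 := key (a 0) (a 0) z u
    rw [ha.val, if_pos rfl] at h6
    have hβ : f₂ ((B : Matrix (Fin n₂) (Fin n₂) F) *ᵥ z) ((B : Matrix (Fin n₂) (Fin n₂) F) *ᵥ u) ≠ 0 := by
      intro h0
      rw [h0, mul_zero] at h6
      exact mul_ne_zero hε hz h6.symm
    obtain ⟨j, r, hj⟩ := ha.perm hq hf₁ (A := A) (κ := f₂ z u / f₂ ((B : Matrix (Fin n₂) (Fin n₂) F) *ᵥ z) ((B : Matrix (Fin n₂) (Fin n₂) F) *ᵥ u)) (div_ne_zero hz hβ) (by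
      intro x y
      field_simp
      linear_combination key x y z u) i
    refine ⟨j, r • ((B : Matrix (Fin n₂) (Fin n₂) F) *ᵥ y), ?_⟩
    rw [hAB, hj, T_smul_left, T_smul_right]
  have hTQ : ∀ x y, f₂ y y = 0 → Q (T e P x y) = 0 := by
    intro x y hy
    have h4 := hQf (T e P x y)
    rw [hT, hy, mul_zero, mul_zero] at h4
    exact (mul_eq_zero.1 h4).resolve_left h2
  refine ⟨stabF χ ⊓ omegaGL Q, ?_, ?_⟩
  · refine lt_of_le_of_ne (le_inf ?_ inf_le_right) ?_
    · intro g hg
      apply hχ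
      intro x
      refine ⟨fun h => ?_, hstep g hg x⟩
      have := hstep g⁻¹ (Subgroup.inv_mem _ hg) _ h
      rwa [inv_mulVec] at this
    · intro heq
      have hQu := hTQ (a 0) u huu
      have h4 : f (T e P (a 0) u) (T e P (a 0) v) = 0 := by rw [hT, huv, mul_zero, mul_zero]
      obtain ⟨g, hg⟩ := exists_E hf hQu h4
      have hgo : g ∈ omegaGL Q := T_le_omega hf hcard (E_mem hQu h4 hg)
      have hgi := hg.inv hf hQu h4
      obtain ⟨δ, hδ⟩ : ∃ δ : (Fin n₂ → F) → (Fin n₂ → F), ∀ y, δ y = (c * ε * f₂ y u) • v - (c * ε * f₂ y v + Q (T e P (a 0) v) * (c * ε * f₂ y u)) • u :=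
        ⟨_, fun _ => rfl⟩
      have hga : ∀ y, (g : Matrix ι ι F) *ᵥ T e P (a 0) y = T e P (a 0) (y + δ y) := by
        intro y
        rw [hg, hT, hT, ha.val, if_pos rfl, hδ, T_add_right, T_sub_right, T_smul_right, T_smul_right]
        module
      have hgb : ∀ i, i ≠ 0 → ∀ y, (g : Matrix ι ι F) *ᵥ T e P (a i) y = T e P (a i) y := by
        intro i hi y
        rw [hg, hT, hT, ha.val, if_neg hi]; simp
      have hga' : ∀ y, ∃ y', ((g⁻¹ : GL ι F) : Matrix ι ι F) *ᵥ T e P (a 0) y = T e P (a 0) y' := by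
        intro y
        refine ⟨y + ((c * ε * f₂ y u) • (-v) - (c * ε * f₂ y (-v) + Q (T e P (a 0) (-v)) * (c * ε * f₂ y u)) • u), ?_⟩
        have h7 : -T e P (a 0) v = T e P (a 0) (-v) := by rw [← neg_one_smul F v, T_smul_right, neg_one_smul]
        rw [hgi, h7, hT, hT, ha.val, if_pos rfl, T_add_right, T_sub_right, T_smul_right, T_smul_right]
        module
      have hgS : g ∈ stabF χ ⊓ omegaGL Q := by
        refine ⟨hχ (fun x => ⟨?_, ?_⟩), hgo⟩
        · rintro ⟨i, y, hy⟩
          have hx : x = ((g⁻¹ : GL ι F) : Matrix ι ι F) *ᵥ T e P (a i) y := by rw [← hy, inv_mulVec]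
          by_cases hi : i = 0
          · subst hi
            obtain ⟨y', hy'⟩ := hga' y
            exact ⟨0, y', by rw [hx, hy']⟩
          · refine ⟨i, y, ?_⟩
            have h8 := hgb i hi y
            rw [hx]
            conv_lhs => rw [← h8]
            rw [inv_mulVec]
        · rintro ⟨i, y, rfl⟩
          by_cases hi : i = 0
          · subst hi
            exact ⟨0, _, hga y⟩
          · exact ⟨i, y, hgb i hi y⟩
      rw [← heq] at hgS
      obtain ⟨A, B, hAB⟩ := exists_of_mem hgS.1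
      have ha0 : ∀ i, a i ≠ 0 := by
        intro i h0
        have h5 := ha.val i i
        rw [if_pos rfl, h0] at h5
        have := hf₁.bilinear.smul_left 0 0 0
        rw [zero_smul, zero_mul] at this
        exact hε (h5.symm.trans this)
      obtain ⟨i, hi⟩ := Function.ne_iff.1 (ha0 1)
      obtain ⟨i', hi'⟩ := Function.ne_iff.1 (ha0 0)
      rw [Pi.zero_apply] at hi hi'
      obtain ⟨μ, hμ⟩ : ∃ μ, μ = ((A : Matrix _ _ F) *ᵥ a 1) i / a 1 i := ⟨_, rfl⟩
      obtain ⟨ν, hν⟩ : ∃ ν, ν = ((A : Matrix _ _ F) *ᵥ a 0) i' / a 0 i' := ⟨_, rfl⟩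
      have k3 : ∀ y, y = μ • ((B : Matrix (Fin n₂) (Fin n₂) F) *ᵥ y) := by
        intro y
        have k1 : T e P (a 1) y = T e P ((A : Matrix _ _ F) *ᵥ a 1) ((B : Matrix (Fin n₂) (Fin n₂) F) *ᵥ y) := by
          rw [← hAB, hgb 1 (by decide)]
        funext j
        have := T_inj k1 i j
        rw [Pi.smul_apply, smul_eq_mul, hμ]
        field_simp
        linear_combination this
      have k4 : ∀ y, y + δ y = ν • ((B : Matrix (Fin n₂) (Fin n₂) F) *ᵥ y) := by
        intro y
        have k2 : T e P (a 0) (y + δ y) = T e P ((A : Matrix _ _ F) *ᵥ a 0) ((B : Matrix (Fin n₂) (Fin n₂) F) *ᵥ y) := by rw [← hAB, hga]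
        funext j
        have := T_inj k2 i' j
        rw [Pi.smul_apply, smul_eq_mul, hν]
        field_simp
        linear_combination this
      have hμ0 : μ ≠ 0 := by
        intro h0
        have := k3 u
        rw [h0, zero_smul] at this
        exact hu0 this
      have k5 : ∀ y, y + δ y = (ν / μ) • y := by
        intro y
        rw [k4]
        conv_rhs => rw [k3 y]
        rw [smul_smul, div_mul_cancel₀ _ hμ0]
      have k6 : ν / μ = 1 := by
        have h5 := k5 u
        have h6 : δ u = 0 := by rw [hδ, huu, huv]; simp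
        rw [h6, add_zero] at h5
        have h7 : (ν / μ - 1) • u = 0 := by rw [sub_smul, ← h5, one_smul, sub_self]
        exact sub_eq_zero.1 ((smul_eq_zero.1 h7).resolve_right hu0)
      have k7 := k5 z
      rw [k6, one_smul] at k7
      have k8 : δ z = 0 := add_eq_left.1 k7
      rw [hδ, sub_eq_zero] at k8
      have hs : c * ε * f₂ z u ≠ 0 := mul_ne_zero (mul_ne_zero hc hε) hz
      apply hvn
      rw [← Submodule.smul_mem_iff _ hs, k8]
      exact Submodule.smul_mem _ _ (Submodule.mem_span_singleton_self u)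
  · refine lt_of_le_of_ne inf_le_right ?_
    intro heq
    have hQu := hTQ (a 0) u huu
    have h4 : f (T e P (a 0) u) (T e P (a 1) v) = 0 := by rw [hT, huv, mul_zero, mul_zero]
    obtain ⟨g, hg⟩ := exists_E hf hQu h4
    have hgo : g ∈ omegaGL Q := T_le_omega hf hcard (E_mem hQu h4 hg)
    rw [← heq] at hgo
    obtain ⟨i, y, hy⟩ := hχ' hgo.1 _ ⟨0, z, rfl⟩
    have v01 : f₁ (a 0) (a 1) = 0 := by rw [ha.val, if_neg (by decide)]
    have v10 : f₁ (a 1) (a 0) = 0 := by rw [ha.val, if_neg (by decide)]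
    have v00 : f₁ (a 0) (a 0) = ε := by rw [ha.val, if_pos rfl]
    have v11 : f₁ (a 1) (a 1) = ε := by rw [ha.val, if_pos rfl]
    rw [hg, hT, hT, v00, v01] at hy
    by_cases hi : i = 0
    · subst hi
      obtain ⟨w, hw⟩ := (hf₂.nondegenerate v hv0).2
      have e2 := congrArg (fun x => f x (T e P (a 1) w)) hy
      simp only [hf.add_left, hf.sub_left, hf.smul_left, hT, v01, v11] at e2
      have : (c * (ε * f₂ z u)) * (c * (ε * f₂ v w)) = 0 := by linear_combination e2
      exact mul_ne_zero (mul_ne_zero hc (mul_ne_zero hε hz)) (mul_ne_zero hc (mul_ne_zero hε hw)) this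
    · have vi0 : f₁ (a i) (a 0) = 0 := by rw [ha.val, if_neg hi]
      have e2 := congrArg (fun x => f x (T e P (a 0) u)) hy
      simp only [hf.add_left, hf.sub_left, hf.smul_left, hT, v00, v10, vi0, huu] at e2
      have : c * (ε * f₂ z u) = 0 := by linear_combination e2
      exact mul_ne_zero hc (mul_ne_zero hε hz) this

end CfsgH9.NTen
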