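import Mathlib
import Cfsg.Agent.H9.Frame3
import Cfsg.Agent.H9.NMax
import Cfsg.Agent.H9.NTenO

set_option autoImplicit false

/-! Orthogonal decompositions with frames over the field with three elements. -/

namespace CfsgH9.NFrame

open Matrix Cfsg Cfsg.Geo CfsgH9.NDec CfsgH9.Og CfsgH9.Frame3
open CfsgH9.MaxSymp (inv_mulVec mulVec_inv)

variable {ι : Type} [Fintype ι] [DecidableEq ι] {F : Type*} [Field F] {t k : ℕ} {D : Fin t → Submodule F (ι → F)}
variable {Q : (ι → F) → F} {f : (ι → F) → (ι → F) → F}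

theorem frame_not_max [Finite F] (hf : Qf Q f) (h2 : (2 : F) ≠ 0) (hD : IsMDecomposition k D)
    (hnd : ∀ i, IsNondegenerateOn f (D i)) (horth : ∀ i j, i ≠ j → ∀ x ∈ D i, ∀ y ∈ D j, f x y = 0)
    (ht : 3 ≤ t) (hk : k + 3 ≤ Fintype.card ι) (h5 : 5 ≤ Fintype.card ι)
    {ε : F} (hε : ε ≠ 0) (a b : Fin t → (ι → F)) (ha : ∀ i, a i ∈ D i) (hb : ∀ i, b i ∈ D i)
    (haa : ∀ i, f (a i) (a i) = ε) (hb0 : ∀ i, b i ≠ 0) (hba : ∀ i, f (b i) (a i) = 0)
    (hcl : ∀ i, ∀ v ∈ D i, f v v = ε → f v (a i) = 0 ∨ ∃ r : F, v = r • a i) :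
    ∃ L : Subgroup (GL ι F), decompositionStabilizer D ⊓ omegaGL Q < L ∧ L < omegaGL Q := by
  classical
  have hQf : ∀ x, 2 * Q x = f x x := fun x => (hf.self x).symm
  have ha0 : ∀ i, a i ≠ 0 := by
    intro i h0
    have := haa i
    rw [h0, hf.zero_left] at this
    exact hε this.symm
  let S : (ι → F) → Prop := fun v => ∃ i, v ∈ D i ∧ f v v = ε
  let χ : (ι → F) → F := fun x => if S x then 1 else 0
  have hχ : ∀ {g : GL ι F}, (∀ x, S ((g : Matrix ι ι F) *ᵥ x) ↔ S x) → g ∈ stabF χ := by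
    intro g h x
    show (if S ((g : Matrix ι ι F) *ᵥ x) then (1 : F) else 0) = if S x then 1 else 0
    by_cases hx : S x
    · rw [if_pos hx, if_pos ((h x).2 hx)]
    · rw [if_neg hx, if_neg (fun h' => hx ((h x).1 h'))]
  have hχ' : ∀ {g : GL ι F}, g ∈ stabF χ → ∀ x, S x → S ((g : Matrix ι ι F) *ᵥ x) := by
    intro g h x hx
    by_contra hne
    have e2 : (if S ((g : Matrix ι ι F) *ᵥ x) then (1 : F) else 0) = if S x then 1 else 0 := h x
    rw [if_neg hne, if_pos hx] at e2
    exact zero_ne_one e2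
  -- swaps
  have hsw : ∀ i j, i ≠ j → ∃ r : GL ι F, Iso Q r ∧ r ∈ stabF χ ∧ r⁻¹ = r ∧ (r : Matrix ι ι F) *ᵥ a i = a j ∧ (r : Matrix ι ι F) *ᵥ a j = a i ∧
      ∀ x, f x (a i) = 0 → f x (a j) = 0 → (r : Matrix ι ι F) *ᵥ x = x := by
    intro i j hij
    have e0 : f (a i - a j) (a i - a j) = 2 * ε := by
      rw [hf.sub_left, hf.sub_right, hf.sub_right, haa, haa, horth i j hij _ (ha i) _ (ha j), horth j i hij.symm _ (ha j) _ (ha i)]
      ring
    have hQv : Q (a i - a j) = ε := by
      have h1 := hQf (a i - a j)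
      rw [e0] at h1
      exact mul_left_cancel₀ h2 h1
    have hQv0 : Q (a i - a j) ≠ 0 := by rw [hQv]; exact hε
    obtain ⟨r, hr⟩ := exists_R hf hQv0
    have hri : (r : Matrix ι ι F) *ᵥ a i = a j := by
      rw [hr, hQv, hf.sub_right, haa, horth i j hij _ (ha i) _ (ha j), sub_zero, inv_mul_cancel₀ hε]; module
    have hrj : (r : Matrix ι ι F) *ᵥ a j = a i := by
      rw [hr, hQv, hf.sub_right, haa, horth j i hij.symm _ (ha j) _ (ha i), zero_sub, mul_neg, inv_mul_cancel₀ hε]; module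
    have hrfix : ∀ x, f x (a i) = 0 → f x (a j) = 0 → (r : Matrix ι ι F) *ᵥ x = x := by
      intro x h1 h4
      exact hr.fix (by rw [hf.sub_right, h1, h4, sub_zero])
    have hone : ∀ x, S x → S ((r : Matrix ι ι F) *ᵥ x) := by
      rintro x ⟨l, hl, hx⟩
      by_cases hli : l = i
      · subst hli
        rcases hcl l x hl hx with h0 | ⟨c, rfl⟩
        · rw [hrfix x h0 (horth l j hij _ hl _ (ha j))]; exact ⟨l, hl, hx⟩
        · rw [mulVec_smul, hri]
          refine ⟨j, (D j).smul_mem _ (ha j), ?_⟩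
          rw [hf.smul_left, hf.smul_right, haa] at hx ⊢
          exact hx
      · by_cases hlj : l = j
        · subst hlj
          rcases hcl l x hl hx with h0 | ⟨c, rfl⟩
          · rw [hrfix x (horth l i hij.symm _ hl _ (ha i)) h0]; exact ⟨l, hl, hx⟩
          · rw [mulVec_smul, hrj]
            refine ⟨i, (D i).smul_mem _ (ha i), ?_⟩
            rw [hf.smul_left, hf.smul_right, haa] at hx ⊢
            exact hx
        · rw [hrfix x (horth l i hli _ hl _ (ha i)) (horth l j hlj _ hl _ (ha j))]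
          exact ⟨l, hl, hx⟩
    have hinv := hr.inv_eq hf hQv0
    refine ⟨r, hr.iso hf hQv0, ?_, hinv, hri, hrj, hrfix⟩
    apply hχ
    intro x
    refine ⟨fun h => ?_, hone x⟩
    have h1 := hone _ h
    have h4 : (r : Matrix ι ι F) *ᵥ ((r : Matrix ι ι F) *ᵥ x) = x := by
      conv_rhs => rw [← inv_mulVec r x, hinv]
    rwa [h4] at h1
  obtain ⟨i1, hi1⟩ : ∃ i : Fin t, i = ⟨0, by omega⟩ := ⟨_, rfl⟩
  obtain ⟨i2, hi2⟩ : ∃ i : Fin t, i = ⟨1, by omega⟩ := ⟨_, rfl⟩
  obtain ⟨i3, hi3⟩ : ∃ i : Fin t, i = ⟨2, by omega⟩ := ⟨_, rfl⟩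
  have h12 : i1 ≠ i2 := by rw [hi1, hi2]; intro h; simp at h
  have h13 : i1 ≠ i3 := by rw [hi1, hi3]; intro h; simp at h
  have h23 : i2 ≠ i3 := by rw [hi2, hi3]; intro h; simp at h
  refine ⟨stabF χ ⊓ omegaGL Q, ?_, ?_⟩
  · refine lt_of_le_of_ne (le_inf ?_ inf_le_right) ?_
    · rintro s ⟨⟨τ, hτ⟩, hsK⟩
      have hiso := (mem_iso_of_omega hsK).form hf
      apply hχ
      intro x
      constructor
      · rintro ⟨i, hi, hne⟩
        have e1 := hτ (τ.symm i)
        rw [Equiv.apply_symm_apply] at e1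
        rw [← e1] at hi
        obtain ⟨y, hy, hyx⟩ := hi
        rw [toLin'_apply] at hyx
        have e2 : y = x := by rw [← inv_mulVec s y, hyx, inv_mulVec]
        exact ⟨_, e2 ▸ hy, by rwa [hiso] at hne⟩
      · rintro ⟨i, hi, hne⟩
        exact ⟨τ i, by rw [← hτ i]; exact ⟨x, hi, by rw [toLin'_apply]⟩, by rwa [hiso]⟩
    · intro heq
      obtain ⟨r, hri, hrS, hrinv, hr1, hr2, hrf⟩ := hsw i1 i2 h12
      obtain ⟨s, hsi, hsS, hsinv, hs1, hs2, hsf⟩ := hsw i2 i3 h23
      have hg : r * s * r⁻¹ * s⁻¹ ∈ stabF χ ⊓ omegaGL Q :=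
        ⟨(stabF χ).mul_mem ((stabF χ).mul_mem ((stabF χ).mul_mem hrS hsS) ((stabF χ).inv_mem hrS)) ((stabF χ).inv_mem hsS),
          comm_mem_omega hri hsi⟩
      rw [← heq] at hg
      obtain ⟨τ, hτ⟩ := hg.1
      have hval : ∀ x, ((r * s * r⁻¹ * s⁻¹ : GL ι F) : Matrix ι ι F) *ᵥ x =
          (r : Matrix ι ι F) *ᵥ ((s : Matrix ι ι F) *ᵥ ((r : Matrix ι ι F) *ᵥ ((s : Matrix ι ι F) *ᵥ x))) := by
        intro x
        rw [hrinv, hsinv, Units.val_mul, Units.val_mul, Units.val_mul, ← mulVec_mulVec, ← mulVec_mulVec, ← mulVec_mulVec]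
      have e1 : a i3 ∈ D (τ i1) := by
        rw [← hτ i1]
        refine ⟨a i1, ha i1, ?_⟩
        rw [toLin'_apply, hval, hsf _ (horth _ _ h12 _ (ha _) _ (ha _)) (horth _ _ h13 _ (ha _) _ (ha _)), hr1, hs1,
          hrf _ (horth _ _ h13.symm _ (ha _) _ (ha _)) (horth _ _ h23.symm _ (ha _) _ (ha _))]
      have e2 : b i1 ∈ D (τ i1) := by
        rw [← hτ i1]
        refine ⟨b i1, hb i1, ?_⟩
        have k1 := hsf (b i1) (horth _ _ h12 _ (hb _) _ (ha _)) (horth _ _ h13 _ (hb _) _ (ha _))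
        have k2 := hrf (b i1) (hba i1) (horth _ _ h12 _ (hb _) _ (ha _))
        rw [toLin'_apply, hval, k1, k2, k1, k2]
      have e3 : τ i1 = i3 := by
        by_contra hne
        have := cmp_of_mem hD e1
        rw [cmp_of_mem hD (ha i3)] at this
        have := congrFun this i3
        rw [Pi.single_eq_same, Pi.single_eq_of_ne (Ne.symm hne)] at this
        exact ha0 i3 this
      have e4 : τ i1 = i1 := by
        by_contra hne
        have := cmp_of_mem hD e2
        rw [cmp_of_mem hD (hb i1)] at this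
        have := congrFun this i1
        rw [Pi.single_eq_same, Pi.single_eq_of_ne (Ne.symm hne)] at this
        exact hb0 i1 this
      exact h13 (e4.symm.trans e3)
  · refine lt_of_le_of_ne inf_le_right ?_
    intro heq
    have hfr := finrank_perp hf (D i1)
    rw [hD.finrank_eq] at hfr
    obtain ⟨u, hu, hu0, hQu⟩ := exists_sing hf (E := perp hf (D i1)) (by omega)
    have hua : f u (a i1) = 0 := hu _ (ha i1)
    obtain ⟨g, hg⟩ := exists_E hf hQu hua
    have hgo : g ∈ omegaGL Q := T_le_omega hf h5 (E_mem hQu hua hg)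
    rw [← heq] at hgo
    obtain ⟨l, hl, -⟩ := hχ' hgo.1 (a i1) ⟨i1, ha i1, haa i1⟩
    rw [hg, hf.swap hua, haa] at hl
    have e1 : a i1 + (0 : F) • a i1 - (ε + Q (a i1) * 0) • u = a i1 + (-ε) • u := by module
    rw [e1] at hl
    -- the first component of u vanishes
    have hfs : ∀ y, f (cmp hD u i1) y = f u y ∨ y ∉ D i1 := by
      intro y
      by_cases hy : y ∈ D i1
      · left
        have h1 : u = ∑ i, cmp hD u i := (cmp_sum hD u).symm
        have h4 : ∀ (s : Finset (Fin t)), f (∑ i ∈ s, cmp hD u i) y = ∑ i ∈ s, f (cmp hD u i) y := by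
          intro s
          induction s using Finset.induction_on with
          | empty => rw [Finset.sum_empty, Finset.sum_empty, hf.zero_left]
          | insert i s his ih => rw [Finset.sum_insert his, Finset.sum_insert his, hf.add_left, ih]
        conv_rhs => rw [h1]
        rw [h4, Finset.sum_eq_single i1]
        · intro j _ hj
          exact horth j i1 hj _ (cmp_mem hD u j) _ hy
        · intro h; exact absurd (Finset.mem_univ i1) h
      · right; exact hy
    have hc1 : cmp hD u i1 = 0 := by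
      by_contra hne
      obtain ⟨-, y, hy, hyne⟩ := hnd i1 _ (cmp_mem hD u i1) hne
      rcases hfs y with h1 | h1
      · rw [h1] at hyne; exact hyne (hu y hy)
      · exact h1 hy
    obtain ⟨j, hj⟩ : ∃ j, cmp hD u j ≠ 0 := by
      by_contra hcon
      push Not at hcon
      apply hu0
      rw [← cmp_sum hD u]
      exact Finset.sum_eq_zero (fun i _ => hcon i)
    have hj1 : j ≠ i1 := by rintro rfl; exact hj hc1
    refine not_mem_of_two hD hj1 ?_ ?_ hl
    · rw [cmp_add, cmp_smul, cmp_of_mem hD (ha i1), Pi.add_apply, Pi.smul_apply, Pi.single_eq_of_ne hj1, zero_add]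
      exact smul_ne_zero (neg_ne_zero.2 hε) hj
    · rw [cmp_add, cmp_smul, cmp_of_mem hD (ha i1), Pi.add_apply, Pi.smul_apply, Pi.single_eq_same, hc1, smul_zero, add_zero]
      exact ha0 i1

/-- transport along the isometries of the members -/
theorem frame_not_max' [Finite F] (hf : Qf Q (QuadraticMap.polar Q)) (h2 : (2 : F) ≠ 0) (hD : IsOrthogonalMDecomposition Q k D)
    (ht : 3 ≤ t) (hk : k + 3 ≤ Fintype.card ι) (h5 : 5 ≤ Fintype.card ι) (i0 : Fin t)
    {ε : F} (hε : ε ≠ 0) {a0 b0 : ι → F} (ha : a0 ∈ D i0) (hb : b0 ∈ D i0)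
    (haa : QuadraticMap.polar Q a0 a0 = ε) (hb0 : b0 ≠ 0) (hba : QuadraticMap.polar Q b0 a0 = 0)
    (hcl : ∀ v ∈ D i0, QuadraticMap.polar Q v v = ε → QuadraticMap.polar Q v a0 = 0 ∨ ∃ r : F, v = r • a0) :
    ∃ L : Subgroup (GL ι F), decompositionStabilizer D ⊓ omegaGL Q < L ∧ L < omegaGL Q := by
  have hiso := fun i => hD.isometric i0 i
  choose e he using hiso
  have hform : ∀ i (w w' : D i0), QuadraticMap.polar Q (e i w : ι → F) (e i w' : ι → F) = QuadraticMap.polar Q (w : ι → F) (w' : ι → F) := by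
    intro i w w'
    have h1 := he i (w + w')
    rw [map_add, Submodule.coe_add, Submodule.coe_add] at h1
    rw [QuadraticMap.polar, QuadraticMap.polar, h1, he, he]
  refine frame_not_max hf h2 hD.decomp.decomp hD.decomp.nondegenerate (fun i j hij => hD.decomp.orthogonal i j hij) ht hk h5 hε
    (fun i => (e i ⟨a0, ha⟩ : ι → F)) (fun i => (e i ⟨b0, hb⟩ : ι → F)) (fun i => (e i ⟨a0, ha⟩).2) (fun i => (e i ⟨b0, hb⟩).2) ?_ ?_ ?_ ?_
  · intro i; rw [hform]; exact haa
  · intro i h0
    have h1 : e i ⟨b0, hb⟩ = 0 := Subtype.ext h0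
    rw [LinearEquiv.map_eq_zero_iff] at h1
    exact hb0 (congrArg Subtype.val h1)
  · intro i; rw [hform]; exact hba
  · intro i v hv hvv
    obtain ⟨w, hw⟩ := (e i).surjective ⟨v, hv⟩
    have hwv : (e i w : ι → F) = v := by rw [hw]
    rw [← hwv, hform] at hvv
    rcases hcl w w.2 hvv with h0 | ⟨r, hr⟩
    · left
      rw [← hwv, hform]; exact h0
    · right
      refine ⟨r, ?_⟩
      have h1 : w = r • ⟨a0, ha⟩ := Subtype.ext hr
      rw [← hwv, h1, map_smul]; rfl

/-- three-dimensional members over the field with three elements -/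
theorem three_not_max [Fintype F] (hq : Fintype.card F = 3) (hf : Qf Q (QuadraticMap.polar Q)) (hD : IsOrthogonalMDecomposition Q 3 D)
    (ht : 3 ≤ t) (h6 : 6 ≤ Fintype.card ι) :
    ∃ L : Subgroup (GL ι F), decompositionStabilizer D ⊓ omegaGL Q < L ∧ L < omegaGL Q := by
  have h3 := three hq
  have h2 : (2 : F) ≠ 0 := by
    intro h
    apply one_ne_zero (α := F)
    linear_combination h3 - h
  obtain ⟨i0, -⟩ : ∃ i : Fin t, i = ⟨0, by omega⟩ := ⟨_, rfl⟩
  obtain ⟨φ⟩ : Nonempty ((Fin 3 → F) ≃ₗ[F] D i0) := ⟨LinearEquiv.ofFinrankEq _ _ (by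
    rw [Module.finrank_fintype_fun_eq_card, Fintype.card_fin, hD.decomp.decomp.finrank_eq])⟩
  let g : (Fin 3 → F) → (Fin 3 → F) → F := fun x y => QuadraticMap.polar Q (φ x : ι → F) (φ y : ι → F)
  have hg : IsSymmetricForm g :=
    { bilinear :=
        { add_left := fun x y v => by
            show QuadraticMap.polar Q (φ (x + y) : ι → F) _ = _
            rw [map_add, Submodule.coe_add, hf.add_left]
          smul_left := fun c x v => by
            show QuadraticMap.polar Q (φ (c • x) : ι → F) _ = _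
            rw [map_smul, Submodule.coe_smul, hf.smul_left]
          add_right := fun v x y => by
            show QuadraticMap.polar Q _ (φ (x + y) : ι → F) = _
            rw [map_add, Submodule.coe_add, hf.add_right]
          smul_right := fun c v x => by
            show QuadraticMap.polar Q _ (φ (c • x) : ι → F) = _
            rw [map_smul, Submodule.coe_smul, hf.smul_right] }
      symm := fun x y => QuadraticMap.polar_comm _ _ _
      nondegenerate := by
        intro v hv
        have h1 : (φ v : ι → F) ≠ 0 := by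
          intro h
          have : φ v = 0 := Subtype.ext h
          rw [LinearEquiv.map_eq_zero_iff] at this
          exact hv this
        obtain ⟨⟨x, hx, hx1⟩, ⟨y, hy, hy1⟩⟩ := hD.decomp.nondegenerate i0 _ (φ v).2 h1
        refine ⟨⟨φ.symm ⟨x, hx⟩, ?_⟩, ⟨φ.symm ⟨y, hy⟩, ?_⟩⟩
        · show QuadraticMap.polar Q (φ (φ.symm ⟨x, hx⟩) : ι → F) _ ≠ 0
          rw [LinearEquiv.apply_symm_apply]; exact hx1
        · show QuadraticMap.polar Q _ (φ (φ.symm ⟨y, hy⟩) : ι → F) ≠ 0
          rw [LinearEquiv.apply_symm_apply]; exact hy1 }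
  obtain ⟨ε, a, ha⟩ := exists_frame hq hg
  refine frame_not_max' hf h2 hD ht (by omega) (by omega) i0 ha.ne (φ (a 0)).2 (φ (a 1)).2 ?_ ?_ ?_ ?_
  · have := ha.val 0 0
    rw [if_pos rfl] at this
    exact this
  · intro h0
    have h1 := ha.val 1 1
    rw [if_pos rfl] at h1
    have h4 : g (a 1) (a 1) = QuadraticMap.polar Q (φ (a 1) : ι → F) (φ (a 1) : ι → F) := rfl
    rw [h4, h0, hf.zero_left] at h1
    exact ha.ne h1.symm
  · have := ha.val 1 0
    rw [if_neg (by decide)] at this
    exact this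
  · intro v hv hvv
    obtain ⟨x, hx⟩ := φ.surjective ⟨v, hv⟩
    have hxv : (φ x : ι → F) = v := by rw [hx]
    have h1 : g x x = ε := by
      show QuadraticMap.polar Q (φ x : ι → F) (φ x : ι → F) = ε
      rw [hxv]; exact hvv
    obtain ⟨i, r, rfl⟩ := ha.classify hq hg h1
    by_cases hi : i = 0
    · subst hi
      right
      exact ⟨r, by rw [← hxv, map_smul]; rfl⟩
    · left
      rw [← hxv]
      show g (r • a i) (a 0) = 0
      rw [hg.bilinear.smul_left, ha.val, if_neg hi, mul_zero]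

/-- anisotropic planes over the field with three elements -/
theorem two_not_max [Fintype F] (hq : Fintype.card F = 3) (hf : Qf Q (QuadraticMap.polar Q)) (hD : IsOrthogonalMDecomposition Q 2 D)
    (ht : 3 ≤ t) (h6 : 6 ≤ Fintype.card ι) (hmin : ∀ i, ¬ IsPlusTypeOn Q (D i)) :
    ∃ L : Subgroup (GL ι F), decompositionStabilizer D ⊓ omegaGL Q < L ∧ L < omegaGL Q := by
  have h3 := three hq
  have h2 : (2 : F) ≠ 0 := by
    intro h
    apply one_ne_zero (α := F)
    linear_combination h3 - h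
  obtain ⟨f, hfe⟩ : ∃ f, f = QuadraticMap.polar Q := ⟨_, rfl⟩
  have hf' : Qf Q f := by rw [hfe]; exact hf
  have hQf : ∀ x, 2 * Q x = f x x := fun x => (hf'.self x).symm
  obtain ⟨i0, -⟩ : ∃ i : Fin t, i = ⟨0, by omega⟩ := ⟨_, rfl⟩
  have hanis : ∀ x ∈ D i0, x ≠ 0 → f x x ≠ 0 := by
    intro x hx hx0 h0
    have hQ : Q x = 0 := by
      have := hQf x
      rw [h0] at this
      exact (mul_eq_zero.1 this).resolve_left h2
    apply hmin i0
    refine ⟨Submodule.span F {x}, ?_, ?_, ?_⟩
    · rw [Submodule.span_singleton_le_iff_mem]; exact hx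
    · intro y hy
      obtain ⟨c, rfl⟩ := Submodule.mem_span_singleton.1 hy
      rw [hf'.smul, hQ, mul_zero]
    · rw [finrank_span_singleton hx0, hD.decomp.decomp.finrank_eq]
  obtain ⟨a, ha, ha0⟩ := exists_ne hD.decomp.decomp i0
  obtain ⟨b', hb', hb'n⟩ : ∃ b ∈ D i0, b ∉ Submodule.span F {a} := by
    by_contra hcon
    push Not at hcon
    have h1 : D i0 ≤ Submodule.span F {a} := hcon
    have h4 := Submodule.finrank_mono h1
    rw [hD.decomp.decomp.finrank_eq, finrank_span_singleton ha0] at h4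
    omega
  have haa := hanis a ha ha0
  obtain ⟨b, hbe⟩ : ∃ b, b = b' - (f b' a / f a a) • a := ⟨_, rfl⟩
  have hb : b ∈ D i0 := by rw [hbe]; exact (D i0).sub_mem hb' ((D i0).smul_mem _ ha)
  have hba : f b a = 0 := by rw [hbe, hf'.sub_left, hf'.smul_left, div_mul_cancel₀ _ haa, sub_self]
  have hab : f a b = 0 := hf'.swap hba
  have hb0 : b ≠ 0 := by
    intro h
    apply hb'n
    rw [hbe, sub_eq_zero] at h
    rw [h]
    exact Submodule.smul_mem _ _ (Submodule.mem_span_singleton_self a)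
  have hbn : b ∉ Submodule.span F {a} := by
    intro hmem
    obtain ⟨c, hc⟩ := Submodule.mem_span_singleton.1 hmem
    apply hb0
    have h1 : f (c • a) a = 0 := by rw [hc]; exact hba
    rw [hf'.smul_left] at h1
    rw [← hc, (mul_eq_zero.1 h1).resolve_right haa, zero_smul]
  have hspan : Submodule.span F {a} ⊔ Submodule.span F {b} = D i0 := by
    apply Submodule.eq_of_le_of_finrank_eq
    · apply sup_le
      · rw [Submodule.span_singleton_le_iff_mem]; exact ha
      · rw [Submodule.span_singleton_le_iff_mem]; exact hb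
    · rw [CfsgH9.Og.finrank_sup_span_eq hbn, finrank_span_singleton ha0, hD.decomp.decomp.finrank_eq]
  have hbb := hanis b hb hb0
  have heqv : f b b = f a a := by
    have h4 : f b b ≠ -f a a := by
      intro h4
      have hne : a + b ≠ 0 := by
        intro h5
        have : f (a + b) a = 0 := by rw [h5, hf'.zero_left]
        rw [hf'.add_left, hba, add_zero] at this
        exact haa this
      apply hanis (a + b) ((D i0).add_mem ha hb) hne
      rw [hf'.add_left, hf'.add_right, hf'.add_right, hba, hab, h4]; ring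
    rcases eq_pm hq haa with h5 | h5
    · rcases eq_pm hq hbb with h7 | h7
      · rw [h5, h7]
      · exact absurd (by rw [h5, h7]) h4
    · rcases eq_pm hq hbb with h7 | h7
      · exact absurd (by rw [h5, h7, neg_neg]) h4
      · rw [h5, h7]
  subst hfe
  refine frame_not_max' hf h2 hD ht (by omega) (by omega) i0 haa ha hb rfl hb0 hba ?_
  intro v hv hvv
  rw [← hspan] at hv
  obtain ⟨y, hy, z, hz, rfl⟩ := Submodule.mem_sup.1 hv
  obtain ⟨c, rfl⟩ := Submodule.mem_span_singleton.1 hy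
  obtain ⟨d, rfl⟩ := Submodule.mem_span_singleton.1 hz
  by_cases hc : c = 0
  · left
    rw [hc, zero_smul, zero_add, hf.smul_left, hba, mul_zero]
  · by_cases hd : d = 0
    · right; exact ⟨c, by rw [hd, zero_smul, add_zero]⟩
    · exfalso
      rw [hf.add_left, hf.add_right, hf.add_right, hf.smul_left, hf.smul_left, hf.smul_left, hf.smul_left, hf.smul_right, hf.smul_right,
        hf.smul_right, hf.smul_right, hba, hab, heqv] at hvv
      apply haa
      have e1 := sq_one hq hc
      have e2 := sq_one hq hd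
      linear_combination hvv - (QuadraticMap.polar Q a a) * e1 - (QuadraticMap.polar Q a a) * e2

end CfsgH9.NFrame
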