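import Mathlib
import Cfsg.Agent.H9.NTen
import Cfsg.Agent.H9.NDec2

set_option autoImplicit false

/-! Tensor product subgroups over the field with two elements. -/

namespace CfsgH9.NTen

open Matrix Cfsg Cfsg.Geo CfsgH9.NDec
open scoped Kronecker
open CfsgH9.MaxSymp (inv_mulVec mulVec_inv)

variable {ι : Type} [Fintype ι] [DecidableEq ι] {F : Type*} [Field F] {n₁ n₂ : ℕ} {e : ι ≃ Fin n₁ × Fin n₂} {P : GL ι F}

/-- transported matrices -/
def TM (e : ι ≃ Fin n₁ × Fin n₂) (P : GL ι F) (A : Matrix (Fin n₁ × Fin n₂) (Fin n₁ × Fin n₂) F) : Matrix ι ι F :=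
  (P : Matrix ι ι F) * (A.submatrix e e) * ((P⁻¹ : GL ι F) : Matrix ι ι F)

lemma TM_mul (A B : Matrix (Fin n₁ × Fin n₂) (Fin n₁ × Fin n₂) F) : TM e P A * TM e P B = TM e P (A * B) := by
  have h1 : ((P⁻¹ : GL ι F) : Matrix ι ι F) * (P : Matrix ι ι F) = 1 := by rw [← Units.val_mul, inv_mul_cancel, Units.val_one]
  rw [TM, TM, TM]
  calc (P : Matrix ι ι F) * (A.submatrix e e) * ((P⁻¹ : GL ι F) : Matrix ι ι F) *
        ((P : Matrix ι ι F) * (B.submatrix e e) * ((P⁻¹ : GL ι F) : Matrix ι ι F))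
      = (P : Matrix ι ι F) * (A.submatrix e e) * (((P⁻¹ : GL ι F) : Matrix ι ι F) * (P : Matrix ι ι F)) * (B.submatrix e e) *
          ((P⁻¹ : GL ι F) : Matrix ι ι F) := by simp only [Matrix.mul_assoc]
    _ = _ := by rw [h1, Matrix.mul_one, ← Matrix.submatrix_mul_equiv A B e e e]; simp only [Matrix.mul_assoc]

lemma TM_add (A B : Matrix (Fin n₁ × Fin n₂) (Fin n₁ × Fin n₂) F) : TM e P (A + B) = TM e P A + TM e P B := by
  rw [TM, TM, TM, Matrix.submatrix_add, Pi.add_apply, Pi.add_apply, Matrix.mul_add, Matrix.add_mul]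

lemma TM_one : TM e P (1 : Matrix (Fin n₁ × Fin n₂) (Fin n₁ × Fin n₂) F) = 1 := by
  rw [TM, Matrix.submatrix_one_equiv, Matrix.mul_one, ← Units.val_mul, mul_inv_cancel, Units.val_one]

lemma TM_mulVec (X : Matrix (Fin n₁) (Fin n₁) F) (Y : Matrix (Fin n₂) (Fin n₂) F) (x : Fin n₁ → F) (y : Fin n₂ → F) :
    TM e P (X ⊗ₖ Y) *ᵥ T e P x y = T e P (X *ᵥ x) (Y *ᵥ y) := by
  rw [TM, T, T, ← mulVec_mulVec, ← mulVec_mulVec, inv_mulVec]
  congr 1
  funext i
  simp only [mulVec, dotProduct, submatrix_apply, Function.comp_apply]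
  rw [Equiv.sum_comp e (fun p : Fin n₁ × Fin n₂ => (X ⊗ₖ Y) (e i) p * (x p.1 * y p.2))]
  rw [Fintype.sum_prod_type, Finset.sum_mul_sum]
  apply Finset.sum_congr rfl
  intro i' _
  apply Finset.sum_congr rfl
  intro j' _
  rw [kroneckerMap_apply]
  ring

/-- coordinates -/
def co (e : ι ≃ Fin n₁ × Fin n₂) (P : GL ι F) (i : Fin n₁) (k : Fin n₂) : (ι → F) →ₗ[F] F where
  toFun v := (((P⁻¹ : GL ι F) : Matrix ι ι F) *ᵥ v) (e.symm (i, k))
  map_add' v w := by rw [mulVec_add]; rfl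
  map_smul' c v := by rw [mulVec_smul]; rfl

lemma co_T (x : Fin n₁ → F) (y : Fin n₂ → F) (i : Fin n₁) (k : Fin n₂) : co e P i k (T e P x y) = x i * y k := by
  show (((P⁻¹ : GL ι F) : Matrix ι ι F) *ᵥ T e P x y) (e.symm (i, k)) = _
  rw [T, inv_mulVec]
  simp

lemma ext_T {M M' : Matrix ι ι F} (h : ∀ x y, M *ᵥ T e P x y = M' *ᵥ T e P x y) : M = M' := by
  have h1 : M * (P : Matrix ι ι F) = M' * (P : Matrix ι ι F) := by
    apply Matrix.ext_of_mulVec_single
    intro i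
    have h2 := h (Pi.single (e i).1 1) (Pi.single (e i).2 1)
    have h3 : T e P (Pi.single (e i).1 1) (Pi.single (e i).2 1) = (P : Matrix ι ι F) *ᵥ Pi.single i 1 := by
      rw [T]
      congr 1
      funext l
      simp only [Function.comp_apply, Pi.single_apply]
      by_cases hl : l = i
      · subst hl; simp
      · rw [if_neg hl]
        by_cases h4 : (e l).1 = (e i).1
        · by_cases h5 : (e l).2 = (e i).2
          · exact absurd (e.injective (Prod.ext h4 h5)) hl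
          · rw [if_neg h5, mul_zero]
        · rw [if_neg h4, zero_mul]
    rw [h3, mulVec_mulVec, mulVec_mulVec] at h2
    exact h2
  have h2 := congrArg (fun X => X * ((P⁻¹ : GL ι F) : Matrix ι ι F)) h1
  simp only [Matrix.mul_assoc] at h2
  rwa [← Units.val_mul, mul_inv_cancel, Units.val_one, Matrix.mul_one, Matrix.mul_one] at h2

/-- the stabiliser of a relation -/
def stabR (R : (ι → F) → (ι → F) → Prop) : Subgroup (GL ι F) where
  carrier := {g | ∀ v w, R ((g : Matrix ι ι F) *ᵥ v) ((g : Matrix ι ι F) *ᵥ w) ↔ R v w}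
  mul_mem' {a b} ha hb := by
    intro v w
    rw [Units.val_mul, ← mulVec_mulVec, ← mulVec_mulVec]
    exact (ha _ _).trans (hb _ _)
  one_mem' := by intro v w; rw [Units.val_one, one_mulVec, one_mulVec]
  inv_mem' {a} ha := by
    intro v w
    have := ha (((a⁻¹ : GL ι F) : Matrix ι ι F) *ᵥ v) (((a⁻¹ : GL ι F) : Matrix ι ι F) *ᵥ w)
    rw [mulVec_inv, mulVec_inv] at this
    exact this.symm

/-- the element of order three -/
def jm (F : Type*) [Field F] : Matrix (Fin 2) (Fin 2) F := !![0, 1; 1, 1]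

lemma jm_sq (h2 : (2 : F) = 0) : jm F * jm F = !![1, 1; 1, 0] := by
  ext i j
  fin_cases i <;> fin_cases j <;> simp [jm, Matrix.mul_apply, Fin.sum_univ_two]
  linear_combination h2

lemma jm_cube (h2 : (2 : F) = 0) : jm F * (jm F * jm F) = 1 := by
  rw [jm_sq h2]
  ext i j
  fin_cases i <;> fin_cases j <;> simp [jm, Matrix.mul_apply, Fin.sum_univ_two]
  linear_combination h2

lemma jm_norm (h : ∀ c : F, c = 0 ∨ c = 1) (a : GL (Fin 2) F) :
    (a : Matrix (Fin 2) (Fin 2) F) * jm F = jm F * (a : Matrix (Fin 2) (Fin 2) F) ∨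
      (a : Matrix (Fin 2) (Fin 2) F) * jm F = jm F * jm F * (a : Matrix (Fin 2) (Fin 2) F) := by
  have hc := char2 h
  have h2 : (2 : F) = 0 := by linear_combination hc
  have hdet : (a : Matrix (Fin 2) (Fin 2) F).det ≠ 0 := by
    have := Matrix.GeneralLinearGroup.det_ne_zero a
    exact this
  rw [Matrix.det_fin_two] at hdet
  obtain ⟨A, hA⟩ : ∃ A, A = (a : Matrix (Fin 2) (Fin 2) F) := ⟨_, rfl⟩
  rw [← hA] at hdet ⊢
  have hA2 : A = !![A 0 0, A 0 1; A 1 0, A 1 1] := Matrix.eta_fin_two A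
  rw [jm_sq h2, hA2]
  rcases h (A 0 0) with e1 | e1 <;> rcases h (A 0 1) with e2 | e2 <;> rcases h (A 1 0) with e3 | e3 <;>
    rcases h (A 1 1) with e4 | e4 <;> rw [e1, e2, e3, e4] at hdet ⊢ <;>
    first
    | exact absurd (by ring1) hdet
    | exact absurd (by linear_combination h2) hdet
    | (left
       ext i j
       fin_cases i <;> fin_cases j <;> simp [jm, Matrix.mul_apply, Fin.sum_univ_two] <;> done)
    | (right
       ext i j
       fin_cases i <;> fin_cases j <;> simp [jm, Matrix.mul_apply, Fin.sum_univ_two] <;> done)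
    | (left
       ext i j
       fin_cases i <;> fin_cases j <;> simp [jm, Matrix.mul_apply, Fin.sum_univ_two, hc] <;> done)
    | (right
       ext i j
       fin_cases i <;> fin_cases j <;> simp [jm, Matrix.mul_apply, Fin.sum_univ_two, hc] <;> done)

/-- the relation of being conjugate under the field of four elements -/
def RJ (e : ι ≃ Fin 2 × Fin n₂) (P : GL ι F) (v w : ι → F) : Prop :=
  w = TM e P (jm F ⊗ₖ 1) *ᵥ v ∨ w = TM e P (jm F ⊗ₖ 1) *ᵥ (TM e P (jm F ⊗ₖ 1) *ᵥ v)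

lemma J_cube {e : ι ≃ Fin 2 × Fin n₂} (h2 : (2 : F) = 0) (v : ι → F) :
    TM e P (jm F ⊗ₖ 1) *ᵥ (TM e P (jm F ⊗ₖ 1) *ᵥ (TM e P (jm F ⊗ₖ 1) *ᵥ v)) = v := by
  rw [mulVec_mulVec, mulVec_mulVec, TM_mul, TM_mul, ← mul_kronecker_mul, ← mul_kronecker_mul, Matrix.mul_assoc, jm_cube h2]
  simp [TM_one]

lemma RJ_of_comm {e : ι ≃ Fin 2 × Fin n₂} (h2 : (2 : F) = 0) {g : Matrix ι ι F}
    (hg : g * TM e P (jm F ⊗ₖ 1) = TM e P (jm F ⊗ₖ 1) * g ∨ g * TM e P (jm F ⊗ₖ 1) = TM e P (jm F ⊗ₖ 1) * TM e P (jm F ⊗ₖ 1) * g)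
    {v w : ι → F} (h : RJ e P v w) : RJ e P (g *ᵥ v) (g *ᵥ w) := by
  obtain ⟨J, hJ⟩ : ∃ J, J = TM e P (jm F ⊗ₖ 1) := ⟨_, rfl⟩
  have h3 : ∀ v, J *ᵥ (J *ᵥ (J *ᵥ v)) = v := fun v => by rw [hJ]; exact J_cube h2 v
  unfold RJ at h ⊢
  rw [← hJ] at hg h ⊢
  rcases hg with hg | hg
  · have hc : ∀ v, g *ᵥ (J *ᵥ v) = J *ᵥ (g *ᵥ v) := fun v => by rw [mulVec_mulVec, hg, ← mulVec_mulVec]
    rcases h with rfl | rfl
    · left; rw [hc]
    · right; rw [hc, hc]
  · have hc : ∀ v, g *ᵥ (J *ᵥ v) = J *ᵥ (J *ᵥ (g *ᵥ v)) := fun v => by rw [mulVec_mulVec, hg, ← mulVec_mulVec, ← mulVec_mulVec]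
    rcases h with rfl | rfl
    · right; rw [hc]
    · left; rw [hc, hc, h3]

lemma tensor_comm (h : ∀ c : F, c = 0 ∨ c = 1) {e : ι ≃ Fin 2 × Fin n₂} {g : GL ι F} (hg : g ∈ tensorProductSubgroup 2 n₂ e P) :
    (g : Matrix ι ι F) * TM e P (jm F ⊗ₖ 1) = TM e P (jm F ⊗ₖ 1) * (g : Matrix ι ι F) ∨
      (g : Matrix ι ι F) * TM e P (jm F ⊗ₖ 1) = TM e P (jm F ⊗ₖ 1) * TM e P (jm F ⊗ₖ 1) * (g : Matrix ι ι F) := by
  obtain ⟨a, b, hab⟩ := exists_of_mem hg
  rcases jm_norm h a with hj | hj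
  · left
    apply ext_T (e := e) (P := P)
    intro x y
    rw [← mulVec_mulVec, ← mulVec_mulVec, TM_mulVec, hab, hab, TM_mulVec, one_mulVec, one_mulVec, mulVec_mulVec, mulVec_mulVec, hj]
  · right
    apply ext_T (e := e) (P := P)
    intro x y
    rw [← mulVec_mulVec, ← mulVec_mulVec, ← mulVec_mulVec, TM_mulVec, hab, hab, TM_mulVec, TM_mulVec, one_mulVec, one_mulVec, one_mulVec,
      mulVec_mulVec, mulVec_mulVec, mulVec_mulVec, hj, Matrix.mul_assoc]

lemma tensor_le_stabR (h : ∀ c : F, c = 0 ∨ c = 1) {e : ι ≃ Fin 2 × Fin n₂} : tensorProductSubgroup 2 n₂ e P ≤ stabR (RJ e P) := by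
  have h2 : (2 : F) = 0 := by have := char2 h; linear_combination this
  intro g hg v w
  refine ⟨fun h' => ?_, RJ_of_comm h2 (tensor_comm h hg)⟩
  have := RJ_of_comm h2 (tensor_comm h (Subgroup.inv_mem _ hg)) h'
  rwa [inv_mulVec, inv_mulVec] at this

theorem sl_tensor_not_max [Fintype F] (hq : Fintype.card F = 2) {e : ι ≃ Fin 2 × Fin n₂} (hn : 2 ≤ n₂) :
    ∃ L : Subgroup (GL ι F), tensorProductSubgroup 2 n₂ e P ⊓ specialLinear ι F < L ∧ L < specialLinear ι F := by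
  have h := el2 hq
  have h2 : (2 : F) = 0 := by have := char2 h; linear_combination this
  have hSL : ∀ g : GL ι F, g ∈ specialLinear ι F := by
    intro g
    show Matrix.GeneralLinearGroup.det g = 1
    apply Units.ext
    exact (h _).resolve_left (Matrix.GeneralLinearGroup.det g).ne_zero
  obtain ⟨k0, hk0⟩ : ∃ i : Fin n₂, i = ⟨0, by omega⟩ := ⟨_, rfl⟩
  obtain ⟨k1, hk1⟩ : ∃ i : Fin n₂, i = ⟨1, by omega⟩ := ⟨_, rfl⟩
  have h01 : k0 ≠ k1 := by rw [hk0, hk1]; intro h; simp at h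
  obtain ⟨y0, hy0⟩ : ∃ y : Fin n₂ → F, y = Pi.single k0 1 := ⟨_, rfl⟩
  obtain ⟨y1, hy1⟩ : ∃ y : Fin n₂ → F, y = Pi.single k1 1 := ⟨_, rfl⟩
  have y00 : y0 k0 = 1 := by rw [hy0, Pi.single_eq_same]
  have y01 : y0 k1 = 0 := by rw [hy0, Pi.single_eq_of_ne h01.symm]
  have y10 : y1 k0 = 0 := by rw [hy1, Pi.single_eq_of_ne h01]
  have y11 : y1 k1 = 1 := by rw [hy1, Pi.single_eq_same]
  obtain ⟨x0, hx0⟩ : ∃ x : Fin 2 → F, x = ![1, 0] := ⟨_, rfl⟩
  obtain ⟨x1, hx1⟩ : ∃ x : Fin 2 → F, x = ![0, 1] := ⟨_, rfl⟩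
  have hj0 : jm F *ᵥ x0 = x1 := by
    rw [hx0, hx1]
    funext i
    fin_cases i <;> simp [jm, Matrix.mulVec, dotProduct, Fin.sum_univ_two]
  have hj1 : jm F *ᵥ x1 = x0 + x1 := by
    rw [hx0, hx1]
    funext i
    fin_cases i <;> simp [jm, Matrix.mulVec, dotProduct, Fin.sum_univ_two]
  refine ⟨stabR (RJ e P) ⊓ specialLinear ι F, ?_, ?_⟩
  · refine lt_of_le_of_ne (inf_le_inf_right _ (tensor_le_stabR h)) ?_
    intro heq
    -- the transvection over the larger field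
    obtain ⟨N, hN⟩ : ∃ N : Matrix (Fin n₂) (Fin n₂) F, N = Matrix.single k0 k1 1 := ⟨_, rfl⟩
    have hNN : N * N = 0 := by rw [hN, Matrix.single_mul_single_of_ne]; exact h01.symm
    have hNy : N *ᵥ y1 = y0 := by
      rw [hN, hy1, hy0, Matrix.single_mulVec]
      simp [Function.update_eq_iff]
      intro i hi
      rw [Pi.single_eq_of_ne hi]
    obtain ⟨G, hG⟩ : ∃ G, G = TM e P (1 + jm F ⊗ₖ N) := ⟨_, rfl⟩
    have hGG : G * G = 1 := by
      rw [hG, TM_mul]
      have : (1 + jm F ⊗ₖ N) * (1 + jm F ⊗ₖ N) = 1 := by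
        rw [mul_add, mul_one, add_mul, one_mul, ← mul_kronecker_mul, hNN]
        have h3 : jm F ⊗ₖ N + jm F ⊗ₖ N = 0 := by
          ext i j
          rw [Matrix.add_apply, Matrix.zero_apply]
          linear_combination (jm F ⊗ₖ N) i j * h2
        rw [kronecker_zero, add_zero, add_assoc, h3, add_zero]
      rw [this, TM_one]
    let g : GL ι F := ⟨G, G, hGG, hGG⟩
    have hgv : (g : Matrix ι ι F) = G := rfl
    have hgi : ((g⁻¹ : GL ι F) : Matrix ι ι F) = G := rfl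
    have hcomm : G * TM e P (jm F ⊗ₖ 1) = TM e P (jm F ⊗ₖ 1) * G := by
      rw [hG, TM_mul, TM_mul]
      congr 1
      rw [add_mul, mul_add, one_mul, mul_one, ← mul_kronecker_mul, ← mul_kronecker_mul, Matrix.mul_one, Matrix.one_mul]
    have hgR : g ∈ stabR (RJ e P) := by
      intro v w
      refine ⟨fun h' => ?_, RJ_of_comm h2 (Or.inl hcomm)⟩
      have := RJ_of_comm h2 (Or.inl hcomm) h'
      rw [hgv, mulVec_mulVec, mulVec_mulVec, hGG, one_mulVec, one_mulVec] at this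
      exact this
    have hgS : g ∈ stabR (RJ e P) ⊓ specialLinear ι F := ⟨hgR, hSL g⟩
    rw [← heq] at hgS
    obtain ⟨a, b, hab⟩ := exists_of_mem hgS.1
    have h4 := hab x0 y1
    rw [hgv, hG, TM_add, TM_one, add_mulVec, one_mulVec, TM_mulVec, hj0, hNy] at h4
    have c00 := congrArg (co e P 0 k0) h4
    have c01 := congrArg (co e P 0 k1) h4
    have c10 := congrArg (co e P 1 k0) h4
    rw [map_add, co_T, co_T, co_T, y10, y00] at c00
    rw [map_add, co_T, co_T, co_T, y11, y01] at c01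
    rw [map_add, co_T, co_T, co_T, y10, y00] at c10
    have x00 : x0 0 = 1 := by rw [hx0]; rfl
    have x01 : x0 1 = 0 := by rw [hx0]; rfl
    have x10 : x1 0 = 0 := by rw [hx1]; rfl
    have x11 : x1 1 = 1 := by rw [hx1]; rfl
    rw [x00, x10, mul_zero, zero_mul, add_zero] at c00
    rw [x00, x10, mul_one, zero_mul, add_zero] at c01
    rw [x01, x11, zero_mul, mul_one, zero_add] at c10
    rcases mul_eq_zero.1 c00.symm with h5 | h5
    · rw [h5, zero_mul] at c01; exact one_ne_zero c01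
    · rw [h5, mul_zero] at c10; exact one_ne_zero c10
  · refine lt_of_le_of_ne inf_le_right ?_
    intro heq
    have x00 : x0 0 = 1 := by rw [hx0]; rfl
    have x01 : x0 1 = 0 := by rw [hx0]; rfl
    have x10 : x1 0 = 0 := by rw [hx1]; rfl
    have x11 : x1 1 = 1 := by rw [hx1]; rfl
    have p0 : co e P 1 k0 (T e P x0 y1) = 0 := by rw [co_T, x01, zero_mul]
    obtain ⟨g, hg, -⟩ := exists_dil (co e P 1 k0) (T e P x0 y1) (by rw [p0, add_zero]; exact one_ne_zero)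
    have hgS := hSL g
    rw [← heq] at hgS
    have h3 := (hgS.1 (T e P x0 y0) (T e P x1 y0)).2 (Or.inl (by rw [TM_mulVec, hj0, one_mulVec]))
    rw [hg, hg, co_T, co_T, x01, x11, y00, zero_mul, mul_one, zero_smul, add_zero, one_smul] at h3
    rcases h3 with h3 | h3
    · rw [TM_mulVec, hj0, one_mulVec] at h3
      have h4 := congrArg (co e P 0 k1) h3
      rw [map_add, co_T, co_T, x10, x00, y11] at h4
      apply one_ne_zero (α := F)
      linear_combination h4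
    · rw [TM_mulVec, TM_mulVec, hj0, hj1, one_mulVec, one_mulVec] at h3
      have h4 := congrArg (co e P 0 k1) h3
      rw [map_add, co_T, co_T, co_T, x10, x00, y11, y01, mul_zero] at h4
      apply one_ne_zero (α := F)
      linear_combination h4

end CfsgH9.NTen
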