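import Mathlib
import Cfsg.Agent.H9.NTen2
import Cfsg.Agent.H9.NMax

set_option autoImplicit false

/-! Tensor product subgroups of orthogonal groups over the field with two elements. -/

namespace CfsgH9.NTen

open Matrix Cfsg Cfsg.Geo CfsgH9.NDec CfsgH9.Og
open scoped Kronecker
open CfsgH9.MaxSymp (inv_mulVec mulVec_inv)

variable {ι : Type} [Fintype ι] [DecidableEq ι] {F : Type*} [Field F] {n₂ : ℕ} {e : ι ≃ Fin 2 × Fin n₂} {P : GL ι F}

theorem o2_tensor_not_max [Fintype F] (hq : Fintype.card F = 2) (hn : 3 ≤ n₂) {Q : (ι → F) → F} {f : (ι → F) → (ι → F) → F} (hf : Qf Q f)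
    {f₁ : (Fin 2 → F) → (Fin 2 → F) → F} {f₂ : (Fin n₂ → F) → (Fin n₂ → F) → F} (hf₁ : IsSymplecticForm f₁) (hf₂ : IsSymplecticForm f₂)
    {c : F} (hc : c ≠ 0) (hT : ∀ x y x' y', f (T e P x y) (T e P x' y') = c * (f₁ x x' * f₂ y y')) (hQ0 : ∀ x y, Q (T e P x y) = 0) :
    ∃ L : Subgroup (GL ι F), tensorProductSubgroup 2 n₂ e P ⊓ omegaGL Q < L ∧ L < omegaGL Q := by
  have h := el2 hq
  have h2 : (2 : F) = 0 := by have := char2 h; linear_combination this
  have hcard : 5 ≤ Fintype.card ι := by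
    have := Fintype.card_congr e
    rw [Fintype.card_prod, Fintype.card_fin, Fintype.card_fin] at this
    omega
  have hc1 : c = 1 := (h c).resolve_left hc
  subst hc1
  simp only [one_mul] at hT
  have hb1 := hf₁.bilinear
  have hb2 := hf₂.bilinear
  obtain ⟨x0, hx0⟩ : ∃ x : Fin 2 → F, x = ![1, 0] := ⟨_, rfl⟩
  obtain ⟨x1, hx1⟩ : ∃ x : Fin 2 → F, x = ![0, 1] := ⟨_, rfl⟩
  have x00 : x0 0 = 1 := by rw [hx0]; rfl
  have x01 : x0 1 = 0 := by rw [hx0]; rfl
  have x10 : x1 0 = 0 := by rw [hx1]; rfl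
  have x11 : x1 1 = 1 := by rw [hx1]; rfl
  have hxe : ∀ x : Fin 2 → F, x = x 0 • x0 + x 1 • x1 := by
    intro x
    rw [hx0, hx1]
    funext i
    fin_cases i <;> simp
  have hj0 : jm F *ᵥ x0 = x1 := by
    rw [hx0, hx1]
    funext i
    fin_cases i <;> simp [jm, Matrix.mulVec, dotProduct, Fin.sum_univ_two]
  have hj1 : jm F *ᵥ x1 = x0 + x1 := by
    rw [hx0, hx1]
    funext i
    fin_cases i <;> simp [jm, Matrix.mulVec, dotProduct, Fin.sum_univ_two]
  have hx0ne : x0 ≠ 0 := by intro h0; rw [h0] at x00; exact zero_ne_one x00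
  have v01 : f₁ x0 x1 = 1 := by
    refine (h _).resolve_left ?_
    intro h0
    obtain ⟨-, x, hx⟩ := hf₁.nondegenerate x0 hx0ne
    apply hx
    rw [hxe x, hb1.add_right, hb1.smul_right, hb1.smul_right, hf₁.alternating, h0, mul_zero, mul_zero, add_zero]
  have v10 : f₁ x1 x0 = 1 := by
    rw [hf₁.skew, v01]; linear_combination -h2
  have v00 : f₁ x0 x0 = 0 := hf₁.alternating _
  have v11 : f₁ x1 x1 = 0 := hf₁.alternating _
  -- vectors of the second factor
  obtain ⟨u, hu0⟩ : ∃ u : Fin n₂ → F, u ≠ 0 := ⟨Pi.single ⟨0, by omega⟩ 1, by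
    intro h
    have := congrFun h ⟨0, by omega⟩
    rw [Pi.single_eq_same, Pi.zero_apply] at this
    exact one_ne_zero this⟩
  obtain ⟨y, hyu'⟩ : ∃ y, f₂ y u ≠ 0 := (hf₂.nondegenerate u hu0).1
  have hyu : f₂ y u = 1 := (h _).resolve_left hyu'
  obtain ⟨v, hv0, huv, hyv⟩ : ∃ v, v ≠ 0 ∧ f₂ u v = 0 ∧ f₂ y v = 0 := by
    let φ : (Fin n₂ → F) →ₗ[F] (F × F) := (CfsgH9.MaxRedSp.toB hb2 u).prod (CfsgH9.MaxRedSp.toB hb2 y)
    have hk : LinearMap.ker φ ≠ ⊥ := by
      apply LinearMap.ker_ne_bot_of_finrank_lt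
      rw [Module.finrank_prod, Module.finrank_self, Module.finrank_fintype_fun_eq_card, Fintype.card_fin]
      omega
    obtain ⟨v, hv, hv0⟩ := (Submodule.ne_bot_iff _).1 hk
    have h3 : φ v = 0 := hv
    exact ⟨v, hv0, congrArg Prod.fst h3, congrArg Prod.snd h3⟩
  have hvu : f₂ v u = 0 := by rw [hf₂.skew, huv, neg_zero]
  have huu : f₂ u u = 0 := hf₂.alternating u
  have hvv : f₂ v v = 0 := hf₂.alternating v
  refine ⟨stabR (RJ e P) ⊓ omegaGL Q, ?_, ?_⟩
  · refine lt_of_le_of_ne (inf_le_inf_right _ (tensor_le_stabR h)) ?_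
    intro heq
    obtain ⟨J, hJ⟩ : ∃ J, J = TM e P (jm F ⊗ₖ 1) := ⟨_, rfl⟩
    have hJT : ∀ x y, J *ᵥ T e P x y = T e P (jm F *ᵥ x) y := by
      intro x y
      rw [hJ, TM_mulVec, one_mulVec]
    obtain ⟨w, hw⟩ : ∃ w, w = T e P x0 u + T e P x1 v := ⟨_, rfl⟩
    obtain ⟨w', hw'⟩ : ∃ w, w = T e P x1 u + (T e P x0 v + T e P x1 v) := ⟨_, rfl⟩
    have hJw : J *ᵥ w = w' := by
      rw [hw, mulVec_add, hJT, hJT, hj0, hj1, T_add_left, hw']
    have hJw' : J *ᵥ w' = w + w' := by
      rw [hw', mulVec_add, mulVec_add, hJT, hJT, hJT, hj0, hj1, T_add_left, T_add_left, hw]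
      have : T e P x1 v + T e P x1 v = 0 := add_self2 h _
      have e1 : T e P x0 u + T e P x1 u + (T e P x1 v + (T e P x0 v + T e P x1 v)) =
        T e P x0 u + T e P x1 u + T e P x0 v + (T e P x1 v + T e P x1 v) := by abel
      have e2 : T e P x0 u + T e P x1 v + (T e P x1 u + (T e P x0 v + T e P x1 v)) =
        T e P x0 u + T e P x1 u + T e P x0 v + (T e P x1 v + T e P x1 v) := by abel
      rw [e1, e2]
    have hQw : Q w = 0 := by
      rw [hw, hf.add, hQ0, hQ0, hT, huv]; ring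
    have hQw' : Q w' = 0 := by
      rw [hw', hf.add, hf.add, hQ0, hQ0, hQ0, hf.add_right, hT, hT, hT, huv, hvv]; ring
    have hww' : f w w' = 0 := by
      rw [hw, hw', hf.add_left, hf.add_right, hf.add_right, hf.add_right, hf.add_right, hT, hT, hT, hT, hT, hT, v00, v11, huu, hvv, huv]
      ring
    obtain ⟨g, hg⟩ := exists_E hf hQw hww'
    have hgo : g ∈ omegaGL Q := T_le_omega hf hcard (E_mem hQw hww' hg)
    have hg' : ∀ x, (g : Matrix ι ι F) *ᵥ x = x + f x w • w' + f x w' • w := by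
      intro x
      rw [hg, hQw', zero_mul, add_zero]
      have : -(f x w') = f x w' := by linear_combination (-(f x w')) * h2
      rw [sub_eq_add_neg, ← neg_smul, this]
    have hA : ∀ x, f₁ (jm F *ᵥ x) x0 = f₁ x x0 + f₁ x x1 := by
      intro x
      rw [hxe x, mulVec_add, mulVec_smul, mulVec_smul, hj0, hj1]
      simp only [hb1.add_left, hb1.smul_left, v00, v01, v10, v11]
      ring
    have hB : ∀ x, f₁ (jm F *ᵥ x) x1 = f₁ x x0 := by
      intro x
      rw [hxe x, mulVec_add, mulVec_smul, mulVec_smul, hj0, hj1]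
      simp only [hb1.add_left, hb1.smul_left, v00, v01, v10, v11]
      ring
    have hcomm : (g : Matrix ι ι F) * TM e P (jm F ⊗ₖ 1) = TM e P (jm F ⊗ₖ 1) * (g : Matrix ι ι F) := by
      apply ext_T (e := e) (P := P)
      intro x z
      rw [← hJ, ← mulVec_mulVec, ← mulVec_mulVec, hJT, hg', hg', mulVec_add, mulVec_add, mulVec_smul, mulVec_smul, hJT, hJw, hJw']
      have a1 : f (T e P (jm F *ᵥ x) z) w = f (T e P x z) w + f (T e P x z) w' := by
        rw [hw, hw']
        simp only [hf.add_right, hT, hA, hB]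
        linear_combination (-(f₁ x x1 * f₂ z v)) * h2
      have a2 : f (T e P (jm F *ᵥ x) z) w' = f (T e P x z) w := by
        rw [hw, hw']
        simp only [hf.add_right, hT, hA, hB]
        linear_combination (f₁ x x0 * f₂ z v) * h2
      rw [a1, a2, smul_add, add_smul]
      abel_nf
    have hgR : g ∈ stabR (RJ e P) := by
      intro v w
      have hgi : ((g⁻¹ : GL ι F) : Matrix ι ι F) * TM e P (jm F ⊗ₖ 1) = TM e P (jm F ⊗ₖ 1) * ((g⁻¹ : GL ι F) : Matrix ι ι F) := by
        have e1 : ((g⁻¹ : GL ι F) : Matrix ι ι F) * (g : Matrix ι ι F) = 1 := by rw [← Units.val_mul, inv_mul_cancel, Units.val_one]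
        have e2 : (g : Matrix ι ι F) * ((g⁻¹ : GL ι F) : Matrix ι ι F) = 1 := by rw [← Units.val_mul, mul_inv_cancel, Units.val_one]
        calc ((g⁻¹ : GL ι F) : Matrix ι ι F) * TM e P (jm F ⊗ₖ 1)
            = ((g⁻¹ : GL ι F) : Matrix ι ι F) * (TM e P (jm F ⊗ₖ 1) * (g : Matrix ι ι F)) * ((g⁻¹ : GL ι F) : Matrix ι ι F) := by
              rw [Matrix.mul_assoc, Matrix.mul_assoc, e2, Matrix.mul_one]
          _ = _ := by rw [← hcomm, ← Matrix.mul_assoc, e1, Matrix.one_mul]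
      refine ⟨fun h' => ?_, RJ_of_comm h2 (Or.inl hcomm)⟩
      have := RJ_of_comm h2 (Or.inl hgi) h'
      rwa [inv_mulVec, inv_mulVec] at this
    have hgS : g ∈ stabR (RJ e P) ⊓ omegaGL Q := ⟨hgR, hgo⟩
    rw [← heq] at hgS
    obtain ⟨a, b, hab⟩ := exists_of_mem hgS.1
    have h4 := hab x0 y
    have e1 : f (T e P x0 y) w = 0 := by
      rw [hw]
      simp only [hf.add_right, hT, v00, v01, hyv]; ring
    have e2 : f (T e P x0 y) w' = 1 := by
      rw [hw']
      simp only [hf.add_right, hT, v00, v01, hyv, hyu]; ring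
    rw [hg', e1, e2, zero_smul, add_zero, one_smul, hw] at h4
    obtain ⟨A, hA'⟩ : ∃ A, A = (a : Matrix (Fin 2) (Fin 2) F) *ᵥ x0 := ⟨_, rfl⟩
    obtain ⟨B, hB'⟩ : ∃ B, B = (b : Matrix (Fin n₂) (Fin n₂) F) *ᵥ y := ⟨_, rfl⟩
    rw [← hA', ← hB'] at h4
    have r0 : ∀ k, y k + u k = A 0 * B k := by
      intro k
      have := congrArg (co e P 0 k) h4
      rw [map_add, map_add, co_T, co_T, co_T, co_T, x00, x10] at this
      linear_combination this
    have r1 : ∀ k, v k = A 1 * B k := by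
      intro k
      have := congrArg (co e P 1 k) h4
      rw [map_add, map_add, co_T, co_T, co_T, co_T, x01, x11] at this
      linear_combination this
    have hA1 : A 1 = 1 := by
      refine (h _).resolve_left ?_
      intro h0
      apply hv0
      funext k
      rw [r1, h0, zero_mul]; rfl
    have hBv : B = v := by
      funext k
      rw [r1, hA1, one_mul]
    have r2 : y + u = A 0 • v := by
      funext k
      rw [Pi.add_apply, Pi.smul_apply, smul_eq_mul, r0, hBv]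
    have r3 : f₂ (y + u) u = 1 := by rw [hb2.add_left, hyu, huu, add_zero]
    rw [r2, hb2.smul_left, hvu, mul_zero] at r3
    exact zero_ne_one r3
  · refine lt_of_le_of_ne inf_le_right ?_
    intro heq
    have h4 : f (T e P x0 u) (T e P x0 v) = 0 := by rw [hT, v00, zero_mul]
    obtain ⟨g, hg⟩ := exists_E hf (hQ0 x0 u) h4
    have hgo : g ∈ omegaGL Q := T_le_omega hf hcard (E_mem (hQ0 x0 u) h4 hg)
    rw [← heq] at hgo
    have h3 := (hgo.1 (T e P x0 y) (T e P x1 y)).2 (Or.inl (by rw [TM_mulVec, hj0, one_mulVec]))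
    have e1 : (g : Matrix ι ι F) *ᵥ T e P x0 y = T e P x0 y := by
      rw [hg, hT, hT, v00]; simp
    have e2 : (g : Matrix ι ι F) *ᵥ T e P x1 y = T e P x1 y + T e P x0 v := by
      rw [hg, hT, hT, v10, hyu, hyv, hQ0]; simp
    rw [e1, e2] at h3
    rcases h3 with h3 | h3
    · rw [TM_mulVec, hj0, one_mulVec] at h3
      exact hv0 (T_eq_zero (add_eq_left.1 h3) hx0ne)
    · rw [TM_mulVec, TM_mulVec, hj0, hj1, one_mulVec, one_mulVec, T_add_left, add_comm] at h3
      have h5 := add_right_cancel h3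
      have h6 : v = y := by
        funext k
        have := T_inj h5 0 k
        rw [x00, one_mul, one_mul] at this
        exact this
      rw [h6, hyu] at hvu
      exact one_ne_zero hvu

end CfsgH9.NTen
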