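import Mathlib
import Cfsg.Agent.H9.Frame3
import Cfsg.Agent.H9.SpGen

set_option autoImplicit false

/-! Tensor product subgroups of symplectic groups over the field with three elements. -/

namespace CfsgH9.NTen

open Matrix Cfsg Cfsg.Geo CfsgH9.NDec CfsgH9.Frame3
open scoped Kronecker
open CfsgH9.MaxSymp (inv_mulVec mulVec_inv)

variable {ι : Type} [Fintype ι] [DecidableEq ι] {F : Type*} [Field F] {n₁ : ℕ}

lemma exists_tvs {f : (ι → F) → (ι → F) → F}
    (hf : IsSymplecticForm f) (v : ι → F) : ∃ g : GL ι F, (∀ x, (g : Matrix ι ι F) *ᵥ x = x + f x v • v) ∧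
      ∀ x y, f ((g : Matrix ι ι F) *ᵥ x) ((g : Matrix ι ι F) *ᵥ y) = f x y := by
  have hb := hf.bilinear
  obtain ⟨g, hg, -⟩ := exists_dil ((CfsgH9.MaxRedSp.toB hb).flip v) v (by
    have : (CfsgH9.MaxRedSp.toB hb).flip v v = 0 := hf.alternating v
    rw [this, add_zero]; exact one_ne_zero)
  have hg' : ∀ x, (g : Matrix ι ι F) *ᵥ x = x + f x v • v := hg
  refine ⟨g, hg', ?_⟩
  intro x y
  rw [hg', hg', hb.add_left, hb.add_right, hb.add_right, hb.smul_left, hb.smul_left, hb.smul_right, hb.smul_right, hf.alternating,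
    hf.skew v y]
  ring

theorem sp_o3_tensor_not_max [Fintype F] (hq : Fintype.card F = 3) {e : ι ≃ Fin n₁ × Fin 3} {P : GL ι F}
    {f : (ι → F) → (ι → F) → F} (hf : IsSymplecticForm f) {f₁ : (Fin n₁ → F) → (Fin n₁ → F) → F} {f₂ : (Fin 3 → F) → (Fin 3 → F) → F}
    (hf₁ : IsSymplecticForm f₁) (hf₂ : IsSymmetricForm f₂) (hn : 1 ≤ n₁) {c : F} (hc : c ≠ 0) {K : Subgroup (GL ι F)}
    (hK : ∀ g : GL ι F, g ∈ K ↔ ∀ x y, f ((g : Matrix ι ι F) *ᵥ x) ((g : Matrix ι ι F) *ᵥ y) = f x y)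
    (hT : ∀ x y x' y', f (T e P x y) (T e P x' y') = c * (f₁ x x' * f₂ y y')) :
    ∃ L : Subgroup (GL ι F), tensorProductSubgroup n₁ 3 e P ⊓ K < L ∧ L < K := by
  classical
  obtain ⟨ε, a, ha⟩ := exists_frame hq hf₂
  have hε := ha.ne
  have hb := hf.bilinear
  have hb1 := hf₁.bilinear
  obtain ⟨u, hu0⟩ : ∃ u : Fin n₁ → F, u ≠ 0 := ⟨Pi.single ⟨0, by omega⟩ 1, by
    intro h
    have := congrFun h ⟨0, by omega⟩
    rw [Pi.single_eq_same, Pi.zero_apply] at this
    exact one_ne_zero this⟩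
  obtain ⟨z, hz⟩ : ∃ z, f₁ z u ≠ 0 := (hf₁.nondegenerate u hu0).1
  let Qs : (ι → F) → Prop := fun v => ∃ i x, v = T e P x (a i)
  let χ : (ι → F) → F := fun x => if Qs x then 1 else 0
  have hχ : ∀ {g : GL ι F}, (∀ x, Qs ((g : Matrix ι ι F) *ᵥ x) ↔ Qs x) → g ∈ stabF χ := by
    intro g h x
    show (if Qs ((g : Matrix ι ι F) *ᵥ x) then (1 : F) else 0) = if Qs x then 1 else 0
    by_cases hx : Qs x
    · rw [if_pos hx, if_pos ((h x).2 hx)]
    · rw [if_neg hx, if_neg (fun h' => hx ((h x).1 h'))]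
  have hχ' : ∀ {g : GL ι F}, g ∈ stabF χ → ∀ x, Qs x → Qs ((g : Matrix ι ι F) *ᵥ x) := by
    intro g h x hx
    by_contra hne
    have e2 : (if Qs ((g : Matrix ι ι F) *ᵥ x) then (1 : F) else 0) = if Qs x then 1 else 0 := h x
    rw [if_neg hne, if_pos hx] at e2
    exact zero_ne_one e2
  have hstep : ∀ g ∈ tensorProductSubgroup n₁ 3 e P ⊓ K, ∀ x, Qs x → Qs ((g : Matrix ι ι F) *ᵥ x) := by
    rintro g ⟨hgT, hgK⟩ x ⟨i, y, rfl⟩
    obtain ⟨A, B, hAB⟩ := exists_of_mem hgT
    have hform := (hK g).1 hgK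
    have key : ∀ x x' y y', f₁ ((A : Matrix _ _ F) *ᵥ x) ((A : Matrix _ _ F) *ᵥ x') * f₂ ((B : Matrix _ _ F) *ᵥ y) ((B : Matrix _ _ F) *ᵥ y') =
        f₁ x x' * f₂ y y' := by
      intro x x' y y'
      have h4 := hform (T e P x y) (T e P x' y')
      rw [hAB, hAB, hT, hT] at h4
      exact mul_left_cancel₀ hc h4
    have h6 := key z u (a 0) (a 0)
    rw [ha.val, if_pos rfl] at h6
    have hβ : f₁ ((A : Matrix _ _ F) *ᵥ z) ((A : Matrix _ _ F) *ᵥ u) ≠ 0 := by
      intro h0
      rw [h0, zero_mul] at h6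
      exact mul_ne_zero hz hε h6.symm
    obtain ⟨j, r, hj⟩ := ha.perm hq hf₂ (A := B) (κ := f₁ z u / f₁ ((A : Matrix _ _ F) *ᵥ z) ((A : Matrix _ _ F) *ᵥ u)) (div_ne_zero hz hβ) (by
      intro x y
      field_simp
      linear_combination key z u x y) i
    refine ⟨j, r • ((A : Matrix _ _ F) *ᵥ y), ?_⟩
    rw [hAB, hj, T_smul_left, T_smul_right]
  refine ⟨stabF χ ⊓ K, ?_, ?_⟩
  · refine lt_of_le_of_ne (le_inf ?_ inf_le_right) ?_
    · intro g hg
      apply hχ
      intro x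
      refine ⟨fun h => ?_, hstep g hg x⟩
      have := hstep g⁻¹ (Subgroup.inv_mem _ hg) _ h
      rwa [inv_mulVec] at this
    · intro heq
      obtain ⟨g, hg, hgf⟩ := exists_tvs hf (T e P u (a 0))
      have hww : f (T e P u (a 0)) (T e P u (a 0)) = 0 := hf.alternating _
      have hgi : ∀ x, ((g⁻¹ : GL ι F) : Matrix ι ι F) *ᵥ x = x - f x (T e P u (a 0)) • T e P u (a 0) := by
        intro x
        have h5 : (g : Matrix ι ι F) *ᵥ (x - f x (T e P u (a 0)) • T e P u (a 0)) = x := by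
          have e1 : x - f x (T e P u (a 0)) • T e P u (a 0) = x + (-f x (T e P u (a 0))) • T e P u (a 0) := by module
          rw [hg, e1, hb.add_left, hb.smul_left, hww]
          module
        conv_lhs => rw [← h5]
        rw [inv_mulVec]
      have hga : ∀ x, (g : Matrix ι ι F) *ᵥ T e P x (a 0) = T e P (x + (c * (f₁ x u * ε)) • u) (a 0) := by
        intro x
        rw [hg, hT, ha.val, if_pos rfl, T_add_left, T_smul_left]
      have hga' : ∀ x, ((g⁻¹ : GL ι F) : Matrix ι ι F) *ᵥ T e P x (a 0) = T e P (x + (-(c * (f₁ x u * ε))) • u) (a 0) := by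
        intro x
        rw [hgi, hT, ha.val, if_pos rfl, T_add_left, T_smul_left]
        module
      have hgb : ∀ i, i ≠ 0 → ∀ x, (g : Matrix ι ι F) *ᵥ T e P x (a i) = T e P x (a i) := by
        intro i hi x
        rw [hg, hT, ha.val, if_neg hi]; simp
      have hgS : g ∈ stabF χ ⊓ K := by
        refine ⟨hχ (fun x => ⟨?_, ?_⟩), (hK g).2 hgf⟩
        · rintro ⟨i, y, hy⟩
          have hx : x = ((g⁻¹ : GL ι F) : Matrix ι ι F) *ᵥ T e P y (a i) := by rw [← hy, inv_mulVec]
          by_cases hi : i = 0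
          · subst hi
            exact ⟨0, _, by rw [hx, hga']⟩
          · refine ⟨i, y, ?_⟩
            have h8 := hgb i hi y
            rw [hx]
            conv_lhs => rw [← h8]
            rw [inv_mulVec]
        · rintro ⟨i, y, rfl⟩
          by_cases hi : i = 0
          · subst hi
            exact ⟨0, _, hga y⟩
          · exact ⟨i, y, hgb i hi y⟩
      rw [← heq] at hgS
      obtain ⟨A, B, hAB⟩ := exists_of_mem hgS.1
      have ha0 : ∀ i, a i ≠ 0 := by
        intro i h0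
        have h5 := ha.val i i
        rw [if_pos rfl, h0] at h5
        have := hf₂.bilinear.smul_left 0 0 0
        rw [zero_smul, zero_mul] at this
        exact hε (h5.symm.trans this)
      obtain ⟨i, hi⟩ := Function.ne_iff.1 (ha0 1)
      obtain ⟨i', hi'⟩ := Function.ne_iff.1 (ha0 0)
      rw [Pi.zero_apply] at hi hi'
      obtain ⟨μ, hμ⟩ : ∃ μ, μ = ((B : Matrix _ _ F) *ᵥ a 1) i / a 1 i := ⟨_, rfl⟩
      obtain ⟨ν, hν⟩ : ∃ ν, ν = ((B : Matrix _ _ F) *ᵥ a 0) i' / a 0 i' := ⟨_, rfl⟩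
      have k3 : ∀ y, y = μ • ((A : Matrix (Fin n₁) (Fin n₁) F) *ᵥ y) := by
        intro y
        have k1 : T e P y (a 1) = T e P ((A : Matrix (Fin n₁) (Fin n₁) F) *ᵥ y) ((B : Matrix _ _ F) *ᵥ a 1) := by
          rw [← hAB, hgb 1 (by decide)]
        funext j
        have := T_inj k1 j i
        rw [Pi.smul_apply, smul_eq_mul, hμ]
        field_simp
        linear_combination this
      have k4 : ∀ y, y + (c * (f₁ y u * ε)) • u = ν • ((A : Matrix (Fin n₁) (Fin n₁) F) *ᵥ y) := by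
        intro y
        have k2 : T e P (y + (c * (f₁ y u * ε)) • u) (a 0) = T e P ((A : Matrix (Fin n₁) (Fin n₁) F) *ᵥ y) ((B : Matrix _ _ F) *ᵥ a 0) := by
          rw [← hAB, hga]
        funext j
        have := T_inj k2 j i'
        rw [Pi.smul_apply ν, smul_eq_mul, hν, div_mul_eq_mul_div, eq_div_iff hi', this]
        ring
      have hμ0 : μ ≠ 0 := by
        intro h0
        have := k3 u
        rw [h0, zero_smul] at this
        exact hu0 this
      have k5 : ∀ y, y + (c * (f₁ y u * ε)) • u = (ν / μ) • y := by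
        intro y
        rw [k4]
        conv_rhs => rw [k3 y]
        rw [smul_smul, div_mul_cancel₀ _ hμ0]
      have k6 : ν / μ = 1 := by
        have h5 := k5 u
        rw [hf₁.alternating, zero_mul, mul_zero, zero_smul, add_zero] at h5
        have h7 : (ν / μ - 1) • u = 0 := by rw [sub_smul, ← h5, one_smul, sub_self]
        exact sub_eq_zero.1 ((smul_eq_zero.1 h7).resolve_right hu0)
      have k7 := k5 z
      rw [k6, one_smul] at k7
      have k8 : (c * (f₁ z u * ε)) • u = 0 := add_eq_left.1 k7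
      exact smul_ne_zero (mul_ne_zero hc (mul_ne_zero hz hε)) hu0 k8
  · refine lt_of_le_of_ne inf_le_right ?_
    intro heq
    obtain ⟨g, hg, hgf⟩ := exists_tvs hf (T e P u (a 0) + T e P u (a 1))
    have hgo : g ∈ K := (hK g).2 hgf
    rw [← heq] at hgo
    obtain ⟨i, y, hy⟩ := hχ' hgo.1 _ ⟨0, z, rfl⟩
    have v01 : f₂ (a 0) (a 1) = 0 := by rw [ha.val, if_neg (by decide)]
    have v10 : f₂ (a 1) (a 0) = 0 := by rw [ha.val, if_neg (by decide)]
    have v00 : f₂ (a 0) (a 0) = ε := by rw [ha.val, if_pos rfl]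
    have v11 : f₂ (a 1) (a 1) = ε := by rw [ha.val, if_pos rfl]
    rw [hg, hb.add_right, hT, hT, v00, v01] at hy
    by_cases hi : i = 0
    · subst hi
      obtain ⟨w, hw⟩ := (hf₁.nondegenerate u hu0).2
      have e2 := congrArg (fun x => f x (T e P w (a 1))) hy
      simp only [hb.add_left, hb.smul_left, hT, v01, v11] at e2
      have : (c * (f₁ z u * ε)) * (c * (f₁ u w * ε)) = 0 := by linear_combination e2
      exact mul_ne_zero (mul_ne_zero hc (mul_ne_zero hz hε)) (mul_ne_zero hc (mul_ne_zero hw hε)) this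
    · have vi0 : f₂ (a i) (a 0) = 0 := by rw [ha.val, if_neg hi]
      have e2 := congrArg (fun x => f x (T e P u (a 0))) hy
      simp only [hb.add_left, hb.smul_left, hT, v00, v10, vi0, hf₁.alternating] at e2
      have : c * (f₁ z u * ε) = 0 := by linear_combination e2
      exact mul_ne_zero hc (mul_ne_zero hz hε) this

end CfsgH9.NTen
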