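import Mathlib
import Cfsg.Agent.H9.NTen
import Cfsg.Agent.H9.NDecU
import Cfsg.Agent.H9.UnComm

set_option autoImplicit false

/-! Tensor product subgroups of unitary groups over the field with four elements. -/

namespace CfsgH9.NTen

open Matrix Cfsg Cfsg.Geo CfsgH9.NDec CfsgH9.Un CfsgH9.NDecU
open scoped Kronecker
open CfsgH9.MaxSymp (inv_mulVec mulVec_inv)

variable {ι : Type} [Fintype ι] [DecidableEq ι] {F : Type*} [Field F] {n₂ : ℕ} {e : ι ≃ Fin 2 × Fin n₂} {P : GL ι F}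
variable {σ : F →+* F} {f : (ι → F) → (ι → F) → F}
variable {f₁ : (Fin 2 → F) → (Fin 2 → F) → F} {f₂ : (Fin n₂ → F) → (Fin n₂ → F) → F}

theorem gu2_tensor_not_max [Fintype F] (hf : Hm σ f) (hσ : ∀ x, σ x = x ^ 2) (hq : Fintype.card F = 4) {K : Subgroup (GL ι F)}
    (hK : IsK f K) (hf₁ : Hm σ f₁) (hf₂ : Hm σ f₂) (hn : 2 ≤ n₂) {c : F} (hc : c ≠ 0)
    (hT : ∀ x y x' y', f (T e P x y) (T e P x' y') = c * (f₁ x x' * f₂ y y')) :
    ∃ L : Subgroup (GL ι F), tensorProductSubgroup 2 n₂ e P ⊓ K < L ∧ L < K := by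
  classical
  have h2 := two4 hq
  have hnd1 : IsNondegenerateOn f₁ ⊤ := by
    intro w _ hw
    obtain ⟨y, hy⟩ := hf₁.nondeg w hw
    exact ⟨⟨y, trivial, hf₁.swap_ne hy⟩, ⟨y, trivial, hy⟩⟩
  obtain ⟨a, -, b, -, haa, hbb, hab, hba, hsp⟩ := exists_on hf₁ hσ (W := ⊤) (by
    rw [finrank_top, Module.finrank_fintype_fun_eq_card, Fintype.card_fin]) hnd1
  have hns : ∀ x, f₁ x x ≠ 0 → (∃ r : F, x = r • a) ∨ ∃ r : F, x = r • b := by
    intro x hx
    obtain ⟨r, s, rfl⟩ := hsp x trivial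
    by_cases hr : r = 0
    · right; exact ⟨s, by rw [hr, zero_smul, zero_add]⟩
    · by_cases hs : s = 0
      · left; exact ⟨r, by rw [hs, zero_smul, add_zero]⟩
      · exfalso
        apply hx
        rw [hf₁.add_left, hf₁.add_right, hf₁.add_right, hf₁.smul_left, hf₁.smul_left, hf₁.smul_left, hf₁.smul_left, hf₁.smul_right,
          hf₁.smul_right, hf₁.smul_right, hf₁.smul_right, haa, hab, hba, hbb, hσ, hσ]
        linear_combination NDecU.norm_one hq hr + NDecU.norm_one hq hs + h2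
  have hcard2 : Fintype.card (Fin n₂) = n₂ := Fintype.card_fin n₂
  -- a non-singular vector and an isotropic vector of the second factor
  obtain ⟨y0, -, hy0, hy00⟩ : ∃ y ∈ (⊤ : Submodule F (Fin n₂ → F)), f₂ y y = 1 ∧ ((1 : F) ≠ 0 → y ≠ 0) := by
    have : ∃ x ∈ (⊤ : Submodule F (Fin n₂ → F)), ∃ y ∈ (⊤ : Submodule F (Fin n₂ → F)), f₂ x y ≠ 0 := by
      have hx : (Pi.single ⟨0, by omega⟩ 1 : Fin n₂ → F) ≠ 0 := by
        intro h
        have := congrFun h ⟨0, by omega⟩
        rw [Pi.single_eq_same, Pi.zero_apply] at this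
        exact one_ne_zero this
      obtain ⟨y, hy⟩ := hf₂.nondeg _ hx
      exact ⟨_, trivial, y, trivial, hy⟩
    exact hf₂.exists_one this (map_one σ)
  have hy00 := hy00 one_ne_zero
  obtain ⟨u, -, huu, hu⟩ := exists_isotropic hf₂ (W := ⊥) (by rw [finrank_bot, hcard2]; omega)
  have hu0 : u ≠ 0 := by simpa using hu
  obtain ⟨zu, hzu⟩ : ∃ z, f₂ z u ≠ 0 := by
    obtain ⟨z, hz⟩ := hf₂.nondeg u hu0
    exact ⟨z, hf₂.swap_ne hz⟩
  obtain ⟨z0, hz0n, hz0⟩ : ∃ z, z ∉ Submodule.span F {y0} ∧ f₂ z y0 ≠ 0 := by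
    obtain ⟨z', hz'⟩ : ∃ z', z' ∉ Submodule.span F {y0} := by
      by_contra hcon
      push Not at hcon
      have h1 : (⊤ : Submodule F (Fin n₂ → F)) ≤ Submodule.span F {y0} := fun x _ => hcon x
      have h3 := Submodule.finrank_mono h1
      rw [finrank_top, Module.finrank_fintype_fun_eq_card, hcard2, finrank_span_singleton hy00] at h3
      omega
    by_cases h : f₂ z' y0 = 0
    · refine ⟨z' + y0, ?_, ?_⟩
      · intro hmem
        apply hz'
        have := Submodule.sub_mem _ hmem (Submodule.mem_span_singleton_self y0)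
        rwa [add_sub_cancel_right] at this
      · rw [hf₂.add_left, h, hy0, zero_add]; exact one_ne_zero
    · exact ⟨z', hz', h⟩
  let Q : (ι → F) → Prop := fun v => ∃ y, v = T e P a y ∨ v = T e P b y
  let χ : (ι → F) → F := fun x => if Q x then 1 else 0
  have hχ : ∀ {g : GL ι F}, (∀ x, Q ((g : Matrix ι ι F) *ᵥ x) ↔ Q x) → g ∈ stabF χ := by
    intro g h x
    show (if Q ((g : Matrix ι ι F) *ᵥ x) then (1 : F) else 0) = if Q x then 1 else 0
    by_cases hx : Q x
    · rw [if_pos hx, if_pos ((h x).2 hx)]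
    · rw [if_neg hx, if_neg (fun h' => hx ((h x).1 h'))]
  have hχ' : ∀ {g : GL ι F}, g ∈ stabF χ → ∀ x, Q x → Q ((g : Matrix ι ι F) *ᵥ x) := by
    intro g h x hx
    by_contra hne
    have e2 : (if Q ((g : Matrix ι ι F) *ᵥ x) then (1 : F) else 0) = if Q x then 1 else 0 := h x
    rw [if_neg hne, if_pos hx] at e2
    exact zero_ne_one e2
  have htv : ∀ w, f w w = 0 → ∃ g : GL ι F, g ∈ K ∧ ∀ x, (g : Matrix ι ι F) *ᵥ x = x + f x w • w := by
    intro w hw
    obtain ⟨g, hg⟩ := exists_R hf (e := w) (a := 1) (by unfold Cd; rw [map_one, hw]; linear_combination h2)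
    refine ⟨g, (hK g).2 ⟨hg.iso hf (by unfold Cd; rw [map_one, hw]; linear_combination h2), ?_⟩, ?_⟩
    · rw [hg.det hf, hw]; ring
    · intro x; rw [hg, one_mul]
  have hstep : ∀ g ∈ tensorProductSubgroup 2 n₂ e P ⊓ K, ∀ x, Q x → Q ((g : Matrix ι ι F) *ᵥ x) := by
    rintro g ⟨hgT, hgK⟩ x hx
    obtain ⟨A, B, hAB⟩ := exists_of_mem hgT
    have hiso := ((hK g).1 hgK).1
    have hA : ∀ x, f₁ x x ≠ 0 → f₁ ((A : Matrix _ _ F) *ᵥ x) ((A : Matrix _ _ F) *ᵥ x) ≠ 0 := by
      intro x hx h0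
      have h3 := hiso (T e P x y0) (T e P x y0)
      rw [hAB, hT, hT, h0, hy0, zero_mul, mul_zero, mul_one] at h3
      exact mul_ne_zero hc hx h3.symm
    rcases hx with ⟨y, rfl | rfl⟩
    · rw [hAB]
      rcases hns _ (hA a (by rw [haa]; exact one_ne_zero)) with ⟨r, hr⟩ | ⟨r, hr⟩
      · exact ⟨r • ((B : Matrix _ _ F) *ᵥ y), Or.inl (by rw [hr, T_smul_left, T_smul_right])⟩
      · exact ⟨r • ((B : Matrix _ _ F) *ᵥ y), Or.inr (by rw [hr, T_smul_left, T_smul_right])⟩
    · rw [hAB]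
      rcases hns _ (hA b (by rw [hbb]; exact one_ne_zero)) with ⟨r, hr⟩ | ⟨r, hr⟩
      · exact ⟨r • ((B : Matrix _ _ F) *ᵥ y), Or.inl (by rw [hr, T_smul_left, T_smul_right])⟩
      · exact ⟨r • ((B : Matrix _ _ F) *ᵥ y), Or.inr (by rw [hr, T_smul_left, T_smul_right])⟩
  refine ⟨stabF χ ⊓ K, ?_, ?_⟩
  · refine lt_of_le_of_ne (le_inf ?_ inf_le_right) ?_
    · intro g hg
      apply hχ
      intro x
      refine ⟨fun h => ?_, hstep g hg x⟩
      have := hstep g⁻¹ (Subgroup.inv_mem _ hg) _ h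
      rwa [inv_mulVec] at this
    · intro heq
      have hw : f (T e P a u) (T e P a u) = 0 := by rw [hT, huu, mul_zero, mul_zero]
      obtain ⟨g, hgK, hg⟩ := htv _ hw
      have hga : ∀ z, (g : Matrix ι ι F) *ᵥ T e P a z = T e P a (z + (c * f₂ z u) • u) := by
        intro z
        rw [hg, hT, haa, one_mul, T_add_right, T_smul_right]
      have hgb : ∀ z, (g : Matrix ι ι F) *ᵥ T e P b z = T e P b z := by
        intro z
        rw [hg, hT, hba, zero_mul, mul_zero, zero_smul, add_zero]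
      have hone : ∀ x, Q x → Q ((g : Matrix ι ι F) *ᵥ x) := by
        rintro x ⟨y, rfl | rfl⟩
        · exact ⟨_, Or.inl (hga y)⟩
        · exact ⟨_, Or.inr (hgb y)⟩
      have hinv : ∀ x, (g : Matrix ι ι F) *ᵥ ((g : Matrix ι ι F) *ᵥ x) = x := by
        intro x
        rw [hg, hg x, hf.add_left, hf.smul_left, hw, mul_zero, add_zero]
        have : f x (T e P a u) • (T e P a u) + f x (T e P a u) • (T e P a u) = 0 := by
          rw [← add_smul]; rw [show f x (T e P a u) + f x (T e P a u) = 0 by linear_combination (f x (T e P a u)) * h2, zero_smul]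
        rw [add_assoc, this, add_zero]
      have hgS : g ∈ stabF χ ⊓ K := by
        refine ⟨hχ (fun x => ⟨fun h' => ?_, hone x⟩), hgK⟩
        have := hone _ h'
        rwa [hinv] at this
      rw [← heq] at hgS
      obtain ⟨A, B, hAB⟩ := exists_of_mem hgS.1
      have hb0 : b ≠ 0 := by rintro rfl; rw [hf₁.zero_left] at hbb; exact zero_ne_one hbb
      have ha0 : a ≠ 0 := by rintro rfl; rw [hf₁.zero_left] at haa; exact zero_ne_one haa
      have hzu0 : zu ≠ 0 := by rintro rfl; rw [hf₂.zero_left] at hzu; exact hzu rfl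
      obtain ⟨i, hi⟩ := Function.ne_iff.1 hb0
      obtain ⟨i', hi'⟩ := Function.ne_iff.1 ha0
      rw [Pi.zero_apply] at hi hi'
      have k1 : T e P b zu = T e P ((A : Matrix _ _ F) *ᵥ b) ((B : Matrix _ _ F) *ᵥ zu) := by rw [← hAB, hgb]
      have k2 : T e P a (zu + (c * f₂ zu u) • u) = T e P ((A : Matrix _ _ F) *ᵥ a) ((B : Matrix _ _ F) *ᵥ zu) := by rw [← hAB, hga]
      obtain ⟨μ, hμ⟩ : ∃ μ, μ = ((A : Matrix _ _ F) *ᵥ b) i / b i := ⟨_, rfl⟩
      obtain ⟨ν, hν⟩ : ∃ ν, ν = ((A : Matrix _ _ F) *ᵥ a) i' / a i' := ⟨_, rfl⟩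
      have k3 : zu = μ • ((B : Matrix _ _ F) *ᵥ zu) := by
        funext j
        have := T_inj k1 i j
        rw [Pi.smul_apply, smul_eq_mul, hμ]
        field_simp
        linear_combination this
      have k4 : zu + (c * f₂ zu u) • u = ν • ((B : Matrix _ _ F) *ᵥ zu) := by
        funext j
        have := T_inj k2 i' j
        rw [Pi.smul_apply, smul_eq_mul, hν]
        field_simp
        linear_combination this
      have hμ0 : μ ≠ 0 := by
        intro h0
        rw [h0, zero_smul] at k3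
        exact hzu0 k3
      have k5 : f₂ (zu + (c * f₂ zu u) • u) u = f₂ zu u := by
        rw [hf₂.add_left, hf₂.smul_left, huu, mul_zero, add_zero]
      rw [k4] at k5
      have k6 : f₂ zu u = μ * f₂ ((B : Matrix _ _ F) *ᵥ zu) u := by
        conv_lhs => rw [k3]
        rw [hf₂.smul_left]
      rw [hf₂.smul_left] at k5
      have hBne : f₂ ((B : Matrix _ _ F) *ᵥ zu) u ≠ 0 := by
        intro h0; rw [h0, mul_zero] at k6; exact hzu k6
      have k7 : ν = μ := by
        have : (ν - μ) * f₂ ((B : Matrix _ _ F) *ᵥ zu) u = 0 := by linear_combination k5 + k6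
        exact sub_eq_zero.1 ((mul_eq_zero.1 this).resolve_right hBne)
      rw [k7, ← k3] at k4
      have k8 : (c * f₂ zu u) • u = 0 := add_eq_left.1 k4
      exact smul_ne_zero (mul_ne_zero hc hzu) hu0 k8
  · refine lt_of_le_of_ne inf_le_right ?_
    intro heq
    have hw : f (T e P a y0 + T e P b y0) (T e P a y0 + T e P b y0) = 0 := by
      rw [hf.add_left, hf.add_right, hf.add_right, hT, hT, hT, hT, haa, hbb, hab, hba, hy0]
      linear_combination c * h2
    obtain ⟨g, hgK, hg⟩ := htv _ hw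
    rw [← heq] at hgK
    have hQ : Q (T e P a z0) := ⟨z0, Or.inl rfl⟩
    obtain ⟨y, hy⟩ := hχ' hgK.1 _ hQ
    have e1 : f (T e P a z0) (T e P a y0 + T e P b y0) = c * f₂ z0 y0 := by
      rw [hf.add_right, hT, hT, haa, hab]; ring
    rw [hg, e1] at hy
    rcases hy with hy | hy
    · have e2 := congrArg (fun v => f v (T e P b y0)) hy
      simp only [hf.add_left, hf.smul_left, hT, haa, hab, hba, hbb, hy0] at e2
      have : c * f₂ z0 y0 * c = 0 := by linear_combination e2
      exact mul_ne_zero (mul_ne_zero hc hz0) hc this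
    · have e2 : ∀ v, f₂ (z0 + (c * f₂ z0 y0) • y0) v = 0 := by
        intro v
        have e2 := congrArg (fun x => f x (T e P a v)) hy
        simp only [hf.add_left, hf.smul_left, hT, haa, hab, hba, hbb, hy0] at e2
        rw [hf₂.add_left, hf₂.smul_left]
        have : c * (f₂ z0 v + c * f₂ z0 y0 * f₂ y0 v) = 0 := by linear_combination e2
        exact (mul_eq_zero.1 this).resolve_left hc
      have e3 : z0 + (c * f₂ z0 y0) • y0 = 0 := by
        by_contra hne
        obtain ⟨v, hv⟩ := hf₂.nondeg _ hne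
        exact hv (e2 v)
      apply hz0n
      rw [eq_neg_of_add_eq_zero_left e3]
      exact Submodule.neg_mem _ (Submodule.smul_mem _ _ (Submodule.mem_span_singleton_self y0))

end CfsgH9.NTen
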