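import Mathlib
import Cfsg.Prelude

set_option autoImplicit false

/-! The heart of the permutation module over the field with two elements. -/

namespace CfsgH9.PM

open Matrix Cfsg Equiv

/-- even weight vectors vanishing at the last coordinate -/
def E0 (n : ℕ) : Submodule (ZMod 2) (Fin (n + 1) → ZMod 2) where
  carrier := {v | ∑ i, v i = 0 ∧ v (Fin.last n) = 0}
  add_mem' := by
    rintro a b ⟨h1, h2⟩ ⟨h3, h4⟩
    refine ⟨?_, ?_⟩
    · simp only [Pi.add_apply]; rw [Finset.sum_add_distrib, h1, h3, add_zero]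
    · rw [Pi.add_apply, h2, h4, add_zero]
  zero_mem' := by constructor <;> simp
  smul_mem' := by
    rintro c a ⟨h1, h2⟩
    refine ⟨?_, ?_⟩
    · simp only [Pi.smul_apply, smul_eq_mul]; rw [← Finset.mul_sum, h1, mul_zero]
    · rw [Pi.smul_apply, h2, smul_zero]

variable {n : ℕ}

theorem zmod2 (x : ZMod 2) : x = 0 ∨ x = 1 := by revert x; decide

theorem add_self (x : ZMod 2) : x + x = 0 := by revert x; decide

/-- the action -/
def T (hn : ((n + 1 : ℕ) : ZMod 2) = 0) (g : Perm (Fin (n + 1))) : E0 n →ₗ[ZMod 2] E0 n where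
  toFun v := ⟨fun i => v.1 (g⁻¹ i) + v.1 (g⁻¹ (Fin.last n)), by
    constructor
    · rw [Finset.sum_add_distrib, Equiv.sum_comp (g⁻¹ : Perm (Fin (n + 1))) v.1, v.2.1, Finset.sum_const, Finset.card_univ, Fintype.card_fin, nsmul_eq_mul, hn]
      ring
    · exact add_self _⟩
  map_add' u v := by
    apply Subtype.ext
    ext i
    change (u.1 + v.1) _ + (u.1 + v.1) _ = (u.1 _ + u.1 _) + (v.1 _ + v.1 _)
    simp only [Pi.add_apply]; ring
  map_smul' c v := by
    apply Subtype.ext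
    ext i
    change (c • v.1) _ + (c • v.1) _ = c • (v.1 _ + v.1 _)
    simp only [Pi.smul_apply, smul_eq_mul]; ring

theorem T_apply (hn : ((n + 1 : ℕ) : ZMod 2) = 0) (g : Perm (Fin (n + 1))) (v : E0 n) (i : Fin (n + 1)) :
    (T hn g v).1 i = v.1 (g⁻¹ i) + v.1 (g⁻¹ (Fin.last n)) := rfl

theorem T_one (hn : ((n + 1 : ℕ) : ZMod 2) = 0) : T hn 1 = LinearMap.id := by
  ext v i
  change v.1 _ + v.1 _ = v.1 i
  rw [inv_one, Perm.one_apply, Perm.one_apply, v.2.2, add_zero]

theorem T_mul (hn : ((n + 1 : ℕ) : ZMod 2) = 0) (g h : Perm (Fin (n + 1))) : T hn (g * h) = (T hn g).comp (T hn h) := by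
  ext v i
  rw [LinearMap.comp_apply, T_apply, T_apply, T_apply, T_apply, _root_.mul_inv_rev, Perm.mul_apply, Perm.mul_apply]
  linear_combination (-1 : ZMod 2) * add_self (v.1 (h⁻¹ (Fin.last n)))

/-- the dot product is preserved -/
theorem T_dot (hn : ((n + 1 : ℕ) : ZMod 2) = 0) (g : Perm (Fin (n + 1))) (u v : E0 n) :
    ∑ i, (T hn g u).1 i * (T hn g v).1 i = ∑ i, u.1 i * v.1 i := by
  simp only [T_apply]
  have e : ∀ i, (u.1 (g⁻¹ i) + u.1 (g⁻¹ (Fin.last n))) * (v.1 (g⁻¹ i) + v.1 (g⁻¹ (Fin.last n))) =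
      u.1 (g⁻¹ i) * v.1 (g⁻¹ i) + (v.1 (g⁻¹ (Fin.last n)) * u.1 (g⁻¹ i) + (u.1 (g⁻¹ (Fin.last n)) * v.1 (g⁻¹ i) + u.1 (g⁻¹ (Fin.last n)) * v.1 (g⁻¹ (Fin.last n)))) := by
    intro i; ring
  simp only [e]
  rw [Finset.sum_add_distrib, Finset.sum_add_distrib, Finset.sum_add_distrib, ← Finset.mul_sum, ← Finset.mul_sum,
    Equiv.sum_comp (g⁻¹ : Perm (Fin (n + 1))) v.1, Equiv.sum_comp (g⁻¹ : Perm (Fin (n + 1))) u.1, u.2.1, v.2.1,
    Equiv.sum_comp (g⁻¹ : Perm (Fin (n + 1))) (fun i => u.1 i * v.1 i), Finset.sum_const, Finset.card_univ, Fintype.card_fin, nsmul_eq_mul, hn]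
  ring

/-- the vectors `e_a + e_b` -/
theorem pair_mem {a b : Fin (n + 1)} (ha : a ≠ Fin.last n) (hb : b ≠ Fin.last n) :
    (Pi.single a 1 + Pi.single b 1 : Fin (n + 1) → ZMod 2) ∈ E0 n := by
  constructor
  · simp only [Pi.add_apply]
    rw [Finset.sum_add_distrib, Finset.sum_pi_single', Finset.sum_pi_single']
    simp only [Finset.mem_univ, if_true]
    decide
  · rw [Pi.add_apply, Pi.single_eq_of_ne ha.symm, Pi.single_eq_of_ne hb.symm, add_zero]

theorem T_inj (hn : ((n + 1 : ℕ) : ZMod 2) = 0) (h6 : 5 ≤ n) {g : Perm (Fin (n + 1))} (hg : T hn g = LinearMap.id) : g = 1 := by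
  classical
  set h := g⁻¹ with hh
  have key : ∀ a b : Fin (n + 1), a ≠ b → a ≠ Fin.last n → b ≠ Fin.last n →
      ∀ i, (Pi.single a 1 + Pi.single b 1 : Fin (n + 1) → ZMod 2) (h i) + (Pi.single a 1 + Pi.single b 1 : Fin (n + 1) → ZMod 2) (h (Fin.last n)) =
        (Pi.single a 1 + Pi.single b 1 : Fin (n + 1) → ZMod 2) i := by
    intro a b _ ha hb i
    have := congrArg (fun L : E0 n →ₗ[ZMod 2] E0 n => (L ⟨_, pair_mem ha hb⟩).1 i) hg
    exact this
  have hlast0 : ∀ a b : Fin (n + 1), a ≠ b → a ≠ Fin.last n → b ≠ Fin.last n →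
      (Pi.single a 1 + Pi.single b 1 : Fin (n + 1) → ZMod 2) (h (Fin.last n)) = 0 := by
    intro a b hab ha hb
    by_contra hc
    have hc1 := (zmod2 _).resolve_left hc
    have hk := key a b hab ha hb
    rw [hc1] at hk
    -- choose c outside of a, b, h⁻¹ a, h⁻¹ b
    obtain ⟨c, hc⟩ : ∃ c : Fin (n + 1), c ∉ ({a, b, g a, g b} : Finset (Fin (n + 1))) := by
      by_contra hcon
      push Not at hcon
      have h1 : (Finset.univ : Finset (Fin (n + 1))) ⊆ {a, b, g a, g b} := fun x _ => hcon x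
      have h2 := Finset.card_le_card h1
      rw [Finset.card_univ, Fintype.card_fin] at h2
      have h3 : ({a, b, g a, g b} : Finset (Fin (n + 1))).card ≤ 4 := Finset.card_le_four
      omega
    simp only [Finset.mem_insert, Finset.mem_singleton, not_or] at hc
    obtain ⟨c1, c2, c3, c4⟩ := hc
    have h5 := hk c
    have e1 : h c ≠ a := by
      intro h7; apply c3
      rw [← h7, hh]; simp
    have e2 : h c ≠ b := by
      intro h7; apply c4
      rw [← h7, hh]; simp
    rw [Pi.add_apply, Pi.add_apply, Pi.single_eq_of_ne e1, Pi.single_eq_of_ne e2, Pi.single_eq_of_ne c1, Pi.single_eq_of_ne c2] at h5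
    simp at h5
  have hval : ∀ a b : Fin (n + 1), a ≠ b → a ≠ Fin.last n → b ≠ Fin.last n → ∀ i,
      (i = a ∨ i = b) → (h i = a ∨ h i = b) := by
    intro a b hab ha hb i hi
    have h1 := key a b hab ha hb i
    rw [hlast0 a b hab ha hb, add_zero] at h1
    by_contra hcon
    push Not at hcon
    rw [Pi.add_apply, Pi.single_eq_of_ne hcon.1, Pi.single_eq_of_ne hcon.2, add_zero] at h1
    rcases hi with rfl | rfl
    · rw [Pi.add_apply, Pi.single_eq_same, Pi.single_eq_of_ne hab] at h1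
      simp at h1
    · rw [Pi.add_apply, Pi.single_eq_same, Pi.single_eq_of_ne hab.symm] at h1
      simp at h1
  have hfix : ∀ a, a ≠ Fin.last n → h a = a := by
    intro a ha
    obtain ⟨b, hb⟩ : ∃ b : Fin (n + 1), b ∉ ({a, Fin.last n, h a} : Finset (Fin (n + 1))) := by
      by_contra hcon
      push Not at hcon
      have h1 : (Finset.univ : Finset (Fin (n + 1))) ⊆ {a, Fin.last n, h a} := fun x _ => hcon x
      have h2 := Finset.card_le_card h1
      rw [Finset.card_univ, Fintype.card_fin] at h2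
      have h3 : ({a, Fin.last n, h a} : Finset (Fin (n + 1))).card ≤ 3 := Finset.card_le_three
      omega
    simp only [Finset.mem_insert, Finset.mem_singleton, not_or] at hb
    rcases hval a b (Ne.symm hb.1) ha hb.2.1 a (Or.inl rfl) with h1 | h1
    · exact h1
    · exact absurd h1.symm hb.2.2
  have hlast : h (Fin.last n) = Fin.last n := by
    by_contra hcon
    have h1 := hfix _ hcon
    exact hcon (h.injective h1)
  have : h = 1 := by
    ext a
    by_cases ha : a = Fin.last n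
    · rw [ha, hlast]; rfl
    · rw [hfix a ha]; rfl
  rw [← inv_inv g, ← hh, this, inv_one]

/-- the matrix representation attached to coordinates on the heart -/
theorem exists_rho (hn : ((n + 1 : ℕ) : ZMod 2) = 0) {κ : Type} [Fintype κ] [DecidableEq κ] (φ : (κ → ZMod 2) ≃ₗ[ZMod 2] E0 n) :
    ∃ ρ : Perm (Fin (n + 1)) →* GL κ (ZMod 2), (∀ g x, φ ((ρ g).1 *ᵥ x) = T hn g (φ x)) ∧ (5 ≤ n → Function.Injective ρ) := by
  let M : Perm (Fin (n + 1)) → Matrix κ κ (ZMod 2) := fun g => LinearMap.toMatrix' ((φ.symm.toLinearMap.comp (T hn g)).comp φ.toLinearMap)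
  have hM : ∀ g x, M g *ᵥ x = φ.symm (T hn g (φ x)) := by
    intro g x
    exact LinearMap.toMatrix'_mulVec _ _
  have ext' : ∀ A B : Matrix κ κ (ZMod 2), (∀ x, A *ᵥ x = B *ᵥ x) → A = B := fun A B h =>
    Matrix.ext_of_mulVec_single fun i => h _
  have h1 : M 1 = 1 := by
    apply ext'
    intro x
    rw [hM, T_one, one_mulVec]; simp
  have hmul : ∀ g h, M (g * h) = M g * M h := by
    intro g h
    apply ext'
    intro x
    rw [hM, T_mul, ← mulVec_mulVec, hM, hM]; simp
  let ρ : Perm (Fin (n + 1)) →* GL κ (ZMod 2) := MonoidHom.toHomUnits ⟨⟨M, h1⟩, hmul⟩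
  have hρ : ∀ g, (ρ g).1 = M g := fun g => rfl
  refine ⟨ρ, ?_, ?_⟩
  · intro g x
    rw [hρ, hM, φ.apply_symm_apply]
  · intro h5
    rw [injective_iff_map_eq_one]
    intro g hg
    apply T_inj hn h5
    apply LinearMap.ext
    intro v
    have h2 : M g = 1 := by rw [← hρ, hg]; rfl
    have h3 := hM g (φ.symm v)
    rw [h2, one_mulVec, φ.apply_symm_apply] at h3
    rw [LinearMap.id_apply]
    exact (φ.symm.injective h3).symm

end CfsgH9.PM
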