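import Mathlib
import Cfsg.Prelude

set_option autoImplicit false

/-! Splitting of isometry groups along an orthogonal decomposition. -/

namespace CfsgH9.Split

open Matrix Cfsg

section
variable {F : Type*} [Field F] {ι κ₁ κ₂ : Type} [Fintype ι] [DecidableEq ι] [Fintype κ₁] [DecidableEq κ₁] [Fintype κ₂] [DecidableEq κ₂]

abbrev Pr (f : (ι → F) → (ι → F) → F) : Subgroup (GL ι F) := preserving (Units.coeHom (Matrix ι ι F)) f

structure Data (f : (ι → F) → (ι → F) → F) (f₁ : (κ₁ → F) → (κ₁ → F) → F) (f₂ : (κ₂ → F) → (κ₂ → F) → F)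
    (P : Matrix ι (κ₁ ⊕ κ₂) F) (Q : Matrix (κ₁ ⊕ κ₂) ι F) : Prop where
  PQ : P * Q = 1
  QP : Q * P = 1
  hf : ∀ x y : κ₁ ⊕ κ₂ → F, f (P *ᵥ x) (P *ᵥ y) = f₁ (x ∘ Sum.inl) (y ∘ Sum.inl) + f₂ (x ∘ Sum.inr) (y ∘ Sum.inr)
  z1 : ∀ x, f₁ x 0 = 0
  z2 : ∀ x, f₂ 0 x = 0
  z3 : ∀ x, f₂ x 0 = 0
  z4 : ∀ x, f₁ 0 x = 0
  n1 : ∀ x, (∀ y, f₁ x y = 0) → x = 0

variable {f : (ι → F) → (ι → F) → F} {f₁ : (κ₁ → F) → (κ₁ → F) → F} {f₂ : (κ₂ → F) → (κ₂ → F) → F}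
    {P : Matrix ι (κ₁ ⊕ κ₂) F} {Q : Matrix (κ₁ ⊕ κ₂) ι F}

theorem Data.PQv (h : Data f f₁ f₂ P Q) (v : ι → F) : P *ᵥ (Q *ᵥ v) = v := by rw [mulVec_mulVec, h.PQ, one_mulVec]
theorem Data.QPv (h : Data f f₁ f₂ P Q) (v : κ₁ ⊕ κ₂ → F) : Q *ᵥ (P *ᵥ v) = v := by rw [mulVec_mulVec, h.QP, one_mulVec]

/-- block diagonal element -/
def bd (h : Data f f₁ f₂ P Q) : GL κ₁ F × GL κ₂ F →* GL ι F where
  toFun x := ⟨P * fromBlocks x.1.1 0 0 x.2.1 * Q, P * fromBlocks (x.1⁻¹ : GL κ₁ F).1 0 0 (x.2⁻¹ : GL κ₂ F).1 * Q, by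
      have e : P * fromBlocks x.1.1 0 0 x.2.1 * Q * (P * fromBlocks (x.1⁻¹ : GL κ₁ F).1 0 0 (x.2⁻¹ : GL κ₂ F).1 * Q) =
        P * (fromBlocks x.1.1 0 0 x.2.1 * (Q * P) * fromBlocks (x.1⁻¹ : GL κ₁ F).1 0 0 (x.2⁻¹ : GL κ₂ F).1) * Q := by simp only [Matrix.mul_assoc]
      rw [e, h.QP, Matrix.mul_one, fromBlocks_multiply]
      simp only [Matrix.mul_zero, Matrix.zero_mul, add_zero, zero_add, ← Units.val_mul, mul_inv_cancel, Units.val_one, fromBlocks_one, Matrix.mul_one, h.PQ], by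
      have e : P * fromBlocks (x.1⁻¹ : GL κ₁ F).1 0 0 (x.2⁻¹ : GL κ₂ F).1 * Q * (P * fromBlocks x.1.1 0 0 x.2.1 * Q) =
        P * (fromBlocks (x.1⁻¹ : GL κ₁ F).1 0 0 (x.2⁻¹ : GL κ₂ F).1 * (Q * P) * fromBlocks x.1.1 0 0 x.2.1) * Q := by simp only [Matrix.mul_assoc]
      rw [e, h.QP, Matrix.mul_one, fromBlocks_multiply]
      simp only [Matrix.mul_zero, Matrix.zero_mul, add_zero, zero_add, ← Units.val_mul, inv_mul_cancel, Units.val_one, fromBlocks_one, Matrix.mul_one, h.PQ]⟩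
  map_one' := by
    apply Units.ext
    change P * fromBlocks 1 0 0 1 * Q = 1
    rw [fromBlocks_one, Matrix.mul_one, h.PQ]
  map_mul' x y := by
    apply Units.ext
    change P * fromBlocks (x.1.1 * y.1.1) 0 0 (x.2.1 * y.2.1) * Q = P * fromBlocks x.1.1 0 0 x.2.1 * Q * (P * fromBlocks y.1.1 0 0 y.2.1 * Q)
    have e : P * fromBlocks x.1.1 0 0 x.2.1 * Q * (P * fromBlocks y.1.1 0 0 y.2.1 * Q) =
        P * (fromBlocks x.1.1 0 0 x.2.1 * (Q * P) * fromBlocks y.1.1 0 0 y.2.1) * Q := by simp only [Matrix.mul_assoc]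
    rw [e, h.QP, Matrix.mul_one, fromBlocks_multiply]
    simp

theorem bd_val (h : Data f f₁ f₂ P Q) (x : GL κ₁ F × GL κ₂ F) : (bd h x).1 = P * fromBlocks x.1.1 0 0 x.2.1 * Q := rfl

theorem bd_mulVec (h : Data f f₁ f₂ P Q) (x : GL κ₁ F × GL κ₂ F) (v : κ₁ ⊕ κ₂ → F) :
    (bd h x).1 *ᵥ (P *ᵥ v) = P *ᵥ (Sum.elim (x.1.1 *ᵥ (v ∘ Sum.inl)) (x.2.1 *ᵥ (v ∘ Sum.inr))) := by
  rw [bd_val, ← mulVec_mulVec, h.QPv, ← mulVec_mulVec]
  have e : fromBlocks x.1.1 0 0 x.2.1 *ᵥ v = Sum.elim (x.1.1 *ᵥ (v ∘ Sum.inl)) (x.2.1 *ᵥ (v ∘ Sum.inr)) := by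
    conv_lhs => rw [← Sum.elim_comp_inl_inr v]
    rw [fromBlocks_mulVec]
    simp
  rw [e]

theorem bd_injective (h : Data f f₁ f₂ P Q) : Function.Injective (bd h) := by
  intro x y hxy
  have h1 : P * fromBlocks x.1.1 0 0 x.2.1 * Q = P * fromBlocks y.1.1 0 0 y.2.1 * Q := congrArg Units.val hxy
  have h2 : Q * (P * fromBlocks x.1.1 0 0 x.2.1 * Q) * P = Q * (P * fromBlocks y.1.1 0 0 y.2.1 * Q) * P := by rw [h1]
  have e : ∀ B : Matrix (κ₁ ⊕ κ₂) (κ₁ ⊕ κ₂) F, Q * (P * B * Q) * P = B := by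
    intro B
    have : Q * (P * B * Q) * P = (Q * P) * B * (Q * P) := by simp only [Matrix.mul_assoc]
    rw [this, h.QP, Matrix.one_mul, Matrix.mul_one]
  rw [e, e, fromBlocks_inj] at h2
  exact Prod.ext (Units.ext h2.1) (Units.ext h2.2.2.2)

theorem split_equiv (h : Data f f₁ f₂ P Q) (W : Set (ι → F)) (hW : ∀ v, v ∈ W ↔ (Q *ᵥ v) ∘ Sum.inr = 0) :
    Nonempty (↥((stabilizing (Units.coeHom (Matrix ι ι F)) W).subgroupOf (Pr f)) ≃* ↥(Pr f₁) × ↥(Pr f₂)) := by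
  have hbP : ∀ x : GL κ₁ F × GL κ₂ F, x.1 ∈ Pr f₁ → x.2 ∈ Pr f₂ → bd h x ∈ Pr f := by
    intro x h1 h2 u v
    change f ((bd h x).1 *ᵥ u) ((bd h x).1 *ᵥ v) = f u v
    rw [← h.PQv u, ← h.PQv v, bd_mulVec, bd_mulVec, h.hf, h.hf]
    have e1 := h1 ((Q *ᵥ u) ∘ Sum.inl) ((Q *ᵥ v) ∘ Sum.inl)
    have e2 := h2 ((Q *ᵥ u) ∘ Sum.inr) ((Q *ᵥ v) ∘ Sum.inr)
    change f₁ (x.1.1 *ᵥ _) (x.1.1 *ᵥ _) = _ at e1
    change f₂ (x.2.1 *ᵥ _) (x.2.1 *ᵥ _) = _ at e2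
    simp only [Sum.elim_comp_inl, Sum.elim_comp_inr]
    rw [e1, e2]
  have hbW : ∀ x : GL κ₁ F × GL κ₂ F, bd h x ∈ stabilizing (Units.coeHom (Matrix ι ι F)) W := by
    intro x v
    change v ∈ W ↔ (bd h x).1 *ᵥ v ∈ W
    rw [hW, hW]
    conv_rhs => rw [← h.PQv v, bd_mulVec, h.QPv, Sum.elim_comp_inr]
    constructor
    · intro h1; rw [h1, mulVec_zero]
    · intro h1
      have h2 := congrArg (fun u => (x.2⁻¹ : GL κ₂ F).1 *ᵥ u) h1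
      simp only [mulVec_mulVec, ← Units.val_mul, inv_mul_cancel, Units.val_one, one_mulVec, mulVec_zero] at h2
      exact h2
  let Ψ : ↥(Pr f₁) × ↥(Pr f₂) →* ↥((stabilizing (Units.coeHom (Matrix ι ι F)) W).subgroupOf (Pr f)) :=
    { toFun := fun x => ⟨⟨bd h (x.1.1, x.2.1), hbP _ x.1.2 x.2.2⟩, hbW _⟩
      map_one' := by
        apply Subtype.ext; apply Subtype.ext
        exact map_one (bd h)
      map_mul' := fun x y => by
        apply Subtype.ext; apply Subtype.ext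
        exact map_mul (bd h) (x.1.1, x.2.1) (y.1.1, y.2.1) }
  have hinj : Function.Injective Ψ := by
    intro x y hxy
    have h1 : bd h (x.1.1, x.2.1) = bd h (y.1.1, y.2.1) := congrArg (fun z => z.1.1) hxy
    have h2 := bd_injective h h1
    exact Prod.ext (Subtype.ext (congrArg Prod.fst h2)) (Subtype.ext (congrArg Prod.snd h2))
  have hsurj : Function.Surjective Ψ := by
    rintro ⟨⟨g, hg⟩, hgW⟩
    have hgW' : ∀ v, v ∈ W ↔ g.1 *ᵥ v ∈ W := fun v => hgW v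
    have hgf : ∀ u v, f (g.1 *ᵥ u) (g.1 *ᵥ v) = f u v := fun u v => hg u v
    set M := Q * g.1 * P with hM
    set N := Q * (g⁻¹ : GL ι F).1 * P with hN
    have hMN : M * N = 1 := by
      have : M * N = Q * g.1 * (P * Q) * (g⁻¹ : GL ι F).1 * P := by rw [hM, hN]; simp only [Matrix.mul_assoc]
      rw [this, h.PQ, Matrix.mul_one, Matrix.mul_assoc Q, ← Units.val_mul, mul_inv_cancel, Units.val_one, Matrix.mul_one, h.QP]
    have hNM : N * M = 1 := by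
      have : N * M = Q * (g⁻¹ : GL ι F).1 * (P * Q) * g.1 * P := by rw [hM, hN]; simp only [Matrix.mul_assoc]
      rw [this, h.PQ, Matrix.mul_one, Matrix.mul_assoc Q, ← Units.val_mul, inv_mul_cancel, Units.val_one, Matrix.mul_one, h.QP]
    have hgM : ∀ x, g.1 *ᵥ (P *ᵥ x) = P *ᵥ (M *ᵥ x) := by
      intro x
      rw [mulVec_mulVec, mulVec_mulVec]
      congr 1
      have : P * M = (P * Q) * g.1 * P := by rw [hM]; simp only [Matrix.mul_assoc]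
      rw [this, h.PQ, Matrix.one_mul]
    have hMS : ∀ x : κ₁ ⊕ κ₂ → F, x ∘ Sum.inr = 0 ↔ (M *ᵥ x) ∘ Sum.inr = 0 := by
      intro x
      have h1 := hgW' (P *ᵥ x)
      rw [hW, hW, h.QPv, hgM, h.QPv] at h1
      exact h1
    have hMf : ∀ x y : κ₁ ⊕ κ₂ → F, f₁ ((M *ᵥ x) ∘ Sum.inl) ((M *ᵥ y) ∘ Sum.inl) + f₂ ((M *ᵥ x) ∘ Sum.inr) ((M *ᵥ y) ∘ Sum.inr) =
        f₁ (x ∘ Sum.inl) (y ∘ Sum.inl) + f₂ (x ∘ Sum.inr) (y ∘ Sum.inr) := by
      intro x y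
      rw [← h.hf, ← h.hf, ← hgM, ← hgM, hgf]
    have hMT : ∀ x : κ₁ ⊕ κ₂ → F, x ∘ Sum.inl = 0 → (M *ᵥ x) ∘ Sum.inl = 0 := by
      intro x hx
      apply h.n1
      intro y
      set z : κ₁ ⊕ κ₂ → F := Sum.elim y 0 with hz
      have h1 : M *ᵥ (N *ᵥ z) = z := by rw [mulVec_mulVec, hMN, one_mulVec]
      have h2 : (N *ᵥ z) ∘ Sum.inr = 0 := by
        rw [hMS, h1]; rfl
      have h3 := hMf x (N *ᵥ z)
      rw [h1, h2, hx, h.z4, h.z3, add_zero] at h3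
      have h4 : z ∘ Sum.inr = 0 := rfl
      have h5 : z ∘ Sum.inl = y := rfl
      rw [h4, h5, h.z3, add_zero] at h3
      exact h3
    have hNT : ∀ x : κ₁ ⊕ κ₂ → F, x ∘ Sum.inl = 0 → (N *ᵥ x) ∘ Sum.inl = 0 := by
      -- N is the matrix of the inverse
      intro x hx
      apply h.n1
      intro y
      set z : κ₁ ⊕ κ₂ → F := Sum.elim y 0 with hz
      have h1 : M *ᵥ (N *ᵥ x) = x := by rw [mulVec_mulVec, hMN, one_mulVec]
      have h2 : (M *ᵥ z) ∘ Sum.inr = 0 := (hMS z).1 rfl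
      have h3 := hMf (N *ᵥ x) z
      rw [h1, hx, h2, h.z4, h.z3, add_zero] at h3
      have h4 : z ∘ Sum.inr = 0 := rfl
      have h5 : z ∘ Sum.inl = y := rfl
      rw [h4, h5, h.z3, add_zero] at h3
      exact h3.symm
    have hNS : ∀ x : κ₁ ⊕ κ₂ → F, x ∘ Sum.inr = 0 → (N *ᵥ x) ∘ Sum.inr = 0 := by
      intro x hx
      rw [hMS, mulVec_mulVec, hMN, one_mulVec]; exact hx
    have blk : ∀ M' : Matrix (κ₁ ⊕ κ₂) (κ₁ ⊕ κ₂) F, (∀ x : κ₁ ⊕ κ₂ → F, x ∘ Sum.inr = 0 → (M' *ᵥ x) ∘ Sum.inr = 0) →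
        (∀ x : κ₁ ⊕ κ₂ → F, x ∘ Sum.inl = 0 → (M' *ᵥ x) ∘ Sum.inl = 0) → M' = fromBlocks M'.toBlocks₁₁ 0 0 M'.toBlocks₂₂ := by
      intro M' h1 h2
      ext i j
      rcases i with i | i <;> rcases j with j | j
      · rfl
      · have h3 := congrFun (h2 (Pi.single (Sum.inr j) 1) (by ext k; simp)) i
        simpa using h3
      · have h3 := congrFun (h1 (Pi.single (Sum.inl j) 1) (by ext k; simp)) i
        simpa using h3
      · rfl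
    have hMb := blk M (fun x hx => (hMS x).1 hx) hMT
    have hNb := blk N hNS hNT
    have e1 := hMN
    have e2 := hNM
    rw [hMb, hNb, fromBlocks_multiply, ← fromBlocks_one, fromBlocks_inj] at e1
    rw [hMb, hNb, fromBlocks_multiply, ← fromBlocks_one, fromBlocks_inj] at e2
    simp only [Matrix.mul_zero, Matrix.zero_mul, add_zero, zero_add] at e1 e2
    let A : GL κ₁ F := ⟨M.toBlocks₁₁, N.toBlocks₁₁, e1.1, e2.1⟩
    let D : GL κ₂ F := ⟨M.toBlocks₂₂, N.toBlocks₂₂, e1.2.2.2, e2.2.2.2⟩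
    have hMv : ∀ x : κ₁ ⊕ κ₂ → F, M *ᵥ x = Sum.elim (M.toBlocks₁₁ *ᵥ (x ∘ Sum.inl)) (M.toBlocks₂₂ *ᵥ (x ∘ Sum.inr)) := by
      intro x
      conv_lhs => rw [hMb, ← Sum.elim_comp_inl_inr x, fromBlocks_mulVec]
      simp
    have hA : A ∈ Pr f₁ := by
      intro u v
      change f₁ (M.toBlocks₁₁ *ᵥ u) (M.toBlocks₁₁ *ᵥ v) = f₁ u v
      have h1 := hMf (Sum.elim u 0) (Sum.elim v 0)
      rw [hMv, hMv] at h1
      simp only [Sum.elim_comp_inl, Sum.elim_comp_inr, mulVec_zero, h.z3, add_zero] at h1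
      exact h1
    have hD : D ∈ Pr f₂ := by
      intro u v
      change f₂ (M.toBlocks₂₂ *ᵥ u) (M.toBlocks₂₂ *ᵥ v) = f₂ u v
      have h1 := hMf (Sum.elim 0 u) (Sum.elim 0 v)
      rw [hMv, hMv] at h1
      simp only [Sum.elim_comp_inl, Sum.elim_comp_inr, mulVec_zero, h.z1, zero_add] at h1
      exact h1
    refine ⟨(⟨A, hA⟩, ⟨D, hD⟩), ?_⟩
    apply Subtype.ext; apply Subtype.ext; apply Units.ext
    change P * fromBlocks M.toBlocks₁₁ 0 0 M.toBlocks₂₂ * Q = g.1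
    rw [← hMb, hM]
    have : P * (Q * g.1 * P) * Q = (P * Q) * g.1 * (P * Q) := by simp only [Matrix.mul_assoc]
    rw [this, h.PQ, Matrix.one_mul, Matrix.mul_one]
  exact ⟨(MulEquiv.ofBijective Ψ ⟨hinj, hsurj⟩).symm⟩

end

end CfsgH9.Split
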