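import Mathlib
import Cfsg.Prelude
import Cfsg.Agent.H9.Split

set_option autoImplicit false

/-! Splitting of isometry groups: bases and orthogonal complements. -/

namespace CfsgH9.Split

open Matrix Cfsg

section
variable {F V : Type*} [Field F] [AddCommGroup V] [Module F V] {s1 s2 : F → F}

/-- sesquilinearity, as a property -/
structure Sq (s1 s2 : F → F) (f : V → V → F) : Prop where
  al : ∀ x y z, f (x + y) z = f x z + f y z
  ar : ∀ x y z, f x (y + z) = f x y + f x z
  sl : ∀ (a : F) x y, f (a • x) y = s1 a * f x y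
  sr : ∀ (a : F) x y, f x (a • y) = s2 a * f x y

variable {f : V → V → F}

theorem Sq.zl (h : Sq s1 s2 f) (x : V) : f 0 x = 0 := by
  have := h.al 0 0 x
  rw [add_zero] at this
  exact (add_eq_left.1 this.symm)

theorem Sq.zr (h : Sq s1 s2 f) (x : V) : f x 0 = 0 := by
  have := h.ar x 0 0
  rw [add_zero] at this
  exact (add_eq_left.1 this.symm)

theorem Sq.suml (h : Sq s1 s2 f) {κ : Type*} (s : Finset κ) (b : κ → V) (y : V) : f (∑ i ∈ s, b i) y = ∑ i ∈ s, f (b i) y := by
  classical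
  induction s using Finset.induction_on with
  | empty => simp [h.zl]
  | insert i s hi ih => rw [Finset.sum_insert hi, Finset.sum_insert hi, h.al, ih]

theorem Sq.sumr (h : Sq s1 s2 f) {κ : Type*} (s : Finset κ) (b : κ → V) (y : V) : f y (∑ i ∈ s, b i) = ∑ i ∈ s, f y (b i) := by
  classical
  induction s using Finset.induction_on with
  | empty => simp [h.zr]
  | insert i s hi ih => rw [Finset.sum_insert hi, Finset.sum_insert hi, h.ar, ih]

theorem Sq.expand (h : Sq s1 s2 f) {κ κ' : Type*} [Fintype κ] [Fintype κ'] (b : κ → V) (b' : κ' → V) (x : κ → F) (y : κ' → F) :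
    f (∑ i, x i • b i) (∑ j, y j • b' j) = ∑ i, ∑ j, s1 (x i) * (s2 (y j) * f (b i) (b' j)) := by
  rw [h.suml]
  refine Finset.sum_congr rfl (fun i _ => ?_)
  rw [h.sl, h.sumr, Finset.mul_sum]
  refine Finset.sum_congr rfl (fun j _ => ?_)
  rw [h.sr]

theorem single_sum {κ : Type*} [Fintype κ] [DecidableEq κ] (x : κ → F) : x = ∑ i, x i • (Pi.single i 1 : κ → F) := by
  ext k
  simp [Finset.sum_apply, Pi.single_apply]

end

section
variable {F : Type*} [Field F] {ι κ₁ κ₂ : Type} [Fintype ι] [DecidableEq ι] [Fintype κ₁] [DecidableEq κ₁] [Fintype κ₂] [DecidableEq κ₂]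
variable {s1 s2 : F → F} {f : (ι → F) → (ι → F) → F} {f₁ : (κ₁ → F) → (κ₁ → F) → F} {f₂ : (κ₂ → F) → (κ₂ → F) → F}

theorem split_main (hf : Sq s1 s2 f) (h1 : Sq s1 s2 f₁) (h2 : Sq s1 s2 f₂) {W W' : Submodule F (ι → F)} (hc : IsCompl W W')
    (b : Module.Basis κ₁ F W) (c : Module.Basis κ₂ F W')
    (hW1 : ∀ w ∈ W, ∀ v ∈ W', f w v = 0) (hW2 : ∀ w ∈ W, ∀ v ∈ W', f v w = 0)
    (g1 : ∀ i j, f (b i) (b j) = f₁ (Pi.single i 1) (Pi.single j 1))
    (g2 : ∀ i j, f (c i) (c j) = f₂ (Pi.single i 1) (Pi.single j 1))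
    (n1 : ∀ x, (∀ y, f₁ x y = 0) → x = 0) :
    Nonempty (↥((stabilizing (Units.coeHom (Matrix ι ι F)) (W : Set (ι → F))).subgroupOf (Pr f)) ≃* ↥(Pr f₁) × ↥(Pr f₂)) := by
  set T : Module.Basis (κ₁ ⊕ κ₂) F (ι → F) := (b.prod c).map (Submodule.prodEquivOfIsCompl W W' hc) with hT
  have hTl : ∀ i, T (Sum.inl i) = b i := by intro i; simp [hT]
  have hTr : ∀ i, T (Sum.inr i) = c i := by intro i; simp [hT]
  have hTW : ∀ v, v ∈ W ↔ ∀ j, T.repr v (Sum.inr j) = 0 := by
    intro v
    have e : ∀ j, T.repr v (Sum.inr j) = c.repr ((Submodule.prodEquivOfIsCompl W W' hc).symm v).2 j := by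
      intro j
      rw [hT, Module.Basis.map_repr, LinearEquiv.trans_apply, Module.Basis.prod_repr_inr]
    rw [← Submodule.prodEquivOfIsCompl_symm_apply_snd_eq_zero W W' hc]
    constructor
    · intro h j; rw [e, h, map_zero]; rfl
    · intro h
      apply c.repr.injective
      ext j
      rw [← e, h, map_zero]; rfl
  set P : Matrix ι (κ₁ ⊕ κ₂) F := (Pi.basisFun F ι).toMatrix T with hP
  set Q : Matrix (κ₁ ⊕ κ₂) ι F := T.toMatrix (Pi.basisFun F ι) with hQ
  have hPx : ∀ x : κ₁ ⊕ κ₂ → F, P *ᵥ x = ∑ k, x k • T k := by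
    intro x
    ext i
    simp only [hP, mulVec, dotProduct, Module.Basis.toMatrix_apply, Pi.basisFun_repr, Finset.sum_apply, Pi.smul_apply, smul_eq_mul]
    exact Finset.sum_congr rfl (fun k _ => mul_comm _ _)
  have hQv : ∀ v : ι → F, Q *ᵥ v = ⇑(T.repr v) := by
    intro v
    have := Module.Basis.toMatrix_mulVec_repr (Pi.basisFun F ι) T v
    rw [← this]
    rfl
  have hD : Data f f₁ f₂ P Q := by
    refine ⟨?_, ?_, ?_, h1.zr, h2.zl, h2.zr, h1.zl, n1⟩
    · exact (Pi.basisFun F ι).toMatrix_mul_toMatrix_flip T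
    · exact T.toMatrix_mul_toMatrix_flip (Pi.basisFun F ι)
    · intro x y
      rw [hPx, hPx, hf.expand, Fintype.sum_sum_type]
      simp only [Fintype.sum_sum_type]
      simp only [hTl, hTr, g1, g2]
      have e1 : ∀ i j, f (b i) (c j) = 0 := fun i j => hW1 _ (b i).2 _ (c j).2
      have e2 : ∀ i j, f (c i) (b j) = 0 := fun i j => hW2 _ (b j).2 _ (c i).2
      simp only [e1, e2, mul_zero, Finset.sum_const_zero, add_zero, zero_add]
      conv_rhs => rw [single_sum (x ∘ Sum.inl), single_sum (y ∘ Sum.inl), single_sum (x ∘ Sum.inr), single_sum (y ∘ Sum.inr), h1.expand, h2.expand]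
      rfl
  refine split_equiv hD (W : Set (ι → F)) ?_
  intro v
  rw [SetLike.mem_coe, hTW, hQv]
  constructor
  · intro h; ext j; exact h j
  · intro h j; exact congrFun h j

/-- orthogonal complement for `f` (right) -/
def perp {f : (ι → F) → (ι → F) → F} (hf : Sq s1 (fun a => a) f) (W : Submodule F (ι → F)) : Submodule F (ι → F) where
  carrier := {v | ∀ w ∈ W, f w v = 0}
  add_mem' := by intro a b ha hb w hw; rw [hf.ar, ha w hw, hb w hw, add_zero]
  zero_mem' := by intro w _; exact hf.zr w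
  smul_mem' := by intro c x hx w hw; rw [hf.sr, hx w hw, mul_zero]

theorem isCompl_perp (hf : Sq s1 (fun a => a) f) {W : Submodule F (ι → F)} (hrefl : ∀ x y, f x y = 0 → f y x = 0)
    (hW : ∀ u ∈ W, (∀ v ∈ W, f u v = 0) → u = 0) : IsCompl W (perp hf W) := by
  have hdis : Disjoint W (perp hf W) := by
    rw [Submodule.disjoint_def]
    intro x hx hx'
    exact hW x hx (fun v hv => hrefl _ _ (hx' v hv))
  refine ⟨hdis, ?_⟩
  rw [codisjoint_iff]
  set k := Module.finrank F W with hk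
  let w : Module.Basis (Fin k) F W := Module.finBasis F W
  let L : (ι → F) →ₗ[F] (Fin k → F) :=
    { toFun := fun v i => f (w i) v
      map_add' := by intro a b; ext i; exact hf.ar _ _ _
      map_smul' := by intro a b; ext i; exact hf.sr _ _ _ }
  have hker : LinearMap.ker L ≤ perp hf W := by
    intro v hv x hx
    have h1 : ∀ i, f (w i) v = 0 := fun i => congrFun (show L v = 0 from hv) i
    have h2 : x = ∑ i, (w.repr ⟨x, hx⟩ i) • (w i : ι → F) := by
      have := congrArg (Submodule.subtype W) (w.sum_repr ⟨x, hx⟩)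
      rw [map_sum] at this
      simpa using this.symm
    rw [h2, hf.suml]
    exact Finset.sum_eq_zero (fun i _ => by rw [hf.sl, h1, mul_zero])
  have hr := LinearMap.finrank_range_add_finrank_ker L
  have h1 : Module.finrank F (LinearMap.range L) ≤ k := by
    have := Submodule.finrank_le (LinearMap.range L)
    rwa [Module.finrank_fintype_fun_eq_card, Fintype.card_fin] at this
  have h2 := Submodule.finrank_mono hker
  have h3 := Submodule.finrank_sup_add_finrank_inf_eq W (perp hf W)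
  rw [hdis.eq_bot, finrank_bot, add_zero] at h3
  apply Submodule.eq_top_of_finrank_eq
  have h4 := Submodule.finrank_le (W ⊔ perp hf W)
  omega

theorem perp_nondeg (hf : Sq s1 (fun a => a) f) {W : Submodule F (ι → F)} (hrefl : ∀ x y, f x y = 0 → f y x = 0)
    (hW : ∀ u ∈ W, (∀ v ∈ W, f u v = 0) → u = 0) (hn : ∀ u, (∀ v, f u v = 0) → u = 0) :
    ∀ u ∈ perp hf W, (∀ v ∈ perp hf W, f u v = 0) → u = 0 := by
  intro u hu h
  apply hn
  intro v
  have hc := isCompl_perp hf hrefl hW
  obtain ⟨a, ha, b, hb, rfl⟩ := Submodule.mem_sup.1 (show v ∈ W ⊔ perp hf W by rw [hc.sup_eq_top]; trivial)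
  rw [hf.ar, h b hb, hrefl _ _ (hu a ha), add_zero]

end

end CfsgH9.Split
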