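import Mathlib
import Cfsg.Prelude
import Cfsg.Agent.H9.PM
import Cfsg.Agent.H9.Alt
import Cfsg.Agent.H9.SpBridge
import Cfsg.Agent.H9.Split2

set_option autoImplicit false

/-! The heart of the permutation module over the field with two elements: symplectic form. -/

namespace CfsgH9.PM

open Matrix Cfsg Equiv

variable {n : ℕ}

theorem finrank_E0 (hn : 1 ≤ n) : Module.finrank (ZMod 2) (E0 n) + 1 = n := by
  classical
  let L : (Fin (n + 1) → ZMod 2) →ₗ[ZMod 2] (ZMod 2 × ZMod 2) :=
    { toFun := fun v => (∑ i, v i, v (Fin.last n))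
      map_add' := by intro u v; ext <;> simp [Finset.sum_add_distrib]
      map_smul' := by intro c v; ext <;> simp [Finset.mul_sum] }
  have hker : LinearMap.ker L = E0 n := by
    ext v
    rw [LinearMap.mem_ker]
    constructor
    · intro h
      exact ⟨congrArg Prod.fst h, congrArg Prod.snd h⟩
    · rintro ⟨h1, h2⟩
      exact Prod.ext h1 h2
  have hne : (0 : Fin (n + 1)) ≠ Fin.last n := by
    intro h
    have := congrArg Fin.val h
    rw [Fin.val_zero, Fin.val_last] at this
    omega
  have hsurj : LinearMap.range L = ⊤ := by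
    rw [LinearMap.range_eq_top]
    rintro ⟨a, b⟩
    refine ⟨Pi.single 0 (a - b) + Pi.single (Fin.last n) b, ?_⟩
    ext
    · change ∑ i, (Pi.single 0 (a - b) + Pi.single (Fin.last n) b : Fin (n + 1) → ZMod 2) i = a
      simp only [Pi.add_apply]
      rw [Finset.sum_add_distrib, Finset.sum_pi_single', Finset.sum_pi_single']
      simp
    · change (Pi.single 0 (a - b) + Pi.single (Fin.last n) b : Fin (n + 1) → ZMod 2) (Fin.last n) = b
      rw [Pi.add_apply, Pi.single_eq_same, Pi.single_eq_of_ne hne.symm, zero_add]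
  have := LinearMap.finrank_range_add_finrank_ker L
  rw [hsurj, finrank_top, hker, Module.finrank_prod, Module.finrank_self, Module.finrank_fintype_fun_eq_card, Fintype.card_fin] at this
  omega

/-- the dot product -/
def dB (n : ℕ) : LinearMap.BilinForm (ZMod 2) (E0 n) :=
  LinearMap.mk₂ (ZMod 2) (fun u v => ∑ i, u.1 i * v.1 i)
    (by intro u u' v; simp only [Submodule.coe_add, Pi.add_apply, add_mul, Finset.sum_add_distrib])
    (by intro c u v; simp only [Submodule.coe_smul, Pi.smul_apply, smul_eq_mul, mul_assoc, Finset.mul_sum])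
    (by intro u u' v; simp only [Submodule.coe_add, Pi.add_apply, mul_add, Finset.sum_add_distrib])
    (by
      intro c u v
      simp only [Submodule.coe_smul, Pi.smul_apply, smul_eq_mul, Finset.mul_sum]
      exact Finset.sum_congr rfl (fun i _ => by ring))

theorem dB_apply (u v : E0 n) : dB n u v = ∑ i, u.1 i * v.1 i := rfl

theorem dB_alt : (dB n).IsAlt := by
  intro v
  rw [dB_apply]
  have : ∀ x : ZMod 2, x * x = x := by decide
  simp only [this]
  exact v.2.1

theorem dB_nondeg (hn : ((n + 1 : ℕ) : ZMod 2) = 0) (v : E0 n) (hv : v ≠ 0) : ∃ u, dB n v u ≠ 0 := by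
  classical
  by_contra hcon
  push Not at hcon
  -- all coordinates different from the last are equal
  have h1 : ∀ a b : Fin (n + 1), a ≠ Fin.last n → b ≠ Fin.last n → v.1 a + v.1 b = 0 := by
    intro a b ha hb
    have := hcon ⟨_, pair_mem ha hb⟩
    rw [dB_apply] at this
    simpa [mul_add, Finset.sum_add_distrib, Pi.single_apply] using this
  have hv' : ∃ a, v.1 a ≠ 0 := by
    by_contra h
    push Not at h
    exact hv (Subtype.ext (funext h))
  obtain ⟨a, ha⟩ := hv'
  have hal : a ≠ Fin.last n := by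
    rintro rfl
    exact ha v.2.2
  have ha1 := (zmod2 _).resolve_left ha
  have h2 : ∀ b : Fin n, v.1 (Fin.castSucc b) = 1 := by
    intro b
    have := h1 a (Fin.castSucc b) hal (Fin.castSucc_lt_last b).ne
    rw [ha1] at this
    revert this
    generalize v.1 (Fin.castSucc b) = x
    revert x; decide
  have h3 := v.2.1
  rw [Fin.sum_univ_castSucc, v.2.2] at h3
  simp only [h2] at h3
  rw [Finset.sum_const, Finset.card_univ, Fintype.card_fin, nsmul_eq_mul, mul_one, add_zero] at h3
  push_cast at hn
  rw [h3] at hn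
  exact absurd hn (by decide)

open CfsgH9.SpBridge in
/-- the symplectic representation -/
theorem exists_sp (m : ℕ) (hm : 2 ≤ m) :
    ∃ f : Perm (Fin (2 * m + 1 + 1)) →* Matrix.symplecticGroup (Fin m) (ZMod 2), Function.Injective f := by
  have hn : ((2 * m + 1 + 1 : ℕ) : ZMod 2) = 0 := by
    rw [show 2 * m + 1 + 1 = 2 * (m + 1) by ring, Nat.cast_mul]
    have : ((2 : ℕ) : ZMod 2) = 0 := by decide
    rw [this, zero_mul]
  obtain ⟨m', b, hb, hm'⟩ := CfsgH9.Alt.exists_basis (B := dB (2 * m + 1)) (fun x hx => dB_nondeg hn x hx) dB_alt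
  have hd := finrank_E0 (n := 2 * m + 1) (by omega)
  obtain rfl : m' = m := by omega
  obtain ⟨ρ, hρ, hinj⟩ := exists_rho hn b.equivFun.symm
  have hform : ∀ x y : Fin m' ⊕ Fin m' → ZMod 2, sympForm m' (ZMod 2) x y = dB (2 * m' + 1) (b.equivFun.symm x) (b.equivFun.symm y) := by
    intro x y
    have hb' := (CfsgH9.SpGen.sympForm_isSymplectic (F := ZMod 2) m').bilinear
    have e1 : x = ∑ i, x i • (Pi.single i 1 : Fin m' ⊕ Fin m' → ZMod 2) := by
      ext k; simp [Finset.sum_apply, Pi.single_apply]
    have e2 : y = ∑ i, y i • (Pi.single i 1 : Fin m' ⊕ Fin m' → ZMod 2) := by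
      ext k; simp [Finset.sum_apply, Pi.single_apply]
    have hs1 : Split.Sq (V := Fin m' ⊕ Fin m' → ZMod 2) (fun a => a) (fun a => a) (sympForm m' (ZMod 2)) :=
      ⟨hb'.add_left, hb'.add_right, hb'.smul_left, hb'.smul_right⟩
    have hs2 : Split.Sq (V := E0 (2 * m' + 1)) (fun a : ZMod 2 => a) (fun a => a) (fun u v => dB (2 * m' + 1) u v) :=
      ⟨fun x y z => by rw [map_add]; rfl, fun x y z => by rw [map_add], fun a x y => by rw [map_smul]; rfl, fun a x y => by rw [map_smul]; rfl⟩
    rw [Module.Basis.equivFun_symm_apply, Module.Basis.equivFun_symm_apply]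
    conv_lhs => rw [e1, e2, hs1.expand]
    refine Eq.trans ?_ (hs2.expand _ _ _ _).symm
    refine Finset.sum_congr rfl (fun i _ => Finset.sum_congr rfl (fun j _ => ?_))
    rw [hb]
    congr 2
    have hneg : ∀ z : ZMod 2, -z = z := by decide
    rw [← hneg (CfsgH9.Alt.gram _ _ _ _)]
    rw [sympForm, Matrix.J]
    rcases i with i | i <;> rcases j with j | j <;> simp [CfsgH9.Alt.gram, Matrix.one_apply]
  refine ⟨MonoidHom.mk' (fun g => ⟨(ρ g).1, ?_⟩) ?_, ?_⟩
  · rw [mem_iff]
    intro u v
    rw [hform, hform, hρ, hρ, dB_apply, T_dot, dB_apply]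
  · intro g h
    apply Subtype.ext
    change (ρ (g * h)).1 = (ρ g).1 * (ρ h).1
    rw [map_mul]; rfl
  · intro g h hgh
    apply hinj (by omega)
    apply Units.ext
    exact congrArg Subtype.val hgh

end CfsgH9.PM
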