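import Mathlib
import Cfsg.Prelude
import Cfsg.Agent.H9.PM

set_option autoImplicit false

/-! The heart of the permutation module over the field with two elements: quadratic form. -/

namespace CfsgH9.PM

open Matrix Cfsg Equiv

/-- transfer of isometry groups along a field isomorphism -/
theorem exists_isoMap {F K : Type*} [Field F] [Field K] (e : F ≃+* K) {ι : Type} [Fintype ι] [DecidableEq ι]
    {QF : (ι → F) → F} {QK : (ι → K) → K} (h : ∀ v : ι → F, QK (fun i => e (v i)) = e (QF v)) :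
    ∃ f : isometryGroup F QF →* isometryGroup K QK, Function.Injective f := by
  have key : ∀ g ∈ isometryGroup F QF, Matrix.GeneralLinearGroup.map (e : F →+* K) g ∈ isometryGroup K QK := by
    intro g hg u w
    change QK ((g.1.map e) *ᵥ u) = QK u
    have hg' : ∀ v, QF (g.1 *ᵥ v) = QF v := fun v => hg v v
    have e1 : u = fun i => e (e.symm (u i)) := by ext i; simp
    have e2 : (g.1.map e) *ᵥ u = fun i => e ((g.1 *ᵥ (fun i => e.symm (u i))) i) := by
      ext i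
      simp [mulVec, dotProduct, map_sum]
    rw [e2, h, hg', ← h]
    congr 1
    ext i; simp
  refine ⟨((Matrix.GeneralLinearGroup.map (e : F →+* K)).comp (Subgroup.subtype _)).codRestrict _ (fun g => key g.1 g.2), ?_⟩
  intro a b hab
  apply Subtype.ext
  apply Units.ext
  have h1 := congrArg (fun x : isometryGroup K QK => (x : GL ι K).1) hab
  ext i j
  apply e.injective
  exact congrFun (congrFun h1 i) j

/-- half the weight -/
def wtq {N : ℕ} (v : Fin N → ZMod 2) : ZMod 2 := (((Finset.univ.filter (fun i => v i ≠ 0)).card / 2 : ℕ) : ZMod 2)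

theorem card_comp {N : ℕ} (v : Fin N → ZMod 2) (g : Perm (Fin N)) :
    (Finset.univ.filter (fun i => v (g i) ≠ 0)).card = (Finset.univ.filter (fun i => v i ≠ 0)).card := by
  apply Finset.card_bij (fun i _ => g i)
  · intro a ha; simpa using ha
  · intro a _ b _ h; exact g.injective h
  · intro b hb
    refine ⟨g⁻¹ b, ?_, by simp⟩
    simpa using hb

theorem even_wt {N : ℕ} (v : Fin N → ZMod 2) (hv : ∑ i, v i = 0) : Even (Finset.univ.filter (fun i => v i ≠ 0)).card := by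
  have h1 : ∑ i, v i = ((Finset.univ.filter (fun i => v i ≠ 0)).card : ZMod 2) := by
    have e : ∀ x : ZMod 2, x = if x ≠ 0 then 1 else 0 := by decide
    rw [Finset.sum_congr rfl (fun i _ => e (v i)), Finset.sum_ite, Finset.sum_const, Finset.sum_const_zero, add_zero, nsmul_eq_mul, mul_one]
  rw [hv] at h1
  exact (ZMod.natCast_eq_zero_iff_even).1 h1.symm

theorem wtq_T8 (hn : ((7 + 1 : ℕ) : ZMod 2) = 0) (g : Perm (Fin 8)) (v : E0 7) : wtq (T (n := 7) hn g v).1 = wtq v.1 := by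
  rcases zmod2 (v.1 (g⁻¹ (Fin.last 7))) with hc | hc
  · have e : (T (n := 7) hn g v).1 = fun i => v.1 (g⁻¹ i) := by
      ext i; rw [T_apply, hc, add_zero]
    rw [e, wtq, wtq, card_comp v.1 g⁻¹]
  · have e : (T (n := 7) hn g v).1 = fun i => v.1 (g⁻¹ i) + 1 := by
      ext i; rw [T_apply, hc]
    have h1 := card_comp v.1 g⁻¹
    have h2 : (Finset.univ.filter (fun i => v.1 (g⁻¹ i) + 1 ≠ 0)).card + (Finset.univ.filter (fun i => v.1 (g⁻¹ i) ≠ 0)).card = 8 := by
      have h3 := Finset.card_filter_add_card_filter_not (s := (Finset.univ : Finset (Fin 8))) (fun i => v.1 (g⁻¹ i) + 1 ≠ 0)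
      rw [Finset.card_univ, Fintype.card_fin] at h3
      refine Eq.trans ?_ h3
      congr 2
      ext i
      simp only [Finset.mem_filter, Finset.mem_univ, true_and]
      generalize v.1 (g⁻¹ i) = x
      revert x; decide
    have h3 := even_wt v.1 v.2.1
    rw [e, wtq, wtq]
    rw [← h1] at h3 ⊢
    obtain ⟨k, hk⟩ := h3
    rw [hk] at h2 ⊢
    have h4 : (Finset.univ.filter (fun i => v.1 (g⁻¹ i) + 1 ≠ 0)).card = 8 - (k + k) := by omega
    rw [h4]
    have h5 : k ≤ 4 := by omega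
    revert h5
    clear * -
    intro h5
    interval_cases k <;> decide

/-- explicit coordinates -/
def P8 : Matrix (Fin 8) (Fin 3 ⊕ Fin 3) (ZMod 2) := Matrix.of (fun i j => Sum.elim (fun k => (![![1,1,0],![1,0,0],![1,0,1],![1,1,1],![0,1,1],![0,1,0],![0,0,1],![0,0,0]] : Fin 8 → Fin 3 → ZMod 2) i k)
  (fun k => (![![1,0,1],![1,1,1],![1,0,0],![0,1,0],![1,1,0],![0,1,1],![0,0,1],![0,0,0]] : Fin 8 → Fin 3 → ZMod 2) i k) j)

theorem P8_mem (x : Fin 3 ⊕ Fin 3 → ZMod 2) : P8 *ᵥ x ∈ E0 7 := by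
  change (∑ i, (P8 *ᵥ x) i = 0 ∧ (P8 *ᵥ x) (Fin.last 7) = 0)
  revert x
  decide +kernel

theorem P8_inj (x : Fin 3 ⊕ Fin 3 → ZMod 2) (h : P8 *ᵥ x = 0) : x = 0 := by
  revert x
  decide +kernel

theorem P8_q (x : Fin 3 ⊕ Fin 3 → ZMod 2) : wtq (P8 *ᵥ x) = quadFormPlus 3 (ZMod 2) x := by
  unfold wtq quadFormPlus
  revert x
  decide +kernel

def P6 : Matrix (Fin 6) ((Fin 1 ⊕ Fin 1) ⊕ Fin 2) (ZMod 2) := Matrix.of (fun i j => Sum.elim (Sum.elim (fun _ => (![1,1,1,1,0,0] : Fin 6 → ZMod 2) i) (fun _ => (![1,1,1,0,1,0] : Fin 6 → ZMod 2) i))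
  (fun k => (![![1,1],![1,0],![0,1],![0,0],![0,0],![0,0]] : Fin 6 → Fin 2 → ZMod 2) i k) j)

theorem P6_mem (x : (Fin 1 ⊕ Fin 1) ⊕ Fin 2 → ZMod 2) : P6 *ᵥ x ∈ E0 5 := by
  change (∑ i, (P6 *ᵥ x) i = 0 ∧ (P6 *ᵥ x) (Fin.last 5) = 0)
  revert x
  decide +kernel

theorem P6_inj (x : (Fin 1 ⊕ Fin 1) ⊕ Fin 2 → ZMod 2) (h : P6 *ᵥ x = 0) : x = 0 := by
  revert x
  decide +kernel

theorem P6_q (x : (Fin 1 ⊕ Fin 1) ⊕ Fin 2 → ZMod 2) : wtq (P6 *ᵥ x) = quadFormMinus 1 (ZMod 2) 1 1 x := by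
  unfold wtq quadFormMinus
  revert x
  decide +kernel

end CfsgH9.PM
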