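import Mathlib
import Cfsg.Prelude
import Cfsg.Agent.H9.Og11


set_option autoImplicit false

/-! Exceptional isomorphisms for orthogonal groups: general tools. -/

namespace CfsgH9.PO

open Matrix Cfsg CfsgH9.Og CfsgH9.ClForms

theorem po_equiv {X Y Γ : Type*} [Group X] [Finite X] [Group Y] [Group Γ] [Finite Γ] (ρ : X →* Γ) (π : X →* Y)
    (hπ : Function.Surjective π) (h1 : ∀ x, ρ x ∈ commutator Γ) (h2 : Nat.card (commutator Γ) ≤ Nat.card ρ.range)
    (h3 : ∀ x, π x = 1 ↔ ∀ y, ρ (x * y) = ρ (y * x)) :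
    Nonempty ((commutator Γ) ⧸ Subgroup.center (commutator Γ) ≃* Y) := by
  have hle : ρ.range ≤ commutator Γ := by
    rintro _ ⟨x, rfl⟩; exact h1 x
  have heq : ρ.range = commutator Γ := Subgroup.eq_of_le_of_card_ge hle h2
  have hs : ∀ z ∈ commutator Γ, ∃ x, ρ x = z := by
    intro z hz
    rw [← heq] at hz
    exact hz
  let ρ' : X →* commutator Γ := ρ.codRestrict _ h1
  have hρ' : ∀ x, (ρ' x : Γ) = ρ x := fun x => rfl
  have hs' : Function.Surjective ρ' := by
    rintro ⟨z, hz⟩
    obtain ⟨x, hx⟩ := hs z hz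
    exact ⟨x, Subtype.ext hx⟩
  let τ : X →* (commutator Γ) ⧸ Subgroup.center (commutator Γ) := (QuotientGroup.mk' _).comp ρ'
  have hτs : Function.Surjective τ := (QuotientGroup.mk'_surjective _).comp hs'
  have hker : τ.ker = π.ker := by
    ext x
    rw [MonoidHom.mem_ker, MonoidHom.mem_ker, h3]
    change (QuotientGroup.mk (ρ' x) : (commutator Γ) ⧸ Subgroup.center (commutator Γ)) = 1 ↔ _
    rw [QuotientGroup.eq_one_iff, Subgroup.mem_center_iff]
    constructor
    · intro h y
      have h4 := congrArg Subtype.val (h (ρ' y))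
      rw [map_mul, map_mul]
      exact h4.symm
    · intro h z
      obtain ⟨y, rfl⟩ := hs' z
      apply Subtype.ext
      have h4 := h y
      rw [map_mul, map_mul] at h4
      exact h4.symm
  exact ⟨(QuotientGroup.quotientKerEquivOfSurjective τ hτs).symm.trans ((QuotientGroup.quotientMulEquivOfEq hker).trans
    (QuotientGroup.quotientKerEquivOfSurjective π hπ))⟩

theorem card_range {X Γ : Type*} [Group X] [Finite X] [Group Γ] (ρ : X →* Γ) : Nat.card X = Nat.card ρ.range * Nat.card ρ.ker := by
  have h1 := Subgroup.card_mul_index ρ.ker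
  rw [Subgroup.index_ker] at h1
  rw [← h1, mul_comm]

/-- scalar matrices of determinant one -/
theorem ker_le_two {F : Type*} [Field F] {X : Type*} [Group X] [Finite X] {ι : Type} [Fintype ι] [DecidableEq ι] [Nonempty ι] (H : Subgroup X) (val : X → Matrix ι ι F)
    (hval : Function.Injective val) (h : ∀ x ∈ H, ∃ c : F, c ^ 2 = 1 ∧ val x = c • 1) : Nat.card H ≤ 2 := by
  classical
  have h0 : ∀ x : H, ∃ c : Fin 2, val x.1 = (if c = 0 then (1 : F) else -1) • (1 : Matrix ι ι F) := by
    intro x
    obtain ⟨c, hc, hx⟩ := h x.1 x.2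
    have h2 : (c - 1) * (c + 1) = 0 := by linear_combination hc
    rcases mul_eq_zero.1 h2 with h1 | h1
    · exact ⟨0, by rw [if_pos rfl, hx, sub_eq_zero.1 h1]⟩
    · exact ⟨1, by rw [if_neg (by decide), hx, eq_neg_of_add_eq_zero_left h1]⟩
  choose s hs using h0
  have hinj : Function.Injective s := by
    intro x y hxy
    apply Subtype.ext
    apply hval
    rw [hs, hs, hxy]
  have := Nat.card_le_card_of_injective s hinj
  rwa [Nat.card_eq_fintype_card (α := Fin 2), Fintype.card_fin] at this

/-- subgroups embedded in square roots of one -/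
theorem card_le_two' {F : Type*} [Field F] {X : Type*} [Group X] [Finite X] (H : Subgroup X) (val : X → F)
    (hinj : ∀ x ∈ H, ∀ y ∈ H, val x = val y → x = y) (h : ∀ x ∈ H, (val x) ^ 2 = 1) : Nat.card H ≤ 2 := by
  classical
  let s : H → Fin 2 := fun x => if val x.1 = 1 then 0 else 1
  have hs : Function.Injective s := by
    intro x y hxy
    apply Subtype.ext
    apply hinj _ x.2 _ y.2
    have key : ∀ z : H, val z.1 = 1 ∨ val z.1 = -1 := by
      intro z
      have h2 : (val z.1 - 1) * (val z.1 + 1) = 0 := by linear_combination h _ z.2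
      rcases mul_eq_zero.1 h2 with h1 | h1
      · left; exact sub_eq_zero.1 h1
      · right; exact eq_neg_of_add_eq_zero_left h1
    simp only [s] at hxy
    by_cases hx : val x.1 = 1 <;> by_cases hy : val y.1 = 1
    · rw [hx, hy]
    · rw [if_pos hx, if_neg hy] at hxy; exact absurd hxy (by decide)
    · rw [if_neg hx, if_pos hy] at hxy; exact absurd hxy (by decide)
    · rw [(key x).resolve_left hx, (key y).resolve_left hy]
  have := Nat.card_le_card_of_injective s hs
  rwa [Nat.card_eq_fintype_card (α := Fin 2), Fintype.card_fin] at this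

theorem card_le_one' {F : Type*} [Field F] (h2 : (2 : F) = 0) {X : Type*} [Group X] [Finite X] (H : Subgroup X) (val : X → F)
    (hinj : ∀ x ∈ H, ∀ y ∈ H, val x = val y → x = y) (h : ∀ x ∈ H, (val x) ^ 2 = 1) : Nat.card H ≤ 1 := by
  have h1 : ∀ x ∈ H, val x = 1 := by
    intro x hx
    have h3 : (val x - 1) ^ 2 = 0 := by linear_combination h x hx + (1 - val x) * h2
    exact sub_eq_zero.1 (pow_eq_zero_iff two_ne_zero |>.1 h3)
  haveI : Subsingleton H := ⟨fun x y => Subtype.ext (hinj _ x.2 _ y.2 (by rw [h1 _ x.2, h1 _ y.2]))⟩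
  exact Finite.card_le_one_iff_subsingleton.2 inferInstance

/-- when the image has index two -/
theorem comm_le_of_index {X Γ : Type*} [Group X] [Finite X] [Group Γ] [Finite Γ] (ρ : X →* Γ)
    (h : Nat.card Γ = 2 * Nat.card ρ.range) : Nat.card (commutator Γ) ≤ Nat.card ρ.range := by
  have h1 := Subgroup.card_mul_index ρ.range
  have h0 : 0 < Nat.card ρ.range := Nat.card_pos
  have h2 : ρ.range.index = 2 := by
    rw [h, mul_comm 2] at h1
    exact Nat.eq_of_mul_eq_mul_left h0 h1
  haveI : ρ.range.Normal := Subgroup.normal_of_index_eq_two h2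
  have h3 : commutator Γ ≤ ρ.range := by
    rw [← Subgroup.Normal.quotient_commutative_iff_commutator_le]
    have h4 : Nat.card (Γ ⧸ ρ.range) = 2 := h2
    haveI : Fact (Nat.Prime 2) := ⟨Nat.prime_two⟩
    haveI : IsCyclic (Γ ⧸ ρ.range) := isCyclic_of_prime_card h4
    exact ⟨⟨fun a b => IsCyclic.commGroup.mul_comm a b⟩⟩
  exact Subgroup.card_le_of_le h3

end CfsgH9.PO
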