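import Mathlib
import Cfsg.Prelude
import Cfsg.Agent.H9.PO
import Cfsg.Agent.H9.Transv

set_option autoImplicit false

/-! Exceptional isomorphisms for orthogonal groups: the exterior square of a four dimensional space. -/

namespace CfsgH9.PO

open Matrix Cfsg CfsgH9.Og CfsgH9.ClForms

theorem card_final {X Γ : Type*} [Group X] [Finite X] [Group Γ] [Finite Γ] (ρ : X →* Γ) (hΓ : Nat.card Γ = 2 * Nat.card X)
    (h : ((commutator Γ).index = 4 ∧ Nat.card ρ.ker ≤ 2) ∨ ((commutator Γ).index = 2 ∧ Nat.card ρ.ker ≤ 1)) :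
    Nat.card (commutator Γ) ≤ Nat.card ρ.range := by
  have hX := card_range ρ
  have hmul := Subgroup.card_mul_index (commutator Γ)
  rw [hΓ] at hmul
  rcases h with ⟨h1, h2⟩ | ⟨h1, h2⟩
  · rw [h1, hX] at hmul
    have : Nat.card ρ.range * Nat.card ρ.ker ≤ Nat.card ρ.range * 2 := Nat.mul_le_mul_left _ h2
    omega
  · rw [h1, hX] at hmul
    have : Nat.card ρ.range * Nat.card ρ.ker ≤ Nat.card ρ.range * 1 := Nat.mul_le_mul_left _ h2
    omega

section
variable {F : Type*} [Field F]

abbrev I6 := Fin 3 ⊕ Fin 3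

/-- alternating 4 by 4 matrices -/
def toM (v : I6 → F) : Matrix (Fin 4) (Fin 4) F :=
  !![0, v (Sum.inl 0), v (Sum.inl 1), v (Sum.inl 2);
     - v (Sum.inl 0), 0, v (Sum.inr 2), - v (Sum.inr 1);
     - v (Sum.inl 1), - v (Sum.inr 2), 0, v (Sum.inr 0);
     - v (Sum.inl 2), v (Sum.inr 1), - v (Sum.inr 0), 0]

def frM (M : Matrix (Fin 4) (Fin 4) F) : I6 → F := Sum.elim ![M 0 1, M 0 2, M 0 3] ![M 2 3, - M 1 3, M 1 2]

def AltM (M : Matrix (Fin 4) (Fin 4) F) : Prop := ∀ i, M i i = 0 ∧ ∀ j, M j i = - M i j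

theorem frM_toM (v : I6 → F) : frM (toM v) = v := by
  ext i
  rcases i with i | i <;> fin_cases i <;> simp [frM, toM]

theorem alt_toM (v : I6 → F) : AltM (toM v) := by
  intro i
  refine ⟨?_, ?_⟩
  · fin_cases i <;> simp [toM]
  · intro j
    fin_cases i <;> fin_cases j <;> simp [toM]

theorem toM_frM {M : Matrix (Fin 4) (Fin 4) F} (h : AltM M) : toM (frM M) = M := by
  have h0 := (h 0).1
  have h1 := (h 1).1
  have h2 := (h 2).1
  have h3 := (h 3).1
  have h01 := (h 0).2 1
  have h02 := (h 0).2 2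
  have h03 := (h 0).2 3
  have h12 := (h 1).2 2
  have h13 := (h 1).2 3
  have h23 := (h 2).2 3
  ext i j
  fin_cases i <;> fin_cases j <;> simp [frM, toM, h0, h1, h2, h3, h01, h02, h03, h12, h13, h23]

theorem alt_conj {M : Matrix (Fin 4) (Fin 4) F} (h : AltM M) (g : Matrix (Fin 4) (Fin 4) F) : AltM (g * M * gᵀ) := by
  rw [← toM_frM h]
  generalize frM M = v
  intro i
  refine ⟨?_, ?_⟩
  · simp only [Matrix.mul_apply, Fin.sum_univ_four, Matrix.transpose_apply, toM, Matrix.of_apply, Matrix.cons_val', Matrix.cons_val_zero, Matrix.cons_val_one, Matrix.cons_val]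
    ring
  · intro j
    simp only [Matrix.mul_apply, Fin.sum_univ_four, Matrix.transpose_apply, toM, Matrix.of_apply, Matrix.cons_val', Matrix.cons_val_zero, Matrix.cons_val_one, Matrix.cons_val]
    ring

theorem toM_inj {u v : I6 → F} (h : toM u = toM v) : u = v := by
  rw [← frM_toM u, h, frM_toM]

def act (g : Matrix (Fin 4) (Fin 4) F) : Matrix I6 I6 F := LinearMap.toMatrix'
  { toFun := fun v => frM (g * toM v * gᵀ)
    map_add' := by
      intro u v
      have : toM (u + v) = toM u + toM v := by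
        ext i j; fin_cases i <;> fin_cases j <;> simp [toM] <;> ring
      rw [this, Matrix.mul_add, Matrix.add_mul]
      ext i
      rcases i with i | i <;> fin_cases i <;> simp [frM] <;> ring
    map_smul' := by
      intro c v
      have : toM (c • v) = c • toM v := by
        ext i j; fin_cases i <;> fin_cases j <;> simp [toM]
      rw [this, Matrix.mul_smul, Matrix.smul_mul]
      ext i
      rcases i with i | i <;> fin_cases i <;> simp [frM] }

theorem toM_act (g : Matrix (Fin 4) (Fin 4) F) (v : I6 → F) : toM (act g *ᵥ v) = g * toM v * gᵀ := by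
  rw [act, LinearMap.toMatrix'_mulVec]
  exact toM_frM (alt_conj (alt_toM v) g)

theorem ext6 {A B : Matrix I6 I6 F} (h : ∀ x, A *ᵥ x = B *ᵥ x) : A = B := Matrix.ext_of_mulVec_single fun i => h _

def rho6 : GL (Fin 4) F →* GL I6 F := MonoidHom.toHomUnits
  { toFun := fun g => act g.1
    map_one' := by
      apply ext6
      intro v
      apply toM_inj
      rw [toM_act, Units.val_one, Matrix.one_mul, Matrix.transpose_one, Matrix.mul_one, one_mulVec]
    map_mul' := by
      intro g h
      apply ext6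
      intro v
      rw [← mulVec_mulVec]
      apply toM_inj
      rw [toM_act, toM_act, toM_act, Units.val_mul, Matrix.transpose_mul]
      simp only [Matrix.mul_assoc] }

theorem toM_rho6 (g : GL (Fin 4) F) (v : I6 → F) : toM ((rho6 g).1 *ᵥ v) = g.1 * toM v * g.1ᵀ := toM_act _ _

/-- the Pfaffian -/
def pf (M : Matrix (Fin 4) (Fin 4) F) : F := M 0 1 * M 2 3 - M 0 2 * M 1 3 + M 0 3 * M 1 2

theorem Q6_eq (v : I6 → F) : quadFormPlus 3 F v = pf (toM v) := by
  rw [quadFormPlus, pf, Fin.sum_univ_three]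
  simp [toM]

set_option maxHeartbeats 1000000 in
theorem pf_transv (i j : Fin 4) (hij : i ≠ j) (c : F) (v : I6 → F) :
    pf (Matrix.transvection i j c * toM v * (Matrix.transvection i j c)ᵀ) = pf (toM v) := by
  fin_cases i <;> fin_cases j <;> first | exact absurd rfl hij | (
    simp [pf, toM, Matrix.transvection, Matrix.mul_apply, Fin.sum_univ_four, Matrix.one_apply, Matrix.single_apply]
    try ring)

theorem rho6_mem (g : GL (Fin 4) F) (hg : g.1.det = 1) : rho6 g ∈ isometryGroup F (quadFormPlus 3 F) := by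
  have := CfsgH9.Tv.mem_of_transvections (H := (isometryGroup F (quadFormPlus 3 F)).comap rho6) ?_ g hg
  · exact this
  · intro i j hij c g hg u v
    change quadFormPlus 3 F ((rho6 g).1 *ᵥ u) = quadFormPlus 3 F u
    rw [Q6_eq, Q6_eq, toM_rho6, hg, pf_transv i j hij]

set_option maxHeartbeats 1000000 in
theorem rho6_one {g : GL (Fin 4) F} (h : rho6 g = 1) : ∃ c : F, c ^ 2 = 1 ∧ g.1 = c • 1 := by
  have h0 : ∀ v : I6 → F, g.1 * toM v * g.1ᵀ = toM v := by
    intro v
    rw [← toM_rho6, h, Units.val_one, one_mulVec]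
  have h1 : ∀ v : I6 → F, g.1 * toM v = toM v * ((g⁻¹ : GL (Fin 4) F).1)ᵀ := by
    intro v
    conv_rhs => rw [← h0 v]
    rw [Matrix.mul_assoc _ _ ((g⁻¹ : GL (Fin 4) F).1)ᵀ, ← Matrix.transpose_mul, ← Units.val_mul, inv_mul_cancel, Units.val_one,
      Matrix.transpose_one, Matrix.mul_one]
  set h' := ((g⁻¹ : GL (Fin 4) F).1)ᵀ
  have key : ∀ (v : I6 → F) (k l : Fin 4), (g.1 * toM v) k l = (toM v * h') k l := fun v k l => by rw [h1]
  have a01 := key (Pi.single (Sum.inl 0) 1)
  have a02 := key (Pi.single (Sum.inl 1) 1)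
  have a03 := key (Pi.single (Sum.inl 2) 1)
  have a23 := key (Pi.single (Sum.inr 0) 1)
  have a31 := key (Pi.single (Sum.inr 1) 1)
  have a12 := key (Pi.single (Sum.inr 2) 1)
  have e : g.1 = g.1 0 0 • 1 := by
    have z1 := a01 2 1
    have z2 := a01 3 1
    have z3 := a01 2 0
    have z4 := a01 3 0
    have z5 := a23 0 3
    have z6 := a23 1 3
    have z7 := a23 0 2
    have z8 := a23 1 2
    have z9 := a02 1 2
    have z10 := a02 3 0
    have y1 := a02 1 0
    have z11 := a31 0 1
    have z12 := a31 0 3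
    have y2 := a31 2 1
    have w1 := a01 0 1
    have w2 := a02 0 2
    have w3 := a03 0 3
    have w4 := a23 2 3
    have w5 := a23 3 2
    have w6 := a12 1 2
    have w7 := a12 2 1
    have w8 := a31 3 1
    have w9 := a31 1 3
    have w10 := a03 3 0
    have x1 := a03 1 3
    have x2 := a12 0 2
    have x3 := a12 3 1
    simp [Matrix.mul_apply, Fin.sum_univ_four, toM] at z1 z2 z3 z4 z5 z6 z7 z8 z9 z10 z11 z12 y1 y2 w1 w2 w3 w4 w5 w6 w7 w8 w9 w10 x1 x2 x3
    ext i j
    fin_cases i <;> fin_cases j <;> simp <;> first | assumption | grind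
  refine ⟨g.1 0 0, ?_, e⟩
  have h2 := congrFun (congrFun (h0 (Pi.single (Sum.inl 0) 1)) 0) 1
  rw [e] at h2
  simp [toM] at h2
  linear_combination h2

/-- matrices commuting with all transvections -/
theorem scalar_of_comm {n : ℕ} {M : Matrix (Fin n) (Fin n) F} (h : ∀ i j : Fin n, i ≠ j → Matrix.transvection i j 1 * M = M * Matrix.transvection i j 1) :
    ∃ c : F, M = c • 1 := by
  have h1 : ∀ i j : Fin n, i ≠ j → Commute (Matrix.single i j (1 : F)) M := by
    intro i j hij
    have := h i j hij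
    rw [Matrix.transvection, Matrix.add_mul, Matrix.mul_add, Matrix.one_mul, Matrix.mul_one] at this
    exact add_left_cancel this
  obtain ⟨c, hc⟩ := Matrix.mem_range_scalar_of_commute_single (M := M) h1
  refine ⟨c, ?_⟩
  rw [← hc, Matrix.scalar_apply]
  ext i j
  by_cases hij : i = j
  · subst hij; simp
  · simp [hij]

end

end CfsgH9.PO
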