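import Mathlib
import Cfsg.Prelude
import Cfsg.Agent.H9.HermF

set_option autoImplicit false

/-! Quadratic extensions of finite fields. -/

namespace CfsgH9.PO

open Polynomial

structure QE {F K : Type*} [Field F] [Field K] (a b : F) (i : F →+* K) (σ : K →+* K) (θ : K) (c1 c2 : K → F) : Prop where
  ss : ∀ x, σ (σ x) = x
  si : ∀ x, σ (i x) = i x
  tr : θ + σ θ = i a
  nm : θ * σ θ = i b
  dec : ∀ x, x = i (c1 x) + θ * i (c2 x)
  c1u : ∀ s t, c1 (i s + θ * i t) = s
  c2u : ∀ s t, c2 (i s + θ * i t) = t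
  ne : σ θ ≠ θ

namespace QE

variable {F K : Type*} [Field F] [Field K] {a b : F} {i : F →+* K} {σ : K →+* K} {θ : K} {c1 c2 : K → F} (h : QE a b i σ θ c1 c2)
include h

theorem c1_add (x y : K) : c1 (x + y) = c1 x + c1 y := by
  conv_lhs => rw [h.dec x, h.dec y, show i (c1 x) + θ * i (c2 x) + (i (c1 y) + θ * i (c2 y)) = i (c1 x + c1 y) + θ * i (c2 x + c2 y) by
    rw [map_add, map_add]; ring, h.c1u]

theorem c2_add (x y : K) : c2 (x + y) = c2 x + c2 y := by
  conv_lhs => rw [h.dec x, h.dec y, show i (c1 x) + θ * i (c2 x) + (i (c1 y) + θ * i (c2 y)) = i (c1 x + c1 y) + θ * i (c2 x + c2 y) by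
    rw [map_add, map_add]; ring, h.c2u]

theorem c1_smul (c : F) (x : K) : c1 (i c * x) = c * c1 x := by
  conv_lhs => rw [h.dec x, show i c * (i (c1 x) + θ * i (c2 x)) = i (c * c1 x) + θ * i (c * c2 x) by
    rw [map_mul, map_mul]; ring, h.c1u]

theorem c2_smul (c : F) (x : K) : c2 (i c * x) = c * c2 x := by
  conv_lhs => rw [h.dec x, show i c * (i (c1 x) + θ * i (c2 x)) = i (c * c1 x) + θ * i (c * c2 x) by
    rw [map_mul, map_mul]; ring, h.c2u]

theorem fixed {x : K} (hx : σ x = x) : i (c1 x) = x := by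
  have h1 := h.dec x
  have h2 : σ x = i (c1 x) + σ θ * i (c2 x) := by
    conv_lhs => rw [h1, map_add, map_mul, h.si, h.si]
  have h3 : (σ θ - θ) * i (c2 x) = 0 := by
    rw [hx] at h2
    linear_combination h1 - h2
  have h4 := (mul_eq_zero.1 h3).resolve_left (sub_ne_zero.2 h.ne)
  rw [h4, mul_zero, add_zero] at h1
  exact h1.symm

theorem c1_i (x : F) : c1 (i x) = x := by
  have := h.c1u x 0
  rwa [map_zero, mul_zero, add_zero] at this

theorem c2_i (x : F) : c2 (i x) = 0 := by
  have := h.c2u x 0
  rwa [map_zero, mul_zero, add_zero] at this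

end QE

theorem exists_QE {F K : Type*} [Field F] [Fintype F] [Field K] [Fintype K] {q : ℕ} (hF : Fintype.card F = q) (hK : Fintype.card K = q ^ 2)
    (a b : F) (hab : ∀ z₁ z₂ : F, z₁ ^ 2 + a * z₁ * z₂ + b * z₂ ^ 2 = 0 → z₁ = 0 ∧ z₂ = 0) :
    ∃ (i : F →+* K) (σ : K →+* K) (θ : K) (c1 c2 : K → F), QE a b i σ θ c1 c2 ∧ ∀ x, σ x = x ^ q := by
  classical
  obtain ⟨σ, hσ, -, hσ2⟩ := CfsgH9.HermF.exists_sigma hK
  set f : F[X] := X ^ 2 - C a * X + C b with hf
  have hdeg : f.natDegree = 2 := by rw [hf]; compute_degree!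
  have hmon : f.Monic := by rw [hf]; monicity!
  have hroot : ∀ t : F, ¬ f.IsRoot t := by
    intro t ht
    rw [IsRoot.def, hf] at ht
    simp at ht
    have := (hab (-t) 1 (by linear_combination ht)).2
    exact one_ne_zero this
  have hirr : Irreducible f := by
    rw [Polynomial.Monic.irreducible_iff_roots_eq_zero_of_degree_le_three hmon (by omega) (by omega)]
    rw [Multiset.eq_zero_iff_forall_notMem]
    intro t ht
    exact hroot t (Polynomial.isRoot_of_mem_roots ht)
  haveI : Fact (Irreducible f) := ⟨hirr⟩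
  let L := AdjoinRoot f
  let pb := AdjoinRoot.powerBasis hirr.ne_zero
  have hfr : Module.finrank F L = 2 := by
    rw [pb.finrank]
    exact hdeg
  haveI : Module.Finite F L := pb.finite
  haveI : Finite L := Module.finite_of_finite F
  haveI : Fintype L := Fintype.ofFinite L
  have hcL : Fintype.card L = q ^ 2 := by
    rw [Module.card_eq_pow_finrank (K := F) (V := L), hfr, hF]
  have e : L ≃+* K := FiniteField.ringEquivOfCardEq (hcL.trans hK.symm)
  set i : F →+* K := (e : L →+* K).comp (AdjoinRoot.of f) with hi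
  set θ : K := e (AdjoinRoot.root f) with hθ
  have hθ0 : θ ^ 2 - i a * θ + i b = 0 := by
    have h1 := AdjoinRoot.eval₂_root f
    rw [hf] at h1
    simp only [eval₂_add, eval₂_sub, eval₂_mul, eval₂_pow, eval₂_X, eval₂_C] at h1
    have h2 := congrArg e h1
    rw [map_add, map_sub, map_mul, map_pow, map_zero] at h2
    exact h2
  have hir : ∀ t : F, θ ≠ i t := by
    intro t ht
    apply hroot t
    rw [IsRoot.def, hf]
    simp
    apply i.injective
    rw [ht] at hθ0
    rw [map_zero, ← hθ0, map_add, map_sub, map_mul, map_pow]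
  have hsi : ∀ x, σ (i x) = i x := by
    intro x
    rw [hσ, ← map_pow, ← hF, FiniteField.pow_card]
  have hbij : Function.Bijective (fun p : F × F => i p.1 + θ * i p.2) := by
    rw [Fintype.bijective_iff_injective_and_card]
    constructor
    · rintro ⟨s, t⟩ ⟨s', t'⟩ h
      have h' : i s + θ * i t = i s' + θ * i t' := h
      have h1 : θ * i (t - t') = i (s' - s) := by
        rw [map_sub, map_sub]; linear_combination h'
      by_cases ht : t = t'
      · subst ht
        rw [sub_self, map_zero, mul_zero] at h1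
        have h2 := (map_eq_zero i).1 h1.symm
        rw [sub_eq_zero.1 h2]
      · exfalso
        apply hir ((s' - s) / (t - t'))
        rw [map_div₀, eq_div_iff]
        · exact h1
        · intro h0
          exact ht (sub_eq_zero.1 ((map_eq_zero i).1 h0))
    · rw [Fintype.card_prod, hF, hK, sq]
  let E := Equiv.ofBijective _ hbij
  have hfix : ∀ x, σ x = x → ∃ t, x = i t := by
    -- count roots of X^q - X
    have hq1 : 1 < q := by rw [← hF]; exact Fintype.one_lt_card
    have h1 : ∀ x : K, σ x = x → x ∈ (X ^ q - X : K[X]).roots.toFinset := by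
      intro x hx
      rw [Multiset.mem_toFinset, Polynomial.mem_roots (FiniteField.X_pow_card_sub_X_ne_zero K hq1), IsRoot.def]
      simp
      rw [← hσ, hx, sub_self]
    have h2 : (Finset.univ.image i) ⊆ (X ^ q - X : K[X]).roots.toFinset := by
      intro x hx
      obtain ⟨t, -, rfl⟩ := Finset.mem_image.1 hx
      exact h1 _ (hsi t)
    have h3 : (X ^ q - X : K[X]).roots.toFinset.card ≤ q := by
      refine (Multiset.toFinset_card_le _).trans ((Polynomial.card_roots' _).trans ?_)
      rw [FiniteField.X_pow_card_sub_X_natDegree_eq K hq1]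
    have h4 : (Finset.univ.image i) = (X ^ q - X : K[X]).roots.toFinset := by
      apply Finset.eq_of_subset_of_card_le h2
      rw [Finset.card_image_of_injective _ i.injective, Finset.card_univ, hF]
      exact h3
    intro x hx
    have h5 := h1 x hx
    rw [← h4, Finset.mem_image] at h5
    obtain ⟨t, -, ht⟩ := h5
    exact ⟨t, ht.symm⟩
  have hne : σ θ ≠ θ := by
    intro h0
    obtain ⟨t, ht⟩ := hfix θ h0
    exact hir t ht
  have hs : σ θ ^ 2 - i a * σ θ + i b = 0 := by
    have := congrArg σ hθ0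
    rw [map_add, map_sub, map_mul, map_pow, map_zero, hsi, hsi] at this
    exact this
  have htr : θ + σ θ = i a := by
    have h1 : (σ θ - θ) * (σ θ + θ - i a) = 0 := by linear_combination hs - hθ0
    have h2 := (mul_eq_zero.1 h1).resolve_left (sub_ne_zero.2 hne)
    linear_combination h2
  refine ⟨i, σ, θ, fun x => (E.symm x).1, fun x => (E.symm x).2, ⟨hσ2, hsi, htr, ?_, ?_, ?_, ?_, hne⟩, hσ⟩
  · linear_combination (θ) * htr - hθ0
  · intro x
    exact (E.apply_symm_apply x).symm
  · intro s t
    have : E.symm (i s + θ * i t) = (s, t) := by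
      rw [Equiv.symm_apply_eq]; rfl
    rw [this]
  · intro s t
    have : E.symm (i s + θ * i t) = (s, t) := by
      rw [Equiv.symm_apply_eq]; rfl
    rw [this]

end CfsgH9.PO
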