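import Cfsg.Agent.H9.MaxRedSL

set_option autoImplicit false

/-!
Maximal parabolics of `GL_n`.
-/

namespace CfsgH9.ParGL

open Matrix Cfsg Cfsg.Geo CfsgH9.Tv CfsgH9.MaxRedSL

variable {F : Type*} [Field F]

/-- the span of the first `k` coordinate vectors -/
def Wk (F : Type*) [Field F] (n k : ℕ) : Submodule F (Fin n → F) where
  carrier := {v | ∀ i : Fin n, k ≤ (i : ℕ) → v i = 0}
  zero_mem' := fun _ _ => rfl
  add_mem' := fun {a b} ha hb i hi => by
    change a i + b i = 0
    rw [ha i hi, hb i hi, add_zero]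
  smul_mem' := fun c a ha i hi => by
    change c * a i = 0
    rw [ha i hi, mul_zero]

theorem mem_Wk {n k : ℕ} {v : Fin n → F} : v ∈ Wk F n k ↔ ∀ i : Fin n, k ≤ (i : ℕ) → v i = 0 := Iff.rfl

theorem mem_par {n k : ℕ} (g : GL (Fin n) F) :
    g ∈ stabilizing (glToMat (Fin n) F) {v : Fin n → F | ∀ i : Fin n, k ≤ (i : ℕ) → v i = 0} ↔
      ∀ i j : Fin n, k ≤ (i : ℕ) → (j : ℕ) < k → g.1 i j = 0 := by
  constructor
  · intro h i j hi hj
    have h1 : (Pi.single j 1 : Fin n → F) ∈ Wk F n k := by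
      intro l hl
      have : l ≠ j := by rintro rfl; omega
      exact Pi.single_eq_of_ne this _
    have h2 := (h (Pi.single j 1)).1 h1
    have h3 := h2 i hi
    change (g.1 *ᵥ Pi.single j 1) i = 0 at h3
    rw [Matrix.mulVec_single_one] at h3
    exact h3
  · intro h
    exact mem_stab_of (Wk F n k) g (by
      intro v hv i hi
      rw [Matrix.mulVec, dotProduct]
      apply Finset.sum_eq_zero
      intro j _
      by_cases hj : (j : ℕ) < k
      · rw [h i j hi hj, zero_mul]
      · rw [hv j (by omega), mul_zero])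

theorem Wk_ne_bot {n k : ℕ} (hk0 : 0 < k) (hkn : k < n) : Wk F n k ≠ ⊥ := by
  intro h
  have h1 : (Pi.single ⟨0, by omega⟩ 1 : Fin n → F) ∈ Wk F n k := by
    intro i hi
    have : i ≠ ⟨0, by omega⟩ := by intro h0; rw [h0] at hi; simp at hi; omega
    exact Pi.single_eq_of_ne this _
  rw [h, Submodule.mem_bot] at h1
  have := congrFun h1 ⟨0, by omega⟩
  rw [Pi.single_eq_same] at this
  exact one_ne_zero this

theorem Wk_ne_top {n k : ℕ} (hkn : k < n) : Wk F n k ≠ ⊤ := by
  intro h
  have h1 : (Pi.single ⟨k, hkn⟩ 1 : Fin n → F) ∈ Wk F n k := by rw [h]; trivial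
  have := h1 ⟨k, hkn⟩ le_rfl
  rw [Pi.single_eq_same] at this
  exact one_ne_zero this

/-- determinants on the parabolic -/
theorem exists_det {n k : ℕ} (hn : 0 < n) (u : Fˣ) :
    ∃ s : GL (Fin n) F, s ∈ stabilizing (glToMat (Fin n) F) {v : Fin n → F | ∀ i : Fin n, k ≤ (i : ℕ) → v i = 0} ∧
      Matrix.GeneralLinearGroup.det s = u := by
  let d : Fin n → F := fun i => if (i : ℕ) = 0 then (u : F) else 1
  have hd : (Matrix.diagonal d).det = u := by
    rw [Matrix.det_diagonal]
    have : ∏ i : Fin n, d i = d ⟨0, hn⟩ := by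
      apply Finset.prod_eq_single
      · intro b _ hb
        have : (b : ℕ) ≠ 0 := fun h => hb (Fin.ext h)
        simp [d, this]
      · simp
    rw [this]; simp [d]
  refine ⟨Matrix.GeneralLinearGroup.mkOfDetNeZero (Matrix.diagonal d) (by rw [hd]; exact u.ne_zero), ?_, ?_⟩
  · rw [mem_par]
    intro i j hi hj
    have : i ≠ j := by rintro rfl; omega
    exact Matrix.diagonal_apply_ne _ this
  · apply Units.ext
    exact hd

/-- invariant subspaces of the stabiliser of a subspace -/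
theorem inv_cases {ι : Type} [Fintype ι] [DecidableEq ι] (W U : Submodule F (ι → F)) (hW1 : W ≠ ⊤)
    (hU : ∀ g : GL ι F, g ∈ subspaceStabilizer W → ∀ u ∈ U, g.1 *ᵥ u ∈ U) : U = ⊥ ∨ U = W ∨ U = ⊤ := by
  by_cases hU0 : U = ⊥
  · left; exact hU0
  right
  obtain ⟨v, hv, hv0⟩ := (Submodule.ne_bot_iff _).1 hU0
  have hWU : W ≤ U := by
    intro u hu
    by_cases huv : v ∈ (⊥ : Submodule F (ι → F)) ⊔ Submodule.span F {u}
    · rw [bot_sup_eq] at huv
      obtain ⟨c, rfl⟩ := Submodule.mem_span_singleton.1 huv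
      have hc : c ≠ 0 := by rintro rfl; exact hv0 (zero_smul _ _)
      have := U.smul_mem c⁻¹ hv
      rwa [smul_smul, inv_mul_cancel₀ hc, one_smul] at this
    · by_cases hu0 : u = 0
      · rw [hu0]; exact U.zero_mem
      · obtain ⟨a, -, hau, hav⟩ := exists_covec2 ⊥ (x := u) (by simpa using hu0) huv 0 1
        have h1 := hU _ (tv_stab_center W hau hu) v hv
        change ((tv u a hau : GL ι F) : Matrix ι ι F) *ᵥ v ∈ U at h1
        rw [tv_mulVec, hav, one_smul] at h1
        have h2 := U.sub_mem h1 hv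
        rwa [add_sub_cancel_left] at h2
  by_cases hUW : U ≤ W
  · left; exact le_antisymm hUW hWU
  · right
    obtain ⟨z, hz, hzW⟩ := Set.not_subset.1 hUW
    rw [eq_top_iff]
    intro y _
    by_cases hyz : y ∈ W ⊔ Submodule.span F {z}
    · exact (sup_le hWU ((Submodule.span_singleton_le_iff_mem z U).2 hz)) hyz
    · obtain ⟨a, haW, haz, hay⟩ := exists_covec2 W hzW hyz 1 1
      have h0 : a ⬝ᵥ (y - z) = 0 := by rw [dotProduct_sub, haz, hay, sub_self]
      have h1 := hU _ (tv_stab_axis W h0 haW) z hz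
      change ((tv (y - z) a h0 : GL ι F) : Matrix ι ι F) *ᵥ z ∈ U at h1
      rw [tv_mulVec, haz, one_smul] at h1
      have h3 : z + (y - z) = y := by abel
      rwa [h3] at h1

end CfsgH9.ParGL
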