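import Mathlib

set_option autoImplicit false

/-!
Triples of points on a projective line.
-/

namespace CfsgH9.Proj1

open Matrix

variable {F : Type*} [Field F]

abbrev V2 (F : Type*) := Fin 2 → F

def d2 (u v : V2 F) : F := u 0 * v 1 - u 1 * v 0

theorem ne0 {u : V2 F} (hu : u ≠ 0) : u 0 ≠ 0 ∨ u 1 ≠ 0 := by
  by_contra h
  push Not at h
  apply hu
  ext i
  fin_cases i
  · exact h.1
  · exact h.2

theorem mk_eq_iff {u v : V2 F} (hu : u ≠ 0) (hv : v ≠ 0) :
    Projectivization.mk F u hu = Projectivization.mk F v hv ↔ d2 u v = 0 := by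
  rw [Projectivization.mk_eq_mk_iff']
  constructor
  · rintro ⟨a, rfl⟩
    simp [d2]; ring
  · intro h
    rw [d2] at h
    rcases ne0 hv with h0 | h0
    · refine ⟨u 0 / v 0, ?_⟩
      ext i; fin_cases i
      · simp; field_simp
      · simp; field_simp; linear_combination h
    · refine ⟨u 1 / v 1, ?_⟩
      ext i; fin_cases i
      · simp; field_simp; linear_combination -h
      · simp; field_simp

/-- A matrix taking the standard frame to a given triple. -/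
theorem exists_frame {a b c : V2 F} (hab : d2 a b ≠ 0) (hac : d2 a c ≠ 0) (hbc : d2 b c ≠ 0) :
    ∃ A : Matrix (Fin 2) (Fin 2) F, A.det ≠ 0 ∧ ∃ r s t : F, r ≠ 0 ∧ s ≠ 0 ∧ t ≠ 0 ∧
      A *ᵥ ![1, 0] = r • a ∧ A *ᵥ ![0, 1] = s • b ∧ A *ᵥ ![1, 1] = t • c := by
  refine ⟨!![-d2 b c * a 0, d2 a c * b 0; -d2 b c * a 1, d2 a c * b 1], ?_, -d2 b c, d2 a c, d2 a b, ?_, hac, hab, ?_, ?_, ?_⟩
  · rw [Matrix.det_fin_two_of]
    have : -d2 b c * a 0 * (d2 a c * b 1) - d2 a c * b 0 * (-d2 b c * a 1) = -(d2 b c * d2 a c * d2 a b) := by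
      simp only [d2]; ring
    rw [this]
    exact neg_ne_zero.mpr (mul_ne_zero (mul_ne_zero hbc hac) hab)
  · exact neg_ne_zero.mpr hbc
  · ext i; fin_cases i <;> simp
  · ext i; fin_cases i <;> simp
  · ext i; fin_cases i <;> simp [d2] <;> ring

theorem mulVec_ne {A : Matrix (Fin 2) (Fin 2) F} (hA : A.det ≠ 0) {v : V2 F} (hv : v ≠ 0) : A *ᵥ v ≠ 0 := by
  intro h
  apply hv
  have h1 : A⁻¹ *ᵥ (A *ᵥ v) = v := by
    rw [Matrix.mulVec_mulVec, Matrix.nonsing_inv_mul _ (isUnit_iff_ne_zero.mpr hA), Matrix.one_mulVec]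
  rw [← h1, h, Matrix.mulVec_zero]

theorem e0_ne : (![1, 0] : V2 F) ≠ 0 := fun h => one_ne_zero (congrFun h 0)
theorem e1_ne : (![0, 1] : V2 F) ≠ 0 := fun h => one_ne_zero (congrFun h 1)
theorem e2_ne : (![1, 1] : V2 F) ≠ 0 := fun h => one_ne_zero (congrFun h 1)

theorem exists_frame' (D : Fin 3 ↪ Projectivization F (V2 F)) :
    ∃ (A : Matrix (Fin 2) (Fin 2) F) (hA : A.det ≠ 0),
      D 0 = Projectivization.mk F (A *ᵥ ![1, 0]) (mulVec_ne hA e0_ne) ∧
      D 1 = Projectivization.mk F (A *ᵥ ![0, 1]) (mulVec_ne hA e1_ne) ∧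
      D 2 = Projectivization.mk F (A *ᵥ ![1, 1]) (mulVec_ne hA e2_ne) := by
  have key : ∀ i j : Fin 3, i ≠ j → d2 (D i).rep (D j).rep ≠ 0 := by
    intro i j hij h
    apply hij
    apply D.injective
    rw [← Projectivization.mk_rep (D i), ← Projectivization.mk_rep (D j)]
    exact (mk_eq_iff _ _).mpr h
  obtain ⟨A, hA, r, s, t, hr, hs, ht, e1, e2, e3⟩ := exists_frame (key 0 1 (by decide)) (key 0 2 (by decide)) (key 1 2 (by decide))
  refine ⟨A, hA, ?_, ?_, ?_⟩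
  · conv_lhs => rw [← Projectivization.mk_rep (D 0)]
    rw [mk_eq_iff, e1]; simp [d2]; ring
  · conv_lhs => rw [← Projectivization.mk_rep (D 1)]
    rw [mk_eq_iff, e2]; simp [d2]; ring
  · conv_lhs => rw [← Projectivization.mk_rep (D 2)]
    rw [mk_eq_iff, e3]; simp [d2]; ring

end CfsgH9.Proj1
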