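import Mathlib
import Cfsg.Prelude.Def_LieRecognition

set_option autoImplicit false

open MulAction

namespace CfsgH9.R1

section
variable {G Ω : Type*} [Group G] [MulAction G Ω] {a : Ω} {t : G} {Q : Subgroup G}

/-- two-point stabiliser -/
abbrev DD (a : Ω) (t : G) : Subgroup G := stabilizer G a ⊓ stabilizer G (t • a)

theorem tinv (hS : Cfsg.IsRankOneSetup G Ω a t Q) : t⁻¹ = t := inv_eq_of_mul_eq_one_left hS.mul_self

theorem tt (hS : Cfsg.IsRankOneSetup G Ω a t Q) (x : G) : t * (t * x) = x := by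
  rw [← mul_assoc, hS.mul_self, one_mul]

theorem ba (hS : Cfsg.IsRankOneSetup G Ω a t Q) : t • a ≠ a := hS.not_mem

theorem tb (hS : Cfsg.IsRankOneSetup G Ω a t Q) : t • t • a = a := by
  rw [← mul_smul, hS.mul_self, one_smul]

theorem two_trans (hS : Cfsg.IsRankOneSetup G Ω a t Q) {x y x' y' : Ω} (h : x ≠ y) (h' : x' ≠ y') :
    ∃ g : G, g • x = x' ∧ g • y = y' :=
  (is_two_pretransitive_iff).1 hS.two_transitive h h'

theorem qa (hS : Cfsg.IsRankOneSetup G Ω a t Q) {q : G} (hq : q ∈ Q) : q • a = a := hS.le hq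

theorem q_fix (hS : Cfsg.IsRankOneSetup G Ω a t Q) {q : G} (hq : q ∈ Q) (h : q • (t • a) = t • a) : q = 1 := by
  have : q ∈ Q ⊓ stabilizer G (t • a) := ⟨hq, h⟩
  rwa [hS.inf_eq_bot, Subgroup.mem_bot] at this

theorem mem_DD {d : G} : d ∈ DD a t ↔ d • a = a ∧ d • (t • a) = t • a := Iff.rfl

theorem conj_mem' (hS : Cfsg.IsRankOneSetup G Ω a t Q) {h x : G} (hh : h • a = a) (hx : x ∈ Q) : h⁻¹ * x * h ∈ Q := by
  have h1 : h⁻¹ ∈ stabilizer G a := (stabilizer G a).inv_mem hh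
  have := hS.conj_mem h⁻¹ h1 x hx
  rwa [inv_inv] at this

theorem decomp (hS : Cfsg.IsRankOneSetup G Ω a t Q) {h : G} (hh : h • a = a) : ∃ q ∈ Q, ∃ d ∈ DD a t, h = q * d := by
  let S : Subgroup G :=
    { carrier := {h | ∃ q ∈ Q, ∃ d ∈ DD a t, h = q * d}
      mul_mem' := by
        rintro _ _ ⟨q, hq, d, hd, rfl⟩ ⟨q', hq', d', hd', rfl⟩
        exact ⟨q * (d * q' * d⁻¹), Q.mul_mem hq (hS.conj_mem d hd.1 q' hq'), d * d', (DD a t).mul_mem hd hd', by group⟩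
      one_mem' := ⟨1, Q.one_mem, 1, (DD a t).one_mem, by group⟩
      inv_mem' := by
        rintro _ ⟨q, hq, d, hd, rfl⟩
        exact ⟨d⁻¹ * q⁻¹ * d, conj_mem' hS hd.1 (Q.inv_mem hq), d⁻¹, (DD a t).inv_mem hd, by group⟩ }
  have h1 : Q ⊔ DD a t ≤ S := sup_le (fun q hq => ⟨q, hq, 1, (DD a t).one_mem, by group⟩)
    (fun d hd => ⟨1, Q.one_mem, d, hd, by group⟩)
  have h2 : h ∈ Q ⊔ DD a t := by
    have := hS.sup_eq
    change h ∈ Q ⊔ (stabilizer G a ⊓ stabilizer G (t • a))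
    rw [this]; exact hh
  exact h1 h2

theorem q_trans (hS : Cfsg.IsRankOneSetup G Ω a t Q) {c : Ω} (hc : c ≠ a) : ∃ q ∈ Q, q • (t • a) = c := by
  obtain ⟨g, h1, h2⟩ := two_trans hS (ba hS).symm hc.symm
  obtain ⟨q, hq, d, hd, rfl⟩ := decomp hS h1
  refine ⟨q, hq, ?_⟩
  rw [mul_smul, hd.2] at h2
  exact h2

theorem q_reg (hS : Cfsg.IsRankOneSetup G Ω a t Q) {q : G} (hq : q ∈ Q) {c : Ω} (hc : c ≠ a) (h : q • c = c) : q = 1 := by
  obtain ⟨r, hr, rfl⟩ := q_trans hS hc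
  have h1 : r⁻¹ * q * r = 1 := by
    apply q_fix hS (Q.mul_mem (Q.mul_mem (Q.inv_mem hr) hq) hr)
    rw [mul_smul, mul_smul, h, inv_smul_smul]
  have h2 : q = r * (r⁻¹ * q * r) * r⁻¹ := by group
  rw [h2, h1]; group

theorem q_unique (hS : Cfsg.IsRankOneSetup G Ω a t Q) {q q' : G} (hq : q ∈ Q) (hq' : q' ∈ Q) {c : Ω} (hc : c ≠ a)
    (h : q • c = q' • c) : q = q' := by
  have h1 : q'⁻¹ * q = 1 := by
    apply q_reg hS (Q.mul_mem (Q.inv_mem hq') hq) hc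
    rw [mul_smul, h, inv_smul_smul]
  exact (inv_mul_eq_one.1 h1).symm

theorem conj_t (hS : Cfsg.IsRankOneSetup G Ω a t Q) {d : G} (hd : d ∈ DD a t) : t * d * t ∈ DD a t := by
  refine ⟨?_, ?_⟩
  · change (t * d * t) • a = a
    rw [mul_smul, mul_smul, show d • t • a = t • a from hd.2, tb hS]
  · change (t * d * t) • (t • a) = t • a
    rw [mul_smul, tb hS, mul_smul, show d • a = a from hd.1]

theorem eq_one_of_mem (hS : Cfsg.IsRankOneSetup G Ω a t Q) {q : G} (hq : q ∈ Q) (hd : q ∈ DD a t) : q = 1 :=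
  q_fix hS hq hd.2

/-- uniqueness of the canonical form -/
theorem canon_unique (hS : Cfsg.IsRankOneSetup G Ω a t Q) {q d y q' d' y' : G} (hq : q ∈ Q) (hd : d ∈ DD a t) (hy : y ∈ Q)
    (hq' : q' ∈ Q) (hd' : d' ∈ DD a t) (hy' : y' ∈ Q) (h : q * d * t * y = q' * d' * t * y') : q = q' ∧ d = d' ∧ y = y' := by
  have h1 : y⁻¹ = y'⁻¹ := by
    apply q_unique hS (Q.inv_mem hy) (Q.inv_mem hy') (ba hS)
    have e1 : y⁻¹ • (t • a) = (q * d * t * y)⁻¹ • a := by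
      have h2 : (q * d * t * y)⁻¹ = y⁻¹ * t⁻¹ * (d⁻¹ * q⁻¹) := by group
      rw [h2, mul_smul, mul_smul, mul_smul, show q⁻¹ • a = a from qa hS (Q.inv_mem hq),
        show d⁻¹ • a = a from ((DD a t).inv_mem hd).1, tinv hS]
    have e2 : y'⁻¹ • (t • a) = (q' * d' * t * y')⁻¹ • a := by
      have h2 : (q' * d' * t * y')⁻¹ = y'⁻¹ * t⁻¹ * (d'⁻¹ * q'⁻¹) := by group
      rw [h2, mul_smul, mul_smul, mul_smul, show q'⁻¹ • a = a from qa hS (Q.inv_mem hq'),
        show d'⁻¹ • a = a from ((DD a t).inv_mem hd').1, tinv hS]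
    rw [e1, e2, h]
  have h2 : y = y' := inv_injective h1
  subst h2
  have h3 : q * d = q' * d' := mul_right_cancel (mul_right_cancel h)
  have h4 : q'⁻¹ * q = d' * d⁻¹ := by
    rw [inv_mul_eq_iff_eq_mul, ← mul_assoc, ← h3]; group
  have h5 : q'⁻¹ * q = 1 := eq_one_of_mem hS (Q.mul_mem (Q.inv_mem hq') hq)
    (by rw [h4]; exact (DD a t).mul_mem hd' ((DD a t).inv_mem hd))
  have h6 : q' = q := inv_mul_eq_one.1 h5
  subst h6
  exact ⟨rfl, mul_left_cancel h3, rfl⟩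

/-- canonical form -/
theorem canon (hS : Cfsg.IsRankOneSetup G Ω a t Q) {g : G} (hg : g • a ≠ a) : ∃ q ∈ Q, ∃ d ∈ DD a t, ∃ y ∈ Q, g = q * d * t * y := by
  have hg' : g⁻¹ • a ≠ a := fun h => hg (by rw [← h, smul_inv_smul, h])
  obtain ⟨y, hy, hya⟩ := q_trans hS hg'
  have h1 : (g * y * t) • a = a := by
    rw [mul_smul, mul_smul, hya, smul_inv_smul]
  obtain ⟨q, hq, d, hd, h2⟩ := decomp hS h1
  refine ⟨q, hq, d, hd, y⁻¹, Q.inv_mem hy, ?_⟩
  rw [← h2, mul_assoc (g * y), hS.mul_self, mul_one]; group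

end

section fin
variable {G Ω : Type*} [Group G] [Finite G] [MulAction G Ω] {a : Ω} {t : G} {Q : Subgroup G}

theorem finΩ (hS : Cfsg.IsRankOneSetup G Ω a t Q) : Finite Ω := by
  have h1 : Function.Surjective (fun g : G => g • a) := by
    intro c
    by_cases hc : c = a
    · exact ⟨1, by rw [hc]; exact one_smul _ _⟩
    · obtain ⟨g, -, h⟩ := two_trans hS (ba hS) (x' := a) (y' := c) (Ne.symm hc)
      exact ⟨g, h⟩
  exact Finite.of_surjective _ h1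

theorem pretrans (hS : Cfsg.IsRankOneSetup G Ω a t Q) : IsPretransitive G Ω := by
  have key : ∀ c : Ω, ∃ g : G, g • a = c := by
    intro c
    by_cases hc : c = a
    · exact ⟨1, by rw [hc]; exact one_smul _ _⟩
    · obtain ⟨g, -, h⟩ := two_trans hS (ba hS) (x' := a) (y' := c) (Ne.symm hc)
      exact ⟨g, h⟩
  constructor
  intro x y
  obtain ⟨g, rfl⟩ := key x
  obtain ⟨h, rfl⟩ := key y
  exact ⟨h * g⁻¹, by rw [mul_smul, inv_smul_smul]⟩

theorem card_Ω (hS : Cfsg.IsRankOneSetup G Ω a t Q) : Nat.card Ω = Nat.card Q + 1 := by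
  classical
  haveI := finΩ hS
  have e : Q ≃ {c : Ω // c ≠ a} := Equiv.ofBijective (fun q => ⟨(q : G) • (t • a), fun h => ba hS (by
      have := congrArg (fun x => (q : G)⁻¹ • x) h
      simp only [inv_smul_smul] at this
      rw [this]; exact qa hS (Q.inv_mem q.2))⟩) ⟨by
    intro x y hxy
    exact Subtype.ext (q_unique hS x.2 y.2 (ba hS) (congrArg Subtype.val hxy)), by
    rintro ⟨c, hc⟩
    obtain ⟨q, hq, h⟩ := q_trans hS hc
    exact ⟨⟨q, hq⟩, Subtype.ext h⟩⟩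
  cases nonempty_fintype Ω
  rw [Nat.card_congr e, Nat.card_eq_fintype_card, Nat.card_eq_fintype_card]
  change _ = Fintype.card {c : Ω // ¬ c = a} + 1
  rw [Fintype.card_subtype_compl, Fintype.card_subtype_eq]
  have : 0 < Fintype.card Ω := Fintype.card_pos_iff.2 ⟨a⟩
  omega

theorem card_H (hS : Cfsg.IsRankOneSetup G Ω a t Q) : Nat.card (stabilizer G a) = Nat.card Q * Nat.card (DD a t) := by
  rw [← Nat.card_prod]
  symm
  refine Nat.card_congr (Equiv.ofBijective (fun p => ⟨p.1 * p.2, (stabilizer G a).mul_mem (hS.le p.1.2) p.2.2.1⟩) ⟨?_, ?_⟩)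
  · rintro ⟨⟨q, hq⟩, ⟨d, hd⟩⟩ ⟨⟨q', hq'⟩, ⟨d', hd'⟩⟩ h
    have h3 : q * d = q' * d' := congrArg Subtype.val h
    have h4 : q'⁻¹ * q = d' * d⁻¹ := by
      rw [inv_mul_eq_iff_eq_mul, ← mul_assoc, ← h3]; group
    have h5 : q'⁻¹ * q = 1 := eq_one_of_mem hS (Q.mul_mem (Q.inv_mem hq') hq)
      (by rw [h4]; exact (DD a t).mul_mem hd' ((DD a t).inv_mem hd))
    have h6 : q' = q := inv_mul_eq_one.1 h5
    subst h6
    have h7 : d = d' := mul_left_cancel h3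
    subst h7
    rfl
  · rintro ⟨h, hh⟩
    obtain ⟨q, hq, d, hd, rfl⟩ := decomp hS hh
    exact ⟨(⟨q, hq⟩, ⟨d, hd⟩), rfl⟩

theorem card_G (hS : Cfsg.IsRankOneSetup G Ω a t Q) : Nat.card G = Nat.card Q * Nat.card (DD a t) * (Nat.card Q + 1) := by
  haveI := pretrans hS
  rw [← card_H hS, ← card_Ω hS, ← index_stabilizer_of_transitive G a, Subgroup.card_mul_index]

/-- involutions of `G_a` lie in `Q` -/
theorem inv_mem_Q (hS : Cfsg.IsRankOneSetup G Ω a t Q) {s : G} (hs : s • a = a) (hs2 : s * s = 1) : s ∈ Q := by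
  obtain ⟨q, hq, d, hd, rfl⟩ := decomp hS hs
  have h1 : d * d ∈ Q := by
    have h2 : d * d = (d * q * d⁻¹)⁻¹ * (q⁻¹ * (q * d * (q * d))) := by group
    rw [h2, hs2, mul_one]
    exact Q.mul_mem (Q.inv_mem (hS.conj_mem d hd.1 q hq)) (Q.inv_mem hq)
  have h3 : d * d = 1 := eq_one_of_mem hS h1 ((DD a t).mul_mem hd hd)
  have h4 : d = 1 := by
    have h5 : orderOf (⟨d, hd⟩ : DD a t) ∣ 2 := orderOf_dvd_of_pow_eq_one (Subtype.ext (by rw [sq]; exact h3))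
    have h6 : orderOf (⟨d, hd⟩ : DD a t) ∣ Nat.card (DD a t) := orderOf_dvd_natCard _
    have h7 : Nat.Coprime 2 (Nat.card (DD a t)) := (Nat.coprime_two_left).2 hS.odd_card
    have h8 : orderOf (⟨d, hd⟩ : DD a t) = 1 := Nat.dvd_one.1 (by
      have := Nat.dvd_gcd h5 h6
      rwa [h7] at this)
    exact congrArg Subtype.val (orderOf_eq_one_iff.1 h8)
  rw [h4, mul_one]; exact hq

/-- a nonidentity element of `Q` fixes only `a` -/
theorem fix_only (hS : Cfsg.IsRankOneSetup G Ω a t Q) {q : G} (hq : q ∈ Q) (hq1 : q ≠ 1) {c : Ω} (h : q • c = c) : c = a := by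
  by_contra hc
  exact hq1 (q_reg hS hq hc h)

theorem comm_fix (hS : Cfsg.IsRankOneSetup G Ω a t Q) {q g : G} (hq : q ∈ Q) (hq1 : q ≠ 1) (h : g * q = q * g) : g • a = a := by
  apply fix_only hS hq hq1
  rw [← mul_smul, ← h, mul_smul, qa hS hq]

theorem exists_inv (hS : Cfsg.IsRankOneSetup G Ω a t Q) : ∃ s ∈ Q, s ≠ 1 ∧ s * s = 1 := by
  obtain ⟨s, hs⟩ := exists_prime_orderOf_dvd_card' (G := Q) 2 hS.even_card.two_dvd
  refine ⟨s, s.2, ?_, ?_⟩
  · intro h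
    have : s = 1 := Subtype.ext h
    rw [this, orderOf_one] at hs
    exact absurd hs (by norm_num)
  · have := pow_orderOf_eq_one s
    rw [hs, sq] at this
    exact congrArg Subtype.val this

end fin

end CfsgH9.R1
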