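import Cfsg.Agent.H9.R1

set_option autoImplicit false

open MulAction

namespace CfsgH9.R1

section odd
variable {M : Type*} [Group M] [Finite M] {X : Subgroup M}

theorem odd_sq (hX : Odd (Nat.card X)) {x : M} (hx : x ∈ X) :
    x ^ ((Nat.card X + 1) / 2) * x ^ ((Nat.card X + 1) / 2) = x := by
  have h1 : x ^ Nat.card X = 1 := by
    have := pow_card_eq_one' (x := (⟨x, hx⟩ : X))
    exact congrArg Subtype.val this
  rw [← pow_add]
  obtain ⟨k, hk⟩ := hX
  have : (Nat.card X + 1) / 2 + (Nat.card X + 1) / 2 = Nat.card X + 1 := by omega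
  rw [this, pow_succ, h1, one_mul]

theorem odd_sq' (hX : Odd (Nat.card X)) {x : M} (hx : x ∈ X) :
    (x * x) ^ ((Nat.card X + 1) / 2) = x := by
  rw [← sq, ← pow_mul, mul_comm, pow_mul, sq, ← odd_sq hX hx]
  rw [odd_sq hX hx, odd_sq hX hx]

theorem odd_sq_inj (hX : Odd (Nat.card X)) {x y : M} (hx : x ∈ X) (hy : y ∈ X) (h : x * x = y * y) : x = y := by
  rw [← odd_sq' hX hx, h, odd_sq' hX hy]

theorem odd_no_inv (hX : Odd (Nat.card X)) {x : M} (hx : x ∈ X) (h : x * x = 1) : x = 1 :=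
  odd_sq_inj hX hx X.one_mem (by rw [h, one_mul])

/-- commuting with a square -/
theorem odd_comm (hX : Odd (Nat.card X)) {x g : M} (hx : x ∈ X) (h : g * (x * x) = (x * x) * g) : g * x = x * g := by
  have h1 : Commute g (x * x) := h
  have h2 := h1.pow_right ((Nat.card X + 1) / 2)
  rw [odd_sq' hX hx] at h2
  exact h2

/-- in a group of odd order a non-trivial element is not conjugate to its inverse -/
theorem odd_real (hX : Odd (Nat.card X)) {c g : M} (hc : c ∈ X) (hg : g ∈ X) (h : g * c * g⁻¹ = c⁻¹) : c = 1 := by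
  have h1 : c * (g * g) = (g * g) * c := by
    have h2 : g * (g * c * g⁻¹) * g⁻¹ = c := by
      rw [h]
      have : g * c⁻¹ * g⁻¹ = (g * c * g⁻¹)⁻¹ := by group
      rw [this, h, inv_inv]
    have h3 : g * g * c * (g * g)⁻¹ = c := by
      have : g * g * c * (g * g)⁻¹ = g * (g * c * g⁻¹) * g⁻¹ := by group
      rw [this, h2]
    rw [mul_inv_eq_iff_eq_mul] at h3
    exact h3.symm
  have h2 := odd_comm hX hg h1
  rw [← h2] at h
  have h3 : c * c = 1 := by
    have : c * g * g⁻¹ = c := by group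
    rw [this] at h
    nth_rewrite 2 [h]
    group
  exact odd_no_inv hX hc h3

end odd

section inv
variable {G : Type*} [Group G] [Finite G]

theorem inv_pow_rel {s u : G} (hs : s * s = 1) (hu : u * u = 1) (n : ℕ) : s * (s * u) ^ n = ((s * u) ^ n)⁻¹ * s := by
  have hsi : s⁻¹ = s := inv_eq_of_mul_eq_one_left hs
  have hui : u⁻¹ = u := inv_eq_of_mul_eq_one_left hu
  induction n with
  | zero => simp
  | succ n ih =>
    rw [pow_succ, ← mul_assoc, ih, mul_inv_rev, mul_inv_rev, hsi, hui]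
    have h1 : ((s * u) ^ n)⁻¹ * s * (s * u) = ((s * u) ^ n)⁻¹ * (s * s) * u := by group
    rw [h1, hs, mul_one]
    have h2 : u * s * ((s * u) ^ n)⁻¹ * s = ((s * u) ^ n)⁻¹ * (u * s) * s := by
      have h3 : u * s = (s * u)⁻¹ := by rw [mul_inv_rev, hsi, hui]
      rw [h3]
      have h4 : (s * u)⁻¹ * ((s * u) ^ n)⁻¹ = ((s * u) ^ n)⁻¹ * (s * u)⁻¹ := by
        rw [← mul_inv_rev, ← mul_inv_rev, ← pow_succ, ← pow_succ']
      rw [h4]
    rw [h2, mul_assoc, mul_assoc, hs, mul_one]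

/-- two involutions with product of odd order are conjugate -/
theorem conj_of_odd {s u : G} (hs : s * s = 1) (hu : u * u = 1) (ho : Odd (orderOf (s * u))) :
    ∃ g : G, g * s * g⁻¹ = u := by
  obtain ⟨m, hm⟩ := ho
  refine ⟨((s * u) ^ (m + 1))⁻¹, ?_⟩
  rw [inv_inv]
  have h1 : ((s * u) ^ (m + 1))⁻¹ * s * (s * u) ^ (m + 1) = ((s * u) ^ (m + 1))⁻¹ * (((s * u) ^ (m + 1))⁻¹ * s) := by
    rw [mul_assoc, inv_pow_rel hs hu]
  rw [h1, ← mul_assoc, ← mul_inv_rev, ← pow_add]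
  have h2 : m + 1 + (m + 1) = orderOf (s * u) + 1 := by omega
  rw [h2, pow_succ, pow_orderOf_eq_one, one_mul, mul_inv_rev, inv_eq_of_mul_eq_one_left hs,
    inv_eq_of_mul_eq_one_left hu, mul_assoc, hs, mul_one]

end inv

section fin
variable {G Ω : Type*} [Group G] [Finite G] [MulAction G Ω] {a : Ω} {t : G} {Q : Subgroup G}

theorem su_odd (hS : Cfsg.IsRankOneSetup G Ω a t Q) {s u : G} (hs : s • a = a) (hs1 : s ≠ 1) (hs2 : s * s = 1)
    (hu : u • a ≠ a) (hu2 : u * u = 1) : Odd (orderOf (s * u)) := by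
  by_contra hcon
  rw [Nat.not_odd_iff_even] at hcon
  obtain ⟨k, hk⟩ := hcon
  have hpos : 0 < orderOf (s * u) := orderOf_pos _
  set z := (s * u) ^ k with hz
  have hz1 : z ≠ 1 := by
    intro h
    have := orderOf_dvd_of_pow_eq_one h
    have := Nat.le_of_dvd (by omega) this
    omega
  have hz2 : z * z = 1 := by rw [hz, ← pow_add, ← hk, pow_orderOf_eq_one]
  have hzi : z⁻¹ = z := inv_eq_of_mul_eq_one_left hz2
  have hsz : s * z = z * s := by
    have := inv_pow_rel hs2 hu2 k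
    rw [← hz, hzi] at this
    exact this
  have hsuz : (s * u) * z = z * (s * u) := by
    rw [hz, ← pow_succ, ← pow_succ']
  have huz : u * z = z * u := by
    have h1 : u = s * (s * u) := by rw [← mul_assoc, hs2, one_mul]
    rw [h1, mul_assoc, hsuz, ← mul_assoc, hsz, mul_assoc]
  have hsQ := inv_mem_Q hS hs hs2
  have hza : z • a = a := comm_fix hS hsQ hs1 hsz.symm
  have hzQ := inv_mem_Q hS hza hz2
  exact hu (comm_fix hS hzQ hz1 huz)

theorem conj_inv (hS : Cfsg.IsRankOneSetup G Ω a t Q) {u v : G} (hu1 : u ≠ 1) (hu2 : u * u = 1) (hv1 : v ≠ 1) (hv2 : v * v = 1) :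
    ∃ g : G, g * u * g⁻¹ = v := by
  obtain ⟨s, hsQ, hs1, hs2⟩ := exists_inv hS
  -- everything conjugate to t
  have key : ∀ w : G, w ≠ 1 → w * w = 1 → ∃ g : G, g * w * g⁻¹ = t := by
    intro w hw1 hw2
    by_cases hw : w • a = a
    · exact conj_of_odd hw2 hS.mul_self (su_odd hS hw hw1 hw2 (ba hS) hS.mul_self)
    · obtain ⟨g, hg⟩ := conj_of_odd hs2 hw2 (su_odd hS (qa hS hsQ) hs1 hs2 hw hw2)
      obtain ⟨h, hh⟩ := conj_of_odd hs2 hS.mul_self (su_odd hS (qa hS hsQ) hs1 hs2 (ba hS) hS.mul_self)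
      refine ⟨h * g⁻¹, ?_⟩
      rw [← hh, ← hg]; group
  obtain ⟨g, hg⟩ := key u hu1 hu2
  obtain ⟨h, hh⟩ := key v hv1 hv2
  refine ⟨h⁻¹ * g, ?_⟩
  have : h⁻¹ * g * u * (h⁻¹ * g)⁻¹ = h⁻¹ * (g * u * g⁻¹) * h := by group
  rw [this, hg, ← hh]; group

/-- every involution fixes a point -/
theorem exists_fix (hS : Cfsg.IsRankOneSetup G Ω a t Q) {u : G} (hu1 : u ≠ 1) (hu2 : u * u = 1) : ∃ c : Ω, u • c = c := by
  obtain ⟨s, hsQ, hs1, hs2⟩ := exists_inv hS
  obtain ⟨g, hg⟩ := conj_inv hS hs1 hs2 hu1 hu2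
  refine ⟨g • a, ?_⟩
  rw [← hg, ← mul_smul]
  have : g * s * g⁻¹ * g = g * s := by group
  rw [this, mul_smul, qa hS hsQ]

/-- ... and only one -/
theorem fix_unique (hS : Cfsg.IsRankOneSetup G Ω a t Q) {u : G} (hu1 : u ≠ 1) (hu2 : u * u = 1) {c d : Ω} (hc : u • c = c)
    (hd : u • d = d) : c = d := by
  obtain ⟨s, hsQ, hs1, hs2⟩ := exists_inv hS
  obtain ⟨g, hg⟩ := conj_inv hS hu1 hu2 hs1 hs2
  have h1 : ∀ e : Ω, u • e = e → g • e = a := by
    intro e he
    apply fix_only hS hsQ hs1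
    rw [← hg, ← mul_smul]
    have : g * u * g⁻¹ * g = g * u := by group
    rw [this, mul_smul, he]
  exact MulAction.injective g ((h1 c hc).trans (h1 d hd).symm)

/-- inverted elements -/
abbrev KK (a : Ω) (t : G) : Set G := Cfsg.invertedBy (DD a t) t

theorem mem_KK (hS : Cfsg.IsRankOneSetup G Ω a t Q) {x : G} : x ∈ KK a t ↔ x ∈ DD a t ∧ t * x * t = x⁻¹ := by
  constructor
  · rintro ⟨h1, h2⟩
    rw [tinv hS] at h2
    exact ⟨h1, h2⟩
  · rintro ⟨h1, h2⟩
    refine ⟨h1, ?_⟩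
    rw [tinv hS]; exact h2

theorem KK_sqrt (hS : Cfsg.IsRankOneSetup G Ω a t Q) {d : G} (hd : d ∈ KK a t) : ∃ k ∈ KK a t, k * k = d := by
  rw [mem_KK hS] at hd
  refine ⟨d ^ ((Nat.card (DD a t) + 1) / 2), ?_, odd_sq hS.odd_card hd.1⟩
  rw [mem_KK hS]
  refine ⟨(DD a t).pow_mem hd.1 _, ?_⟩
  rw [← inv_pow, ← hd.2]
  generalize (Nat.card (DD a t) + 1) / 2 = n
  induction n with
  | zero => rw [pow_zero, pow_zero, mul_one, hS.mul_self]
  | succ n ih =>
    rw [pow_succ, pow_succ, ← ih]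
    have : t * d ^ n * t * (t * d * t) = t * d ^ n * (t * t) * d * t := by group
    rw [this, hS.mul_self]; group

/-- involutions moving `a` -/
theorem inv_outside (hS : Cfsg.IsRankOneSetup G Ω a t Q) {u : G} (hu : u • a ≠ a) (hu2 : u * u = 1) :
    ∃ q ∈ Q, ∃ d ∈ KK a t, u = q * d * t * q⁻¹ := by
  obtain ⟨q, hq, d, hd, y, hy, h⟩ := canon hS hu
  have h1 : u = y⁻¹ * (t * d⁻¹ * t) * t * q⁻¹ := by
    have h2 : u = u⁻¹ := (inv_eq_of_mul_eq_one_left hu2).symm
    rw [h2, h]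
    have h3 : (q * d * t * y)⁻¹ = y⁻¹ * t⁻¹ * d⁻¹ * q⁻¹ := by group
    rw [h3, tinv hS]
    have h4 : y⁻¹ * (t * d⁻¹ * t) * t * q⁻¹ = y⁻¹ * t * d⁻¹ * (t * t) * q⁻¹ := by group
    rw [h4, hS.mul_self, mul_one]
  have h5 := canon_unique hS (Q.inv_mem hy) (conj_t hS ((DD a t).inv_mem hd)) (Q.inv_mem hq) hq hd hy (h1.symm.trans h)
  refine ⟨q, hq, d, ?_, ?_⟩
  · rw [mem_KK hS]
    refine ⟨hd, ?_⟩
    have h6 : (t * d⁻¹ * t)⁻¹ = d⁻¹ := by rw [h5.2.1]
    have h7 : (t * d⁻¹ * t)⁻¹ = t⁻¹ * d * t⁻¹ := by group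
    rw [h7, tinv hS] at h6
    exact h6
  · rw [h5.2.2]; exact h

theorem kt_conj (hS : Cfsg.IsRankOneSetup G Ω a t Q) {k : G} (hk : k ∈ KK a t) : k * t * k⁻¹ = k * k * t := by
  rw [mem_KK hS] at hk
  rw [← hk.2]
  have : k * t * (t * k * t) = k * (t * t) * k * t := by group
  rw [this, hS.mul_self, mul_one]

theorem tkt (hS : Cfsg.IsRankOneSetup G Ω a t Q) {k : G} (hk : k ∈ KK a t) : t * k = k⁻¹ * t := by
  rw [mem_KK hS] at hk
  rw [← hk.2, mul_assoc, hS.mul_self, mul_one]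

theorem KK_inv (hS : Cfsg.IsRankOneSetup G Ω a t Q) {k : G} (hk : k ∈ KK a t) : k⁻¹ ∈ KK a t := by
  rw [mem_KK hS] at hk ⊢
  refine ⟨(DD a t).inv_mem hk.1, ?_⟩
  have : t * k⁻¹ * t = (t⁻¹ * k * t⁻¹)⁻¹ := by group
  rw [this, tinv hS, hk.2]

/-- the structure map of an involution -/
theorem exists_delta (hS : Cfsg.IsRankOneSetup G Ω a t Q) {s : G} (hs : s ∈ Q) (hs1 : s ≠ 1) (hs2 : s * s = 1) :
    ∃ q ∈ Q, ∃ d ∈ KK a t, t * s * t = q * d * t * q⁻¹ := by
  apply inv_outside hS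
  · intro h
    rw [mul_smul, mul_smul] at h
    have h1 := congrArg (fun x => t • x) h
    simp only [← mul_smul, ← mul_assoc, hS.mul_self, one_mul] at h1
    rw [mul_smul] at h1
    exact ba hS (fix_only hS hs hs1 h1)
  · have : t * s * t * (t * s * t) = t * s * (t * t) * s * t := by group
    rw [this, hS.mul_self, mul_one, mul_assoc t s s, hs2, mul_one, hS.mul_self]

/-- a special pair exists -/
theorem exists_special (hS : Cfsg.IsRankOneSetup G Ω a t Q) {s : G} (hs : s ∈ Q) (hs1 : s ≠ 1) (hs2 : s * s = 1) :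
    ∃ k ∈ KK a t, ∃ r ∈ Q, t * (k * s * k⁻¹) * t = r⁻¹ * t * r := by
  obtain ⟨q, hq, d, hd, h⟩ := exists_delta hS hs hs1 hs2
  obtain ⟨k, hk, hkk⟩ := KK_sqrt hS hd
  refine ⟨k, hk, (k⁻¹ * q * k)⁻¹, Q.inv_mem (conj_mem' hS hk.1.1 hq), ?_⟩
  rw [inv_inv]
  have e1 : t * (k * s * k⁻¹) * t = k⁻¹ * (t * s * t) * k := by
    have h1 := tkt hS hk
    have h2 : k⁻¹ * t = t * k := h1.symm
    have h3 : t * k⁻¹ = k * t := by
      have := tkt hS (KK_inv hS hk)
      rwa [inv_inv] at this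
    calc t * (k * s * k⁻¹) * t = (t * k) * s * (k⁻¹ * t) := by group
      _ = (k⁻¹ * t) * s * (t * k) := by rw [h1]
      _ = _ := by group
  rw [e1, h, ← hkk, ]
  have e2 : q * (k * k) * t * q⁻¹ = q * (k * t * k⁻¹) * q⁻¹ := by rw [kt_conj hS hk]; group
  rw [e2]; group

/-- all involutions of `G_a`, as a type -/
abbrev Inv (G : Type*) {Ω : Type*} [Group G] [MulAction G Ω] (a : Ω) := Cfsg.involutionsIn (stabilizer G a : Set G)

theorem mem_Inv {s : G} : s ∈ Inv G a ↔ s • a = a ∧ s ≠ 1 ∧ s * s = 1 := Iff.rfl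

theorem Inv_mem_Q (hS : Cfsg.IsRankOneSetup G Ω a t Q) {s : G} (hs : s ∈ Inv G a) : s ∈ Q :=
  inv_mem_Q hS hs.1 hs.2.2

/-- involutions outside `G_a`, parametrised by `Q × K` -/
noncomputable def outK (hS : Cfsg.IsRankOneSetup G Ω a t Q) : Q × KK a t ≃ {u : G // u * u = 1 ∧ u • a ≠ a} :=
  Equiv.ofBijective (fun p => ⟨p.1 * p.2 * t * (p.1 : G)⁻¹, by
    obtain ⟨⟨q, hq⟩, ⟨d, hd⟩⟩ := p
    obtain ⟨k, hk, rfl⟩ := KK_sqrt hS hd
    have h1 : q * (k * k) * t * q⁻¹ = (q * k) * t * (q * k)⁻¹ := by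
      have : q * (k * k) * t * q⁻¹ = q * (k * k * t) * q⁻¹ := by group
      rw [this, ← kt_conj hS hk]; group
    dsimp only
    rw [h1]
    constructor
    · have : q * k * t * (q * k)⁻¹ * (q * k * t * (q * k)⁻¹) = q * k * (t * t) * (q * k)⁻¹ := by group
      rw [this, hS.mul_self]; group
    · intro h
      have h2 : (q * k) • a = a := by rw [mul_smul, show k • a = a from hk.1.1, qa hS hq]
      have h3 : (q * k)⁻¹ • a = a := by rw [inv_smul_eq_iff, h2]
      rw [mul_smul, h3, mul_smul] at h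
      have h4 : t • a = (q * k)⁻¹ • a := by rw [eq_inv_smul_iff]; exact h
      rw [h3] at h4
      exact ba hS h4⟩) (by
    constructor
    · rintro ⟨⟨q, hq⟩, ⟨d, hd⟩⟩ ⟨⟨q', hq'⟩, ⟨d', hd'⟩⟩ h
      have h1 : q * d * t * q⁻¹ = q' * d' * t * q'⁻¹ := congrArg Subtype.val h
      obtain ⟨h2, h3, -⟩ := canon_unique hS hq hd.1 (Q.inv_mem hq) hq' hd'.1 (Q.inv_mem hq') h1
      subst h2; subst h3; rfl
    · rintro ⟨u, hu1, hu2⟩
      obtain ⟨q, hq, d, hd, h⟩ := inv_outside hS hu2 hu1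
      exact ⟨(⟨q, hq⟩, ⟨d, hd⟩), Subtype.ext h.symm⟩)

/-- involutions outside `G_a`, parametrised by `Q × Inv` -/
noncomputable def outI (hS : Cfsg.IsRankOneSetup G Ω a t Q) : Q × Inv G a ≃ {u : G // u * u = 1 ∧ u • a ≠ a} :=
  Equiv.ofBijective (fun p => ⟨p.1 * (t * p.2 * t) * (p.1 : G)⁻¹, by
    obtain ⟨⟨q, hq⟩, ⟨s, hs⟩⟩ := p
    have hsQ := Inv_mem_Q hS hs
    dsimp only
    constructor
    · have : q * (t * s * t) * q⁻¹ * (q * (t * s * t) * q⁻¹) = q * (t * s * (t * t) * s * t) * q⁻¹ := by group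
      rw [this, hS.mul_self, mul_one, mul_assoc t s s, hs.2.2, mul_one, hS.mul_self]; group
    · intro h
      have h3 : q⁻¹ • a = a := qa hS (Q.inv_mem hq)
      rw [mul_smul, h3, mul_smul, mul_smul, mul_smul] at h
      have h4 : t • s • t • a = q⁻¹ • a := by rw [eq_inv_smul_iff]; exact h
      rw [h3] at h4
      have h5 : s • t • a = t • a := by
        have h6 : t • t • s • t • a = t • a := by rw [h4]
        rwa [← mul_smul t t, hS.mul_self, one_smul] at h6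
      exact ba hS (fix_only hS hsQ hs.2.1 h5)⟩) (by
    constructor
    · rintro ⟨⟨q, hq⟩, ⟨s, hs⟩⟩ ⟨⟨q', hq'⟩, ⟨s', hs'⟩⟩ h
      have h1 : q * (t * s * t) * q⁻¹ = q' * (t * s' * t) * q'⁻¹ := congrArg Subtype.val h
      have hfix : ∀ (q s : G), q ∈ Q → s ∈ Inv G a → (q * (t * s * t) * q⁻¹) • (q • t • a) = q • t • a := by
        intro q s hq hs
        have e0 : (q * (t * s * t) * q⁻¹) * (q * t) = q * t * s * (t * t) := by group
        have e1 : (q * (t * s * t) * q⁻¹) • (q • t • a) = ((q * (t * s * t) * q⁻¹) * (q * t)) • a := by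
          rw [mul_smul (q * (t * s * t) * q⁻¹), mul_smul q t]
        rw [e1, e0, hS.mul_self, mul_one, mul_smul, show s • a = a from hs.1, mul_smul]
      have hne : ∀ (q s : G), s ∈ Inv G a → q * (t * s * t) * q⁻¹ ≠ 1 := by
        intro q s hs h
        apply hs.2.1
        have h2 : s = t⁻¹ * (q⁻¹ * (q * (t * s * t) * q⁻¹) * q) * t⁻¹ := by group
        rw [h2, h, mul_one, inv_mul_cancel, mul_one, tinv hS, hS.mul_self]
      have hsq : ∀ (q s : G), s ∈ Inv G a → (q * (t * s * t) * q⁻¹) * (q * (t * s * t) * q⁻¹) = 1 := by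
        intro q s hs
        have : q * (t * s * t) * q⁻¹ * (q * (t * s * t) * q⁻¹) = q * (t * s * (t * t) * s * t) * q⁻¹ := by group
        rw [this, hS.mul_self, mul_one, mul_assoc t s s, hs.2.2, mul_one, hS.mul_self]; group
      have h2 : q • t • a = q' • t • a :=
        fix_unique hS (hne q s hs) (hsq q s hs) (hfix q s hq hs) (by rw [h1]; exact hfix q' s' hq' hs')
      have h3 := q_unique hS hq hq' (ba hS) h2
      subst h3
      have h4 : s = s' := by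
        have h5 : t * s * t = t * s' * t := mul_left_cancel (mul_right_cancel h1)
        exact mul_left_cancel (mul_right_cancel h5)
      subst h4; rfl
    · rintro ⟨u, hu1, hu2⟩
      have hu0 : u ≠ 1 := by rintro rfl; exact hu2 (one_smul _ _)
      obtain ⟨c, hc⟩ := exists_fix hS hu0 hu1
      have hca : c ≠ a := by rintro rfl; exact hu2 hc
      obtain ⟨q, hq, rfl⟩ := q_trans hS hca
      refine ⟨(⟨q, hq⟩, ⟨t * (q⁻¹ * u * q) * t, ?_, ?_, ?_⟩), Subtype.ext ?_⟩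
      · change (t * (q⁻¹ * u * q) * t) • a = a
        rw [mul_smul, mul_smul, mul_smul, mul_smul, hc, inv_smul_smul, tb hS]
      · intro h
        apply hu0
        have h2 : u = q * (t⁻¹ * (t * (q⁻¹ * u * q) * t) * t⁻¹) * q⁻¹ := by group
        rw [h2, h, mul_one, tinv hS, hS.mul_self]; group
      · have : t * (q⁻¹ * u * q) * t * (t * (q⁻¹ * u * q) * t) = t * (q⁻¹ * u * q) * (t * t) * (q⁻¹ * u * q) * t := by group
        rw [this, hS.mul_self, mul_one]
        have h2 : t * (q⁻¹ * u * q) * (q⁻¹ * u * q) * t = t * (q⁻¹ * (u * u) * q) * t := by group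
        rw [h2, hu1]
        have h3 : t * (q⁻¹ * 1 * q) * t = t * t := by group
        rw [h3, hS.mul_self]
      · change q * (t * (t * (q⁻¹ * u * q) * t) * t) * q⁻¹ = u
        have : t * (t * (q⁻¹ * u * q) * t) * t = (t * t) * (q⁻¹ * u * q) * (t * t) := by group
        rw [this, hS.mul_self]; group)

theorem card_KK (hS : Cfsg.IsRankOneSetup G Ω a t Q) : Nat.card (KK a t) = Nat.card (Inv G a) := by
  have h1 := Nat.card_congr (outK hS)
  have h2 := Nat.card_congr (outI hS)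
  rw [Nat.card_prod] at h1 h2
  exact Nat.eq_of_mul_eq_mul_left Nat.card_pos (h1.trans h2.symm)

end fin

end CfsgH9.R1
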