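import Cfsg.Agent.H9.R1b

set_option autoImplicit false

open MulAction

namespace CfsgH9.R1

section fin
variable {G Ω : Type*} [Group G] [Finite G] [MulAction G Ω] {a : Ω} {t : G} {Q : Subgroup G}

theorem conj_Inv {s k : G} (hs : s ∈ Inv G a) (hk : k • a = a) : k * s * k⁻¹ ∈ Inv G a := by
  refine ⟨?_, ?_, ?_⟩
  · change (k * s * k⁻¹) • a = a
    rw [mul_smul, mul_smul, show k⁻¹ • a = a by rw [inv_smul_eq_iff, hk], show s • a = a from hs.1, hk]
  · intro h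
    apply hs.2.1
    have : s = k⁻¹ * (k * s * k⁻¹) * k := by group
    rw [this, h]; group
  · have : k * s * k⁻¹ * (k * s * k⁻¹) = k * (s * s) * k⁻¹ := by group
    rw [this, hs.2.2]; group

theorem conj_Inv' {s k : G} (hs : s ∈ Inv G a) (hk : k • a = a) : k⁻¹ * s * k ∈ Inv G a := by
  have := conj_Inv (k := k⁻¹) hs (by rw [inv_smul_eq_iff, hk])
  rwa [inv_inv] at this

theorem exists_special' (hS : Cfsg.IsRankOneSetup G Ω a t Q) {s : G} (hs : s ∈ Inv G a) :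
    ∃ k ∈ KK a t, ∃ r ∈ Q, t * (k * s * k⁻¹) * t = r⁻¹ * t * r :=
  exists_special hS (Inv_mem_Q hS hs) hs.2.1 hs.2.2

theorem exists_Inv (hS : Cfsg.IsRankOneSetup G Ω a t Q) : ∃ s, s ∈ Inv G a := by
  obtain ⟨s, h1, h2, h3⟩ := exists_inv hS
  exact ⟨s, qa hS h1, h2, h3⟩

/-- the structure map is injective on involutions -/
theorem delta_inj (hS : Cfsg.IsRankOneSetup G Ω a t Q) {s s' q q' d : G} (hs : s ∈ Inv G a) (hs' : s' ∈ Inv G a)
    (hq : q ∈ Q) (hq' : q' ∈ Q) (hd : d ∈ KK a t) (h : t * s * t = q * d * t * q⁻¹) (h' : t * s' * t = q' * d * t * q'⁻¹) :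
    s = s' := by
  classical
  have hex : ∀ s : Inv G a, ∃ d : KK a t, ∃ q ∈ Q, t * s * t = q * d * t * q⁻¹ := by
    rintro ⟨s, hs⟩
    obtain ⟨q, hq, d, hd, h⟩ := exists_delta hS (Inv_mem_Q hS hs) hs.2.1 hs.2.2
    exact ⟨⟨d, hd⟩, q, hq, h⟩
  choose F hF using hex
  have huniq : ∀ (s : Inv G a) (q d : G) (hq : q ∈ Q) (hd : d ∈ KK a t), t * s * t = q * d * t * q⁻¹ → (F s : G) = d := by
    intro s q d hq hd h
    obtain ⟨r, hr, h2⟩ := hF s
    exact (canon_unique hS hr (F s).2.1 (Q.inv_mem hr) hq hd.1 (Q.inv_mem hq) (h2.symm.trans h)).2.1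
  have hsurj : Function.Surjective F := by
    rintro ⟨d, hd⟩
    obtain ⟨s1, hs1⟩ := exists_Inv hS
    obtain ⟨k1, hk1, r, hr, h1⟩ := exists_special' hS hs1
    have hs0 := conj_Inv hs1 hk1.1.1
    set s0 := k1 * s1 * k1⁻¹ with hs0d
    obtain ⟨k, hk, hkk⟩ := KK_sqrt hS hd
    refine ⟨⟨k⁻¹ * s0 * k, conj_Inv' hs0 hk.1.1⟩, Subtype.ext (huniq _ (k * r⁻¹ * k⁻¹) d (hS.conj_mem k hk.1.1 _ (Q.inv_mem hr)) hd ?_)⟩
    have e1 : t * k⁻¹ = k * t := by
      have := tkt hS (KK_inv hS hk)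
      rwa [inv_inv] at this
    have e2 : k * t = t * k⁻¹ := e1.symm
    calc t * (k⁻¹ * s0 * k) * t = (t * k⁻¹) * s0 * (k * t) := by group
      _ = (k * t) * s0 * (t * k⁻¹) := by rw [e1]
      _ = k * (t * s0 * t) * k⁻¹ := by group
      _ = k * (r⁻¹ * t * r) * k⁻¹ := by rw [h1]
      _ = (k * r⁻¹ * k⁻¹) * (k * t * k⁻¹) * (k * r⁻¹ * k⁻¹)⁻¹ := by group
      _ = (k * r⁻¹ * k⁻¹) * (k * k * t) * (k * r⁻¹ * k⁻¹)⁻¹ := by rw [kt_conj hS hk]
      _ = _ := by rw [hkk]; group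
  haveI := Fintype.ofFinite (Inv G a)
  haveI := Fintype.ofFinite (KK a t)
  have hbij : Function.Bijective F := by
    rw [Fintype.bijective_iff_surjective_and_card]
    refine ⟨hsurj, ?_⟩
    rw [← Nat.card_eq_fintype_card, ← Nat.card_eq_fintype_card, card_KK hS]
  have h1 : F ⟨s, hs⟩ = F ⟨s', hs'⟩ := Subtype.ext ((huniq ⟨s, hs⟩ q d hq hd h).trans (huniq ⟨s', hs'⟩ q' d hq' hd h').symm)
  exact congrArg Subtype.val (hbij.1 h1)

theorem one_mem_KK (hS : Cfsg.IsRankOneSetup G Ω a t Q) : (1 : G) ∈ KK a t := by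
  rw [mem_KK hS]
  exact ⟨(DD a t).one_mem, by rw [mul_one, hS.mul_self, inv_one]⟩

theorem special_unique (hS : Cfsg.IsRankOneSetup G Ω a t Q) {s s' r r' : G} (hs : s ∈ Inv G a) (hs' : s' ∈ Inv G a)
    (hr : r ∈ Q) (hr' : r' ∈ Q) (h : t * s * t = r⁻¹ * t * r) (h' : t * s' * t = r'⁻¹ * t * r') : s = s' ∧ r = r' := by
  have h1 : s = s' := delta_inj hS hs hs' (Q.inv_mem hr) (Q.inv_mem hr') (one_mem_KK hS)
    (by rw [h]; group) (by rw [h']; group)
  subst h1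
  have h2 := canon_unique hS (Q.inv_mem hr) (DD a t).one_mem hr (Q.inv_mem hr') (DD a t).one_mem hr'
    (by rw [mul_one, mul_one, ← h, ← h'])
  exact ⟨rfl, h2.2.2⟩

/-- `C_D(t) = C_D(s)` for the special involution -/
theorem special_comm (hS : Cfsg.IsRankOneSetup G Ω a t Q) {s r c : G} (hs : s ∈ Inv G a) (hr : r ∈ Q)
    (h : t * s * t = r⁻¹ * t * r) (hc : c ∈ DD a t) : c * t = t * c ↔ c * s = s * c := by
  constructor
  · intro hct
    have h1 : t * (c * s * c⁻¹) * t = (c * r * c⁻¹)⁻¹ * t * (c * r * c⁻¹) := by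
      have e2 : c⁻¹ * t = t * c⁻¹ := by
        rw [inv_mul_eq_iff_eq_mul, ← mul_assoc, hct]; group
      calc t * (c * s * c⁻¹) * t = (t * c) * s * (c⁻¹ * t) := by group
        _ = (c * t) * s * (t * c⁻¹) := by rw [← hct, e2]
        _ = c * (t * s * t) * c⁻¹ := by group
        _ = c * (r⁻¹ * t * r) * c⁻¹ := by rw [h]
        _ = (c * r⁻¹ * c⁻¹) * (c * t) * c⁻¹ * (c * r * c⁻¹) := by group
        _ = (c * r⁻¹ * c⁻¹) * (t * c) * c⁻¹ * (c * r * c⁻¹) := by rw [hct]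
        _ = _ := by group
    have h2 := (special_unique hS (conj_Inv hs hc.1) hs (hS.conj_mem c hc.1 r hr) hr h1 h).1
    rw [mul_inv_eq_iff_eq_mul] at h2
    exact h2
  · intro hcs
    set c' := t * c * t with hc'
    have hc'D := conj_t hS hc
    have htc : t * c = c' * t := by rw [hc', mul_assoc (t * c), hS.mul_self, mul_one]
    have h1 : t * s * t = (c' * r⁻¹ * c'⁻¹) * (c' * c⁻¹) * t * (c' * r * c'⁻¹) := by
      have e0 : s = c * s * c⁻¹ := by rw [hcs]; group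
      have e3 : c⁻¹ * t = t * c'⁻¹ := by
        rw [inv_mul_eq_iff_eq_mul, ← mul_assoc]
        have : c * t = t * c' := by rw [hc', ← mul_assoc, ← mul_assoc, hS.mul_self, one_mul]
        rw [this]; group
      have e4 : t * c' = c * t := by rw [hc', ← mul_assoc, ← mul_assoc, hS.mul_self, one_mul]
      calc t * s * t = t * (c * s * c⁻¹) * t := by rw [← e0]
        _ = (t * c) * s * (c⁻¹ * t) := by group
        _ = (c' * t) * s * (t * c'⁻¹) := by rw [htc, e3]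
        _ = c' * (t * s * t) * c'⁻¹ := by group
        _ = c' * (r⁻¹ * t * r) * c'⁻¹ := by rw [h]
        _ = (c' * r⁻¹ * c'⁻¹) * (c' * (t * c'⁻¹)) * (c' * r * c'⁻¹) := by group
        _ = (c' * r⁻¹ * c'⁻¹) * (c' * (c⁻¹ * t)) * (c' * r * c'⁻¹) := by rw [e3]
        _ = _ := by group
    have h2 : (c' * r⁻¹ * c'⁻¹) * (c' * c⁻¹) * t * (c' * r * c'⁻¹) = r⁻¹ * 1 * t * r := by rw [← h1, h]; group
    have h3 := canon_unique hS (hS.conj_mem c' hc'D.1 _ (Q.inv_mem hr)) ((DD a t).mul_mem hc'D ((DD a t).inv_mem hc))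
      (hS.conj_mem c' hc'D.1 _ hr) (Q.inv_mem hr) (DD a t).one_mem hr h2
    have h4 : c' = c := mul_inv_eq_one.1 h3.2.1
    rw [h4] at htc
    exact htc.symm

/-- `k ↦ k⁻¹ s k` is injective on `K` -/
theorem KK_conj_inj (hS : Cfsg.IsRankOneSetup G Ω a t Q) {s k l : G} (hs : s ∈ Inv G a) (hk : k ∈ KK a t) (hl : l ∈ KK a t)
    (h : k⁻¹ * s * k = l⁻¹ * s * l) : k = l := by
  obtain ⟨m, hm, r, hr, hsp⟩ := exists_special' hS hs
  set c := k * l⁻¹ with hc
  have hcD : c ∈ DD a t := (DD a t).mul_mem hk.1 ((DD a t).inv_mem hl.1)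
  have hcs : c * s = s * c := by
    have h1 : s = k * (l⁻¹ * s * l) * k⁻¹ := by rw [← h]; group
    nth_rewrite 2 [h1]
    rw [hc]; group
  have h2 : (m * c * m⁻¹) * (m * s * m⁻¹) = (m * s * m⁻¹) * (m * c * m⁻¹) := by
    have e1 : (m * c * m⁻¹) * (m * s * m⁻¹) = m * (c * s) * m⁻¹ := by group
    rw [e1, hcs]; group
  have hmcD : m * c * m⁻¹ ∈ DD a t := (DD a t).mul_mem ((DD a t).mul_mem hm.1 hcD) ((DD a t).inv_mem hm.1)
  have h3 := (special_comm hS (conj_Inv hs hm.1.1) hr hsp hmcD).2 h2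
  -- t c t = m² c m⁻²
  have h4 : t * c * t = m * m * c * (m * m)⁻¹ := by
    have e1 : t * (m * c * m⁻¹) * t = m * c * m⁻¹ := by rw [← h3, mul_assoc, hS.mul_self, mul_one]
    have e2 : t * (m * c * m⁻¹) * t = m⁻¹ * (t * c * t) * m := by
      have f1 := tkt hS hm
      have f2 : m⁻¹ * t = t * m := f1.symm
      calc t * (m * c * m⁻¹) * t = (t * m) * c * (m⁻¹ * t) := by group
        _ = (m⁻¹ * t) * c * (t * m) := by rw [f1]
        _ = _ := by group
    rw [e2] at e1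
    have e3 : t * c * t = m * (m⁻¹ * (t * c * t) * m) * m⁻¹ := by group
    rw [e3, e1]; group
  have h5 : t * c * t = l⁻¹ * c⁻¹ * l := by
    have f1 := tkt hS hk
    have f2 := tkt hS (KK_inv hS hl)
    rw [inv_inv] at f2
    rw [hc]
    calc t * (k * l⁻¹) * t = (t * k) * l⁻¹ * t := by group
      _ = (k⁻¹ * t) * l⁻¹ * t := by rw [f1]
      _ = k⁻¹ * (t * l⁻¹) * t := by group
      _ = k⁻¹ * (l * t) * t := by rw [f2]
      _ = k⁻¹ * l * (t * t) := by group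
      _ = _ := by rw [hS.mul_self]; group
  have h6 : (l * (m * m)) * c * (l * (m * m))⁻¹ = c⁻¹ := by
    have e1 : (l * (m * m)) * c * (l * (m * m))⁻¹ = l * (m * m * c * (m * m)⁻¹) * l⁻¹ := by group
    rw [e1, ← h4, h5]; group
  have h7 := odd_real hS.odd_card hcD ((DD a t).mul_mem hl.1 ((DD a t).mul_mem hm.1 hm.1)) h6
  exact mul_inv_eq_one.1 h7

/-- `K` acts transitively by conjugation on the involutions of `G_a` -/
theorem KK_conj_surj (hS : Cfsg.IsRankOneSetup G Ω a t Q) {s s' : G} (hs : s ∈ Inv G a) (hs' : s' ∈ Inv G a) :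
    ∃ k ∈ KK a t, k⁻¹ * s * k = s' := by
  classical
  haveI := Fintype.ofFinite (Inv G a)
  haveI := Fintype.ofFinite (KK a t)
  let F : KK a t → Inv G a := fun k => ⟨(k : G)⁻¹ * s * k, conj_Inv' hs k.2.1.1⟩
  have hbij : Function.Bijective F := by
    rw [Fintype.bijective_iff_injective_and_card]
    refine ⟨fun k l h => Subtype.ext (KK_conj_inj hS hs k.2 l.2 (congrArg Subtype.val h)), ?_⟩
    rw [← Nat.card_eq_fintype_card, ← Nat.card_eq_fintype_card, card_KK hS]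
  obtain ⟨k, hk⟩ := hbij.2 ⟨s', hs'⟩
  exact ⟨k, k.2, congrArg Subtype.val hk⟩

end fin

end CfsgH9.R1
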