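import Cfsg.Agent.H9.R1c

set_option autoImplicit false

open MulAction

namespace CfsgH9.R1

section fin
variable {G Ω : Type*} [Group G] [Finite G] [MulAction G Ω] {a : Ω} {t : G} {Q : Subgroup G}

theorem mem_cent {X : Set G} {g : G} : g ∈ Subgroup.centralizer X ↔ ∀ x ∈ X, x * g = g * x := Subgroup.mem_centralizer_iff

theorem cq (hS : Cfsg.IsRankOneSetup G Ω a t Q) {X : Set G} (hX : X ⊆ (DD a t : Set G)) {c : Ω} (hc : ∀ x ∈ X, x • c = c)
    (hca : c ≠ a) : ∃ q ∈ Q, q ∈ Subgroup.centralizer X ∧ q • (t • a) = c := by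
  obtain ⟨q, hq, h⟩ := q_trans hS hca
  refine ⟨q, hq, ?_, h⟩
  rw [mem_cent]
  intro x hx
  have h1 : x * q * x⁻¹ = q := by
    apply q_unique hS (hS.conj_mem x (hX hx).1 q hq) hq (ba hS)
    have h2 : x⁻¹ • t • a = t • a := by rw [inv_smul_eq_iff]; exact (hX hx).2.symm
    rw [mul_smul, mul_smul, h2, h, hc x hx]
  rw [mul_inv_eq_iff_eq_mul] at h1
  exact h1

theorem cq' (hS : Cfsg.IsRankOneSetup G Ω a t Q) {X : Set G} (hX : X ⊆ (DD a t : Set G)) {c : Ω} (hc : ∀ x ∈ X, x • c = c)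
    (hca : c ≠ t • a) : ∃ g ∈ Subgroup.centralizer X, g • (t • a) = t • a ∧ g • a = c := by
  have hX' : (fun x => t * x * t) '' X ⊆ (DD a t : Set G) := by
    rintro _ ⟨x, hx, rfl⟩
    exact conj_t hS (hX hx)
  obtain ⟨q, hq, hqc, h⟩ := cq hS hX' (c := t • c) (by
    rintro _ ⟨x, hx, rfl⟩
    dsimp only
    rw [mul_smul, ← mul_smul t t c, hS.mul_self, one_smul, mul_smul, hc x hx]) (by
    intro h
    apply hca
    rw [← h, ← mul_smul, hS.mul_self, one_smul])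
  refine ⟨t * q * t, ?_, ?_, ?_⟩
  · rw [mem_cent] at hqc ⊢
    intro x hx
    have h1 := hqc _ ⟨x, hx, rfl⟩
    dsimp only at h1
    have e1 : x * (t * q * t) = t * ((t * x * t) * q) * t := by
      have : t * ((t * x * t) * q) * t = (t * t) * x * t * q * t := by group
      rw [this, hS.mul_self]; group
    have e2 : (t * q * t) * x = t * (q * (t * x * t)) * t := by
      have : t * (q * (t * x * t)) * t = t * q * t * x * (t * t) := by group
      rw [this, hS.mul_self]; group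
    rw [e1, e2, h1]
  · rw [mul_smul, tb hS, mul_smul, qa hS hq]
  · rw [mul_smul, mul_smul, h, ← mul_smul, hS.mul_self, one_smul]

theorem fix_cent {X : Set G} {g : G} (hg : g ∈ Subgroup.centralizer X) {c : Ω} (hc : ∀ x ∈ X, x • c = c) :
    ∀ x ∈ X, x • g • c = g • c := by
  intro x hx
  rw [← mul_smul, mem_cent.1 hg x hx, mul_smul, hc x hx]

/-- three fixed points -/
def Three (X : Set G) (Ω : Type*) [MulAction G Ω] : Prop :=
  ∃ b c d : Ω, b ≠ c ∧ b ≠ d ∧ c ≠ d ∧ ∀ x ∈ X, x • b = b ∧ x • c = c ∧ x • d = d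

theorem third {X : Set G} (h3 : Three X Ω) (u v : Ω) : ∃ e : Ω, e ≠ u ∧ e ≠ v ∧ ∀ x ∈ X, x • e = e := by
  obtain ⟨b, c, d, h1, h2, h3, h4⟩ := h3
  by_cases hb : b ≠ u ∧ b ≠ v
  · exact ⟨b, hb.1, hb.2, fun x hx => (h4 x hx).1⟩
  by_cases hc : c ≠ u ∧ c ≠ v
  · exact ⟨c, hc.1, hc.2, fun x hx => (h4 x hx).2.1⟩
  refine ⟨d, ?_, ?_, fun x hx => (h4 x hx).2.2⟩
  · rintro rfl
    have hbv : b = v := by
      by_contra h
      exact hb ⟨h2, h⟩
    have hcv : c = v := by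
      by_contra h
      exact hc ⟨h3, h⟩
    exact h1 (hbv.trans hcv.symm)
  · rintro rfl
    have hbv : b = u := by
      by_contra h
      exact hb ⟨h, h2⟩
    have hcv : c = u := by
      by_contra h
      exact hc ⟨h, h3⟩
    exact h1 (hbv.trans hcv.symm)

theorem cent_trans (hS : Cfsg.IsRankOneSetup G Ω a t Q) {X : Set G} (hX : X ⊆ (DD a t : Set G)) (h3 : Three X Ω)
    {c : Ω} (hc : ∀ x ∈ X, x • c = c) : ∃ g ∈ Subgroup.centralizer X, g • a = c := by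
  by_cases h : c = t • a
  · subst h
    obtain ⟨e, h1, h2, h4⟩ := third h3 a (t • a)
    obtain ⟨g, hg, h5, h6⟩ := cq' hS hX h4 h2
    obtain ⟨q, hq, hqc, h7⟩ := cq hS hX h4 h1
    refine ⟨q⁻¹ * g, (Subgroup.centralizer X).mul_mem ((Subgroup.centralizer X).inv_mem hqc) hg, ?_⟩
    rw [mul_smul, h6, ← h7, inv_smul_smul]
  · obtain ⟨g, hg, h5, h6⟩ := cq' hS hX hc h
    exact ⟨g, hg, h6⟩

theorem fixD (hS : Cfsg.IsRankOneSetup G Ω a t Q) {X : Set G} (hX : X ⊆ (DD a t : Set G)) : (∀ x ∈ X, x • a = a) ∧ ∀ x ∈ X, x • (t • a) = t • a :=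
  ⟨fun x hx => (hX hx).1, fun x hx => (hX hx).2⟩

theorem cent_two_trans0 (hS : Cfsg.IsRankOneSetup G Ω a t Q) {X : Set G} (hX : X ⊆ (DD a t : Set G)) (h3 : Three X Ω)
    {c d : Ω} (hc : ∀ x ∈ X, x • c = c) (hd : ∀ x ∈ X, x • d = d) (hcd : c ≠ d) :
    ∃ g ∈ Subgroup.centralizer X, g • a = c ∧ g • (t • a) = d := by
  obtain ⟨g, hg, h1⟩ := cent_trans hS hX h3 hc
  have h2 : ∀ x ∈ X, x • g⁻¹ • d = g⁻¹ • d := fix_cent ((Subgroup.centralizer X).inv_mem hg) hd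
  obtain ⟨q, hq, hqc, h4⟩ := cq hS hX h2 (by
    intro h
    apply hcd
    rw [← h1, ← h, smul_inv_smul])
  refine ⟨g * q, (Subgroup.centralizer X).mul_mem hg hqc, ?_, ?_⟩
  · rw [mul_smul, qa hS hq, h1]
  · rw [mul_smul, h4, smul_inv_smul]

theorem cent_two_trans (hS : Cfsg.IsRankOneSetup G Ω a t Q) {X : Set G} (hX : X ⊆ (DD a t : Set G)) (h3 : Three X Ω)
    {c d c' d' : Ω} (hc : ∀ x ∈ X, x • c = c) (hd : ∀ x ∈ X, x • d = d) (hcd : c ≠ d)
    (hc' : ∀ x ∈ X, x • c' = c') (hd' : ∀ x ∈ X, x • d' = d') (hcd' : c' ≠ d') :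
    ∃ g ∈ Subgroup.centralizer X, g • c = c' ∧ g • d = d' := by
  obtain ⟨g, hg, h1, h2⟩ := cent_two_trans0 hS hX h3 hc hd hcd
  obtain ⟨h, hh, h4, h5⟩ := cent_two_trans0 hS hX h3 hc' hd' hcd'
  refine ⟨h * g⁻¹, (Subgroup.centralizer X).mul_mem hh ((Subgroup.centralizer X).inv_mem hg), ?_, ?_⟩
  · rw [mul_smul, ← h1, inv_smul_smul, h4]
  · rw [mul_smul, ← h2, inv_smul_smul, h5]

theorem odd_pow_swap {g : G} {c d : Ω} (h1 : g • c = d) (h2 : g • d = c) (n : ℕ) :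
    g ^ (2 * n + 1) • c = d ∧ g ^ (2 * n + 1) • d = c := by
  induction n with
  | zero => simp [h1, h2]
  | succ n ih =>
    have : g ^ (2 * (n + 1) + 1) = g * g * g ^ (2 * n + 1) := by
      rw [show 2 * (n + 1) + 1 = 2 + (2 * n + 1) by ring, pow_add, sq]
    rw [this, mul_smul, mul_smul, mul_smul, mul_smul, ih.1, ih.2, h1, h2, h1]
    exact ⟨rfl, rfl⟩

/-- there is an involution centralising `X` and interchanging `a` and `t a` -/
theorem exists_swap (hS : Cfsg.IsRankOneSetup G Ω a t Q) {X : Set G} (hX : X ⊆ (DD a t : Set G)) (h3 : Three X Ω) :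
    ∃ u ∈ Subgroup.centralizer X, u * u = 1 ∧ u • a = t • a ∧ u • (t • a) = a := by
  obtain ⟨g, hg, h1, h2⟩ := cent_two_trans0 hS hX h3 (fixD hS hX).2 (fixD hS hX).1 (ba hS)
  obtain ⟨n, hn⟩ := hS.odd_card
  have h4 := odd_pow_swap h1 h2 n
  rw [← hn] at h4
  refine ⟨g ^ Nat.card (DD a t), (Subgroup.centralizer X).pow_mem hg _, ?_, h4.1, h4.2⟩
  have hgg : g * g ∈ DD a t := ⟨by
    change (g * g) • a = a
    rw [mul_smul, h1, h2], by
    change (g * g) • t • a = t • a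
    rw [mul_smul, h2, h1]⟩
  have h5 : (⟨g * g, hgg⟩ : DD a t) ^ Nat.card (DD a t) = 1 := pow_card_eq_one'
  have h6 : (g * g) ^ Nat.card (DD a t) = 1 := congrArg Subtype.val h5
  rw [← pow_add, ← two_mul, pow_mul, sq, h6]

theorem swap_form (hS : Cfsg.IsRankOneSetup G Ω a t Q) {u : G} (hu2 : u * u = 1) (h1 : u • a = t • a) (h2 : u • (t • a) = a) :
    ∃ k ∈ KK a t, u = k * t * k⁻¹ := by
  have hd : u * t ∈ KK a t := by
    rw [mem_KK hS]
    refine ⟨⟨?_, ?_⟩, ?_⟩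
    · change (u * t) • a = a
      rw [mul_smul, h2]
    · change (u * t) • t • a = t • a
      rw [mul_smul, tb hS, h1]
    · have h4 : (u * t)⁻¹ = t * u := by
        rw [mul_inv_rev, tinv hS, inv_eq_of_mul_eq_one_left hu2]
      rw [h4]
      rw [mul_assoc, mul_assoc, hS.mul_self, mul_one]
  obtain ⟨k, hk, hkk⟩ := KK_sqrt hS hd
  refine ⟨k, hk, ?_⟩
  rw [kt_conj hS hk, hkk, mul_assoc, hS.mul_self, mul_one]

theorem conj_into_V (hS : Cfsg.IsRankOneSetup G Ω a t Q) {X : Set G} (hX : X ⊆ (DD a t : Set G)) (h3 : Three X Ω) :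
    ∃ k ∈ DD a t, ∀ x ∈ X, (k * x * k⁻¹) * t = t * (k * x * k⁻¹) := by
  obtain ⟨u, hu, hu2, h1, h2⟩ := exists_swap hS hX h3
  obtain ⟨k, hk, rfl⟩ := swap_form hS hu2 h1 h2
  refine ⟨k⁻¹, (DD a t).inv_mem hk.1, fun x hx => ?_⟩
  have h4 := mem_cent.1 hu x hx
  rw [inv_inv]
  calc k⁻¹ * x * k * t = k⁻¹ * (x * (k * t * k⁻¹)) * k := by group
    _ = k⁻¹ * ((k * t * k⁻¹) * x) * k := by rw [h4]
    _ = _ := by group

/-- elements of `K` act fixed-point-freely on `Q` -/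
theorem KK_fpf (hS : Cfsg.IsRankOneSetup G Ω a t Q) {x : G} (hx : x ∈ KK a t) (hx1 : x ≠ 1) {q : G} (hq : q ∈ Q)
    (hc : q * x = x * q) : q = 1 := by
  by_contra hq1
  have h3 : Three ({x} : Set G) Ω := by
    refine ⟨a, t • a, q • t • a, (ba hS).symm, ?_, ?_, ?_⟩
    · intro h
      have : q⁻¹ • a = t • a := by rw [inv_smul_eq_iff]; exact h
      rw [qa hS (Q.inv_mem hq)] at this
      exact ba hS this.symm
    · intro h; exact hq1 (q_fix hS hq h.symm)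
    · rintro y rfl
      refine ⟨hx.1.1, hx.1.2, ?_⟩
      rw [← mul_smul, ← hc, mul_smul, show y • t • a = t • a from hx.1.2]
  obtain ⟨k, hk, h4⟩ := conj_into_V hS (X := {x}) (by rintro y rfl; exact hx.1) h3
  have h5 := h4 x rfl
  have h6 : ((t * k⁻¹ * t) * k) * x * ((t * k⁻¹ * t) * k)⁻¹ = x⁻¹ := by
    have hxt := ((mem_KK hS).1 hx).2
    have e1 : ((t * k⁻¹ * t) * k) * x * ((t * k⁻¹ * t) * k)⁻¹ = t * k⁻¹ * t * (k * x * k⁻¹) * t⁻¹ * k * t⁻¹ := by group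
    rw [e1, tinv hS]
    have e2 : t * k⁻¹ * t * (k * x * k⁻¹) * t * k * t = t * k⁻¹ * t * ((k * x * k⁻¹) * t) * k * t := by group
    rw [e2, h5]
    have e3 : t * k⁻¹ * t * (t * (k * x * k⁻¹)) * k * t = t * k⁻¹ * (t * t) * k * x * t := by group
    rw [e3, hS.mul_self]
    have e4 : t * k⁻¹ * 1 * k * x * t = t * x * t := by group
    rw [e4, hxt]
  exact hx1 (odd_real hS.odd_card hx.1 ((DD a t).mul_mem (conj_t hS ((DD a t).inv_mem hk)) hk) h6)

end fin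

end CfsgH9.R1
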