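import Cfsg.Agent.H9.R1d
import Cfsg.Agent.H2.CopGen
import Cfsg.Agent.H1.FpfAut
import Cfsg.Agent.H1.PGrp2
import Cfsg.Agent.H2.Cores

set_option autoImplicit false

open MulAction

namespace CfsgH9.R1

section gen
variable {G : Type*} [Group G] [Finite G]

/-- an involution normalising a subgroup of even order centralises an involution of it -/
theorem exists_comm_inv (C : Subgroup G) (hC : Even (Nat.card C)) {u : G} (hu : u * u = 1) (hn : ∀ x ∈ C, u * x * u ∈ C) :
    ∃ w ∈ C, w ≠ 1 ∧ w * w = 1 ∧ u * w = w * u := by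
  classical
  haveI := Fintype.ofFinite C
  haveI : Fact (Nat.Prime 2) := ⟨Nat.prime_two⟩
  let f : Function.End C := fun x => x⁻¹
  have hf : f ^ 2 ^ 1 = 1 := by
    rw [pow_one, sq]
    funext x
    exact inv_inv x
  have h1 := Equiv.Perm.card_fixedPoints_modEq hf
  let I := {x : C // (x : G) ≠ 1 ∧ (x : G) * x = 1}
  have hcardI : Fintype.card f.fixedPoints = Fintype.card I + 1 := by
    have e : f.fixedPoints ≃ Option I :=
      { toFun := fun x => if h : (x.1 : G) = 1 then none else some ⟨x.1, h, by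
          have h8 : (x.1)⁻¹ = x.1 := x.2
          have h9 := mul_inv_cancel (x.1 : C)
          rw [h8] at h9
          exact congrArg Subtype.val h9⟩
        invFun := fun o => match o with
          | none => ⟨1, inv_one⟩
          | some y => ⟨y.1, by
            change (y.1)⁻¹ = y.1
            exact Subtype.ext (inv_eq_of_mul_eq_one_left y.2.2)⟩
        left_inv := by
          rintro ⟨x, hx⟩
          by_cases h : (x : G) = 1
          · have h' : x = 1 := Subtype.ext h
            subst h'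
            simp
          · simp [h]
        right_inv := by
          rintro (_ | ⟨y, hy⟩)
          · simp
          · simp [hy.1] }
    rw [Fintype.card_congr e, Fintype.card_option]
  have hoddI : Odd (Fintype.card I) := by
    rw [Nat.card_eq_fintype_card] at hC
    rw [hcardI] at h1
    unfold Nat.ModEq at h1
    rw [Nat.even_iff] at hC
    rw [Nat.odd_iff]
    omega
  let c : Function.End I := fun y => ⟨⟨u * y.1 * u, hn _ y.1.2⟩, by
    constructor
    · intro h
      have h : u * (y.1 : G) * u = 1 := h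
      apply y.2.1
      have h2 : (y.1 : G) = u⁻¹ * (u * y.1 * u) * u⁻¹ := by group
      rw [h2, h, inv_eq_of_mul_eq_one_left hu, mul_one, hu]
    · change u * (y.1 : G) * u * (u * (y.1 : G) * u) = 1
      have : u * (y.1 : G) * u * (u * (y.1 : G) * u) = u * y.1 * (u * u) * y.1 * u := by group
      rw [this, hu, mul_one, mul_assoc u, y.2.2, mul_one, hu]⟩
  have hc : c ^ 2 ^ 1 = 1 := by
    rw [pow_one, sq]
    funext y
    apply Subtype.ext
    apply Subtype.ext
    change u * (u * (y.1 : G) * u) * u = y.1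
    have : u * (u * (y.1 : G) * u) * u = (u * u) * y.1 * (u * u) := by group
    rw [this, hu]; group
  have h2 := Equiv.Perm.card_fixedPoints_modEq hc
  have h3 : Fintype.card c.fixedPoints ≠ 0 := by
    intro h
    rw [h] at h2
    rw [Nat.odd_iff] at hoddI
    unfold Nat.ModEq at h2
    omega
  obtain ⟨⟨y, hy⟩⟩ := Fintype.card_pos_iff.1 (Nat.pos_of_ne_zero h3)
  have hy' : u * (y.1 : G) * u = y.1 := congrArg (fun z : I => ((z.1 : C) : G)) hy
  refine ⟨y.1, y.1.2, y.2.1, y.2.2, ?_⟩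
  nth_rewrite 2 [← hy']
  rw [mul_assoc (u * (y.1 : G)), hu, mul_one]

end gen

section fin
variable {G Ω : Type*} [Group G] [Finite G] [MulAction G Ω] {a : Ω} {t : G} {Q : Subgroup G}

/-- two distinct commuting involutions -/
def Rk2 (G : Type*) [Group G] : Prop := ∃ x y : G, x ≠ 1 ∧ y ≠ 1 ∧ x ≠ y ∧ x * x = 1 ∧ y * y = 1 ∧ x * y = y * x

theorem common_fix (hS : Cfsg.IsRankOneSetup G Ω a t Q) {x y : G} (hx1 : x ≠ 1) (hx2 : x * x = 1) (hxy : x * y = y * x) :
    ∃ c : Ω, x • c = c ∧ y • c = c := by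
  obtain ⟨c, hc⟩ := exists_fix hS hx1 hx2
  refine ⟨c, hc, ?_⟩
  apply fix_unique hS hx1 hx2 _ hc
  rw [← mul_smul, hxy, mul_smul, hc]

theorem exists_two_Inv (hS : Cfsg.IsRankOneSetup G Ω a t Q) (h2 : Rk2 G) : ∃ x y : G, x ∈ Inv G a ∧ y ∈ Inv G a ∧ x ≠ y ∧ x * y = y * x := by
  obtain ⟨x, y, hx1, hy1, hne, hx2, hy2, hxy⟩ := h2
  obtain ⟨c, hc1, hc2⟩ := common_fix hS hx1 hx2 hxy
  haveI := pretrans hS
  obtain ⟨g, hg⟩ := MulAction.exists_smul_eq G c a
  have key : ∀ z : G, z • c = c → z ≠ 1 → z * z = 1 → g * z * g⁻¹ ∈ Inv G a := by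
    intro z h1 h3 h4
    refine ⟨?_, ?_, ?_⟩
    · change (g * z * g⁻¹) • a = a
      rw [mul_smul, ← hg, inv_smul_smul, mul_smul, h1]
    · intro h
      apply h3
      have : z = g⁻¹ * (g * z * g⁻¹) * g := by group
      rw [this, h]; group
    · have : g * z * g⁻¹ * (g * z * g⁻¹) = g * (z * z) * g⁻¹ := by group
      rw [this, h4]; group
  refine ⟨g * x * g⁻¹, g * y * g⁻¹, key x hc1 hx1 hx2, key y hc2 hy1 hy2, ?_, ?_⟩
  · intro h; exact hne (mul_left_cancel (mul_right_cancel h))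
  · have e1 : g * x * g⁻¹ * (g * y * g⁻¹) = g * (x * y) * g⁻¹ := by group
    rw [e1, hxy]; group

theorem exists_KK (hS : Cfsg.IsRankOneSetup G Ω a t Q) (h2 : Rk2 G) : ∃ k ∈ KK a t, k ≠ 1 := by
  obtain ⟨x, y, hx, hy, hne, -⟩ := exists_two_Inv hS h2
  obtain ⟨k, hk, h⟩ := KK_conj_surj hS hx hy
  refine ⟨k, hk, ?_⟩
  rintro rfl
  apply hne
  rw [← h]; group

theorem KK_pow (hS : Cfsg.IsRankOneSetup G Ω a t Q) {k : G} (hk : k ∈ KK a t) (n : ℕ) : k ^ n ∈ KK a t := by
  rw [mem_KK hS] at hk ⊢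
  refine ⟨(DD a t).pow_mem hk.1 _, ?_⟩
  rw [← inv_pow, ← hk.2]
  induction n with
  | zero => rw [pow_zero, pow_zero, mul_one, hS.mul_self]
  | succ n ih =>
    rw [pow_succ, pow_succ, ← ih]
    have : t * k ^ n * t * (t * k * t) = t * k ^ n * (t * t) * k * t := by group
    rw [this, hS.mul_self]; group

theorem Q_nilp (hS : Cfsg.IsRankOneSetup G Ω a t Q) (h2 : Rk2 G) : Group.IsNilpotent Q := by
  obtain ⟨k, hk, hk1⟩ := exists_KK hS h2
  have ho : orderOf k ≠ 1 := fun h => hk1 (orderOf_eq_one_iff.1 h)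
  obtain ⟨r, hr, hrk⟩ := Nat.exists_prime_and_dvd ho
  obtain ⟨m, hm⟩ := hrk
  have hm0 : m ≠ 0 := by
    rintro rfl
    rw [mul_zero] at hm
    exact (orderOf_pos k).ne' hm
  have hkm1 : k ^ m ≠ 1 := by
    intro h
    have := Nat.le_of_dvd (Nat.pos_of_ne_zero hm0) (orderOf_dvd_of_pow_eq_one h)
    rw [hm] at this
    have := hr.two_le
    nlinarith [Nat.pos_of_ne_zero hm0]
  have hkm := KK_pow hS hk m
  refine CfsgH1.nilpotent_of_fpf_conj (N := Q) (h := k ^ m) ?_ hr ?_ ?_
  · rw [Subgroup.mem_normalizer_iff]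
    intro x
    refine ⟨fun hx => hS.conj_mem _ hkm.1.1 x hx, fun hx => ?_⟩
    have := conj_mem' hS hkm.1.1 hx
    have e : (k ^ m)⁻¹ * (k ^ m * x * (k ^ m)⁻¹) * k ^ m = x := by group
    rwa [e] at this
  · rw [← pow_mul, mul_comm m, ← hm, pow_orderOf_eq_one]
    exact Subgroup.one_mem _
  · intro x hx h
    exact KK_fpf hS hkm hkm1 hx h.symm

/-- involutions of `G_a` are central in `Q` -/
theorem Inv_central (hS : Cfsg.IsRankOneSetup G Ω a t Q) (h2 : Rk2 G) {s : G} (hs : s ∈ Inv G a) : ∀ x ∈ Q, s * x = x * s := by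
  haveI := Q_nilp hS h2
  -- a central involution
  obtain ⟨z, hz, hzc⟩ : ∃ z ∈ Inv G a, ∀ x ∈ Q, z * x = x * z := by
    let P : Sylow 2 Q := default
    haveI : Fact (Nat.Prime 2) := ⟨Nat.prime_two⟩
    haveI hPn : (P : Subgroup Q).Normal := by
      have := (Group.isNilpotent_of_finite_tfae (G := Q)).out 0 3
      exact this.1 inferInstance 2 ⟨Nat.prime_two⟩ P
    have hP0 : (P : Subgroup Q) ≠ ⊥ := by
      intro h
      have h1 := P.not_dvd_index
      rw [h, Subgroup.index_bot] at h1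
      exact h1 hS.even_card.two_dvd
    have h3 := CfsgH1.nilpotent_normal_inf_center_ne_bot (N := (P : Subgroup Q)) hP0
    obtain ⟨⟨w, hw⟩, hw1⟩ := Subgroup.ne_bot_iff_exists_ne_one.1 h3
    have hpg : IsPGroup 2 ↥((P : Subgroup Q) ⊓ Subgroup.center Q) :=
      P.isPGroup'.to_le inf_le_left
    obtain ⟨n, hn⟩ := IsPGroup.iff_card.1 hpg
    have hn0 : n ≠ 0 := by
      rintro rfl
      rw [pow_zero] at hn
      haveI := (Nat.card_eq_one_iff_unique.1 hn).1
      exact hw1 (Subsingleton.elim _ _)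
    obtain ⟨v, hv⟩ := exists_prime_orderOf_dvd_card' (G := ↥((P : Subgroup Q) ⊓ Subgroup.center Q)) 2
      (by rw [hn]; exact dvd_pow_self 2 hn0)
    have hv1 : v ≠ 1 := by
      rintro rfl
      rw [orderOf_one] at hv; exact absurd hv (by norm_num)
    have hv2 : v * v = 1 := by
      have h9 := pow_orderOf_eq_one v
      rw [hv, sq] at h9
      exact h9
    refine ⟨((v : Q) : G), ⟨qa hS (v : Q).2, ?_, ?_⟩, ?_⟩
    · intro h; exact hv1 (Subtype.ext (Subtype.ext h))
    · exact congrArg (fun x : ↥((P : Subgroup Q) ⊓ Subgroup.center Q) => ((x : Q) : G)) hv2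
    · intro x hx
      have := (Subgroup.mem_center_iff.1 v.2.2) ⟨x, hx⟩
      exact (congrArg Subtype.val this).symm
  obtain ⟨k, hk, rfl⟩ := KK_conj_surj hS hz hs
  intro x hx
  have h3 := hzc _ (hS.conj_mem k hk.1.1 x hx)
  calc k⁻¹ * z * k * x = k⁻¹ * (z * (k * x * k⁻¹)) * k := by group
    _ = k⁻¹ * ((k * x * k⁻¹) * z) * k := by rw [h3]
    _ = _ := by group

theorem Inv_mul (hS : Cfsg.IsRankOneSetup G Ω a t Q) (h2 : Rk2 G) {s s' : G} (hs : s ∈ Inv G a) (hs' : s' ∈ Inv G a) :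
    s * s' = 1 ∨ s * s' ∈ Inv G a := by
  by_cases h : s * s' = 1
  · exact Or.inl h
  · right
    refine ⟨?_, h, ?_⟩
    · change (s * s') • a = a
      rw [mul_smul, show s' • a = a from hs'.1, show s • a = a from hs.1]
    · have h3 := Inv_central hS h2 hs s' (Inv_mem_Q hS hs')
      have : s * s' * (s * s') = s * (s' * s) * s' := by group
      rw [this, ← h3]
      have : s * (s * s') * s' = (s * s) * (s' * s') := by group
      rw [this, hs.2.2, hs'.2.2, one_mul]

end fin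

end CfsgH9.R1
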