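import Cfsg.Agent.H9.AbGL
import Mathlib.FieldTheory.Fixed

set_option autoImplicit false

namespace CfsgH9.SP

theorem prime_of_singer {V : Type*} [AddCommGroup V] [Finite V] [Module (ZMod 2) V]
    (K : Subgroup (Module.End (ZMod 2) V)ˣ) (hKc : ∀ a ∈ K, ∀ b ∈ K, a * b = b * a)
    (hKt : ∀ x y : V, x ≠ 0 → y ≠ 0 → ∃ k ∈ K, (k : Module.End (ZMod 2) V) x = y)
    (d : (Module.End (ZMod 2) V)ˣ) (hdK : ∀ k ∈ K, d * k * d⁻¹ ∈ K) (hdK' : ∀ k ∈ K, d⁻¹ * k * d ∈ K)
    {r : ℕ} (hr : r.Prime) (hdr : d ^ r = 1) (hd1 : d ≠ 1) {v : V} (hv : v ≠ 0) (hdv : (d : Module.End (ZMod 2) V) v = v)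
    (hfix : ∀ w : V, (d : Module.End (ZMod 2) V) w = w → w = 0 ∨ w = v) : Nat.card V = 2 ^ r := by
  classical
  haveI : Module.Finite (ZMod 2) V := Module.Finite.of_finite
  have hirr : ∀ W : Submodule (ZMod 2) V, (∀ h ∈ K, ∀ w ∈ W, (h : Module.End (ZMod 2) V) w ∈ W) → W = ⊥ ∨ W = ⊤ := by
    intro W hW
    by_cases hW0 : W = ⊥
    · exact Or.inl hW0
    right
    obtain ⟨w, hw, hw0⟩ := (Submodule.ne_bot_iff W).1 hW0
    rw [eq_top_iff]
    intro x _
    by_cases hx : x = 0
    · rw [hx]; exact W.zero_mem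
    obtain ⟨k, hk, rfl⟩ := hKt w x hw0 hx
    exact hW k hk w hw
  obtain ⟨hA1, hA2, hA3⟩ := CfsgH9.AbGL.card_adjoin_of_irr K hKc hirr hv
  set A := Algebra.adjoin (ZMod 2) (Units.val '' (K : Set (Module.End (ZMod 2) V)ˣ)) with hA
  have hA1' : ∀ w : V, w ≠ 0 → ∀ a ∈ A, a w = 0 → a = 0 := fun w hw => (CfsgH9.AbGL.card_adjoin_of_irr K hKc hirr hw).1
  have hKA : ∀ k ∈ K, (k : Module.End (ZMod 2) V) ∈ A := fun k hk => Algebra.subset_adjoin ⟨k, hk, rfl⟩
  letI : CommRing A := { (inferInstance : Ring A) with mul_comm := fun a b => Subtype.ext (hA3 a a.2 b b.2) }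
  -- bijection with V
  let ev : A → V := fun a => (a : Module.End (ZMod 2) V) v
  have hev : Function.Bijective ev := by
    constructor
    · intro a b hab
      have h1 : ((a : Module.End (ZMod 2) V) - b) v = 0 := by
        rw [LinearMap.sub_apply, sub_eq_zero]
        exact hab
      exact Subtype.ext (sub_eq_zero.1 (hA1 _ (A.sub_mem a.2 b.2) h1))
    · intro w
      obtain ⟨a, ha, h⟩ := hA2 w
      exact ⟨⟨a, ha⟩, h⟩
  haveI : Finite A := Finite.of_injective ev hev.1
  have hcard : Nat.card A = Nat.card V := Nat.card_congr (Equiv.ofBijective ev hev)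
  haveI : Nontrivial A := ⟨0, 1, fun h => hv (by
    have := congrArg ev h
    exact this.symm)⟩
  haveI : NoZeroDivisors A := ⟨fun {a b} hab => by
    by_cases hb : b = 0
    · exact Or.inr hb
    left
    have hbv : (b : Module.End (ZMod 2) V) v ≠ 0 := fun h => hb (Subtype.ext (hA1 _ b.2 h))
    have h1 : (a : Module.End (ZMod 2) V) ((b : Module.End (ZMod 2) V) v) = 0 := by
      have h2 : ((a * b : A) : Module.End (ZMod 2) V) v = ((0 : A) : Module.End (ZMod 2) V) v := by rw [hab]
      exact h2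
    exact Subtype.ext (hA1' _ hbv _ a.2 h1)⟩
  haveI : IsDomain A := NoZeroDivisors.to_isDomain A
  letI : Fintype A := Fintype.ofFinite A
  letI : Field A := Fintype.fieldOfDomain A
  -- conjugation by d
  have hmem : ∀ (e : (Module.End (ZMod 2) V)ˣ), (∀ k ∈ K, e * k * e⁻¹ ∈ K) → ∀ a ∈ A,
      (e : Module.End (ZMod 2) V) * a * ((e⁻¹ : (Module.End (ZMod 2) V)ˣ) : Module.End (ZMod 2) V) ∈ A := by
    intro e he a ha
    refine Algebra.adjoin_induction (p := fun a _ => (e : Module.End (ZMod 2) V) * a * ((e⁻¹ : (Module.End (ZMod 2) V)ˣ) : Module.End (ZMod 2) V) ∈ A)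
      ?_ ?_ ?_ ?_ ha
    · rintro _ ⟨k, hk, rfl⟩
      rw [← Units.val_mul, ← Units.val_mul]
      exact hKA _ (he k hk)
    · intro c
      rw [← Algebra.commutes, mul_assoc, Units.mul_inv, mul_one]
      exact A.algebraMap_mem c
    · intro x y _ _ hx hy
      rw [mul_add, add_mul]
      exact A.add_mem hx hy
    · intro x y _ _ hx hy
      have : (e : Module.End (ZMod 2) V) * (x * y) * ((e⁻¹ : (Module.End (ZMod 2) V)ˣ) : Module.End (ZMod 2) V) =
        ((e : Module.End (ZMod 2) V) * x * ((e⁻¹ : (Module.End (ZMod 2) V)ˣ) : Module.End (ZMod 2) V)) *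
        ((e : Module.End (ZMod 2) V) * y * ((e⁻¹ : (Module.End (ZMod 2) V)ˣ) : Module.End (ZMod 2) V)) := by
        simp only [mul_assoc, Units.inv_mul_cancel_left]
      rw [this]
      exact A.mul_mem hx hy
  let σ : A ≃+* A :=
    { toFun := fun a => ⟨_, hmem d hdK a a.2⟩
      invFun := fun a => ⟨_, hmem d⁻¹ (fun k hk => by rw [inv_inv]; exact hdK' k hk) a a.2⟩
      left_inv := fun a => Subtype.ext (by
        change ((d⁻¹ : (Module.End (ZMod 2) V)ˣ) : Module.End (ZMod 2) V) * ((d : Module.End (ZMod 2) V) * a * ((d⁻¹ : (Module.End (ZMod 2) V)ˣ) : Module.End (ZMod 2) V)) * _ = a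
        rw [inv_inv]
        simp only [mul_assoc, Units.inv_mul_cancel_left, Units.inv_mul, mul_one])
      right_inv := fun a => Subtype.ext (by
        change (d : Module.End (ZMod 2) V) * (((d⁻¹ : (Module.End (ZMod 2) V)ˣ) : Module.End (ZMod 2) V) * a * (((d⁻¹)⁻¹ : (Module.End (ZMod 2) V)ˣ) : Module.End (ZMod 2) V)) * _ = a
        rw [inv_inv]
        simp only [mul_assoc, Units.mul_inv_cancel_left, Units.mul_inv, mul_one])
      map_mul' := fun a b => Subtype.ext (by
        change (d : Module.End (ZMod 2) V) * (a * b) * _ = (d : Module.End (ZMod 2) V) * a * _ * ((d : Module.End (ZMod 2) V) * b * _)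
        simp only [mul_assoc, Units.inv_mul_cancel_left])
      map_add' := fun a b => Subtype.ext (by
        change (d : Module.End (ZMod 2) V) * (a + b) * _ = _
        rw [mul_add, add_mul]
        rfl) }
  have hσ : ∀ a : A, ((σ a : A) : Module.End (ZMod 2) V) v = (d : Module.End (ZMod 2) V) ((a : Module.End (ZMod 2) V) v) := by
    intro a
    change (d : Module.End (ZMod 2) V) ((a : Module.End (ZMod 2) V) (((d⁻¹ : (Module.End (ZMod 2) V)ˣ) : Module.End (ZMod 2) V) v)) = _
    congr 2
    conv_lhs => rw [← hdv]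
    rw [← Module.End.mul_apply, Units.inv_mul]
    rfl
  have hσn : ∀ (n : ℕ) (a : A), (((σ ^ n) a : A) : Module.End (ZMod 2) V) v = ((d ^ n : (Module.End (ZMod 2) V)ˣ) : Module.End (ZMod 2) V) ((a : Module.End (ZMod 2) V) v) := by
    intro n
    induction n with
    | zero => intro a; rfl
    | succ n ih =>
      intro a
      rw [pow_succ', pow_succ']
      change ((σ ((σ ^ n) a) : A) : Module.End (ZMod 2) V) v = _
      rw [hσ, ih]
      rfl
  have hord : orderOf σ = r := by
    haveI : Fact r.Prime := ⟨hr⟩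
    apply orderOf_eq_prime
    · ext a : 1
      apply hev.1
      change (((σ ^ r) a : A) : Module.End (ZMod 2) V) v = _
      rw [hσn, hdr]
      rfl
    · intro h
      apply hd1
      apply Units.ext
      apply LinearMap.ext
      intro w
      obtain ⟨a, rfl⟩ := hev.2 w
      have := hσ a
      rw [h] at this
      exact this.symm
  -- Artin
  letI : MulSemiringAction (Subgroup.zpowers σ) A := inferInstance
  haveI : FaithfulSMul (Subgroup.zpowers σ) A := inferInstance
  haveI : Finite (A ≃+* A) := Finite.of_injective (fun e : A ≃+* A => (e : A → A)) DFunLike.coe_injective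
  letI : Fintype (Subgroup.zpowers σ) := Fintype.ofFinite _
  have hfr := FixedPoints.finrank_eq_card (Subgroup.zpowers σ) A
  have hz : Fintype.card (Subgroup.zpowers σ) = r := by
    rw [← Nat.card_eq_fintype_card, Nat.card_zpowers, hord]
  have hfc : Nat.card (FixedPoints.subfield (Subgroup.zpowers σ) A) = 2 := by
    have h1 : ∀ a : A, a ∈ FixedPoints.subfield (Subgroup.zpowers σ) A → a = 0 ∨ a = 1 := by
      intro a ha
      have h2 : σ a = a := ha ⟨σ, Subgroup.mem_zpowers σ⟩
      have h3 := hσ a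
      rw [h2] at h3
      rcases hfix _ h3.symm with h4 | h4
      · left
        apply hev.1
        exact h4
      · right
        apply hev.1
        exact h4
    rw [Nat.card_eq_two_iff]
    refine ⟨0, 1, zero_ne_one, ?_⟩
    ext ⟨a, ha⟩
    simp only [Set.mem_insert_iff, Set.mem_singleton_iff, Set.mem_univ, iff_true]
    rcases h1 a ha with h2 | h2
    · left; exact Subtype.ext h2
    · right; exact Subtype.ext h2
  rw [← hcard, Module.natCard_eq_pow_finrank (K := FixedPoints.subfield (Subgroup.zpowers σ) A), hfc, hfr, hz]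

end CfsgH9.SP
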