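import Mathlib
import Cfsg.Prelude.Def_GeometricClasses
import Cfsg.Agent.H9.SpGen
import Cfsg.Agent.H9.Og14

set_option autoImplicit false

/-! Involutions of projective symplectic groups and polarisations. -/

namespace CfsgH9.SpInv

open Matrix Cfsg Cfsg.Geo

variable {ι : Type} [Fintype ι] [DecidableEq ι] {F : Type*} [Field F] {f : (ι → F) → (ι → F) → F}

theorem ind (hf : IsSymplecticForm f) {X : Matrix ι ι F} (hX : ∀ u v, f (X *ᵥ u) (X *ᵥ v) = f u v) {z : F} (hz : z * z = 1)
    (hXX : ∀ v, X *ᵥ (X *ᵥ v) = z • v) (b : Bool)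
    (hex : ∀ Y : Submodule F (ι → F), (∀ y ∈ Y, X *ᵥ y ∈ Y) → (∀ y ∈ Y, y ≠ 0 → ∃ y' ∈ Y, f y y' ≠ 0) → Y ≠ ⊥ →
      ∃ u ∈ Y, ∃ w ∈ Y, f u w ≠ 0 ∧ (∃ r : F, X *ᵥ u = r • (if b then u else w)) ∧ ∃ r : F, X *ᵥ w = r • (if b then w else u)) :
    ∀ (n : ℕ) (Y : Submodule F (ι → F)), Module.finrank F Y = n → (∀ y ∈ Y, X *ᵥ y ∈ Y) →
      (∀ y ∈ Y, y ≠ 0 → ∃ y' ∈ Y, f y y' ≠ 0) → ∃ U W : Submodule F (ι → F), U ⊔ W = Y ∧ (∀ u ∈ U, ∀ v ∈ U, f u v = 0) ∧
        (∀ u ∈ W, ∀ v ∈ W, f u v = 0) ∧ (∀ u ∈ U, X *ᵥ u ∈ (if b then U else W)) ∧ (∀ w ∈ W, X *ᵥ w ∈ (if b then W else U)) := by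
  have hb := hf.bilinear
  intro n
  induction n using Nat.strong_induction_on with
  | _ n ih =>
    intro Y hn hinv hnd
    by_cases hY : Y = ⊥
    · refine ⟨⊥, ⊥, by rw [hY, sup_idem], ?_, ?_, ?_, ?_⟩
      · intro u hu v _
        rw [(Submodule.mem_bot F).1 hu]
        have := hb.smul_left 0 0 v
        rwa [zero_smul, zero_mul] at this
      · intro u hu v _
        rw [(Submodule.mem_bot F).1 hu]
        have := hb.smul_left 0 0 v
        rwa [zero_smul, zero_mul] at this
      · intro u hu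
        rw [(Submodule.mem_bot F).1 hu, mulVec_zero]; exact Submodule.zero_mem _
      · intro u hu
        rw [(Submodule.mem_bot F).1 hu, mulVec_zero]; exact Submodule.zero_mem _
    · obtain ⟨u, hu, w, hw, huw, ⟨r, hr⟩, ⟨s, hs⟩⟩ := hex Y hinv hnd hY
      have hwu : f w u ≠ 0 := by rw [hf.skew]; exact neg_ne_zero.2 huw
      have huu := hf.alternating u
      have hww := hf.alternating w
      -- the complement
      let Y' : Submodule F (ι → F) :=
        { carrier := {y | y ∈ Y ∧ f y u = 0 ∧ f y w = 0}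
          add_mem' := by
            rintro a c ⟨h1, h2, h3⟩ ⟨h4, h5, h6⟩
            exact ⟨Y.add_mem h1 h4, by rw [hb.add_left, h2, h5, add_zero], by rw [hb.add_left, h3, h6, add_zero]⟩
          zero_mem' := by
            refine ⟨Y.zero_mem, ?_, ?_⟩
            · have := hb.smul_left 0 0 u
              rwa [zero_smul, zero_mul] at this
            · have := hb.smul_left 0 0 w
              rwa [zero_smul, zero_mul] at this
          smul_mem' := by
            rintro c a ⟨h1, h2, h3⟩
            exact ⟨Y.smul_mem c h1, by rw [hb.smul_left, h2, mul_zero], by rw [hb.smul_left, h3, mul_zero]⟩ }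
      have hY'Y : Y' ≤ Y := fun y hy => hy.1
      have hlt : Y' < Y := by
        refine lt_of_le_of_ne hY'Y ?_
        intro h
        rw [← h] at hu
        exact huw hu.2.2
      have hsplit : ∀ y ∈ Y, ∃ α β : F, ∃ y' ∈ Y', y = α • u + β • w + y' := by
        intro y hy
        refine ⟨f y w / f u w, f y u / f w u, y - (f y w / f u w) • u - (f y u / f w u) • w, ?_, by module⟩
        have e0 : y - (f y w / f u w) • u - (f y u / f w u) • w = y + (-(f y w / f u w)) • u + (-(f y u / f w u)) • w := by module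
        refine ⟨?_, ?_, ?_⟩
        · rw [e0]
          exact Y.add_mem (Y.add_mem hy (Y.smul_mem _ hu)) (Y.smul_mem _ hw)
        · rw [e0, hb.add_left, hb.add_left, hb.smul_left, hb.smul_left, huu]
          field_simp; ring
        · rw [e0, hb.add_left, hb.add_left, hb.smul_left, hb.smul_left, hww]
          field_simp; ring
      have hadj : ∀ y v, f (X *ᵥ y) v = z * f y (X *ᵥ v) := by
        intro y v
        have h1 := hX (X *ᵥ y) v
        rw [hXX, hb.smul_left] at h1
        exact h1.symm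
      have hinv' : ∀ y ∈ Y', X *ᵥ y ∈ Y' := by
        rintro y ⟨h1, h2, h3⟩
        refine ⟨hinv y h1, ?_, ?_⟩
        · rw [hadj, hr, hb.smul_right]
          cases b
          · simp only [Bool.false_eq_true, if_false]; rw [h3]; ring
          · simp only [if_true]; rw [h2]; ring
        · rw [hadj, hs, hb.smul_right]
          cases b
          · simp only [Bool.false_eq_true, if_false]; rw [h2]; ring
          · simp only [if_true]; rw [h3]; ring
      have hnd' : ∀ y ∈ Y', y ≠ 0 → ∃ y' ∈ Y', f y y' ≠ 0 := by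
        rintro y ⟨h1, h2, h3⟩ hy0
        obtain ⟨t, ht, hyt⟩ := hnd y h1 hy0
        obtain ⟨α, β, y', hy', rfl⟩ := hsplit t ht
        refine ⟨y', hy', ?_⟩
        rw [hb.add_right, hb.add_right, hb.smul_right, hb.smul_right, h2, h3, mul_zero, mul_zero, add_zero, zero_add] at hyt
        exact hyt
      obtain ⟨U, W, hUW, hU, hW, hXU, hXW⟩ := ih (Module.finrank F Y') (by rw [← hn]; exact Submodule.finrank_lt_finrank_of_lt hlt) Y' rfl hinv' hnd'
      have hUY : ∀ a ∈ U, a ∈ Y' := fun a ha => by rw [← hUW]; exact Submodule.mem_sup_left ha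
      have hWY : ∀ a ∈ W, a ∈ Y' := fun a ha => by rw [← hUW]; exact Submodule.mem_sup_right ha
      have mu : u ∈ U ⊔ Submodule.span F {u} := Submodule.mem_sup_right (Submodule.mem_span_singleton_self u)
      have mw : w ∈ W ⊔ Submodule.span F {w} := Submodule.mem_sup_right (Submodule.mem_span_singleton_self w)
      refine ⟨U ⊔ Submodule.span F {u}, W ⊔ Submodule.span F {w}, ?_, ?_, ?_, ?_, ?_⟩
      · apply le_antisymm
        · refine sup_le (sup_le (fun a ha => hY'Y (hUY a ha)) ?_) (sup_le (fun a ha => hY'Y (hWY a ha)) ?_)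
          · rw [Submodule.span_singleton_le_iff_mem]; exact hu
          · rw [Submodule.span_singleton_le_iff_mem]; exact hw
        · intro y hy
          obtain ⟨α, β, y', hy', rfl⟩ := hsplit y hy
          rw [← hUW] at hy'
          obtain ⟨a, ha, c, hc, rfl⟩ := Submodule.mem_sup.1 hy'
          refine Submodule.add_mem _ (Submodule.add_mem _ ?_ ?_) (Submodule.add_mem _ ?_ ?_)
          · exact Submodule.smul_mem _ _ (Submodule.mem_sup_left mu)
          · exact Submodule.smul_mem _ _ (Submodule.mem_sup_right mw)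
          · exact Submodule.mem_sup_left (Submodule.mem_sup_left ha)
          · exact Submodule.mem_sup_right (Submodule.mem_sup_left hc)
      · intro p hp q hq
        obtain ⟨a, ha, a', ha', rfl⟩ := Submodule.mem_sup.1 hp
        obtain ⟨c, hc, c', hc', rfl⟩ := Submodule.mem_sup.1 hq
        obtain ⟨α, rfl⟩ := Submodule.mem_span_singleton.1 ha'
        obtain ⟨β, rfl⟩ := Submodule.mem_span_singleton.1 hc'
        have k1 : f a u = 0 := (hUY a ha).2.1
        have k2 : f u c = 0 := by rw [hf.skew, (hUY c hc).2.1, neg_zero]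
        rw [hb.add_left, hb.add_right, hb.add_right, hb.smul_left, hb.smul_left, hb.smul_right, hb.smul_right, hU a ha c hc, k1, k2, huu]
        ring
      · intro p hp q hq
        obtain ⟨a, ha, a', ha', rfl⟩ := Submodule.mem_sup.1 hp
        obtain ⟨c, hc, c', hc', rfl⟩ := Submodule.mem_sup.1 hq
        obtain ⟨α, rfl⟩ := Submodule.mem_span_singleton.1 ha'
        obtain ⟨β, rfl⟩ := Submodule.mem_span_singleton.1 hc'
        have k1 : f a w = 0 := (hWY a ha).2.2
        have k2 : f w c = 0 := by rw [hf.skew, (hWY c hc).2.2, neg_zero]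
        rw [hb.add_left, hb.add_right, hb.add_right, hb.smul_left, hb.smul_left, hb.smul_right, hb.smul_right, hW a ha c hc, k1, k2, hww]
        ring
      · intro p hp
        obtain ⟨a, ha, a', ha', rfl⟩ := Submodule.mem_sup.1 hp
        obtain ⟨α, rfl⟩ := Submodule.mem_span_singleton.1 ha'
        have k1 := hXU a ha
        rw [mulVec_add, mulVec_smul, hr]
        cases b
        · simp only [Bool.false_eq_true, if_false] at k1 ⊢
          exact Submodule.add_mem _ (Submodule.mem_sup_left k1) (Submodule.smul_mem _ _ (Submodule.smul_mem _ _ mw))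
        · simp only [if_true] at k1 ⊢
          exact Submodule.add_mem _ (Submodule.mem_sup_left k1) (Submodule.smul_mem _ _ (Submodule.smul_mem _ _ mu))
      · intro p hp
        obtain ⟨a, ha, a', ha', rfl⟩ := Submodule.mem_sup.1 hp
        obtain ⟨α, rfl⟩ := Submodule.mem_span_singleton.1 ha'
        have k1 := hXW a ha
        rw [mulVec_add, mulVec_smul, hs]
        cases b
        · simp only [Bool.false_eq_true, if_false] at k1 ⊢
          exact Submodule.add_mem _ (Submodule.mem_sup_left k1) (Submodule.smul_mem _ _ (Submodule.smul_mem _ _ mu))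
        · simp only [if_true] at k1 ⊢
          exact Submodule.add_mem _ (Submodule.mem_sup_left k1) (Submodule.smul_mem _ _ (Submodule.smul_mem _ _ mw))

theorem main (hf : IsSymplecticForm f) (h2 : (2 : F) ≠ 0) {X : Matrix ι ι F} (hX : ∀ u v, f (X *ᵥ u) (X *ᵥ v) = f u v) {z : F} (hz : z = 1 ∨ z = -1)
    (hXX : ∀ v, X *ᵥ (X *ᵥ v) = z • v) :
    ∃ (b : Bool) (U W : Submodule F (ι → F)), U ⊔ W = ⊤ ∧ (∀ u ∈ U, ∀ v ∈ U, f u v = 0) ∧
        (∀ u ∈ W, ∀ v ∈ W, f u v = 0) ∧ (∀ u ∈ U, X *ᵥ u ∈ (if b then U else W)) ∧ (∀ w ∈ W, X *ᵥ w ∈ (if b then W else U)) := by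
  have hb := hf.bilinear
  have hnd : ∀ y ∈ (⊤ : Submodule F (ι → F)), y ≠ 0 → ∃ y' ∈ (⊤ : Submodule F (ι → F)), f y y' ≠ 0 := by
    intro y _ hy
    obtain ⟨-, y', hy'⟩ := hf.nondegenerate y hy
    exact ⟨y', trivial, hy'⟩
  rcases hz with rfl | rfl
  · refine ⟨true, ind hf hX (by ring) hXX true ?_ _ ⊤ rfl (fun _ _ => trivial) hnd⟩
    intro Y hinv hnd hY
    obtain ⟨v, hv, hv0⟩ := (Submodule.ne_bot_iff _).1 hY
    obtain ⟨u, hu, hu0, j, hj, hju⟩ : ∃ u ∈ Y, u ≠ 0 ∧ ∃ j : F, j * j = 1 ∧ X *ᵥ u = j • u := by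
      by_cases h : v + X *ᵥ v = 0
      · refine ⟨v, hv, hv0, -1, by ring, ?_⟩
        rw [neg_one_smul]
        exact (eq_neg_of_add_eq_zero_right h)
      · refine ⟨v + X *ᵥ v, Y.add_mem hv (hinv v hv), h, 1, by ring, ?_⟩
        rw [mulVec_add, hXX, one_smul, one_smul, add_comm]
    obtain ⟨w', hw', huw'⟩ := hnd u hu hu0
    have e1 : f u (X *ᵥ w') = j * f u w' := by
      have h1 := hX u (X *ᵥ w')
      rw [hXX, one_smul, hju, hb.smul_left] at h1
      exact h1.symm
    refine ⟨u, hu, w' + j • (X *ᵥ w'), Y.add_mem hw' (Y.smul_mem _ (hinv _ hw')), ?_, ⟨j, by simpa using hju⟩, ⟨j, ?_⟩⟩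
    · rw [hb.add_right, hb.smul_right, e1]
      have : f u w' + j * (j * f u w') = 2 * f u w' := by linear_combination (f u w') * hj
      rw [this]
      exact mul_ne_zero h2 huw'
    · simp only [if_true]
      rw [mulVec_add, mulVec_smul, hXX, one_smul, smul_add, smul_smul, hj, one_smul, add_comm]
  · refine ⟨false, ind hf hX (by ring) hXX false ?_ _ ⊤ rfl (fun _ _ => trivial) hnd⟩
    intro Y hinv hnd hY
    obtain ⟨v, hv, hv0⟩ := (Submodule.ne_bot_iff _).1 hY
    have hex : ∃ u ∈ Y, f u (X *ᵥ u) ≠ 0 := by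
      by_contra hcon
      push Not at hcon
      obtain ⟨y, hy, hvy⟩ := hnd v hv hv0
      have key : ∀ a ∈ Y, ∀ c ∈ Y, f a (X *ᵥ c) = 0 := by
        intro a ha c hc
        have h1 := hcon (a + c) (Y.add_mem ha hc)
        rw [mulVec_add, hb.add_left, hb.add_right, hb.add_right, hcon a ha, hcon c hc] at h1
        have h3 : f c (X *ᵥ a) = f a (X *ᵥ c) := by
          have h4 := hX c (X *ᵥ a)
          rw [hXX, neg_one_smul] at h4
          have h5 : f (X *ᵥ c) (-a) = f a (X *ᵥ c) := by
            rw [← neg_one_smul F a, hb.smul_right, hf.skew a]; ring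
          rw [← h4, h5]
        rw [h3] at h1
        have h6 : 2 * f a (X *ᵥ c) = 0 := by linear_combination h1
        exact (mul_eq_zero.1 h6).resolve_left h2
      have h1 := key v hv (X *ᵥ y) (hinv y hy)
      rw [hXX, neg_one_smul, ← neg_one_smul F y, hb.smul_right] at h1
      apply hvy
      linear_combination -h1
    obtain ⟨u, hu, huX⟩ := hex
    refine ⟨u, hu, X *ᵥ u, hinv u hu, huX, ⟨1, by simp⟩, ⟨-1, ?_⟩⟩
    simp only [Bool.false_eq_true, if_false]
    rw [hXX]

end CfsgH9.SpInv
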