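import Mathlib
import Cfsg.Agent.H9.UnMax2
import Cfsg.Agent.H9.MaxImpSp

set_option autoImplicit false

/-! Maximality of the stabiliser in SU of a pair of complementary totally isotropic subspaces. -/

namespace CfsgH9.UnSing

open Matrix CfsgH9.Tv CfsgH9.SpGen CfsgH9.Witt Cfsg Cfsg.Geo CfsgH9.Un
open CfsgH9.MaxSymp (inv_mulVec mulVec_inv two_nonzero)
open CfsgH9.MaxRedSL (mem_stab_of mem_stab_iff)
open CfsgH9.MaxImpSp (mem_decomp_of glOf glOf_mulVec)
open CfsgH9.MaxRedSp (im mem_im finrank_im union_sub)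

variable {ι : Type} [Fintype ι] [DecidableEq ι] {F : Type*} [Field F]
variable {σ : F →+* F} {f : (ι → F) → (ι → F) → F} {M : Subgroup (GL ι F)}

/-- Siegel elements -/
def IsE (f : (ι → F) → (ι → F) → F) (g : GL ι F) (u v : ι → F) : Prop :=
  ∀ x, (g : Matrix ι ι F) *ᵥ x = x + f x v • u - f x u • v

def SS (f : (ι → F) → (ι → F) → F) (M : Subgroup (GL ι F)) (u v : ι → F) : Prop :=
  ∀ g : GL ι F, IsE f g u v → g ∈ M

lemma exists_E (hf : Hm σ f) {u v : ι → F} (hu : f u u = 0) (hv : f v v = 0) (h : f u v = 0) :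
    ∃ g : GL ι F, IsE f g u v ∧ Iso f g ∧ (g : Matrix ι ι F).det = 1 := by
  obtain ⟨g, hg, hS⟩ := exists_S hf hu hv h (-1)
  refine ⟨g, ?_, Tg_iso hf hg, Tg_det hf hg⟩
  intro x
  rw [hS x, map_neg, map_one]
  module

lemma E_props (hf : Hm σ f) {u v : ι → F} (hu : f u u = 0) (hv : f v v = 0) (h : f u v = 0) {g : GL ι F}
    (hg : IsE f g u v) : Iso f g ∧ (g : Matrix ι ι F).det = 1 := by
  obtain ⟨g', hg', h1, h2⟩ := exists_E hf hu hv h
  have : g = g' := by
    apply ext_mulVec
    intro x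
    rw [hg x, hg' x]
  rw [this]
  exact ⟨h1, h2⟩

lemma SS_map {h : GL ι F} (hh : h ∈ M) (hiso : Iso f h) {u v : ι → F} (hu : SS f M u v) :
    SS f M ((h : Matrix ι ι F) *ᵥ u) ((h : Matrix ι ι F) *ᵥ v) := by
  intro g hg
  have h1 : IsE f (h⁻¹ * g * h) u v := by
    intro x
    rw [Units.val_mul, Units.val_mul, ← mulVec_mulVec, ← mulVec_mulVec, hg, mulVec_sub, mulVec_add, mulVec_smul,
      mulVec_smul, inv_mulVec, inv_mulVec, inv_mulVec, hiso, hiso]
  have h2 := M.mul_mem (M.mul_mem hh (hu _ h1)) (M.inv_mem hh)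
  have h3 : h * (h⁻¹ * g * h) * h⁻¹ = g := by group
  rwa [h3] at h2

lemma SS_sub (hf : Hm σ f) {u v w : ι → F} (hu : f u u = 0) (hv : f v v = 0) (huv : f u v = 0) (huw : f u w = 0)
    (hvw : f v w = 0) (h1 : SS f M u (v + w)) (h2 : SS f M u v) : SS f M u w := by
  intro g hg
  obtain ⟨g2, hg2, -, -⟩ := exists_E hf hu hv huv
  have h3 : IsE f (g * g2) u (v + w) := by
    intro x
    rw [Units.val_mul, ← mulVec_mulVec, hg2 x, hg]
    have hvu := hf.swap huv
    simp only [hf.smul_right, hf.add_left, hf.add_right, hf.smul_left, hf.sub_left, hu, huv, huw, hvw, hvu, mul_zero,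
      add_zero, sub_zero]
    module
  have h4 := M.mul_mem (h1 _ h3) (M.inv_mem (h2 _ hg2))
  rwa [mul_inv_cancel_right] at h4

lemma SS_symm (hf : Hm σ f) {u v : ι → F} (hu : f u u = 0) (hv : f v v = 0) (huv : f u v = 0) (h : SS f M u v) :
    SS f M v u := by
  intro g hg
  obtain ⟨g2, hg2, -, -⟩ := exists_E hf hu hv huv
  have h1 : g * g2 = 1 := by
    apply ext_mulVec
    intro x
    have hvu := hf.swap huv
    rw [Units.val_mul, ← mulVec_mulVec, hg2 x, hg, Units.val_one, one_mulVec]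
    simp only [hf.smul_right, hf.add_left, hf.add_right, hf.smul_left, hf.sub_left, hu, hv, huv, hvu, mul_zero, add_zero, sub_zero]
    module
  rw [eq_inv_of_mul_eq_one_left h1]
  exact M.inv_mem (h g2 hg2)

lemma SS_smul (hf : Hm σ f) {u v : ι → F} {c : F} (h : SS f M (c • u) v) : SS f M u (σ c • v) := by
  intro g hg
  apply h g
  intro x
  rw [hg x, hf.smul_right, hf.smul_right, hf.inv]
  module

lemma exists_avoid (hf : Hm σ f) (C S : Submodule F (ι → F)) {k : ℕ} (w : Fin k → (ι → F))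
    (h : k + Module.finrank F S < Module.finrank F C) : ∃ y ∈ C, (∀ i, f y (w i) = 0) ∧ y ∉ S := by
  let L : C →ₗ[F] (Fin k → F) := LinearMap.pi fun i => (fl hf (w i)).comp C.subtype
  have h1 := LinearMap.finrank_range_add_finrank_ker L
  have h2 : Module.finrank F (LinearMap.range L) ≤ k := by
    have := Submodule.finrank_le (LinearMap.range L)
    simpa using this
  have h3 : ¬ ((LinearMap.ker L).map C.subtype ≤ S) := by
    intro hle
    have h4 := Submodule.finrank_mono hle
    rw [← LinearEquiv.finrank_eq (Submodule.equivMapOfInjective _ C.injective_subtype (LinearMap.ker L))] at h4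
    omega
  obtain ⟨y, hy, hyn⟩ := SetLike.not_le_iff_exists.1 h3
  obtain ⟨z, hz, rfl⟩ := hy
  refine ⟨z, z.2, ?_, hyn⟩
  intro i
  have := congrFun (show L z = 0 from hz) i
  exact this

/-- complementary maximal isotropic subspaces -/
structure Pr (f : (ι → F) → (ι → F) → F) (A B : Submodule F (ι → F)) : Prop where
  isoA : ∀ x ∈ A, ∀ y ∈ A, f x y = 0
  isoB : ∀ x ∈ B, ∀ y ∈ B, f x y = 0
  maxA : ∀ x, (∀ y ∈ A, f y x = 0) → x ∈ A
  maxB : ∀ x, (∀ y ∈ B, f y x = 0) → x ∈ B
  disj : ∀ x ∈ A, x ∈ B → x = 0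
  sup : ∀ x, ∃ a ∈ A, ∃ b ∈ B, x = a + b
  dimA : 6 ≤ Module.finrank F A
  dimB : 6 ≤ Module.finrank F B

omit [DecidableEq ι] in
lemma Pr.symm {A B : Submodule F (ι → F)} (h : Pr f A B) : Pr f B A :=
  ⟨h.isoB, h.isoA, h.maxB, h.maxA, fun x hx hx' => h.disj x hx' hx, fun x => by
    obtain ⟨a, ha, b, hb, h⟩ := h.sup x
    exact ⟨b, hb, a, ha, by rw [h, add_comm]⟩, h.dimB, h.dimA⟩

lemma exists_fun (hf : Hm σ f) {U : Submodule F (ι → F)} {b : ι → F} (hbU : b ∉ U) :
    ∃ a, f b a = 1 ∧ ∀ y ∈ U, f y a = 0 := by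
  obtain ⟨v, hv, hvb⟩ := exists_perp hf hbU
  exact ⟨v, by rw [hf.symm, hvb, map_one], fun y hy => hf.swap (hv y hy)⟩

lemma Pr.exA (hf : Hm σ f) {A B : Submodule F (ι → F)} (h : Pr f A B) {W : Submodule F (ι → F)}
    (hW : W ≤ B) {b : ι → F} (hb : b ∈ B) (hbW : b ∉ W) : ∃ a ∈ A, f b a = 1 ∧ ∀ w ∈ W, f w a = 0 := by
  obtain ⟨a, ha, haU⟩ := exists_fun hf (U := W ⊔ A) (b := b) (by
    intro hmem
    obtain ⟨w, hw, a, ha, hwa⟩ := Submodule.mem_sup.1 hmem
    apply hbW
    have h1 : a = b - w := by rw [← hwa]; abel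
    have h2 := h.disj a ha (h1 ▸ B.sub_mem hb (hW hw))
    rw [h2, add_zero] at hwa
    rw [← hwa]; exact hw)
  refine ⟨a, h.maxA a (fun y hy => haU y (Submodule.mem_sup_right hy)), ha, fun w hw => haU w (Submodule.mem_sup_left hw)⟩

/-- from a Siegel element with independent components to transvections -/
lemma Pr.spread (hf : Hm σ f) {A B : Submodule F (ι → F)} (h : Pr f A B)
    (hM : ∀ a ∈ A, ∀ b ∈ B, f a b = 0 → SS f M a b) {a1 b1 a2 b2 : ι → F} (ha1 : a1 ∈ A) (hb1 : b1 ∈ B)
    (ha2 : a2 ∈ A) (hb2 : b2 ∈ B) (hu1 : f (a1 + b1) (a1 + b1) = 0) (hu2 : f (a2 + b2) (a2 + b2) = 0)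
    (huv : f (a1 + b1) (a2 + b2) = 0)
    (hS : ∀ c : F, SS f M (c • (a1 + b1)) (a2 + b2)) (hb10 : b1 ≠ 0) (hind : b2 ∉ Submodule.span F {b1}) :
    ∃ b ∈ B, b ≠ 0 ∧ XS σ f M b := by
  obtain ⟨b, hbB, hba, hbn⟩ := exists_avoid hf B (Submodule.span F {b1, b2}) ![a1, a2] (by
    have := finrank_span_pair (F := F) b1 b2
    have := h.dimB
    omega)
  have hba1 : f b a1 = 0 := hba 0
  have hba2 : f b a2 = 0 := hba 1
  have ha1b := hf.swap hba1
  have ha2b := hf.swap hba2
  have hbb : f b b = 0 := h.isoB b hbB b hbB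
  -- a ∈ A
  obtain ⟨a, haA, hab2, haW⟩ := h.exA hf (W := Submodule.span F {b1, b}) (b := b2) (by
    rw [Submodule.span_le]
    intro x hx
    rcases hx with rfl | hx
    · exact hb1
    · rw [Set.mem_singleton_iff.1 hx]; exact hbB) hb2 (by
    intro hmem
    obtain ⟨s, t, hst⟩ := Submodule.mem_span_pair.1 hmem
    by_cases ht : t = 0
    · apply hind
      rw [Submodule.mem_span_singleton]
      exact ⟨s, by rw [← hst, ht, zero_smul, add_zero]⟩
    · apply hbn
      rw [Submodule.mem_span_pair]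
      refine ⟨- (t⁻¹ * s), t⁻¹, ?_⟩
      rw [← hst, smul_add, smul_smul, smul_smul, inv_mul_cancel₀ ht]
      module)
  have hab1 : f b1 a = 0 := haW b1 (Submodule.subset_span (by simp))
  have habb : f b a = 0 := haW b (Submodule.subset_span (by simp))
  have haa : f a a = 0 := h.isoA a haA a haA
  have hab := hf.swap habb
  -- step 2
  have hSu : ∀ c : F, SS f M (a1 + b1) (c • b) := by
    intro c
    obtain ⟨g, hg, hiso, -⟩ := exists_E hf haa hbb hab
    have hgM : g ∈ M := hM a haA b hbB hab g hg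
    have h3 := SS_map hgM hiso (hS (-σ c))
    have e1 : (g : Matrix ι ι F) *ᵥ (a1 + b1) = a1 + b1 := by
      rw [hg, hf.add_left, hf.add_left, ha1b, h.isoB b1 hb1 b hbB, hab1, h.isoA a1 ha1 a haA]
      module
    have e2 : (g : Matrix ι ι F) *ᵥ (a2 + b2) = (a2 + b2) - b := by
      rw [hg, hf.add_left, hf.add_left, ha2b, h.isoB b2 hb2 b hbB, hab2, h.isoA a2 ha2 a haA]
      module
    rw [mulVec_smul, e1, e2] at h3
    have h4 := SS_smul hf h3
    have h5 := SS_smul hf (hS (-σ c))
    rw [map_neg, hf.inv] at h4 h5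
    have h6 : -c • (a2 + b2 - b) = -c • (a2 + b2) + c • b := by module
    rw [h6] at h4
    refine SS_sub hf hu1 ?_ ?_ ?_ ?_ h4 h5
    · rw [hf.smul_left, hf.smul_right, hu2, mul_zero, mul_zero]
    · rw [hf.smul_right, huv, mul_zero]
    · rw [hf.smul_right, hf.add_left, ha1b, h.isoB b1 hb1 b hbB, add_zero, mul_zero]
    · rw [hf.smul_left, hf.smul_right, hf.add_left, ha2b, h.isoB b2 hb2 b hbB]; ring
  -- step 3
  have hb0 : b ≠ 0 := by
    rintro rfl
    exact hbn (Submodule.zero_mem _)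
  have hbb1 : b1 ∉ Submodule.span F {b} := by
    intro hmem
    obtain ⟨s, hs⟩ := Submodule.mem_span_singleton.1 hmem
    apply hbn
    have hs0 : s ≠ 0 := by
      rintro rfl
      rw [zero_smul] at hs
      exact hb10 hs.symm
    rw [Submodule.mem_span_pair]
    refine ⟨s⁻¹, 0, ?_⟩
    rw [zero_smul, add_zero, ← hs, smul_smul, inv_mul_cancel₀ hs0, one_smul]
  obtain ⟨a', ha'A, ha'1, ha'W⟩ := h.exA hf (W := Submodule.span F {b}) (b := b1) (by
    rw [Submodule.span_le]
    intro x hx
    rw [Set.mem_singleton_iff.1 hx]; exact hbB) hb1 hbb1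
  have ha'b : f b a' = 0 := ha'W b (Submodule.mem_span_singleton_self b)
  have hba' := hf.swap ha'b
  have ha'a' : f a' a' = 0 := h.isoA a' ha'A a' ha'A
  refine ⟨b, hbB, hb0, ?_⟩
  intro c g hc hg
  obtain ⟨κ, hk0, hk⟩ := hf.kappa
  obtain ⟨t, ht⟩ := hf.trace (b := -(c * κ⁻¹)) (by
    have h1 : σ c = -c := by linear_combination hc
    rw [map_neg, map_mul, map_inv₀, h1, hk, inv_neg]; ring)
  set d := κ * t with hd
  have hd' : σ d - d = c := by
    rw [hd, map_mul, hk]
    have : -κ * σ t - κ * t = - κ * (t + σ t) := by ring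
    rw [this, ht]
    field_simp
  obtain ⟨s, hs, hiso, -⟩ := exists_E hf ha'a' hbb hba'
  have hsM : s ∈ M := hM a' ha'A b hbB hba' s hs
  have e1 : (s : Matrix ι ι F) *ᵥ (a1 + b1) = (a1 + b1) - b := by
    rw [hs, hf.add_left, hf.add_left, ha1b, h.isoB b1 hb1 b hbB, ha'1, h.isoA a1 ha1 a' ha'A]
    module
  have e2 : (s : Matrix ι ι F) *ᵥ b = b := by
    rw [hs, h.isoB b hbB b hbB, ha'b]
    module
  have hb_u : f b (a1 + b1) = 0 := by rw [hf.add_right, hba1, h.isoB b hbB b1 hb1, add_zero]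
  have hu_b := hf.swap hb_u
  have h3 := SS_map hsM hiso (hSu d)
  rw [mulVec_smul, e1, e2] at h3
  have h3' : SS f M (d • b) (a1 + b1 - b) := by
    refine SS_symm hf ?_ ?_ ?_ h3
    · rw [hf.sub_left, hf.sub_right, hf.sub_right, hu1, hu_b, hb_u, hbb]; ring
    · rw [hf.smul_left, hf.smul_right, hbb]; ring
    · rw [hf.smul_right, hf.sub_left, hu_b, hbb]; ring
  have h4' : SS f M (d • b) (a1 + b1) := by
    refine SS_symm hf hu1 ?_ ?_ (hSu d)
    · rw [hf.smul_left, hf.smul_right, hbb]; ring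
    · rw [hf.smul_right, hu_b]; ring
  have h5 : SS f M (d • b) (-b) := by
    refine SS_sub hf ?_ hu1 ?_ ?_ ?_ (v := a1 + b1) ?_ h4'
    · rw [hf.smul_left, hf.smul_right, hbb]; ring
    · rw [hf.smul_left, hb_u]; ring
    · rw [hf.smul_left, hf.neg_right, hbb]; ring
    · rw [hf.neg_right, hu_b, neg_zero]
    · rw [← sub_eq_add_neg]; exact h3'
  apply h5 g
  intro x
  rw [hg x, hf.neg_right, hf.smul_right, ← hd']
  module

lemma Pr.spreadB (hf : Hm σ f) {A B : Submodule F (ι → F)} (h : Pr f A B)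
    (hM : ∀ a ∈ A, ∀ b ∈ B, f a b = 0 → SS f M a b) {b : ι → F} (hbB : b ∈ B) (hb0 : b ≠ 0) (hX : XS σ f M b) :
    ∀ b' ∈ B, XS σ f M b' := by
  have key : ∀ b ∈ B, ∀ b' ∈ B, b ∉ Submodule.span F {b - b'} → XS σ f M b → XS σ f M b' := by
    intro b hbB b' hb'B hn hX
    obtain ⟨a, haA, ha1, haW⟩ := h.exA hf (W := Submodule.span F {b - b'}) (b := b) (by
      rw [Submodule.span_le]
      intro x hx
      rw [Set.mem_singleton_iff.1 hx]; exact B.sub_mem hbB hb'B) hbB hn
    have h1 : f (b - b') a = 0 := haW _ (Submodule.mem_span_singleton_self _)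
    have h1' := hf.swap h1
    have hB := B.sub_mem hbB hb'B
    obtain ⟨s, hs, hiso, -⟩ := exists_E hf (h.isoA a haA a haA) (h.isoB _ hB _ hB) h1'
    have hsM : s ∈ M := hM a haA _ hB h1' s hs
    have h3 := XS_map hf hsM hiso hX
    have e1 : (s : Matrix ι ι F) *ᵥ b = b' := by
      rw [hs, h.isoB b hbB _ hB, ha1]
      module
    rwa [e1] at h3
  intro b' hb'B
  by_cases hb'0 : b' = 0
  · subst hb'0
    intro a g ha hg
    have : g = 1 := by
      apply ext_mulVec
      intro x
      rw [hg x, smul_zero, add_zero, Units.val_one, one_mulVec]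
    rw [this]; exact M.one_mem
  by_cases hdep : b' ∈ Submodule.span F {b}
  · obtain ⟨c, rfl⟩ := Submodule.mem_span_singleton.1 hdep
    exact XS_smul hf hX c
  · apply key b hbB b' hb'B _ hX
    intro hmem
    obtain ⟨s, hs⟩ := Submodule.mem_span_singleton.1 hmem
    have hs0 : s ≠ 0 := by
      rintro rfl
      rw [zero_smul] at hs
      exact hb0 hs.symm
    apply hdep
    rw [Submodule.mem_span_singleton]
    refine ⟨1 - s⁻¹, ?_⟩
    have h1 : s⁻¹ • b = b - b' := by
      calc s⁻¹ • b = s⁻¹ • (s • (b - b')) := by rw [hs]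
        _ = b - b' := by rw [smul_smul, inv_mul_cancel₀ hs0, one_smul]
    rw [sub_smul, one_smul, h1, sub_sub_cancel]

/-- the swapping isometry -/
lemma Pr.exists_swap (hf : Hm σ f) {A B : Submodule F (ι → F)} (h : Pr f A B) :
    ∃ g : GL ι F, Iso f g ∧ (g : Matrix ι ι F).det = 1 ∧
      (∀ x ∈ A, (g : Matrix ι ι F) *ᵥ x ∈ B) ∧ (∀ x ∈ B, (g : Matrix ι ι F) *ᵥ x ∈ A) := by
  classical
  let bA := Module.finBasis F A
  set m := Module.finrank F A with hm
  have hdual : ∀ j : Fin m, ∃ b ∈ B, ∀ i, f (bA i : ι → F) b = if i = j then 1 else 0 := by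
    intro j
    obtain ⟨b, hbB, hb1, hbW⟩ := h.symm.exA hf (W := Submodule.span F ((fun i => (bA i : ι → F)) '' {i | i ≠ j}))
      (b := (bA j : ι → F)) (by
        rw [Submodule.span_le]
        rintro _ ⟨i, -, rfl⟩
        exact (bA i).2) (bA j).2 (by
        have hli : LinearIndependent F (fun i => (bA i : ι → F)) :=
          bA.linearIndependent.map' A.subtype A.ker_subtype
        have := hli.notMem_span_image (s := {i | i ≠ j}) (x := j) (by simp)
        exact this)
    refine ⟨b, hbB, ?_⟩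
    intro i
    by_cases hij : i = j
    · rw [if_pos hij, hij]; exact hb1
    · rw [if_neg hij]; exact hbW _ (Submodule.subset_span ⟨i, hij, rfl⟩)
  choose c hcB hc using hdual
  set e : Fin m → (ι → F) := fun i => (bA i : ι → F) with he
  have heA : ∀ i, e i ∈ A := fun i => (bA i).2
  have hec : ∀ i j, f (e i) (c j) = if i = j then 1 else 0 := fun i j => hc j i
  have hce : ∀ i j, f (c i) (e j) = if i = j then 1 else 0 := by
    intro i j
    rw [hf.symm, hec]
    by_cases hij : i = j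
    · rw [if_pos hij, if_pos hij.symm, map_one]
    · rw [if_neg hij, if_neg (Ne.symm hij), map_zero]
  have hee : ∀ i j, f (e i) (e j) = 0 := fun i j => h.isoA _ (heA i) _ (heA j)
  have hcc : ∀ i j, f (c i) (c j) = 0 := fun i j => h.isoB _ (hcB i) _ (hcB j)
  have hsumL : ∀ (s : Fin m → F) (v : Fin m → (ι → F)) (y : ι → F), f (∑ i, s i • v i) y = ∑ i, s i * f (v i) y := by
    intro s v y
    have h1 : ∀ T : Finset (Fin m), f (∑ i ∈ T, s i • v i) y = ∑ i ∈ T, s i * f (v i) y := by
      intro T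
      induction T using Finset.induction_on with
      | empty => simp [hf.zero_left]
      | insert a T ha ih => rw [Finset.sum_insert ha, Finset.sum_insert ha, hf.add_left, hf.smul_left, ih]
    exact h1 _
  have hsumR : ∀ (s : Fin m → F) (v : Fin m → (ι → F)) (y : ι → F), f y (∑ i, s i • v i) = ∑ i, σ (s i) * f y (v i) := by
    intro s v y
    rw [hf.symm, hsumL, map_sum]
    refine Finset.sum_congr rfl fun i _ => ?_
    rw [map_mul, ← hf.symm]
  -- expansions
  have hexpA : ∀ a ∈ A, a = ∑ i, f a (c i) • e i := by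
    intro a ha
    have h1 := congrArg (fun z : A => (z : ι → F)) (bA.sum_repr ⟨a, ha⟩)
    simp only [AddSubmonoidClass.coe_finset_sum, SetLike.val_smul] at h1
    have h2 : ∀ j, f a (c j) = bA.repr ⟨a, ha⟩ j := by
      intro j
      conv_lhs => rw [← h1]
      rw [hsumL]
      rw [Finset.sum_eq_single j]
      · show _ * f (e j) (c j) = _
        rw [hec, if_pos rfl, mul_one]
      · intro i _ hij
        show _ * f (e i) (c j) = _
        rw [hec, if_neg hij, mul_zero]
      · intro hj; exact absurd (Finset.mem_univ j) hj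
    conv_lhs => rw [← h1]
    refine Finset.sum_congr rfl fun i _ => ?_
    rw [h2]
  have hexpB : ∀ b ∈ B, b = ∑ i, f b (e i) • c i := by
    intro b hbB
    have hsub : b - ∑ i, f b (e i) • c i ∈ A := by
      apply h.maxA
      intro y hy
      rw [hexpA y hy, hsumL]
      apply Finset.sum_eq_zero
      intro i _
      rw [hf.sub_right, hsumR, Finset.sum_eq_single i]
      · rw [hec, if_pos rfl, mul_one, ← hf.symm, sub_self, mul_zero]
      · intro j _ hji
        rw [hec, if_neg (Ne.symm hji), mul_zero]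
      · intro hj; exact absurd (Finset.mem_univ i) hj
    have h2 : b - ∑ i, f b (e i) • c i ∈ B := B.sub_mem hbB (B.sum_mem fun i _ => B.smul_mem _ (hcB i))
    exact sub_eq_zero.1 (h.disj _ hsub h2)
  have hexp : ∀ x, x = ∑ i, f x (c i) • e i + ∑ i, f x (e i) • c i := by
    intro x
    obtain ⟨a, ha, b, hbB, rfl⟩ := h.sup x
    have h1 : ∀ i, f (a + b) (c i) = f a (c i) := fun i => by rw [hf.add_left, h.isoB b hbB _ (hcB i), add_zero]
    have h2 : ∀ i, f (a + b) (e i) = f b (e i) := fun i => by rw [hf.add_left, h.isoA a ha _ (heA i), zero_add]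
    simp only [h1, h2]
    rw [← hexpA a ha, ← hexpB b hbB]
  let φ : (ι → F) →ₗ[F] (ι → F) :=
    { toFun := fun x => ∑ i, f x (c i) • c i + ∑ i, f x (e i) • e i
      map_add' := by
        intro x y
        simp only [hf.add_left, add_smul, Finset.sum_add_distrib]
        abel
      map_smul' := by
        intro d x
        simp only [hf.smul_left, mul_smul, ← Finset.smul_sum, smul_add, RingHom.id_apply] }
  have hφ : ∀ x, φ x = ∑ i, f x (c i) • c i + ∑ i, f x (e i) • e i := fun x => rfl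
  have hφc : ∀ x j, f (φ x) (c j) = f x (e j) := by
    intro x j
    rw [hφ, hf.add_left, hsumL, hsumL]
    simp only [hcc, hec, mul_zero, Finset.sum_const_zero, zero_add, mul_ite, mul_one, Finset.sum_ite_eq', Finset.mem_univ, if_true]
  have hφe : ∀ x j, f (φ x) (e j) = f x (c j) := by
    intro x j
    rw [hφ, hf.add_left, hsumL, hsumL]
    simp only [hee, hce, mul_zero, Finset.sum_const_zero, add_zero, mul_ite, mul_one, Finset.sum_ite_eq', Finset.mem_univ, if_true]
  have hφφ : ∀ x, φ (φ x) = x := by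
    intro x
    rw [hφ (φ x)]
    simp only [hφc, hφe]
    rw [add_comm]
    exact (hexp x).symm
  have hφiso : ∀ x y, f (φ x) (φ y) = f x y := by
    intro x y
    rw [hφ y, hf.add_right, hsumR, hsumR]
    simp only [hφc, hφe]
    conv_rhs => rw [hexp y, hf.add_right, hsumR, hsumR]
  let E : (ι → F) ≃ₗ[F] (ι → F) := LinearEquiv.ofInvolutive φ hφφ
  have hEapp : ∀ x, E x = φ x := fun x => rfl
  have hEiso : Iso f (glOf E) := by
    intro x y
    rw [glOf_mulVec, glOf_mulVec, hEapp, hEapp, hφiso]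
  have hEA : ∀ x ∈ A, (glOf E : Matrix ι ι F) *ᵥ x ∈ B := by
    intro x hx
    rw [glOf_mulVec, hEapp, hφ]
    refine B.add_mem (B.sum_mem fun i _ => B.smul_mem _ (hcB i)) ?_
    have : ∀ i, f x (e i) = 0 := fun i => h.isoA x hx _ (heA i)
    simp only [this, zero_smul, Finset.sum_const_zero]
    exact B.zero_mem
  have hEB : ∀ x ∈ B, (glOf E : Matrix ι ι F) *ᵥ x ∈ A := by
    intro x hx
    rw [glOf_mulVec, hEapp, hφ]
    refine A.add_mem ?_ (A.sum_mem fun i _ => A.smul_mem _ (heA i))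
    have : ∀ i, f x (c i) = 0 := fun i => h.isoB x hx _ (hcB i)
    simp only [this, zero_smul, Finset.sum_const_zero]
    exact A.zero_mem
  -- adjust the determinant
  have hn := hEiso.det_norm hf
  have hm0 : 0 < m := by have := h.dimA; omega
  obtain ⟨x, hx0, hx⟩ := hf.h90 (b := σ (glOf E : Matrix ι ι F).det) (by rw [hf.inv, mul_comm]; exact hn)
  obtain ⟨r, hr, hrd, hrw⟩ := exists_D hf (w := e ⟨0, hm0⟩) (y := c ⟨0, hm0⟩) (hee _ _) (hcc _ _)
    (by rw [hec, if_pos rfl]) hx0
  have hσx : σ x ≠ 0 := by rw [Ne, map_eq_zero]; exact hx0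
  refine ⟨glOf E * r, hEiso.mul hr, ?_, ?_, ?_⟩
  · rw [Units.val_mul, Matrix.det_mul, hrd]
    have h1 : x * (σ x)⁻¹ = σ (glOf E : Matrix ι ι F).det := by
      conv_lhs => rw [hx]
      rw [mul_assoc, ← hx, mul_inv_cancel₀ hσx, mul_one]
    rw [h1]; exact hn
  · intro z hz
    rw [Units.val_mul, ← mulVec_mulVec]
    apply hEA
    rw [hrw, h.isoA z hz _ (heA _), mul_zero, zero_smul, add_zero]
    exact A.add_mem hz (A.smul_mem _ (heA _))
  · intro z hz
    rw [Units.val_mul, ← mulVec_mulVec]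
    apply hEB
    rw [hrw, h.isoB z hz _ (hcB _), mul_zero, zero_smul, add_zero]
    exact B.add_mem hz (B.smul_mem _ (hcB _))

lemma finrank_perp_iso (hf : Hm σ f) {W : Submodule F (ι → F)} (hW : ∀ x ∈ W, ∀ y ∈ W, f x y = 0)
    (hdim : 2 * Module.finrank F W = Fintype.card ι) : perp hf W = W := by
  symm
  have hle : W ≤ perp hf W := fun x hx y hy => hW x hx y hy
  apply Submodule.eq_of_le_of_finrank_eq hle
  have h1 := Submodule.finrank_mono hle
  apply le_antisymm h1
  -- dimension of perp: the map x ↦ f x · restricted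
  by_contra hcon
  push Not at hcon
  -- use perp_perp on a proper argument
  have h2 := finrank_perp_ge hf (perp hf W)
  rw [perp_perp] at h2
  -- finrank (perp W) ≤ card - finrank W via surjectivity
  let b := Module.finBasis F W
  let φ : (ι → F) →ₗ[F] (Fin (Module.finrank F W) → F) := LinearMap.pi (fun i => fl hf (b i : ι → F))
  have hsurj : LinearMap.range φ = ⊤ := by
    by_contra hne
    -- a functional vanishing on the range
    obtain ⟨ψ, hψ, hψ0⟩ := Submodule.exists_dual_map_eq_bot_of_lt_top (lt_top_iff_ne_top.2 hne) inferInstance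
    -- ψ ∘ φ = 0 gives linear dependence
    have h3 : ∀ x, ψ (φ x) = 0 := by
      intro x
      have h4 : ψ (φ x) ∈ (LinearMap.range φ).map ψ := ⟨φ x, ⟨x, rfl⟩, rfl⟩
      rw [hψ0] at h4
      exact h4
    have h5 : ∀ x, f x (∑ i, σ (ψ (Pi.single i 1)) • (b i : ι → F)) = 0 := by
      intro x
      have h6 : ∀ T : Finset (Fin (Module.finrank F W)),
          f x (∑ i ∈ T, σ (ψ (Pi.single i 1)) • (b i : ι → F)) = ∑ i ∈ T, ψ (Pi.single i 1) * f x (b i) := by
        intro T
        induction T using Finset.induction_on with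
        | empty => simp [hf.zero_right]
        | insert a T ha ih => rw [Finset.sum_insert ha, Finset.sum_insert ha, hf.add_right, hf.smul_right, ih, hf.inv]
      rw [h6, ← h3 x]
      conv_rhs => rw [← Finset.univ_sum_single (φ x)]
      rw [map_sum]
      refine Finset.sum_congr rfl fun i _ => ?_
      have h7 : (Pi.single i (φ x i) : Fin (Module.finrank F W) → F) = φ x i • Pi.single i 1 := by
        rw [← Pi.single_smul, smul_eq_mul, mul_one]
      rw [h7, map_smul, smul_eq_mul, mul_comm]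
      rfl
    have h6 : ∑ i, σ (ψ (Pi.single i 1)) • (b i : ι → F) = 0 := by
      by_contra hne0
      obtain ⟨y, hy⟩ := hf.nondeg _ hne0
      exact hf.swap_ne hy (h5 y)
    have h7 : ∑ i, σ (ψ (Pi.single i 1)) • b i = 0 := by
      apply Subtype.ext
      rw [AddSubmonoidClass.coe_finset_sum]
      exact h6
    have h8 := Fintype.linearIndependent_iff.1 b.linearIndependent _ h7
    apply hψ
    refine LinearMap.pi_ext' fun i => ?_
    ext
    have := h8 i
    rw [map_eq_zero] at this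
    exact this
  have hker : LinearMap.ker φ = perp hf W := by
    ext x
    rw [LinearMap.mem_ker, mem_perp]
    constructor
    · intro hx w hw
      have h3 : ∀ i, f x (b i) = 0 := fun i => congrFun hx i
      have h4 := congrArg (fun z : W => (z : ι → F)) (b.sum_repr ⟨w, hw⟩)
      simp only [AddSubmonoidClass.coe_finset_sum, SetLike.val_smul] at h4
      rw [← h4]
      have h6 : ∀ T : Finset (Fin (Module.finrank F W)), f x (∑ i ∈ T, b.repr ⟨w, hw⟩ i • (b i : ι → F)) = 0 := by
        intro T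
        induction T using Finset.induction_on with
        | empty => simp [hf.zero_right]
        | insert a T ha ih => rw [Finset.sum_insert ha, hf.add_right, hf.smul_right, ih, h3, mul_zero, add_zero]
      exact h6 _
    · intro hx
      funext i
      exact hx _ (b i).2
  have h9 := LinearMap.finrank_range_add_finrank_ker φ
  rw [hsurj, finrank_top, Module.finrank_fintype_fun_eq_card, Module.finrank_fintype_fun_eq_card, Fintype.card_fin, hker] at h9
  omega

theorem sing_max [Finite F] (hf : Hm σ f) {K : Subgroup (GL ι F)} (hK : IsK f K)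
    {m : ℕ} (hm : 6 ≤ m) (hcard : Fintype.card ι = 2 * m) {D : Fin 2 → Submodule F (ι → F)}
    (hD : IsMDecomposition m D) (hiso : ∀ i, ∀ x ∈ D i, ∀ y ∈ D i, f x y = 0) :
    IsMaximalIn K (decompositionStabilizer D ⊓ K) := by
  obtain ⟨κ, hk0, hk⟩ := hf.kappa
  have hkk : κ + σ κ = 0 := by rw [hk]; ring
  have hmax : ∀ i, ∀ x, (∀ y ∈ D i, f y x = 0) → x ∈ D i := by
    intro i x hx
    rw [← finrank_perp_iso hf (hiso i) (by rw [hD.finrank_eq, hcard])]
    intro y hy
    exact hf.swap (hx y hy)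
  have hind := hD.indep
  have hdisj : Disjoint (D 0) (D 1) := hind.pairwiseDisjoint (by decide : (0 : Fin 2) ≠ 1)
  have hsup : ∀ x, ∃ a ∈ D 0, ∃ b ∈ D 1, x = a + b := by
    intro x
    have h1 : x ∈ iSup D := by rw [hD.iSup_eq_top]; trivial
    have h3 : iSup D = D 0 ⊔ D 1 := by
      apply le_antisymm
      · apply iSup_le
        intro i
        fin_cases i
        · exact le_sup_left
        · exact le_sup_right
      · exact sup_le (le_iSup D 0) (le_iSup D 1)
    rw [h3] at h1
    obtain ⟨a, ha, b, hb, rfl⟩ := Submodule.mem_sup.1 h1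
    exact ⟨a, ha, b, hb, rfl⟩
  have hP : Pr f (D 0) (D 1) :=
    { isoA := hiso 0, isoB := hiso 1, maxA := hmax 0, maxB := hmax 1
      disj := fun x hx hx' => by
        have := Submodule.disjoint_def.1 hdisj x hx hx'
        exact this
      sup := hsup
      dimA := by rw [hD.finrank_eq]; exact hm
      dimB := by rw [hD.finrank_eq]; exact hm }
  have hne : ∀ i, ∃ x ∈ D i, x ≠ 0 := by
    intro i
    have h1 : D i ≠ ⊥ := by
      intro h
      have := hD.finrank_eq i
      rw [h, finrank_bot] at this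
      omega
    exact (Submodule.ne_bot_iff _).1 h1
  have hΓ : ∀ a ∈ D 0, ∀ b ∈ D 1, f a b = 0 → ∀ g, IsE f g a b → g ∈ decompositionStabilizer D := by
    intro a ha b hbB hab g hg
    refine mem_decomp_of hD 1 ?_
    intro i x hx
    rw [Equiv.Perm.one_apply, hg x]
    fin_cases i
    · have h1 : f x a = 0 := hiso 0 x hx a ha
      rw [h1, zero_smul, sub_zero]
      exact (D 0).add_mem hx ((D 0).smul_mem _ ha)
    · have h1 : f x b = 0 := hiso 1 x hx b hbB
      rw [h1, zero_smul, add_zero]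
      exact (D 1).sub_mem hx ((D 1).smul_mem _ hbB)
  obtain ⟨sw, hsiso, hsdet, hs01, hs10⟩ := hP.exists_swap hf
  have hsw : sw ∈ decompositionStabilizer D ⊓ K := by
    refine ⟨mem_decomp_of hD (Equiv.swap 0 1) ?_, (hK _).2 ⟨hsiso, hsdet⟩⟩
    intro i x hx
    fin_cases i
    · exact hs01 x hx
    · exact hs10 x hx
  constructor
  · refine lt_of_le_of_ne inf_le_right ?_
    intro heq
    obtain ⟨a, ha, ha0⟩ := hne 0
    obtain ⟨b, hbB, hab, -⟩ := hP.symm.exA hf (W := ⊥) bot_le ha (by simpa using ha0)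
    have hba : f b a = 1 := by rw [hf.symm, hab, map_one]
    obtain ⟨a', ha', ha'b, ha'n⟩ := exists_avoid hf (D 0) ⊥ ![b] (by
      rw [finrank_bot, hD.finrank_eq]; omega)
    have ha'b : f a' b = 0 := ha'b 0
    have ha'0 : a' ≠ 0 := by simpa using ha'n
    have huu : f (a + κ • b) (a + κ • b) = 0 := by
      rw [hf.add_left, hf.add_right, hf.add_right, hf.smul_left, hf.smul_left, hf.smul_right, hf.smul_right, hab, hba,
        hiso 0 a ha a ha, hiso 1 b hbB b hbB, hk]
      ring
    obtain ⟨g, hg⟩ := exists_R hf (Cd_of (f := f) huu hkk)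
    have hgK : g ∈ K := tv_mem_K hf hK huu hkk hg
    rw [← heq] at hgK
    obtain ⟨τ, hτ⟩ := hgK.1
    have h0 : (g : Matrix ι ι F) *ᵥ a' ∈ D (τ 0) := by
      rw [← hτ 0]
      exact ⟨a', ha', by rw [toLin'_apply]⟩
    have h1 : (g : Matrix ι ι F) *ᵥ a ∈ D (τ 0) := by
      rw [← hτ 0]
      exact ⟨a, ha, by rw [toLin'_apply]⟩
    rw [hg a', hf.add_right, hf.smul_right, hiso 0 a' ha' a ha, ha'b, mul_zero, add_zero, mul_zero, zero_smul, add_zero] at h0
    have hτ0 : τ 0 = 0 := by
      have h3 : τ 0 = 0 ∨ τ 0 = 1 := by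
        generalize τ 0 = j
        fin_cases j
        · left; rfl
        · right; rfl
      rcases h3 with h3 | h3
      · exact h3
      · exfalso
        rw [h3] at h0
        exact ha'0 (hP.disj a' ha' h0)
    rw [hτ0, hg a, hf.add_right, hf.smul_right, hiso 0 a ha a ha, hab, zero_add, mul_one, hk] at h1
    have h2 : (κ * -κ * κ) • b ∈ D 0 := by
      have h3 := (D 0).sub_mem ((D 0).sub_mem h1 ha) ((D 0).smul_mem (κ * -κ) ha)
      have h4 : a + (κ * -κ) • (a + κ • b) - a - (κ * -κ) • a = (κ * -κ * κ) • b := by module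
      rwa [h4] at h3
    have h5 : b ∈ D 0 := by
      refine (Submodule.smul_mem_iff _ ?_).1 h2
      exact mul_ne_zero (mul_ne_zero hk0 (neg_ne_zero.2 hk0)) hk0
    have h6 := hP.disj b h5 hbB
    rw [h6, hf.zero_right] at hab
    exact zero_ne_one hab
  · intro M hM hMK
    by_cases hsub : M ≤ decompositionStabilizer D
    · left
      exact le_antisymm (le_inf hsub hMK) hM
    right
    refine le_antisymm hMK ?_
    obtain ⟨g, hg, hgn⟩ : ∃ g ∈ M, g ∉ decompositionStabilizer D := by
      by_contra hcon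
      push Not at hcon
      exact hsub hcon
    have hMiso : ∀ h ∈ M, Iso f h := fun h hh => ((hK h).1 (hMK hh)).1
    have hgiso := hMiso g hg
    have hSS : ∀ a ∈ D 0, ∀ b ∈ D 1, f a b = 0 → SS f M a b := fun a ha b hbB hab g hg =>
      hM ⟨hΓ a ha b hbB hab g hg, (hK g).2 (E_props hf (hiso 0 a ha a ha) (hiso 1 b hbB b hbB) hab hg)⟩
    have hSS' : ∀ a ∈ D 1, ∀ b ∈ D 0, f a b = 0 → SS f M a b := fun a ha b hbB hab =>
      SS_symm hf (hiso 0 b hbB b hbB) (hiso 1 a ha a ha) (hf.swap hab) (hSS b hbB a ha (hf.swap hab))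
    have hmain : ∀ x : ι → F, ∀ C : Submodule F (ι → F), Module.finrank F C = m → f x x = 0 → (∀ y ∈ C, f y y = 0) →
        (∀ y ∈ C, f y x = 0 → ∀ c : F, SS f M (c • x) y) → x ∉ D 0 → x ∉ D 1 → ∃ i, ∃ b ∈ D i, b ≠ 0 ∧ XS σ f M b := by
      intro x C hC hxx hCC hxC hx0 hx1
      obtain ⟨a1, ha1, b1, hb1, rfl⟩ := hsup x
      have ha10 : a1 ≠ 0 := by
        rintro rfl
        rw [zero_add] at hx1
        exact hx1 hb1
      have hb10 : b1 ≠ 0 := by
        rintro rfl
        rw [add_zero] at hx0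
        exact hx0 ha1
      obtain ⟨y, hyC, hyx, hyn⟩ := exists_avoid hf C (Submodule.span F {a1, b1}) ![a1 + b1] (by
        have h2 := finrank_span_pair (F := F) a1 b1
        omega)
      have hyx0 : f y (a1 + b1) = 0 := hyx 0
      have hyy := hCC y hyC
      obtain ⟨a2, ha2, b2, hb2, rfl⟩ := hsup y
      by_cases h1 : b2 ∈ Submodule.span F {b1}
      · by_cases h3 : a2 ∈ Submodule.span F {a1}
        · exfalso
          apply hyn
          obtain ⟨s, rfl⟩ := Submodule.mem_span_singleton.1 h1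
          obtain ⟨t, rfl⟩ := Submodule.mem_span_singleton.1 h3
          rw [Submodule.mem_span_pair]
          exact ⟨t, s, rfl⟩
        · obtain ⟨b, hb', hb0, hX⟩ := hP.symm.spread hf hSS' hb1 ha1 hb2 ha2
            (by rw [add_comm b1]; exact hxx) (by rw [add_comm b2]; exact hyy)
            (by rw [add_comm b1, add_comm b2]; exact hf.swap hyx0)
            (by rw [add_comm b1, add_comm b2]; exact hxC _ hyC hyx0) ha10 h3
          exact ⟨0, b, hb', hb0, hX⟩
      · obtain ⟨b, hb', hb0, hX⟩ := hP.spread hf hSS ha1 hb1 ha2 hb2 hxx hyy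
            (hf.swap hyx0) (hxC _ hyC hyx0) hb10 h1
        exact ⟨1, b, hb', hb0, hX⟩
    have hex : ∃ i, ∃ b ∈ D i, b ≠ 0 ∧ XS σ f M b := by
      by_contra hcon
      apply hgn
      have h0 : ∀ x ∈ im g (D 0), x ∈ D 0 ∨ x ∈ D 1 := by
        rintro _ ⟨x, hx, rfl⟩
        by_contra hc
        push Not at hc
        refine hcon (hmain _ (im g (D 1)) (by rw [finrank_im, hD.finrank_eq]) (by
          rw [mulVecLin_apply, hgiso]; exact hiso 0 x hx x hx) ?_ ?_ hc.1 hc.2)
        · rintro _ ⟨y, hy, rfl⟩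
          rw [mulVecLin_apply, hgiso]; exact hiso 1 y hy y hy
        rintro _ ⟨y, hy, rfl⟩ hyx c
        have hyx' : f y x = 0 := by rw [← hgiso]; exact hyx
        have h1 := SS_map hg hgiso (u := c • x) (v := y) (hSS _ ((D 0).smul_mem _ hx) _ hy (by
          rw [hf.smul_left, hf.swap hyx', mul_zero]))
        rw [mulVec_smul] at h1
        exact h1
      have h1 : ∀ x ∈ im g (D 1), x ∈ D 0 ∨ x ∈ D 1 := by
        rintro _ ⟨x, hx, rfl⟩
        by_contra hc
        push Not at hc
        refine hcon (hmain _ (im g (D 0)) (by rw [finrank_im, hD.finrank_eq]) (by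
          rw [mulVecLin_apply, hgiso]; exact hiso 1 x hx x hx) ?_ ?_ hc.1 hc.2)
        · rintro _ ⟨y, hy, rfl⟩
          rw [mulVecLin_apply, hgiso]; exact hiso 0 y hy y hy
        rintro _ ⟨y, hy, rfl⟩ hyx c
        have hyx' : f y x = 0 := by rw [← hgiso]; exact hyx
        have h1 := SS_map hg hgiso (u := c • x) (v := y) (hSS' _ ((D 1).smul_mem _ hx) _ hy (by
          rw [hf.smul_left, hf.swap hyx', mul_zero]))
        rw [mulVec_smul] at h1
        exact h1
      have hinj : ∀ {x y : ι → F}, (g : Matrix ι ι F) *ᵥ x = (g : Matrix ι ι F) *ᵥ y → x = y := by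
        intro x y h
        rw [← inv_mulVec g x, h, inv_mulVec]
      have hnot : ∀ j, im g (D 0) ≤ D j → im g (D 1) ≤ D j → False := by
        intro j hj0 hj1
        have e0 : im g (D 0) = D j := Submodule.eq_of_le_of_finrank_eq hj0 (by rw [finrank_im, hD.finrank_eq, hD.finrank_eq])
        have e1 : im g (D 1) = D j := Submodule.eq_of_le_of_finrank_eq hj1 (by rw [finrank_im, hD.finrank_eq, hD.finrank_eq])
        obtain ⟨x, hx, hx0⟩ := hne 0
        have h3 : (g : Matrix ι ι F) *ᵥ x ∈ im g (D 1) := by rw [e1, ← e0]; exact mem_im hx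
        obtain ⟨y, hy, hyx⟩ := h3
        have h4 : y = x := hinj hyx
        exact hx0 (hP.disj x hx (h4 ▸ hy))
      rcases union_sub h0 with h00 | h01 <;> rcases union_sub h1 with h10 | h11
      · exact absurd (hnot 0 h00 h10) id
      · refine mem_decomp_of hD 1 ?_
        intro i x hx
        fin_cases i
        · exact h00 (mem_im hx)
        · exact h11 (mem_im hx)
      · refine mem_decomp_of hD (Equiv.swap 0 1) ?_
        intro i x hx
        fin_cases i
        · exact h01 (mem_im hx)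
        · exact h10 (mem_im hx)
      · exact absurd (hnot 1 h01 h11) id
    -- all vectors of D 0 and D 1
    have hall : (∀ x ∈ D 0, XS σ f M x) ∧ (∀ x ∈ D 1, XS σ f M x) := by
      have key01 : (∀ x ∈ D 0, XS σ f M x) → (∀ x ∈ D 1, XS σ f M x) := by
        intro h x hx
        have h1 := hs10 x hx
        have hsw' := M.inv_mem (hM hsw)
        have h3 := XS_map hf hsw' (hMiso _ hsw') (h _ h1)
        rwa [inv_mulVec] at h3
      have key10 : (∀ x ∈ D 1, XS σ f M x) → (∀ x ∈ D 0, XS σ f M x) := by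
        intro h x hx
        have h1 := hs01 x hx
        have hsw' := M.inv_mem (hM hsw)
        have h3 := XS_map hf hsw' (hMiso _ hsw') (h _ h1)
        rwa [inv_mulVec] at h3
      obtain ⟨i, b, hbi, hb0, hX⟩ := hex
      have hi : i = 0 ∨ i = 1 := by
        fin_cases i
        · left; rfl
        · right; rfl
      rcases hi with rfl | rfl
      · have h3 := hP.symm.spreadB hf hSS' hbi hb0 hX
        exact ⟨h3, key01 h3⟩
      · have h3 := hP.spreadB hf hSS hbi hb0 hX
        exact ⟨key10 h3, h3⟩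
    refine le_of_all_XS hf (by omega) (Or.inl (by omega)) hK ?_
    intro u huu
    obtain ⟨a, ha, b, hbB, rfl⟩ := hsup u
    by_cases ha0 : a = 0
    · rw [ha0, zero_add]; exact hall.2 b hbB
    have haa := hiso 0 a ha a ha
    have hbb := hiso 1 b hbB b hbB
    by_cases hab : f a b = 0
    · obtain ⟨b', hb'B, hab', -⟩ := hP.symm.exA hf (W := ⊥) bot_le ha (by simpa using ha0)
      have hb'a : f b' a = 1 := by rw [hf.symm, hab', map_one]
      have hkb : κ • b' ∈ D 1 := (D 1).smul_mem _ hb'B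
      have hsub : b - κ • b' ∈ D 1 := (D 1).sub_mem hbB hkb
      have h0 : f (a + κ • b') (a + κ • b') = 0 := by
        rw [hf.add_left, hf.add_right, hf.add_right, haa, hiso 1 _ hkb _ hkb, hf.smul_left, hf.smul_right, hab', hb'a, hk]; ring
      have h1 : XS σ f M (a + κ • b') := by
        refine XS_add hf (hiso 1 _ hkb _ hkb) haa h0 ?_ (hall.2 _ hkb) (hall.1 a ha) hMiso
        rw [hf.smul_right, hab', hk, mul_one]
        exact neg_ne_zero.2 hk0
      have h4 : (b - κ • b') + (a + κ • b') = a + b := by abel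
      have h3 : XS σ f M ((b - κ • b') + (a + κ • b')) := by
        refine XS_add hf h0 (hiso 1 _ hsub _ hsub) (by rw [h4]; exact huu) ?_ h1 (hall.2 _ hsub) hMiso
        rw [hf.add_right, hiso 1 _ hsub _ hkb, hf.sub_left, hf.swap hab, hf.smul_left, hb'a]
        simpa using hk0
      rwa [h4] at h3
    · exact XS_add hf hbb haa huu hab (hall.2 b hbB) (hall.1 a ha) hMiso

end CfsgH9.UnSing
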