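import Cfsg.Agent.H9.R1c
import Cfsg.Agent.S1165
import Cfsg.Agent.S1166

set_option autoImplicit false

open MulAction CfsgH9.R1

namespace CfsgH9.ZAb

section
variable {G Ω : Type*} [Group G] [Finite G] [MulAction G Ω] {a : Ω} {t : G} {Q : Subgroup G}

/-- the canonical decomposition of `t x t` -/
def Dec (Q : Subgroup G) (a : Ω) (t x g h f : G) : Prop := g ∈ Q ∧ h ∈ DD a t ∧ f ∈ Q ∧ t * x * t = g * h * t * f

omit [Finite G] in
theorem dec_exists (hS : Cfsg.IsRankOneSetup G Ω a t Q) {x : G} (hx : x ∈ Q) (hx1 : x ≠ 1) : ∃ g h f, Dec Q a t x g h f := by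
  have h1 : (t * x * t) • a ≠ a := by
    intro h
    apply hx1
    apply q_fix hS hx
    rw [mul_smul, mul_smul] at h
    have h2 : t • t • x • t • a = t • a := by rw [h]
    rwa [← mul_smul t t, hS.mul_self, one_smul] at h2
  obtain ⟨g, hg, h, hh, f, hf, he⟩ := canon hS h1
  exact ⟨g, h, f, hg, hh, hf, he⟩

omit [Finite G] in
theorem dec_uniq (hS : Cfsg.IsRankOneSetup G Ω a t Q) {x g h f g' h' f' : G} (h1 : Dec Q a t x g h f) (h2 : Dec Q a t x g' h' f') :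
    g = g' ∧ h = h' ∧ f = f' :=
  canon_unique hS h1.1 h1.2.1 h1.2.2.1 h2.1 h2.2.1 h2.2.2.1 (h1.2.2.2.symm.trans h2.2.2.2)

omit [Finite G] in
theorem dec_inv (hS : Cfsg.IsRankOneSetup G Ω a t Q) {x g h f : G} (h1 : Dec Q a t x g h f) : Dec Q a t x⁻¹ f⁻¹ (t * h⁻¹ * t) g⁻¹ := by
  refine ⟨Q.inv_mem h1.2.2.1, conj_t hS ((DD a t).inv_mem h1.2.1), Q.inv_mem h1.1, ?_⟩
  have e2 : t * x⁻¹ * t = (t⁻¹ * x * t⁻¹)⁻¹ := by group
  rw [e2, tinv hS, h1.2.2.2]
  have e3 : (g * h * t * f)⁻¹ = f⁻¹ * t⁻¹ * h⁻¹ * g⁻¹ := by group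
  rw [e3, tinv hS]
  have e4 : f⁻¹ * (t * h⁻¹ * t) * t * g⁻¹ = f⁻¹ * t * h⁻¹ * (t * t) * g⁻¹ := by group
  rw [e4, hS.mul_self, mul_one]

omit [Finite G] in
theorem dec_f (hS : Cfsg.IsRankOneSetup G Ω a t Q) {x g h f : G} (hx : x ∈ Q) (h1 : Dec Q a t x g h f) :
    Dec Q a t f (h⁻¹ * g⁻¹ * h) h⁻¹ x := by
  refine ⟨conj_mem' hS h1.2.1.1 (Q.inv_mem h1.1), (DD a t).inv_mem h1.2.1, hx, ?_⟩
  have e2 : t * f = h⁻¹ * g⁻¹ * (t * x * t) := by rw [h1.2.2.2]; group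
  rw [e2]
  have e3 : h⁻¹ * g⁻¹ * (t * x * t) * t = h⁻¹ * g⁻¹ * t * x * (t * t) := by group
  rw [e3, hS.mul_self, mul_one]; group

omit [Finite G] in
theorem f_ne (hS : Cfsg.IsRankOneSetup G Ω a t Q) {x g h f : G} (hx : x ∈ Q) (h1 : Dec Q a t x g h f) : f ≠ 1 := by
  rintro rfl
  have h2 : (t * x * t) • (t • a) = (g * h * t * 1) • (t • a) := by rw [h1.2.2.2]
  rw [mul_one, mul_smul, tb hS, mul_smul, qa hS hx, mul_smul, tb hS, mul_smul, h1.2.1.1, qa hS h1.1] at h2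
  exact ba hS h2

omit [Finite G] in
theorem g_ne (hS : Cfsg.IsRankOneSetup G Ω a t Q) {x g h f : G} (hx : x ∈ Q) (h1 : Dec Q a t x g h f) : g ≠ 1 := by
  have h2 := f_ne hS (Q.inv_mem hx) (dec_inv hS h1)
  rintro rfl
  exact h2 inv_one

omit [Group G] [Finite G] [MulAction G Ω] in
theorem word_d1 {M : Type*} [Group M] {t x f g : M} (ht : t * t = 1) (hxf : x * f = f * x) (hxg : x * g = g * x) (hfg : f * g = g * f)
    (h : t * x * t = g * t * f) :
    (x * (f * g))⁻¹ * (t * (x * x) * t) * ((x * (f * g))⁻¹ * (t * (x * x) * t)) = 1 := by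
  have hti : t⁻¹ = t := inv_eq_of_mul_eq_one_left ht
  have e1 : t * f * t = g⁻¹ * t * x := by
    have h1 : t * f = g⁻¹ * (t * x * t) := by rw [h]; group
    rw [h1]
    have : g⁻¹ * (t * x * t) * t = g⁻¹ * t * x * (t * t) := by group
    rw [this, ht, mul_one]
  have e2 : t * g * t = x * t * f⁻¹ := by
    have h1 : g * t = (t * x * t) * f⁻¹ := by rw [h]; group
    have : t * g * t = t * (g * t) := by group
    rw [this, h1]
    have : t * (t * x * t * f⁻¹) = (t * t) * x * t * f⁻¹ := by group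
    rw [this, ht, one_mul]
  have A1 : t * (f * g) * t = g⁻¹ * t * x * (x * t * f⁻¹) := by
    rw [← e1, ← e2]
    have : t * f * t * (t * g * t) = t * f * (t * t) * g * t := by group
    rw [this, ht]; group
  have A2 : t * (f * g) * t = x * t * f⁻¹ * (g⁻¹ * t * x) := by
    rw [← e1, ← e2, hfg]
    have : t * g * t * (t * f * t) = t * g * (t * t) * f * t := by group
    rw [this, ht]; group
  have A3 : t * (f⁻¹ * g⁻¹) * t = f * (t * (x⁻¹ * x⁻¹) * t) * g := by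
    have h1 : (t * (f * g) * t)⁻¹ = t⁻¹ * (g⁻¹ * f⁻¹) * t⁻¹ := by group
    have h2 : g⁻¹ * f⁻¹ = f⁻¹ * g⁻¹ := by rw [← mul_inv_rev, ← mul_inv_rev, hfg]
    rw [hti, h2] at h1
    rw [← h1, A1]
    have h3 : (g⁻¹ * t * x * (x * t * f⁻¹))⁻¹ = f * (t⁻¹ * (x⁻¹ * x⁻¹) * t⁻¹) * g := by group
    rw [h3, hti]
  have hX : t * (x * x) * t = g * t * f * (g * t * f) := by
    rw [← h]
    have : t * x * t * (t * x * t) = t * x * (t * t) * x * t := by group
    rw [this, ht]; group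
  have hu1 : (x * (f * g))⁻¹ = x⁻¹ * f⁻¹ * g⁻¹ := by
    have : x * (f * g) = g * f * x := by
      rw [hfg, ← mul_assoc, hxg, mul_assoc, hxf]; group
    rw [this]; group
  have hu2 : (x * (f * g))⁻¹ = f⁻¹ * g⁻¹ * x⁻¹ := by
    rw [hfg]; group
  have hxf' : x⁻¹ * f⁻¹ * x = f⁻¹ := by
    have : x⁻¹ * f⁻¹ * x = x⁻¹ * (f⁻¹ * (x * f)) * f⁻¹ := by group
    rw [this, hxf]; group
  have hxg' : x * g⁻¹ * x⁻¹ = g⁻¹ := by
    have : x * g⁻¹ * x⁻¹ = g⁻¹ * (g * x) * g⁻¹ * x⁻¹ := by group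
    rw [this, ← hxg]; group
  have C : (x * (f * g))⁻¹ * (t * (x * x) * t) * (x * (f * g))⁻¹ = t * (x⁻¹ * x⁻¹) * t := by
    calc (x * (f * g))⁻¹ * (t * (x * x) * t) * (x * (f * g))⁻¹
        = (x⁻¹ * f⁻¹ * g⁻¹) * (g * t * f * (g * t * f)) * (f⁻¹ * g⁻¹ * x⁻¹) := by
          rw [hX]; nth_rw 1 [hu1]; rw [hu2]
      _ = x⁻¹ * f⁻¹ * (t * (f * g) * t) * g⁻¹ * x⁻¹ := by group
      _ = x⁻¹ * f⁻¹ * (x * t * f⁻¹ * (g⁻¹ * t * x)) * g⁻¹ * x⁻¹ := by rw [A2]
      _ = (x⁻¹ * f⁻¹ * x) * (t * (f⁻¹ * g⁻¹) * t) * (x * g⁻¹ * x⁻¹) := by group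
      _ = f⁻¹ * (f * (t * (x⁻¹ * x⁻¹) * t) * g) * g⁻¹ := by rw [hxf', hxg', A3]
      _ = _ := by group
  have : (x * (f * g))⁻¹ * (t * (x * x) * t) * ((x * (f * g))⁻¹ * (t * (x * x) * t)) =
    ((x * (f * g))⁻¹ * (t * (x * x) * t) * (x * (f * g))⁻¹) * (t * (x * x) * t) := by group
  rw [this, C]
  have : t * (x⁻¹ * x⁻¹) * t * (t * (x * x) * t) = t * (x⁻¹ * x⁻¹) * (t * t) * (x * x) * t := by group
  rw [this, ht]
  have : t * (x⁻¹ * x⁻¹) * 1 * (x * x) * t = t * t := by group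
  rw [this, ht]

/-- the standing hypotheses: `Q` abelian, `t` inverts `D`, `D` semiregular on `Q` -/
structure Ab (Q : Subgroup G) (a : Ω) (t : G) : Prop where
  comm : ∀ x ∈ Q, ∀ y ∈ Q, x * y = y * x
  tinv : ∀ d ∈ DD a t, t * d * t = d⁻¹
  fpf : ∀ d ∈ DD a t, ∀ x ∈ Q, x ≠ 1 → d * x * d⁻¹ = x → d = 1

/-- the product `f g` and the `D`-part -/
def NH (Q : Subgroup G) (a : Ω) (t x n h : G) : Prop := ∃ g f, Dec Q a t x g h f ∧ n = f * g

variable (hA : Ab Q a t)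
include hA

omit [Finite G] in
theorem dcomm (hS : Cfsg.IsRankOneSetup G Ω a t Q) {d e : G} (hd : d ∈ DD a t) (he : e ∈ DD a t) : d * e = e * d := by
  have h1 := hA.tinv _ ((DD a t).mul_mem hd he)
  have h2 : t * (d * e) * t = (t * d * t) * (t * e * t) := by
    have : (t * d * t) * (t * e * t) = t * d * (t * t) * e * t := by group
    rw [this, hS.mul_self]; group
  rw [h2, hA.tinv _ hd, hA.tinv _ he] at h1
  have h3 : d * e = ((d * e)⁻¹)⁻¹ := by group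
  rw [h3, ← h1]; group

omit [Finite G] in
theorem thit (hS : Cfsg.IsRankOneSetup G Ω a t Q) {h : G} (hh : h ∈ DD a t) : t * h⁻¹ * t = h := by
  rw [hA.tinv _ ((DD a t).inv_mem hh), inv_inv]

omit [Finite G] hA in
theorem nh_exists (hS : Cfsg.IsRankOneSetup G Ω a t Q) {x : G} (hx : x ∈ Q) (hx1 : x ≠ 1) : ∃ n h, NH Q a t x n h := by
  obtain ⟨g, h, f, h1⟩ := dec_exists hS hx hx1
  exact ⟨_, h, g, f, h1, rfl⟩

omit [Finite G] hA in
theorem nh_uniq (hS : Cfsg.IsRankOneSetup G Ω a t Q) {x n h n' h' : G} (h1 : NH Q a t x n h) (h2 : NH Q a t x n' h') :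
    n = n' ∧ h = h' := by
  obtain ⟨g, f, h3, rfl⟩ := h1
  obtain ⟨g', f', h4, rfl⟩ := h2
  obtain ⟨rfl, rfl, rfl⟩ := dec_uniq hS h3 h4
  exact ⟨rfl, rfl⟩

omit [Finite G] hA in
theorem nh_mem {x n h : G} (h1 : NH Q a t x n h) : n ∈ Q ∧ h ∈ DD a t := by
  obtain ⟨g, f, h3, rfl⟩ := h1
  exact ⟨Q.mul_mem h3.2.2.1 h3.1, h3.2.1⟩

omit [Finite G] in
theorem nh_inv (hS : Cfsg.IsRankOneSetup G Ω a t Q) {x n h : G} (h1 : NH Q a t x n h) : NH Q a t x⁻¹ n⁻¹ h := by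
  obtain ⟨g, f, h3, rfl⟩ := h1
  have h4 := dec_inv hS h3
  rw [thit hA hS h3.2.1] at h4
  exact ⟨_, _, h4, by group⟩

omit [Finite G] in
theorem dec_conj (hS : Cfsg.IsRankOneSetup G Ω a t Q) {x g h f c : G} (hc : c ∈ DD a t) (h1 : Dec Q a t x g h f) :
    Dec Q a t (c⁻¹ * x * c) (c * g * c⁻¹) (c * c * h) (c * f * c⁻¹) := by
  refine ⟨hS.conj_mem c hc.1 g h1.1, (DD a t).mul_mem ((DD a t).mul_mem hc hc) h1.2.1, hS.conj_mem c hc.1 f h1.2.2.1, ?_⟩
  have h2 := hA.tinv c hc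
  have e1 : t * c = c⁻¹ * t := by
    have : t * c = t * c * t * t⁻¹ := by group
    rw [this, h2, tinv hS]
  have e2 : t * c⁻¹ = c * t := by
    have : t * c⁻¹ = t * c⁻¹ * t * t⁻¹ := by group
    rw [this, thit hA hS hc, tinv hS]
  have e3 : c * t = t * c⁻¹ := e2.symm
  calc t * (c⁻¹ * x * c) * t = (t * c⁻¹) * x * (c * t) := by group
    _ = (c * t) * x * (t * c⁻¹) := by rw [e2]
    _ = c * (t * x * t) * c⁻¹ := by group
    _ = c * (g * h * t * f) * c⁻¹ := by rw [h1.2.2.2]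
    _ = c * g * (h * t) * f * c⁻¹ := by group
    _ = c * g * (h * (t * c⁻¹) * c) * f * c⁻¹ := by group
    _ = c * g * (h * (c * t) * c) * f * c⁻¹ := by rw [e2]
    _ = c * g * ((h * c) * t * c) * f * c⁻¹ := by group
    _ = c * g * ((c * h) * t * c) * f * c⁻¹ := by rw [dcomm hA hS h1.2.1 hc]
    _ = _ := by group

omit [Finite G] in
theorem nh_conj (hS : Cfsg.IsRankOneSetup G Ω a t Q) {x n h c : G} (hc : c ∈ DD a t) (h1 : NH Q a t x n h) :
    NH Q a t (c⁻¹ * x * c) (c * n * c⁻¹) (c * c * h) := by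
  obtain ⟨g, f, h3, rfl⟩ := h1
  exact ⟨_, _, dec_conj hA hS hc h3, by group⟩

omit [Finite G] in
/-- (K1) -/
theorem k1 (hS : Cfsg.IsRankOneSetup G Ω a t Q) {x n h u : G} (h1 : NH Q a t x n h) (hu : u ∈ Q) :
    (u * (t * x * t)) * (u * (t * x * t)) = 1 ↔ u = n⁻¹ := by
  obtain ⟨g, f, h3, rfl⟩ := h1
  have hg := h3.1
  have hf := h3.2.2.1
  have hh := h3.2.1
  have e0 : u * (t * x * t) = f⁻¹ * ((f * u * g) * (h * t)) * f := by rw [h3.2.2.2]; group
  have e1 : (h * t) * (h * t) = 1 := by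
    have : (h * t) * (h * t) = h * (t * h * t) := by group
    rw [this, hA.tinv h hh]; group
  have e2 : (u * (t * x * t)) * (u * (t * x * t)) = f⁻¹ * ((f * u * g) * (h * t) * ((f * u * g) * (h * t))) * f := by
    rw [e0]; group
  rw [e2]
  have hw : f * u * g ∈ Q := Q.mul_mem (Q.mul_mem hf hu) hg
  set w := f * u * g with hwd
  have e3 : (w * (h * t) * (w * (h * t)) = 1) ↔ w = 1 := by
    constructor
    · intro h4
      have h5 : (w * (h * t) * (w * (h * t))) • a = a := by rw [h4, one_smul]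
      have h6 : (h * t) • a = t • a := by rw [mul_smul]; exact hh.2
      rw [mul_smul, mul_smul w (h * t) a, h6, mul_smul] at h5
      have h7 : (h * t) • w • t • a = a := by
        have : w⁻¹ • w • (h * t) • w • t • a = w⁻¹ • a := by rw [h5]
        rw [inv_smul_smul] at this
        rw [this]
        exact qa hS (Q.inv_mem hw)
      apply q_fix hS hw
      have h8 : w • t • a = (h * t)⁻¹ • a := by rw [eq_inv_smul_iff]; exact h7
      rw [h8, inv_eq_of_mul_eq_one_left e1, h6]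
    · intro h4
      rw [h4, one_mul, e1]
  have e4 : f⁻¹ * (w * (h * t) * (w * (h * t))) * f = 1 ↔ w * (h * t) * (w * (h * t)) = 1 := by
    constructor
    · intro h4
      have : w * (h * t) * (w * (h * t)) = f * (f⁻¹ * (w * (h * t) * (w * (h * t))) * f) * f⁻¹ := by group
      rw [this, h4]; group
    · intro h4
      rw [h4]; group
  rw [e4, e3, hwd]
  constructor
  · intro h4
    have h5 : u = f⁻¹ * (f * u * g) * g⁻¹ := by group
    rw [h5, h4, hA.comm f hf g hg]; group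
  · rintro rfl
    rw [hA.comm f hf g hg]; group

omit [Finite G] in
theorem nn (hS : Cfsg.IsRankOneSetup G Ω a t Q) {x n h : G} (hx : x ∈ Q) (hx2 : x * x ≠ 1) (h1 : NH Q a t x n h) :
    n ≠ 1 ∧ ∃ h', NH Q a t n x h' := by
  have h2 := (k1 hA hS h1 (Q.inv_mem (nh_mem h1).1)).2 rfl
  have hn : n ≠ 1 := by
    rintro rfl
    apply hx2
    have h3 : x * x = t * ((1 : G)⁻¹ * (t * x * t) * (1⁻¹ * (t * x * t))) * t := by
      have : t * ((1 : G)⁻¹ * (t * x * t) * (1⁻¹ * (t * x * t))) * t = (t * t) * x * (t * t) * x * (t * t) := by group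
      rw [this, hS.mul_self]; group
    rw [h3, h2, mul_one, hS.mul_self]
  refine ⟨hn, ?_⟩
  obtain ⟨m, h', h3⟩ := nh_exists hS (nh_mem h1).1 hn
  have h4 := k1 hA hS (nh_inv hA hS h3) hx
  rw [inv_inv] at h4
  have h5 : x * (t * n⁻¹ * t) * (x * (t * n⁻¹ * t)) = 1 := by
    have e1 : x * (t * n⁻¹ * t) * (x * (t * n⁻¹ * t)) = (x * t) * (n⁻¹ * (t * x * t) * (n⁻¹ * (t * x * t))) * (x * t)⁻¹ := by
      have : (x * t) * (n⁻¹ * (t * x * t) * (n⁻¹ * (t * x * t))) * (x * t)⁻¹ = x * t * n⁻¹ * (t * x * t) * n⁻¹ * t * x * (t * t⁻¹) * x⁻¹ := by group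
      rw [this]
      group
    rw [e1, h2]; group
  have h6 := h4.1 h5
  rw [← h6] at h3
  exact ⟨h', h3⟩

omit [Finite G] in
theorem d1_one (hS : Cfsg.IsRankOneSetup G Ω a t Q) {x n : G} (hx : x ∈ Q) (hx2 : x * x ≠ 1) (h1 : NH Q a t x n 1) :
    ∃ h', NH Q a t (x * x) (x * n) h' := by
  obtain ⟨m, h', h2⟩ := nh_exists hS (Q.mul_mem hx hx) hx2
  have h1' := h1
  obtain ⟨g, f, h3, rfl⟩ := h1
  have hg := h3.1
  have hf := h3.2.2.1
  have he := h3.2.2.2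
  rw [mul_one] at he
  have h4 := word_d1 hS.mul_self (hA.comm x hx f hf) (hA.comm x hx g hg) (hA.comm f hf g hg) he
  have h5 := (k1 hA hS h2 (Q.inv_mem (Q.mul_mem hx (Q.mul_mem hf hg)))).1 h4
  refine ⟨h', ?_⟩
  rw [inv_injective h5]
  exact h2

theorem dsqrt (hS : Cfsg.IsRankOneSetup G Ω a t Q) {h : G} (hh : h ∈ DD a t) : ∃ c ∈ DD a t, c * c = h :=
  ⟨_, (DD a t).pow_mem hh _, odd_sq hS.odd_card hh⟩

theorem d1 (hS : Cfsg.IsRankOneSetup G Ω a t Q) {x n h : G} (hx : x ∈ Q) (hx2 : x * x ≠ 1) (h1 : NH Q a t x n h) :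
    ∃ h', NH Q a t (x * x) ((h * x * h⁻¹) * n) h' := by
  obtain ⟨c, hc, rfl⟩ := dsqrt hA hS (nh_mem h1).2
  have h2 := nh_conj hA hS ((DD a t).inv_mem hc) h1
  have e1 : c⁻¹ * c⁻¹ * (c * c) = 1 := by group
  rw [e1, inv_inv] at h2
  have hx0 : c * x * c⁻¹ ∈ Q := hS.conj_mem c hc.1 x hx
  have hx02 : c * x * c⁻¹ * (c * x * c⁻¹) ≠ 1 := by
    intro h3
    apply hx2
    have : x * x = c⁻¹ * (c * x * c⁻¹ * (c * x * c⁻¹)) * c := by group
    rw [this, h3]; group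
  obtain ⟨h', h3⟩ := d1_one hA hS hx0 hx02 h2
  have h4 := nh_conj hA hS hc h3
  have e2 : c⁻¹ * (c * x * c⁻¹ * (c * x * c⁻¹)) * c = x * x := by group
  have e3 : c * (c * x * c⁻¹ * (c⁻¹ * n * c)) * c⁻¹ = (c * c) * x * (c * c)⁻¹ * n := by group
  rw [e2, e3] at h4
  exact ⟨_, h4⟩

theorem d2 (hS : Cfsg.IsRankOneSetup G Ω a t Q) {x n h m k : G} (hx : x ∈ Q) (hx2 : x * x ≠ 1) (h1 : NH Q a t x n h)
    (h2 : NH Q a t n m k) : ∃ m', NH Q a t (x * x) m' (h * h * k) := by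
  obtain ⟨g, f, h3, rfl⟩ := h1
  obtain ⟨g₁, f₁, h4, rfl⟩ := h2
  obtain ⟨g', h', f', h5⟩ := dec_exists hS (Q.mul_mem hx hx) hx2
  have hx1 : x ≠ 1 := by
    rintro rfl
    exact hx2 (one_mul _)
  have h6 := (Cfsg.Agent.S1166.result hS x x g h f g h f hx hx1 hx hx1 hx2 h3.1 h3.2.1 h3.2.2.1 h3.2.2.2 h3.1 h3.2.1 h3.2.2.1 h3.2.2.2).2
    g₁ k f₁ g' h' f' h4.1 h4.2.1 h4.2.2.1 h4.2.2.2 h5.1 h5.2.1 h5.2.2.1 h5.2.2.2
  have h7 : h * h * k = h' := by
    have h8 := dcomm hA hS h3.2.1 h4.2.1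
    rw [h6.2]
    calc h * h * k = h * (h * k) := mul_assoc _ _ _
      _ = h * (k * h) := congrArg (h * ·) h8
      _ = h * k * h := (mul_assoc _ _ _).symm
  rw [h7]
  exact ⟨_, g', f', h5, rfl⟩

omit [Finite G] in
theorem powc (N : ℕ) {x y : G} (hx : x ∈ Q) (hy : y ∈ Q) : (x * y) ^ N = x ^ N * y ^ N :=
  Commute.mul_pow (hA.comm x hx y hy) N

omit [Finite G] hA in
theorem conj_pw (N : ℕ) (c x : G) : (c * x * c⁻¹) ^ N = c * x ^ N * c⁻¹ := conj_pow

theorem main_ind (hS : Cfsg.IsRankOneSetup G Ω a t Q) (j : ℕ) : ∀ x ∈ Q, orderOf x = 2 ^ (j + 1) → ∀ n h, NH Q a t x n h →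
    n = h * (x * x ^ (2 ^ j)) * h⁻¹ ∧ (x * x ≠ 1 → ∃ m, NH Q a t (x * x) m h) := by
  induction j with
  | zero =>
    intro x hx ho n h h1
    have hxx : x * x = 1 := by
      have := pow_orderOf_eq_one x
      rw [ho] at this
      rw [← sq]
      simpa using this
    have h2 := (k1 hA hS h1 Q.one_mem).1 (by
      rw [one_mul]
      have : t * x * t * (t * x * t) = t * x * (t * t) * x * t := by group
      rw [this, hS.mul_self, mul_one, mul_assoc t x x, hxx, mul_one, hS.mul_self])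
    have hn : n = 1 := by rw [← inv_inv n, ← h2, inv_one]
    refine ⟨?_, fun h => absurd hxx h⟩
    rw [hn, pow_zero, pow_one, hxx]; group
  | succ j ih =>
    intro x hx ho n h h1
    -- general facts
    have gen : ∀ y ∈ Q, orderOf y = 2 ^ (j + 1 + 1) → y * y ≠ 1 ∧ orderOf (y * y) = 2 ^ (j + 1) ∧
        (y * y) ^ (2 ^ j) = y ^ (2 ^ (j + 1)) ∧ y ^ (2 ^ (j + 1)) ≠ 1 ∧ y ^ (2 ^ (j + 1)) * y ^ (2 ^ (j + 1)) = 1 := by
      intro y hy hoy
      have e1 : y * y = y ^ 2 := (sq y).symm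
      have h2 : orderOf (y ^ 2) = 2 ^ (j + 1) := by
        rw [orderOf_pow_of_dvd (by norm_num) (by rw [hoy]; exact dvd_pow_self 2 (by omega)), hoy, pow_succ 2 (j + 1)]
        simp
      have h3 : y ^ (2 ^ (j + 1)) ≠ 1 := by
        intro h
        have h4 := orderOf_dvd_of_pow_eq_one h
        rw [hoy, Nat.pow_dvd_pow_iff_le_right (by norm_num)] at h4
        omega
      refine ⟨?_, by rw [e1, h2], by rw [e1, ← pow_mul, pow_succ 2 j, mul_comm], h3, ?_⟩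
      · rw [e1]
        intro h
        rw [h, orderOf_one] at h2
        have : 1 < 2 ^ (j + 1) := Nat.one_lt_two_pow (by omega)
        omega
      · rw [← pow_add, ← two_mul, ← pow_succ', ← hoy, pow_orderOf_eq_one]
    have claim : ∀ y ∈ Q, orderOf y = 2 ^ (j + 1 + 1) → ∀ m l, NH Q a t y m l → ∃ l' ∈ DD a t,
        m = (l * y⁻¹ * l⁻¹) * (l' * (y * y * y ^ (2 ^ (j + 1))) * l'⁻¹) ∧ m ^ (2 ^ (j + 1)) = l * y ^ (2 ^ (j + 1)) * l⁻¹ ∧
        ∃ m', NH Q a t (y * y) m' l' := by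
      intro y hy hoy m l h2
      obtain ⟨g1, g2, g3, g4, g5⟩ := gen y hy hoy
      obtain ⟨l', h3⟩ := d1 hA hS hy g1 h2
      have h4 := (ih (y * y) (Q.mul_mem hy hy) g2 _ _ h3).1
      rw [g3] at h4
      have hl := (nh_mem h2).2
      have hl' := (nh_mem h3).2
      have h5 : m = (l * y⁻¹ * l⁻¹) * (l' * (y * y * y ^ (2 ^ (j + 1))) * l'⁻¹) := by
        rw [← h4]; group
      refine ⟨l', hl', h5, ?_, _, h3⟩
      have hyN : y ^ (2 ^ (j + 1)) ∈ Q := Q.pow_mem hy _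
      rw [h5, powc hA _ (hS.conj_mem l hl.1 _ (Q.inv_mem hy)) (hS.conj_mem l' hl'.1 _ (Q.mul_mem (Q.mul_mem hy hy) hyN)),
        conj_pw, conj_pw, powc hA _ (Q.mul_mem hy hy) hyN, powc hA _ hy hy, g5, inv_pow, inv_eq_of_mul_eq_one_left g5, one_mul]
      have h6 : (y ^ (2 ^ (j + 1))) ^ (2 ^ (j + 1)) = 1 := by
        rw [pow_succ' 2 j, pow_mul (y ^ (2 * 2 ^ j)) 2 (2 ^ j), sq, ← pow_succ' 2 j, g5, one_pow]
      rw [h6]; group
    obtain ⟨g1, g2, g3, g4, g5⟩ := gen x hx ho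
    obtain ⟨h', hh', c1, c2, m', c3⟩ := claim x hx ho n h h1
    have hh := (nh_mem h1).2
    have hn := (nh_mem h1).1
    -- the order of n
    have hzQ : x ^ (2 ^ (j + 1)) ∈ Q := Q.pow_mem hx _
    have hn1 : n ^ (2 ^ (j + 1)) ≠ 1 := by
      rw [c2]
      intro h2
      apply g4
      have : x ^ (2 ^ (j + 1)) = h⁻¹ * (h * x ^ (2 ^ (j + 1)) * h⁻¹) * h := by group
      rw [this, h2]; group
    have hn2 : n ^ (2 ^ (j + 1 + 1)) = 1 := by
      rw [pow_succ 2 (j + 1), pow_mul, sq, c2]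
      have : h * x ^ (2 ^ (j + 1)) * h⁻¹ * (h * x ^ (2 ^ (j + 1)) * h⁻¹) = h * (x ^ (2 ^ (j + 1)) * x ^ (2 ^ (j + 1))) * h⁻¹ := by group
      rw [this, g5]; group
    have hon : orderOf n = 2 ^ (j + 1 + 1) := orderOf_eq_prime_pow hn1 hn2
    obtain ⟨-, k, h2⟩ := nn hA hS hx g1 h1
    have hk := (nh_mem h2).2
    obtain ⟨-, -, -, c4, -⟩ := claim n hn hon x k h2
    rw [c2] at c4
    have hkh : k * h = 1 := by
      apply hA.fpf _ ((DD a t).mul_mem hk hh) _ hzQ g4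
      rw [mul_inv_rev]
      calc k * h * x ^ (2 ^ (j + 1)) * (h⁻¹ * k⁻¹) = k * (h * x ^ (2 ^ (j + 1)) * h⁻¹) * k⁻¹ := by group
        _ = _ := c4.symm
    obtain ⟨m₂, h3⟩ := d2 hA hS hx g1 h1 h2
    have e1 : h * h * k = h := by
      have : h * h * k = h * (h * k) := by group
      rw [this, dcomm hA hS hh hk, hkh, mul_one]
    rw [e1] at h3
    have h4 := (nh_uniq hS c3 h3).2
    subst h4
    refine ⟨?_, fun _ => ⟨_, h3⟩⟩
    rw [c1]; group

theorem chain (hS : Cfsg.IsRankOneSetup G Ω a t Q) (j : ℕ) : ∀ x ∈ Q, orderOf x = 2 ^ (j + 1) → ∀ n h, NH Q a t x n h →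
    ∃ m, NH Q a t (x ^ (2 ^ j)) m h := by
  induction j with
  | zero =>
    intro x _ _ n h h1
    rw [pow_zero, pow_one]
    exact ⟨n, h1⟩
  | succ j ih =>
    intro x hx ho n h h1
    have e1 : x * x = x ^ 2 := (sq x).symm
    have h2 : orderOf (x ^ 2) = 2 ^ (j + 1) := by
      rw [orderOf_pow_of_dvd (by norm_num) (by rw [ho]; exact dvd_pow_self 2 (by omega)), ho, pow_succ 2 (j + 1)]
      simp
    have h3 : x * x ≠ 1 := by
      rw [e1]
      intro h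
      rw [h, orderOf_one] at h2
      have : 1 < 2 ^ (j + 1) := Nat.one_lt_two_pow (by omega)
      omega
    obtain ⟨m, h4⟩ := (main_ind hA hS (j + 1) x hx ho n h h1).2 h3
    rw [e1] at h4
    obtain ⟨m', h5⟩ := ih (x ^ 2) (Q.pow_mem hx 2) h2 m h h4
    refine ⟨m', ?_⟩
    rw [pow_succ' 2 j, pow_mul]
    exact h5

/-- involutions with equal `D`-part coincide -/
theorem inv_eq_of_h (hS : Cfsg.IsRankOneSetup G Ω a t Q) {s s' n n' h : G} (hs : s ∈ Q) (hs1 : s ≠ 1) (hs2 : s * s = 1)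
    (hs' : s' ∈ Q) (hs1' : s' ≠ 1) (hs2' : s' * s' = 1) (h1 : NH Q a t s n h) (h2 : NH Q a t s' n' h) : s = s' := by
  have key : ∀ s ∈ Q, s * s = 1 → ∀ n, NH Q a t s n h → ∃ q ∈ Q, t * s * t = q * h * t * q⁻¹ := by
    intro s hs hs2 n h1
    obtain ⟨g, f, h3, rfl⟩ := h1
    have h4 := dec_inv hS h3
    rw [inv_eq_of_mul_eq_one_left hs2, thit hA hS h3.2.1] at h4
    have h5 := (dec_uniq hS h3 h4).2.2
    refine ⟨g, h3.1, ?_⟩
    rw [← h5]
    exact h3.2.2.2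
  obtain ⟨q, hq, e1⟩ := key s hs hs2 n h1
  obtain ⟨q', hq', e2⟩ := key s' hs' hs2' n' h2
  have hh := (nh_mem h1).2
  have hK : h ∈ KK a t := by
    rw [mem_KK hS]
    exact ⟨hh, hA.tinv h hh⟩
  exact delta_inj hS ⟨qa hS hs, hs1, hs2⟩ ⟨qa hS hs', hs1', hs2'⟩ hq hq' hK e1 e2

/-- the dichotomy for elements of maximal order -/
theorem dich (hS : Cfsg.IsRankOneSetup G Ω a t Q) {e : ℕ} (he : 1 ≤ e) (hexp : ∀ y ∈ Q, y ^ (2 ^ (e + 1)) = 1) {y g h f : G}
    (hy : y ∈ Q) (hy1 : y ^ (2 ^ e) ≠ 1) (h1 : Dec Q a t y g h f) : f ^ (2 ^ e) = 1 ∨ g ^ (2 ^ e) = 1 := by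
  by_contra hcon
  push Not at hcon
  obtain ⟨hf1, hg1⟩ := hcon
  have hg := h1.1
  have hf := h1.2.2.1
  have hh := h1.2.1
  have ord : ∀ z ∈ Q, z ^ (2 ^ e) ≠ 1 → orderOf z = 2 ^ (e + 1) := fun z hz hz1 => orderOf_eq_prime_pow hz1 (hexp z hz)
  have sq1 : ∀ z ∈ Q, z ^ (2 ^ e) * z ^ (2 ^ e) = 1 := fun z hz => by
    rw [← pow_add, ← two_mul, ← pow_succ']
    exact hexp z hz
  have h2 := (main_ind hA hS e y hy (ord y hy hy1) _ h ⟨g, f, h1, rfl⟩).1
  have h3 : f ^ (2 ^ e) * g ^ (2 ^ e) = h * y ^ (2 ^ e) * h⁻¹ := by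
    rw [← powc hA _ hf hg, h2, conj_pw, powc hA _ hy (Q.pow_mem hy _)]
    have : (y ^ (2 ^ e)) ^ (2 ^ e) = 1 := by
      obtain ⟨d, rfl⟩ : ∃ d, e = d + 1 := ⟨e - 1, by omega⟩
      rw [pow_succ' 2 d, pow_mul (y ^ (2 * 2 ^ d)) 2 (2 ^ d), sq, ← pow_succ' 2 d, sq1 y hy, one_pow]
    rw [this, mul_one]
  -- h-parts
  have hf' : ∃ m, NH Q a t (f ^ (2 ^ e)) m h⁻¹ := chain hA hS e f hf (ord f hf hf1) _ h⁻¹ ⟨_, _, dec_f hS hy h1, rfl⟩
  have hg' : ∃ m, NH Q a t (g ^ (2 ^ e)) m h⁻¹ := by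
    have h4 := dec_inv hS h1
    rw [thit hA hS hh] at h4
    have h5 := dec_f hS (Q.inv_mem hy) h4
    have h6 : NH Q a t g⁻¹ _ h⁻¹ := ⟨_, _, h5, rfl⟩
    have h7 := nh_inv hA hS h6
    rw [inv_inv] at h7
    exact chain hA hS e g hg (ord g hg hg1) _ h⁻¹ h7
  obtain ⟨m, hf'⟩ := hf'
  obtain ⟨m', hg'⟩ := hg'
  have h4 := inv_eq_of_h hA hS (Q.pow_mem hf _) hf1 (sq1 f hf) (Q.pow_mem hg _) hg1 (sq1 g hg) hf' hg'
  rw [← h4, sq1 f hf] at h3
  apply hy1
  have : y ^ (2 ^ e) = h⁻¹ * (h * y ^ (2 ^ e) * h⁻¹) * h := by group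
  rw [this, ← h3]; group

/-- `Q` is elementary abelian -/
theorem elem (hS : Cfsg.IsRankOneSetup G Ω a t Q) (hQ2 : IsPGroup 2 Q) (hD : ∃ d ∈ DD a t, d ≠ 1) : ∀ x ∈ Q, x * x = 1 := by
  classical
  by_contra hcon
  push Not at hcon
  obtain ⟨x₀, hx₀, hx₀2⟩ := hcon
  -- the exponent
  have hex : ∃ m : ℕ, ∀ y ∈ Q, y ^ (2 ^ m) = 1 := by
    obtain ⟨m, hm⟩ := (IsPGroup.iff_card).1 hQ2
    refine ⟨m, fun y hy => ?_⟩
    have := pow_card_eq_one' (x := (⟨y, hy⟩ : Q))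
    rw [hm] at this
    exact congrArg Subtype.val this
  have hm := Nat.find_spec hex
  set m := Nat.find hex with hmd
  have hm2 : 2 ≤ m := by
    by_contra h
    have : m = 0 ∨ m = 1 := by omega
    rcases this with h0 | h0
    · rw [h0] at hm
      apply hx₀2
      have := hm x₀ hx₀
      rw [pow_zero, pow_one] at this
      rw [this, one_mul]
    · rw [h0] at hm
      apply hx₀2
      have := hm x₀ hx₀
      rw [pow_one] at this
      rw [← sq, this]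
  obtain ⟨e, he⟩ : ∃ e, m = e + 1 := ⟨m - 1, by omega⟩
  have he1 : 1 ≤ e := by omega
  have hw : ∃ w ∈ Q, w ^ (2 ^ e) ≠ 1 := by
    have := Nat.find_min hex (m := e) (by omega)
    push Not at this
    exact this
  rw [he] at hm
  obtain ⟨w, hw, hw1⟩ := hw
  letI : CommGroup Q := { (inferInstance : Group Q) with mul_comm := fun x y => Subtype.ext (hA.comm x x.2 y y.2) }
  let π : Q →* Q := powMonoidHom (2 ^ e)
  have hπ : ∀ y : Q, ((π y : Q) : G) = (y : G) ^ (2 ^ e) := fun y => by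
    change ((y ^ (2 ^ e) : Q) : G) = _
    rw [Subgroup.coe_pow]
  have hker : ∀ y : Q, y ∈ π.ker ↔ (y : G) ^ (2 ^ e) = 1 := fun y => by
    rw [MonoidHom.mem_ker, ← hπ]
    exact ⟨fun h => by rw [h]; rfl, fun h => Subtype.ext h⟩
  -- the range has at least three elements
  obtain ⟨d, hd, hd1⟩ := hD
  have hdw : d * w * d⁻¹ ∈ Q := hS.conj_mem d hd.1 w hw
  have hrange : 3 ≤ Nat.card π.range := by
    let S : Finset π.range := {⟨1, π.range.one_mem⟩, ⟨π ⟨w, hw⟩, ⟨_, rfl⟩⟩, ⟨π ⟨_, hdw⟩, ⟨_, rfl⟩⟩}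
    have hS3 : S.card = 3 := by
      rw [Finset.card_eq_three]
      refine ⟨_, _, _, ?_, ?_, ?_, rfl⟩
      · intro h
        have h2 := congrArg (fun z : π.range => ((z : Q) : G)) h
        simp only [hπ, Subgroup.coe_one] at h2
        exact hw1 h2.symm
      · intro h
        have h2 := congrArg (fun z : π.range => ((z : Q) : G)) h
        simp only [hπ, Subgroup.coe_one] at h2
        rw [conj_pw] at h2
        apply hw1
        have : w ^ (2 ^ e) = d⁻¹ * (d * w ^ (2 ^ e) * d⁻¹) * d := by group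
        rw [this, ← h2]; group
      · intro h
        have h2 := congrArg (fun z : π.range => ((z : Q) : G)) h
        simp only [hπ] at h2
        rw [conj_pw] at h2
        exact hd1 (hA.fpf d hd _ (Q.pow_mem hw _) hw1 h2.symm)
    letI := Fintype.ofFinite π.range
    rw [Nat.card_eq_fintype_card, ← hS3]
    exact Finset.card_le_univ S
  -- the counting map
  have hdec : ∀ y : Q, ((y : G) ^ (2 ^ e) ≠ 1) → ∃ p : G × G × G, Dec Q a t y p.1 p.2.1 p.2.2 := fun y hy => by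
    obtain ⟨g, h, f, h1⟩ := dec_exists hS y.2 (by
      intro h
      apply hy
      rw [h, one_pow])
    exact ⟨⟨g, h, f⟩, h1⟩
  choose p hp using hdec
  let A := {y : Q // (y : G) ^ (2 ^ e) ≠ 1}
  let B := {y : Q // (y : G) ^ (2 ^ e) = 1 ∧ (y : G) ≠ 1}
  let φ : A → B × Bool := fun y => if h : (p y.1 y.2).2.2 ^ (2 ^ e) = 1 then
      (⟨⟨(p y.1 y.2).2.2, (hp y.1 y.2).2.2.1⟩, h, f_ne hS y.1.2 (hp y.1 y.2)⟩, true)
    else (⟨⟨(p y.1 y.2).1, (hp y.1 y.2).1⟩, (dich hA hS he1 hm y.1.2 y.2 (hp y.1 y.2)).resolve_left h, g_ne hS y.1.2 (hp y.1 y.2)⟩, false)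
  have hφ : Function.Injective φ := by
    intro y y' hyy
    by_cases h : (p y.1 y.2).2.2 ^ (2 ^ e) = 1
    · by_cases h' : (p y'.1 y'.2).2.2 ^ (2 ^ e) = 1
      · simp only [φ, dif_pos h, dif_pos h', Prod.mk.injEq, and_true] at hyy
        have h2 : (p y.1 y.2).2.2 = (p y'.1 y'.2).2.2 := congrArg (fun z : B => ((z.1 : Q) : G)) hyy
        have h3 := dec_f hS y.1.2 (hp y.1 y.2)
        have h4 := dec_f hS y'.1.2 (hp y'.1 y'.2)
        rw [h2] at h3
        exact Subtype.ext (Subtype.ext (dec_uniq hS h3 h4).2.2)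
      · simp only [φ, dif_pos h, dif_neg h', Prod.mk.injEq] at hyy
        exact absurd hyy.2 (by simp)
    · by_cases h' : (p y'.1 y'.2).2.2 ^ (2 ^ e) = 1
      · simp only [φ, dif_neg h, dif_pos h', Prod.mk.injEq] at hyy
        exact absurd hyy.2 (by simp)
      · simp only [φ, dif_neg h, dif_neg h', Prod.mk.injEq, and_true] at hyy
        have h2 : (p y.1 y.2).1 = (p y'.1 y'.2).1 := congrArg (fun z : B => ((z.1 : Q) : G)) hyy
        have h3 := dec_f hS (Q.inv_mem y.1.2) (dec_inv hS (hp y.1 y.2))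
        have h4 := dec_f hS (Q.inv_mem y'.1.2) (dec_inv hS (hp y'.1 y'.2))
        rw [h2] at h3
        exact Subtype.ext (Subtype.ext (inv_injective (dec_uniq hS h3 h4).2.2))
  have hAB : Nat.card A ≤ Nat.card B * 2 := by
    have := Nat.card_le_card_of_injective φ hφ
    rwa [Nat.card_prod, Nat.card_eq_fintype_card (α := Bool), Fintype.card_bool] at this
  -- cardinalities
  letI := Fintype.ofFinite Q
  have hQA : Nat.card Q = Nat.card A + Nat.card π.ker := by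
    have h1 : Nat.card A = Fintype.card {y : Q // ¬ (y : G) ^ (2 ^ e) = 1} := Nat.card_eq_fintype_card
    have h2 : Nat.card π.ker = Fintype.card {y : Q // (y : G) ^ (2 ^ e) = 1} := by
      rw [← Nat.card_eq_fintype_card]
      exact Nat.card_congr (Equiv.subtypeEquivRight (fun y => hker y))
    rw [h1, h2, Nat.card_eq_fintype_card, Fintype.card_subtype_compl, Nat.sub_add_cancel (Fintype.card_subtype_le _)]
  have hkB : Nat.card π.ker = Nat.card B + 1 := by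
    have h2 : Nat.card π.ker = (Finset.univ.filter (fun y : Q => (y : G) ^ (2 ^ e) = 1)).card := by
      rw [← Fintype.card_subtype, ← Nat.card_eq_fintype_card]
      exact Nat.card_congr (Equiv.subtypeEquivRight (fun y => hker y))
    have h3 : Nat.card B = (Finset.univ.filter (fun y : Q => (y : G) ^ (2 ^ e) = 1 ∧ (y : G) ≠ 1)).card := by
      rw [← Fintype.card_subtype, ← Nat.card_eq_fintype_card]
    rw [h2, h3]
    have h4 : Finset.univ.filter (fun y : Q => (y : G) ^ (2 ^ e) = 1) =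
        insert (1 : Q) (Finset.univ.filter (fun y : Q => (y : G) ^ (2 ^ e) = 1 ∧ (y : G) ≠ 1)) := by
      ext y
      simp only [Finset.mem_filter, Finset.mem_univ, true_and, Finset.mem_insert]
      constructor
      · intro h
        by_cases hy : y = 1
        · exact Or.inl hy
        · exact Or.inr ⟨h, fun h' => hy (Subtype.ext h')⟩
      · rintro (rfl | h)
        · rw [Subgroup.coe_one, one_pow]
        · exact h.1
    rw [h4, Finset.card_insert_of_notMem (by simp)]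
  have hmul : Nat.card Q = Nat.card π.ker * Nat.card π.range := by
    rw [← Subgroup.index_ker, Subgroup.card_mul_index]
  have h5 : Nat.card π.ker * 3 ≤ Nat.card π.ker * Nat.card π.range := Nat.mul_le_mul_left _ hrange
  omega

/-- the structure equation in the abelian case -/
theorem exists_u₀ (hS : Cfsg.IsRankOneSetup G Ω a t Q) (hQ2 : IsPGroup 2 Q) (hD : ∃ d ∈ DD a t, d ≠ 1) :
    ∃! u₀ : G, u₀ ∈ Q ∧ u₀ ≠ 1 ∧ t * u₀ * t = u₀ * t * u₀ := by
  have hel := elem hA hS hQ2 hD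
  obtain ⟨s1, hs1⟩ := exists_Inv hS
  obtain ⟨k1, hk1, r, hr, h1⟩ := exists_special' hS hs1
  have hs0 := conj_Inv hs1 hk1.1.1
  set s0 := k1 * s1 * k1⁻¹ with hs0d
  have hs0Q := Inv_mem_Q hS hs0
  have hri : r⁻¹ = r := inv_eq_of_mul_eq_one_left (hel r hr)
  have hsr : s0 * r = 1 := by
    by_contra hne
    -- t r t = r t s0
    have h2 : t * r * t = r * t * s0 := by
      have h3 : r * t * s0 = r * (t * s0 * t) * t := by
        have : r * (t * s0 * t) * t = r * t * s0 * (t * t) := by group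
        rw [this, hS.mul_self, mul_one]
      rw [h3, h1, hri]
      have : r * (r * t * r) * t = (r * r) * t * r * t := by group
      rw [this, hel r hr, one_mul]
    have h4 : (r * t * s0) * (r * t * s0) = 1 := by
      rw [← h2]
      have : t * r * t * (t * r * t) = t * r * (t * t) * r * t := by group
      rw [this, hS.mul_self, mul_one, mul_assoc t r r, hel r hr, mul_one, hS.mul_self]
    have h5 : t * (s0 * r) * t ∈ Q := by
      have : t * (s0 * r) * t = r⁻¹ * (r * t * s0 * (r * t * s0)) * s0⁻¹ := by group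
      rw [this, h4]
      exact Q.mul_mem (Q.mul_mem (Q.inv_mem hr) Q.one_mem) (Q.inv_mem hs0Q)
    apply hne
    apply q_fix hS (Q.mul_mem hs0Q hr)
    have h6 := qa hS h5
    rw [mul_smul, mul_smul] at h6
    have h7 : t • t • (s0 * r) • t • a = t • a := by rw [h6]
    rwa [← mul_smul t t, hS.mul_self, one_smul] at h7
  have hs0r : s0 = r := by
    rw [← hri]
    exact eq_inv_of_mul_eq_one_left hsr
  refine ⟨s0, ⟨hs0Q, hs0.2.1, ?_⟩, ?_⟩
  · rw [h1, hri, ← hs0r]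
  · rintro u ⟨hu, hu1, hu2⟩
    have hui : u⁻¹ = u := inv_eq_of_mul_eq_one_left (hel u hu)
    refine (special_unique hS (s := u) (s' := s0) ⟨qa hS hu, hu1, hel u hu⟩ hs0 hu hr ?_ h1).1
    rw [hui]
    exact hu2

end

end CfsgH9.ZAb
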