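import Cfsg.Agent.H9.ZAb
import Cfsg.Prelude.Def_LieExceptional

set_option autoImplicit false

open MulAction CfsgH9.R1

namespace CfsgH9.Zas

/-- a fixed-point-free involutory conjugation inverts -/
theorem inverts {G : Type*} [Group G] {H : Subgroup G} [Finite H] {c : G} (hc : c * c = 1) (hn : ∀ x ∈ H, c * x * c ∈ H)
    (hf : ∀ x ∈ H, c * x * c = x → x = 1) : ∀ x ∈ H, c * x * c = x⁻¹ := by
  let φ : H → H := fun x => ⟨(x : G)⁻¹ * (c * x * c), H.mul_mem (H.inv_mem x.2) (hn x x.2)⟩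
  have hinj : Function.Injective φ := by
    rintro ⟨x, hx⟩ ⟨y, hy⟩ hxy
    have h1 : x⁻¹ * (c * x * c) = y⁻¹ * (c * y * c) := congrArg Subtype.val hxy
    have h2 : c * (x * y⁻¹) * c = x * y⁻¹ := by
      have e1 : c * (x * y⁻¹) * c = (c * x * c) * (c * y * c)⁻¹ := by
        have : (c * x * c) * (c * y * c)⁻¹ = c * x * y⁻¹ * c⁻¹ := by group
        rw [this, inv_eq_of_mul_eq_one_left hc]; group
      have e2 : c * x * c = x * (y⁻¹ * (c * y * c)) := by rw [← h1]; group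
      rw [e1, e2]; group
    have h3 := hf _ (H.mul_mem hx (H.inv_mem hy)) h2
    exact Subtype.ext (mul_inv_eq_one.1 h3)
  have hsurj := Finite.surjective_of_injective hinj
  intro x hx
  obtain ⟨⟨y, hy⟩, h1⟩ := hsurj ⟨x, hx⟩
  have h2 : y⁻¹ * (c * y * c) = x := congrArg Subtype.val h1
  rw [← h2]
  have e1 : c * (y⁻¹ * (c * y * c)) * c = c * y⁻¹ * c * y * (c * c) := by group
  have e2 : (y⁻¹ * (c * y * c))⁻¹ = c⁻¹ * y⁻¹ * c⁻¹ * y := by group
  rw [e1, hc, mul_one, e2, inv_eq_of_mul_eq_one_left hc]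

section
variable {G Ω : Type*} [Group G] [MulAction G Ω]

theorem exists_third (hZ : Cfsg.IsZassenhausGroup G Ω) (x y : Ω) : ∃ z : Ω, z ≠ x ∧ z ≠ y := by
  obtain ⟨hF, h2, h3, ⟨g, hg1, a, b, hab, ha, hb⟩, -⟩ := hZ
  obtain ⟨c, hc⟩ : ∃ c : Ω, g • c ≠ c := by
    by_contra hcon
    push Not at hcon
    exact hg1 (FaithfulSMul.eq_of_smul_eq_smul (α := Ω) (fun c => by rw [hcon, one_smul]))
  have hca : c ≠ a := by rintro rfl; exact hc ha
  have hcb : c ≠ b := by rintro rfl; exact hc hb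
  by_cases h1 : a ≠ x ∧ a ≠ y
  · exact ⟨a, h1⟩
  by_cases h2 : b ≠ x ∧ b ≠ y
  · exact ⟨b, h2⟩
  refine ⟨c, ?_, ?_⟩
  · rintro rfl
    have e1 : a = y := by
      by_contra h
      exact h1 ⟨hca.symm, h⟩
    have e2 : b = y := by
      by_contra h
      exact h2 ⟨hcb.symm, h⟩
    exact hab (e1.trans e2.symm)
  · rintro rfl
    have e1 : a = x := by
      by_contra h
      exact h1 ⟨h, hca.symm⟩
    have e2 : b = x := by
      by_contra h
      exact h2 ⟨h, hcb.symm⟩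
    exact hab (e1.trans e2.symm)

theorem two_tr (h2 : IsMultiplyPretransitive G Ω 2) {x y x' y' : Ω} (h : x ≠ y) (h' : x' ≠ y') :
    ∃ g : G, g • x = x' ∧ g • y = y' :=
  (is_two_pretransitive_iff).1 h2 h h'

theorem two_pt_ne (hZ : Cfsg.IsZassenhausGroup G Ω) {x y : Ω} (hxy : x ≠ y) :
    ∃ d ∈ stabilizer G x ⊓ stabilizer G y, d ≠ 1 := by
  obtain ⟨hF, h2, h3, ⟨g, hg1, a, b, hab, ha, hb⟩, -⟩ := hZ
  obtain ⟨k, hk1, hk2⟩ := two_tr h2 hab hxy
  refine ⟨k * g * k⁻¹, ⟨?_, ?_⟩, ?_⟩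
  · change (k * g * k⁻¹) • x = x
    rw [mul_smul, mul_smul, ← hk1, inv_smul_smul, ha]
  · change (k * g * k⁻¹) • y = y
    rw [mul_smul, mul_smul, ← hk2, inv_smul_smul, hb]
  · intro h
    apply hg1
    have : g = k⁻¹ * (k * g * k⁻¹) * k := by group
    rw [this, h]; group

end

section reg
variable {G Ω : Type*} [Group G] [Finite G] [MulAction G Ω] {a : Ω} {U : Subgroup G} {v : G}

theorem fpf (hZ : Cfsg.IsZassenhausGroup G Ω) (hUle : U ≤ stabilizer G a)
    (hreg : ∀ c d : Ω, c ≠ a → d ≠ a → ∃! u : U, (u : G) • c = d) {b : Ω} (hb : b ≠ a) {d : G}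
    (hd : d ∈ stabilizer G a ⊓ stabilizer G b) {x : G} (hx : x ∈ U) (hx1 : x ≠ 1) (h : d * x * d⁻¹ = x) : d = 1 := by
  obtain ⟨hF, h2, h3, -, -⟩ := hZ
  have hxa : x • a = a := hUle hx
  refine h3 d a b (x • b) hb.symm ?_ ?_ hd.1 hd.2 ?_
  · intro h1
    obtain ⟨u, -, hu⟩ := hreg b b hb hb
    have e1 := hu ⟨x, hx⟩ h1.symm
    have e2 := hu 1 (one_smul G b)
    exact hx1 (congrArg Subtype.val (e1.trans e2.symm))
  · intro h1
    apply hb
    have : x⁻¹ • a = x⁻¹ • x • b := by rw [← h1]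
    rw [inv_smul_smul] at this
    rw [← this, inv_smul_eq_iff, hxa]
  · have hdb : d • b = b := hd.2
    have hd' : d⁻¹ • b = b := by rw [inv_smul_eq_iff, hdb]
    conv_rhs => rw [← h, mul_smul, mul_smul, hd']

theorem setup (hZ : Cfsg.IsZassenhausGroup G Ω) (hUle : U ≤ stabilizer G a)
    (hUn : ∀ h ∈ stabilizer G a, ∀ u ∈ U, h * u * h⁻¹ ∈ U)
    (hreg : ∀ c d : Ω, c ≠ a → d ≠ a → ∃! u : U, (u : G) • c = d) (hU2 : IsPGroup 2 U)
    (hv1 : v ≠ 1) (hv2 : v * v = 1) (hva : v • a ≠ a) : Cfsg.IsRankOneSetup G Ω a v U := by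
  have hZ' := hZ
  obtain ⟨hF, h2, h3, -, -⟩ := hZ'
  have hUne : ∃ u ∈ U, u ≠ 1 := by
    obtain ⟨z, hz1, hz2⟩ := exists_third hZ a (v • a)
    obtain ⟨u, hu, -⟩ := hreg (v • a) z hva hz1
    refine ⟨u, u.2, fun h => ?_⟩
    rw [h, one_smul] at hu
    exact hz2 hu.symm
  have hUeven : Even (Nat.card U) := by
    obtain ⟨n, hn⟩ := (IsPGroup.iff_card).1 hU2
    rw [hn]
    have hn0 : n ≠ 0 := by
      rintro rfl
      rw [pow_zero] at hn
      obtain ⟨u, hu, hu1⟩ := hUne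
      have := (Nat.card_eq_one_iff_unique.1 hn).1
      exact hu1 (congrArg Subtype.val (Subsingleton.elim (⟨u, hu⟩ : U) 1))
    exact (Nat.even_pow.2 ⟨even_two, hn0⟩)
  refine ⟨h2, hv2, hv1, hva, hUle, hUn, ?_, ?_, hUeven, ?_⟩
  · rw [eq_bot_iff]
    rintro u ⟨hu, hu2⟩
    rw [Subgroup.mem_bot]
    obtain ⟨w, -, hw⟩ := hreg (v • a) (v • a) hva hva
    have e1 := hw ⟨u, hu⟩ hu2
    have e2 := hw 1 (one_smul G _)
    exact congrArg Subtype.val (e1.trans e2.symm)
  · apply le_antisymm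
    · exact sup_le hUle inf_le_left
    · intro h hh
      have hne : h • v • a ≠ a := by
        intro h1
        apply hva
        have : h⁻¹ • h • v • a = h⁻¹ • a := by rw [h1]
        rw [inv_smul_smul] at this
        rw [this, inv_smul_eq_iff]
        exact hh.symm
      obtain ⟨u, hu, -⟩ := hreg (v • a) (h • v • a) hva hne
      have e : h = u * ((u : G)⁻¹ * h) := by group
      rw [e]
      refine Subgroup.mul_mem_sup u.2 ⟨(stabilizer G a).mul_mem ((stabilizer G a).inv_mem (hUle u.2)) hh, ?_⟩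
      change ((u : G)⁻¹ * h) • v • a = v • a
      rw [mul_smul, ← hu, inv_smul_smul]
  · rw [← Nat.not_even_iff_odd]
    intro heven
    have h4 : 2 ∣ Nat.card ↥(stabilizer G a ⊓ stabilizer G (v • a)) := even_iff_two_dvd.1 heven
    obtain ⟨⟨d, hd⟩, hd2⟩ := exists_prime_orderOf_dvd_card' 2 h4
    rw [Subgroup.orderOf_mk] at hd2
    have hdd : d * d = 1 := by
      rw [← sq, ← hd2, pow_orderOf_eq_one]
    have hd1 : d ≠ 1 := by
      rintro rfl
      rw [orderOf_one] at hd2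
      exact absurd hd2 (by norm_num)
    have hdi : d⁻¹ = d := inv_eq_of_mul_eq_one_left hdd
    have h5 := inverts (H := U) hdd (fun x hx => by
        have := hUn d hd.1 x hx
        rwa [hdi] at this) (fun x hx h => by
        by_contra hx1
        exact hd1 (fpf hZ hUle hreg hva hd hx hx1 (by rw [hdi]; exact h)))
    have h6 : 2 ∣ Nat.card U := even_iff_two_dvd.1 hUeven
    obtain ⟨⟨x, hx⟩, hx2⟩ := exists_prime_orderOf_dvd_card' 2 h6
    rw [Subgroup.orderOf_mk] at hx2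
    have hxx : x * x = 1 := by
      rw [← sq, ← hx2, pow_orderOf_eq_one]
    have hx1 : x ≠ 1 := by
      rintro rfl
      rw [orderOf_one] at hx2
      exact absurd hx2 (by norm_num)
    have h7 := h5 x hx
    rw [inv_eq_of_mul_eq_one_left hxx] at h7
    exact hd1 (fpf hZ hUle hreg hva hd hx hx1 (by rw [hdi]; exact h7))

/-- the involution inverts the two-point stabiliser -/
theorem inv_D (hZ : Cfsg.IsZassenhausGroup G Ω) (hS : Cfsg.IsRankOneSetup G Ω a v U) : ∀ d ∈ DD a v, v * d * v = d⁻¹ := by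
  obtain ⟨c, hc⟩ := exists_fix hS hS.ne_one hS.mul_self
  have hca : c ≠ a := by
    rintro rfl
    exact ba hS hc
  have hcb : c ≠ v • a := by
    intro h
    apply ba hS
    rw [h, tb hS] at hc
    exact hc.symm
  obtain ⟨hF, h2, h3, -, -⟩ := hZ
  apply inverts hS.mul_self (fun x hx => conj_t hS hx)
  intro x hx h
  refine h3 x a (v • a) c (ba hS).symm hcb.symm hca.symm hx.1 hx.2 ?_
  apply fix_unique hS hS.ne_one hS.mul_self ?_ hc
  have h4 : v * x = x * v := by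
    have : v * x = v * x * v * v⁻¹ := by group
    rw [this, h, tinv hS]
  rw [← mul_smul, h4, mul_smul, hc]

end reg

end CfsgH9.Zas
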