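import Cfsg.Agent.H9.Zas
import Cfsg.Agent.H1.FrobThm

set_option autoImplicit false

open MulAction CfsgH9.R1

open scoped Pointwise

namespace CfsgH9.Zas

section
variable {N Ω : Type*} [Group N] [Finite N] [MulAction N Ω]

theorem mem_conj_stab {g x : N} {a : Ω} : x ∈ MulAut.conj g • stabilizer N a ↔ x • g • a = g • a := by
  rw [Subgroup.mem_pointwise_smul_iff_inv_smul_mem]
  change (MulAut.conj g)⁻¹ x ∈ _ ↔ _
  rw [← map_inv, MulAut.conj_apply, inv_inv]
  change (g⁻¹ * x * g) • a = a ↔ _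
  rw [mul_smul, mul_smul, inv_smul_eq_iff]

/-- Frobenius' theorem for permutation groups -/
theorem frob_perm (htr : IsPretransitive N Ω) (h2 : ∀ n : N, ∀ x y : Ω, x ≠ y → n • x = x → n • y = y → n = 1) (a : Ω) :
    ∃ M : Subgroup N, M.Normal ∧ (∀ x, x ∈ M ↔ x = 1 ∨ ∀ c : Ω, x • c ≠ c) ∧ ∀ c : Ω, ∃ m ∈ M, m • a = c := by
  obtain ⟨M, hM, hMn, hc⟩ := CfsgH1.frobenius_kernel (H := stabilizer N a) (by
    intro g hg
    rw [eq_bot_iff]
    rintro x ⟨hx1, hx2⟩
    rw [Subgroup.mem_bot]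
    have hx2' : x ∈ MulAut.conj g • stabilizer N a := hx2
    rw [mem_conj_stab] at hx2'
    exact h2 x a (g • a) (fun h => hg h.symm) hx1 hx2')
  refine ⟨M, hMn, ?_, ?_⟩
  · intro x
    rw [← SetLike.mem_coe, hM]
    change (x = 1 ∨ ∀ g : N, x ∉ MulAut.conj g • stabilizer N a) ↔ _
    refine or_congr Iff.rfl ⟨?_, ?_⟩
    · intro h c
      obtain ⟨g, rfl⟩ := exists_smul_eq N a c
      have := h g
      rw [mem_conj_stab] at this
      exact this
    · intro h g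
      rw [mem_conj_stab]
      exact h _
  · intro c
    obtain ⟨g, rfl⟩ := exists_smul_eq N a c
    obtain ⟨⟨m, s⟩, hms⟩ := hc.2 g
    refine ⟨m, m.2, ?_⟩
    rw [← hms]
    change (m : N) • a = ((m : N) * (s : N)) • a
    rw [mul_smul, show (s : N) • a = a from s.2]

end

section
variable {G Ω : Type*} [Group G] [MulAction G Ω]

/-- nontrivial normal subgroups of doubly transitive groups are transitive -/
theorem normal_trans [FaithfulSMul G Ω] (h2 : IsMultiplyPretransitive G Ω 2) {N : Subgroup G} (hN : N.Normal) (hN1 : N ≠ ⊥)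
    (x y : Ω) : ∃ n ∈ N, n • x = y := by
  by_cases hxy : x = y
  · exact ⟨1, N.one_mem, by rw [one_smul, hxy]⟩
  obtain ⟨n, hn, hn1⟩ := N.bot_or_exists_ne_one.resolve_left hN1
  obtain ⟨c, hc⟩ : ∃ c : Ω, n • c ≠ c := by
    by_contra hcon
    push Not at hcon
    exact hn1 (FaithfulSMul.eq_of_smul_eq_smul (α := Ω) (fun c => by rw [hcon, one_smul]))
  obtain ⟨g, h1, h3⟩ := two_tr h2 hc.symm hxy
  refine ⟨g * n * g⁻¹, hN.conj_mem n hn g, ?_⟩
  rw [mul_smul, mul_smul, ← h1, inv_smul_smul, h3]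

variable [Finite G]

/-- the point stabiliser of a Zassenhaus-type group has a kernel regular on the other points -/
theorem exists_kernel (h2 : IsMultiplyPretransitive G Ω 2)
    (h3 : ∀ g : G, ∀ a b c : Ω, a ≠ b → b ≠ c → a ≠ c → g • a = a → g • b = b → g • c = c → g = 1) {a b : Ω} (hab : b ≠ a) :
    ∃ K : Subgroup G, K ≤ stabilizer G a ∧ (∀ h ∈ stabilizer G a, ∀ u ∈ K, h * u * h⁻¹ ∈ K) ∧
      (∀ c d : Ω, c ≠ a → d ≠ a → ∃! u : K, (u : G) • c = d) := by
  -- action of `G_a` on the complement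
  let X := {c : Ω // c ≠ a}
  have hne : ∀ (g : stabilizer G a) (c : Ω), c ≠ a → (g : G) • c ≠ a := by
    intro g c hc h
    apply hc
    have : (g : G)⁻¹ • (g : G) • c = (g : G)⁻¹ • a := by rw [h]
    rw [inv_smul_smul] at this
    rw [this, inv_smul_eq_iff]
    exact g.2.symm
  letI : MulAction (stabilizer G a) X :=
    { smul := fun g c => ⟨(g : G) • c.1, hne g c.1 c.2⟩
      one_smul := fun c => Subtype.ext (one_smul G c.1)
      mul_smul := fun g h c => Subtype.ext (mul_smul (g : G) (h : G) c.1) }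
  have hsm : ∀ (g : stabilizer G a) (c : X), ((g • c : X) : Ω) = (g : G) • (c : Ω) := fun _ _ => rfl
  have htr : IsPretransitive (stabilizer G a) X := ⟨fun c d => by
    obtain ⟨g, h4, h5⟩ := two_tr h2 (Ne.symm c.2) (Ne.symm d.2)
    exact ⟨⟨g, h4⟩, Subtype.ext h5⟩⟩
  obtain ⟨M, hMn, hM, hMt⟩ := frob_perm htr (fun n x y hxy hx hy => by
    have hx' : (n : G) • (x : Ω) = x := congrArg Subtype.val hx
    have hy' : (n : G) • (y : Ω) = y := congrArg Subtype.val hy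
    exact Subtype.ext (h3 n a x y (Ne.symm x.2) (fun h => hxy (Subtype.ext h)) (Ne.symm y.2) n.2 hx' hy')) (⟨b, hab⟩ : X)
  refine ⟨M.map (stabilizer G a).subtype, ?_, ?_, ?_⟩
  · rintro _ ⟨m, hm, rfl⟩
    exact m.2
  · rintro h hh _ ⟨m, hm, rfl⟩
    exact ⟨⟨h, hh⟩ * m * ⟨h, hh⟩⁻¹, hMn.conj_mem m hm _, rfl⟩
  · intro c d hc hd
    obtain ⟨m₁, hm₁, e1⟩ := hMt ⟨c, hc⟩
    obtain ⟨m₂, hm₂, e2⟩ := hMt ⟨d, hd⟩
    have e1' : (m₁ : G) • b = c := congrArg Subtype.val e1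
    have e2' : (m₂ : G) • b = d := congrArg Subtype.val e2
    refine ⟨⟨(m₂ * m₁⁻¹ : stabilizer G a), ⟨_, M.mul_mem hm₂ (M.inv_mem hm₁), rfl⟩⟩, ?_, ?_⟩
    · change ((m₂ : G) * (m₁ : G)⁻¹) • c = d
      rw [mul_smul, ← e1', inv_smul_smul, e2']
    · rintro ⟨_, ⟨m, hm, rfl⟩⟩ h4
      have h4' : (m : G) • c = d := h4
      apply Subtype.ext
      change (m : G) = ((m₂ * m₁⁻¹ : stabilizer G a) : G)
      have h5 : (m₂ * m₁⁻¹)⁻¹ * m ∈ M := M.mul_mem (M.inv_mem (M.mul_mem hm₂ (M.inv_mem hm₁))) hm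
      rcases (hM _).1 h5 with h6 | h6
      · rw [inv_mul_eq_one] at h6
        rw [h6]
      · exfalso
        apply h6 ⟨c, hc⟩
        apply Subtype.ext
        rw [hsm]
        change (((m₂ : G) * (m₁ : G)⁻¹)⁻¹ * (m : G)) • c = c
        rw [mul_smul, h4', inv_smul_eq_iff, mul_smul, ← e1', inv_smul_smul, e2']


/-- a nontrivial normal subgroup contains nonidentity elements fixing two given points -/
theorem normal_two_pt (hZ : Cfsg.IsZassenhausGroup G Ω) {N : Subgroup G} (hN : N.Normal) (hN1 : N ≠ ⊥) {x y : Ω} (hxy : x ≠ y) :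
    ∃ n ∈ N, n ≠ 1 ∧ n • x = x ∧ n • y = y := by
  obtain ⟨hF, h2, h3, -, h5⟩ := hZ
  -- enough: some pair
  suffices hsome : ∃ a b : Ω, a ≠ b ∧ ∃ n ∈ N, n ≠ 1 ∧ n • a = a ∧ n • b = b by
    obtain ⟨a, b, hab, n, hn, hn1, ha, hb⟩ := hsome
    obtain ⟨g, e1, e2⟩ := two_tr h2 hab hxy
    refine ⟨g * n * g⁻¹, hN.conj_mem n hn g, ?_, ?_, ?_⟩
    · intro h
      apply hn1
      have : n = g⁻¹ * (g * n * g⁻¹) * g := by group
      rw [this, h]; group
    · rw [mul_smul, mul_smul, ← e1, inv_smul_smul, ha]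
    · rw [mul_smul, mul_smul, ← e2, inv_smul_smul, hb]
  by_contra hcon
  push Not at hcon
  have htr : IsPretransitive N Ω := ⟨fun c d => by
    obtain ⟨n, hn, h⟩ := normal_trans h2 hN hN1 c d
    exact ⟨⟨n, hn⟩, h⟩⟩
  obtain ⟨M, -, hM, hMt⟩ := frob_perm htr (fun n c d hcd hc hd => by
    by_contra hn1
    exact hcon c d hcd n n.2 (fun h => hn1 (Subtype.ext h)) hc hd) x
  have hMn : (M.map N.subtype).Normal := by
    refine ⟨?_⟩
    rintro _ ⟨m, hm, rfl⟩ g
    refine ⟨⟨g * m * g⁻¹, hN.conj_mem m m.2 g⟩, ?_, rfl⟩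
    change (⟨g * m * g⁻¹, _⟩ : N) ∈ M
    rw [hM]
    rcases (hM m).1 hm with rfl | h
    · left
      apply Subtype.ext
      change g * (1 : G) * g⁻¹ = 1
      group
    · right
      intro c hc
      apply h (g⁻¹ • c)
      have hc' : (g * m * g⁻¹) • c = c := hc
      rw [mul_smul, mul_smul] at hc'
      change (m : G) • g⁻¹ • c = g⁻¹ • c
      rw [eq_inv_smul_iff]
      exact hc'
  obtain ⟨c, hc⟩ := h5 (M.map N.subtype) hMn ⟨fun c d => by
    obtain ⟨m₁, hm₁, e1⟩ := hMt c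
    obtain ⟨m₂, hm₂, e2⟩ := hMt d
    refine ⟨⟨(m₂ * m₁⁻¹ : N), ⟨_, M.mul_mem hm₂ (M.inv_mem hm₁), rfl⟩⟩, ?_⟩
    change (m₂ * m₁⁻¹ : N) • c = d
    rw [mul_smul, ← e1, inv_smul_smul, e2]⟩
  apply hc
  rw [eq_bot_iff]
  rintro ⟨_, ⟨m, hm, rfl⟩⟩ hmc
  rw [Subgroup.mem_bot]
  have hmc' : m • c = c := hmc
  rcases (hM m).1 hm with rfl | h
  · rfl
  · exact absurd hmc' (h c)

/-- ... and the kernels of the point stabilisers -/
theorem kernel_le (hZ : Cfsg.IsZassenhausGroup G Ω) {N : Subgroup G} (hN : N.Normal) (hN1 : N ≠ ⊥) {a : Ω} {K : Subgroup G}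
    (hKle : K ≤ stabilizer G a) (hKn : ∀ h ∈ stabilizer G a, ∀ u ∈ K, h * u * h⁻¹ ∈ K)
    (hreg : ∀ c d : Ω, c ≠ a → d ≠ a → ∃! u : K, (u : G) • c = d) : K ≤ N := by
  obtain ⟨b, hb, -⟩ := exists_third hZ a a
  obtain ⟨n, hn, hn1, ha, hnb⟩ := normal_two_pt hZ hN hN1 (Ne.symm hb)
  let φ : K → K := fun x => ⟨(x : G)⁻¹ * (n * x * n⁻¹), K.mul_mem (K.inv_mem x.2) (hKn n ha x x.2)⟩
  have hinj : Function.Injective φ := by
    rintro ⟨x, hx⟩ ⟨y, hy⟩ hxy
    have h1 : x⁻¹ * (n * x * n⁻¹) = y⁻¹ * (n * y * n⁻¹) := congrArg Subtype.val hxy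
    have h2 : n * (x * y⁻¹) * n⁻¹ = x * y⁻¹ := by
      have e1 : n * (x * y⁻¹) * n⁻¹ = (n * x * n⁻¹) * (n * y * n⁻¹)⁻¹ := by group
      have e2 : n * x * n⁻¹ = x * (y⁻¹ * (n * y * n⁻¹)) := by rw [← h1]; group
      rw [e1, e2]; group
    by_contra hne
    apply hn1
    refine fpf hZ hKle hreg hb ⟨ha, hnb⟩ (K.mul_mem hx (K.inv_mem hy)) (fun h => hne ?_) h2
    exact Subtype.ext (mul_inv_eq_one.1 h)
  intro x hx
  obtain ⟨⟨y, hy⟩, h1⟩ := Finite.surjective_of_injective hinj ⟨x, hx⟩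
  have h2 : y⁻¹ * (n * y * n⁻¹) = x := congrArg Subtype.val h1
  rw [← h2]
  have e : y⁻¹ * (n * y * n⁻¹) = (y⁻¹ * n * y) * n⁻¹ := by group
  rw [e]
  have h3 := hN.conj_mem n hn y⁻¹
  rw [inv_inv] at h3
  exact N.mul_mem h3 (N.inv_mem hn)

/-- a nontrivial normal subgroup is doubly transitive -/
theorem normal_two_tr (hZ : Cfsg.IsZassenhausGroup G Ω) {N : Subgroup G} (hN : N.Normal) (hN1 : N ≠ ⊥) {x y x' y' : Ω}
    (h : x ≠ y) (h' : x' ≠ y') : ∃ n ∈ N, n • x = x' ∧ n • y = y' := by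
  have hZ' := hZ
  obtain ⟨hF, h2, h3, -, -⟩ := hZ'
  obtain ⟨n, hn, e1⟩ := normal_trans h2 hN hN1 x x'
  obtain ⟨K, hKle, hKn, hreg⟩ := exists_kernel h2 h3 (Ne.symm h')
  have h4 : n • y ≠ x' := by
    intro h5
    apply h
    rw [← e1] at h5
    exact (MulAction.injective n h5).symm
  obtain ⟨k, hk, -⟩ := hreg (n • y) y' h4 (Ne.symm h')
  refine ⟨k * n, N.mul_mem (kernel_le hZ hN hN1 hKle hKn hreg k.2) hn, ?_, ?_⟩
  · rw [mul_smul, e1]
    exact hKle k.2
  · rw [mul_smul]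
    exact hk

variable {a : Ω} {U : Subgroup G} {v : G}

theorem setup_even (hZ : Cfsg.IsZassenhausGroup G Ω) (hUle : U ≤ stabilizer G a)
    (hUn : ∀ h ∈ stabilizer G a, ∀ u ∈ U, h * u * h⁻¹ ∈ U)
    (hreg : ∀ c d : Ω, c ≠ a → d ≠ a → ∃! u : U, (u : G) • c = d) (hUeven : Even (Nat.card U))
    (hv1 : v ≠ 1) (hv2 : v * v = 1) (hva : v • a ≠ a) : Cfsg.IsRankOneSetup G Ω a v U := by
  have hZ' := hZ
  obtain ⟨hF, h2, h3, -, -⟩ := hZ'
  refine ⟨h2, hv2, hv1, hva, hUle, hUn, ?_, ?_, hUeven, ?_⟩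
  · rw [eq_bot_iff]
    rintro u ⟨hu, hu2⟩
    rw [Subgroup.mem_bot]
    obtain ⟨w, -, hw⟩ := hreg (v • a) (v • a) hva hva
    have e1 := hw ⟨u, hu⟩ hu2
    have e2 := hw 1 (one_smul G _)
    exact congrArg Subtype.val (e1.trans e2.symm)
  · apply le_antisymm
    · exact sup_le hUle inf_le_left
    · intro h hh
      have hne : h • v • a ≠ a := by
        intro h1
        apply hva
        have : h⁻¹ • h • v • a = h⁻¹ • a := by rw [h1]
        rw [inv_smul_smul] at this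
        rw [this, inv_smul_eq_iff]
        exact hh.symm
      obtain ⟨u, hu, -⟩ := hreg (v • a) (h • v • a) hva hne
      have e : h = u * ((u : G)⁻¹ * h) := by group
      rw [e]
      refine Subgroup.mul_mem_sup u.2 ⟨(stabilizer G a).mul_mem ((stabilizer G a).inv_mem (hUle u.2)) hh, ?_⟩
      change ((u : G)⁻¹ * h) • v • a = v • a
      rw [mul_smul, ← hu, inv_smul_smul]
  · rw [← Nat.not_even_iff_odd]
    intro heven
    have h4 : 2 ∣ Nat.card ↥(stabilizer G a ⊓ stabilizer G (v • a)) := even_iff_two_dvd.1 heven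
    obtain ⟨⟨d, hd⟩, hd2⟩ := exists_prime_orderOf_dvd_card' 2 h4
    rw [Subgroup.orderOf_mk] at hd2
    have hdd : d * d = 1 := by
      rw [← sq, ← hd2, pow_orderOf_eq_one]
    have hd1 : d ≠ 1 := by
      rintro rfl
      rw [orderOf_one] at hd2
      exact absurd hd2 (by norm_num)
    have hdi : d⁻¹ = d := inv_eq_of_mul_eq_one_left hdd
    have h5 := inverts (H := U) hdd (fun x hx => by
        have := hUn d hd.1 x hx
        rwa [hdi] at this) (fun x hx h => by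
        by_contra hx1
        exact hd1 (fpf hZ hUle hreg hva hd hx hx1 (by rw [hdi]; exact h)))
    have h6 : 2 ∣ Nat.card U := even_iff_two_dvd.1 hUeven
    obtain ⟨⟨x, hx⟩, hx2⟩ := exists_prime_orderOf_dvd_card' 2 h6
    rw [Subgroup.orderOf_mk] at hx2
    have hxx : x * x = 1 := by
      rw [← sq, ← hx2, pow_orderOf_eq_one]
    have hx1 : x ≠ 1 := by
      rintro rfl
      rw [orderOf_one] at hx2
      exact absurd hx2 (by norm_num)
    have h7 := h5 x hx
    rw [inv_eq_of_mul_eq_one_left hxx] at h7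
    exact hd1 (fpf hZ hUle hreg hva hd hx hx1 (by rw [hdi]; exact h7))


/-- (S0338) odd degree implies simplicity -/
theorem simple_of_odd [Finite Ω] (hZ : Cfsg.IsZassenhausGroup G Ω) (hodd : Odd (Nat.card Ω)) : IsSimpleGroup G := by
  have hZ' := hZ
  obtain ⟨hF, h2, h3, ⟨g₀, hg₀, a, b, hab, hga, hgb⟩, -⟩ := hZ'
  haveI : Nontrivial G := ⟨g₀, 1, hg₀⟩
  refine ⟨fun N hN => ?_⟩
  by_cases hN1 : N = ⊥
  · exact Or.inl hN1
  right
  obtain ⟨K, hKle, hKn, hreg⟩ := exists_kernel h2 h3 (Ne.symm hab)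
  -- the cardinality of K
  have hcK : Nat.card Ω = Nat.card K + 1 := by
    classical
    have e : K ≃ {c : Ω // c ≠ a} := Equiv.ofBijective (fun q => ⟨(q : G) • b, fun h => hab (by
        have : (q : G)⁻¹ • (q : G) • b = (q : G)⁻¹ • a := by rw [h]
        rw [inv_smul_smul] at this
        rw [this, eq_inv_smul_iff]
        exact hKle q.2)⟩) ⟨by
      intro x y hxy
      have h4 : (x : G) • b = (y : G) • b := congrArg Subtype.val hxy
      obtain ⟨u, -, hu⟩ := hreg b ((x : G) • b) (Ne.symm hab) (fun h => hab (by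
        have : (x : G)⁻¹ • (x : G) • b = (x : G)⁻¹ • a := by rw [h]
        rw [inv_smul_smul] at this
        rw [this, eq_inv_smul_iff]
        exact hKle x.2))
      exact (hu x rfl).trans (hu y h4.symm).symm, by
      rintro ⟨c, hc⟩
      obtain ⟨q, hq, -⟩ := hreg b c (Ne.symm hab) hc
      exact ⟨q, Subtype.ext hq⟩⟩
    cases nonempty_fintype Ω
    rw [Nat.card_congr e, Nat.card_eq_fintype_card, Nat.card_eq_fintype_card]
    change _ = Fintype.card {c : Ω // ¬ c = a} + 1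
    rw [Fintype.card_subtype_compl, Fintype.card_subtype_eq]
    have : 0 < Fintype.card Ω := Fintype.card_pos_iff.2 ⟨a⟩
    omega
  have hKe : Even (Nat.card K) := by
    rw [hcK] at hodd
    exact (Nat.odd_add_one.1 hodd |> Nat.not_odd_iff_even.1)
  -- element of N swapping a and b
  obtain ⟨g, hg, e1, e2⟩ := normal_two_tr hZ hN hN1 hab (Ne.symm hab)
  -- D is odd
  have hD : Odd (Nat.card ↥(stabilizer G a ⊓ stabilizer G b)) := by
    rw [← Nat.not_even_iff_odd]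
    intro heven
    obtain ⟨⟨d, hd⟩, hd2⟩ := exists_prime_orderOf_dvd_card' 2 (even_iff_two_dvd.1 heven)
    rw [Subgroup.orderOf_mk] at hd2
    have hdd : d * d = 1 := by
      rw [← sq, ← hd2, pow_orderOf_eq_one]
    have hd1 : d ≠ 1 := by
      rintro rfl
      rw [orderOf_one] at hd2
      exact absurd hd2 (by norm_num)
    have hdi : d⁻¹ = d := inv_eq_of_mul_eq_one_left hdd
    have h5 := inverts (H := K) hdd (fun x hx => by
        have := hKn d hd.1 x hx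
        rwa [hdi] at this) (fun x hx h => by
        by_contra hx1
        exact hd1 (fpf hZ hKle hreg (Ne.symm hab) hd hx hx1 (by rw [hdi]; exact h)))
    obtain ⟨⟨x, hx⟩, hx2⟩ := exists_prime_orderOf_dvd_card' 2 (even_iff_two_dvd.1 hKe)
    rw [Subgroup.orderOf_mk] at hx2
    have hxx : x * x = 1 := by
      rw [← sq, ← hx2, pow_orderOf_eq_one]
    have hx1 : x ≠ 1 := by
      rintro rfl
      rw [orderOf_one] at hx2
      exact absurd hx2 (by norm_num)
    have h7 := h5 x hx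
    rw [inv_eq_of_mul_eq_one_left hxx] at h7
    exact hd1 (fpf hZ hKle hreg (Ne.symm hab) hd hx hx1 (by rw [hdi]; exact h7))
  set D := stabilizer G a ⊓ stabilizer G b with hDd
  have hgg : g ^ 2 ∈ D := by
    rw [sq]
    exact ⟨by change (g * g) • a = a; rw [mul_smul, e1, e2], by change (g * g) • b = b; rw [mul_smul, e2, e1]⟩
  obtain ⟨m, hm⟩ := hD
  set t := g ^ (Nat.card D) with ht
  have htt : t * t = 1 := by
    rw [ht, ← pow_add, ← two_mul, pow_mul]
    have := pow_card_eq_one' (x := (⟨g ^ 2, hgg⟩ : D))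
    exact congrArg Subtype.val this
  have hta : t • a = b := by
    rw [ht, hm, pow_succ', pow_mul, mul_smul, show (g ^ 2) ^ m • a = a from (D.pow_mem hgg m).1, e1]
  have htN : t ∈ N := N.pow_mem hg _
  have ht1 : t ≠ 1 := by
    intro h
    rw [h, one_smul] at hta
    exact hab hta
  have hS := setup_even hZ hKle hKn hreg hKe ht1 htt (by rw [hta]; exact Ne.symm hab)
  have hinv := inv_D hZ hS
  have hDN : D ≤ N := by
    intro d hd
    have hd' : d ∈ DD a t := by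
      change d ∈ stabilizer G a ⊓ stabilizer G (t • a)
      rw [hta]
      exact hd
    have h4 := hinv d hd'
    have h5 : d * d ∈ N := by
      have h6 := N.mul_mem (hN.conj_mem t htN d) (N.inv_mem htN)
      have e : d * d = d * t * d⁻¹ * t⁻¹ := by
        have : d * t * d⁻¹ * t⁻¹ = d * (t⁻¹ * (t * t) * d⁻¹ * t⁻¹) := by group
        rw [this, htt]
        have h7 : t⁻¹ * 1 * d⁻¹ * t⁻¹ = t * d⁻¹ * t := by rw [tinv hS]; group
        rw [h7, hinv _ ((DD a t).inv_mem hd'), inv_inv]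
      rw [e]
      exact h6
    have h8 := odd_sq' (X := D) (by rw [hm]; exact ⟨m, rfl⟩) hd
    rw [← h8]
    exact N.pow_mem h5 _
  rw [eq_top_iff]
  intro x _
  obtain ⟨n, hn, f1, f2⟩ := normal_two_tr hZ hN hN1 hab (x' := x • a) (y' := x • b) (fun h => hab (MulAction.injective x h))
  have h4 : n⁻¹ * x ∈ D := ⟨by
    change (n⁻¹ * x) • a = a
    rw [mul_smul, ← f1, inv_smul_smul], by
    change (n⁻¹ * x) • b = b
    rw [mul_smul, ← f2, inv_smul_smul]⟩
  have : x = n * (n⁻¹ * x) := by group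
  rw [this]
  exact N.mul_mem hn (hDN h4)

end

end CfsgH9.Zas
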