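import Cfsg.Agent.H9.Zas2

set_option autoImplicit false

open MulAction

namespace CfsgH9.Zas

section
variable {N Ω : Type*} [Group N] [Finite N] [MulAction N Ω]

/-- regular subgroup -/
def Reg (M : Subgroup N) (Ω : Type*) [MulAction N Ω] : Prop :=
  (∀ c d : Ω, ∃ m ∈ M, m • c = d) ∧ ∀ m ∈ M, ∀ c : Ω, m • c = c → m = 1

omit [Finite N] in
theorem reg_conj (h2 : IsMultiplyPretransitive N Ω 2) (a : Ω) {M : Subgroup N} (hM : M.Normal) (hR : Reg M Ω) {m m' : N} (hm : m ∈ M)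
    (hm1 : m ≠ 1) (hm' : m' ∈ M) (hm1' : m' ≠ 1) : ∃ n : N, n * m * n⁻¹ = m' := by
  have h3 : a ≠ m • a := fun h => hm1 (hR.2 m hm a h.symm)
  have h4 : a ≠ m' • a := fun h => hm1' (hR.2 m' hm' a h.symm)
  obtain ⟨n, e1, e2⟩ := two_tr h2 h3 h4
  refine ⟨n, ?_⟩
  have h5 : m'⁻¹ * (n * m * n⁻¹) = 1 := by
    apply hR.2 _ (M.mul_mem (M.inv_mem hm') (hM.conj_mem m hm n)) a
    have h6 : n⁻¹ • a = a := by rw [inv_smul_eq_iff, e1]
    rw [mul_smul, mul_smul, mul_smul, h6, e2, inv_smul_smul]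
  exact (inv_mul_eq_one.1 h5).symm

theorem reg_abelian (h2 : IsMultiplyPretransitive N Ω 2) (a : Ω) {M : Subgroup N} (hM : M.Normal) (hR : Reg M Ω) (hM1 : M ≠ ⊥) :
    ∃ p : ℕ, p.Prime ∧ (∀ x ∈ M, x ^ p = 1) ∧ ∀ x ∈ M, ∀ y ∈ M, x * y = y * x := by
  have hcard : Nat.card M ≠ 1 := fun h => hM1 (Subgroup.card_eq_one.1 h)
  obtain ⟨p, hp, hpd⟩ := Nat.exists_prime_and_dvd hcard
  haveI : Fact p.Prime := ⟨hp⟩
  obtain ⟨⟨x₀, hx₀⟩, hx₀p⟩ := exists_prime_orderOf_dvd_card' p hpd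
  rw [Subgroup.orderOf_mk] at hx₀p
  have hx₀1 : x₀ ≠ 1 := by
    rintro rfl
    rw [orderOf_one] at hx₀p
    exact hp.ne_one hx₀p.symm
  have hexp : ∀ x ∈ M, x ^ p = 1 := by
    intro x hx
    by_cases hx1 : x = 1
    · rw [hx1, one_pow]
    obtain ⟨n, rfl⟩ := reg_conj h2 a hM hR hx₀ hx₀1 hx hx1
    rw [conj_pow, ← hx₀p, pow_orderOf_eq_one]; group
  have hP : IsPGroup p M := fun x => ⟨1, by rw [pow_one]; exact Subtype.ext (hexp x x.2)⟩
  haveI : Nontrivial M := ⟨⟨⟨x₀, hx₀⟩, 1, fun h => hx₀1 (congrArg Subtype.val h)⟩⟩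
  haveI := hP.center_nontrivial
  obtain ⟨⟨⟨z, hz⟩, hzc⟩, hz1⟩ := exists_ne (1 : Subgroup.center M)
  have hz1' : z ≠ 1 := by
    rintro rfl
    exact hz1 rfl
  have hzc' : ∀ x ∈ M, x * z = z * x := fun x hx => congrArg Subtype.val (Subgroup.mem_center_iff.1 hzc ⟨x, hx⟩)
  refine ⟨p, hp, hexp, fun x hx y hy => ?_⟩
  by_cases hx1 : x = 1
  · rw [hx1, one_mul, mul_one]
  obtain ⟨n, rfl⟩ := reg_conj h2 a hM hR hz hz1' hx hx1
  have h3 := hzc' _ (hM.conj_mem y hy n⁻¹)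
  rw [inv_inv] at h3
  calc n * z * n⁻¹ * y = n * (z * (n⁻¹ * y * n)) * n⁻¹ := by group
    _ = n * ((n⁻¹ * y * n) * z) * n⁻¹ := by rw [h3]
    _ = y * (n * z * n⁻¹) := by group

theorem reg_unique [FaithfulSMul N Ω] (h2 : IsMultiplyPretransitive N Ω 2) (a b : Ω) (hab : a ≠ b) {M₁ M₂ : Subgroup N} (hM₁ : M₁.Normal)
    (hM₂ : M₂.Normal) (hR₁ : Reg M₁ Ω) (hR₂ : Reg M₂ Ω) : M₁ = M₂ := by
  have hne : ∀ M : Subgroup N, Reg M Ω → M ≠ ⊥ := by
    rintro M hR rfl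
    obtain ⟨m, hm, h⟩ := hR.1 a b
    rw [Subgroup.mem_bot.1 hm, one_smul] at h
    exact hab h
  by_cases hint : M₁ ⊓ M₂ = ⊥
  · exfalso
    obtain ⟨-, -, -, hc⟩ := reg_abelian h2 a hM₁ hR₁ (hne _ hR₁)
    have h3 : M₂ ≤ M₁ := by
      intro c hc2
      have hcomm : ∀ m ∈ M₁, m * c = c * m := by
        intro m hm
        have h4 : m * c * m⁻¹ * c⁻¹ ∈ M₁ ⊓ M₂ := by
          refine ⟨?_, M₂.mul_mem (hM₂.conj_mem c hc2 m) (M₂.inv_mem hc2)⟩
          have e : m * c * m⁻¹ * c⁻¹ = m * (c * m⁻¹ * c⁻¹) := by group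
          rw [e]
          exact M₁.mul_mem hm (hM₁.conj_mem _ (M₁.inv_mem hm) c)
        rw [hint, Subgroup.mem_bot] at h4
        have e : m * c = (m * c * m⁻¹ * c⁻¹) * (c * m) := by group
        rw [e, h4, one_mul]
      obtain ⟨m, hm, h4⟩ := hR₁.1 a (c • a)
      have h5 : m⁻¹ * c = 1 := by
        refine FaithfulSMul.eq_of_smul_eq_smul (α := Ω) (fun d => ?_)
        obtain ⟨x, hx, rfl⟩ := hR₁.1 a d
        have e : m⁻¹ * c * x = x * (m⁻¹ * c) := by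
          rw [mul_assoc, ← hcomm x hx, ← mul_assoc, hc _ (M₁.inv_mem hm) x hx, mul_assoc]
        rw [one_smul, ← mul_smul, e, mul_smul, mul_smul, ← h4, inv_smul_smul]
      rw [← inv_mul_eq_one.1 h5]
      exact hm
    rw [inf_eq_right.2 h3] at hint
    exact hne _ hR₂ hint
  · obtain ⟨z, hz, hz1⟩ := (M₁ ⊓ M₂).bot_or_exists_ne_one.resolve_left hint
    apply le_antisymm
    · intro x hx
      by_cases hx1 : x = 1
      · rw [hx1]; exact M₂.one_mem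
      obtain ⟨n, rfl⟩ := reg_conj h2 a hM₁ hR₁ hz.1 hz1 hx hx1
      exact hM₂.conj_mem z hz.2 n
    · intro x hx
      by_cases hx1 : x = 1
      · rw [hx1]; exact M₁.one_mem
      obtain ⟨n, rfl⟩ := reg_conj h2 a hM₂ hR₂ hz.2 hz1 hx hx1
      exact hM₁.conj_mem z hz.1 n

end

section
variable {G Ω : Type*} [Group G] [Finite G] [MulAction G Ω]

theorem normal_zas (hZ : Cfsg.IsZassenhausGroup G Ω) {N : Subgroup G} (hN : N.Normal) (hN1 : N ≠ ⊥) :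
    Cfsg.IsZassenhausGroup N Ω := by
  have hZ' := hZ
  obtain ⟨hF, h2, h3, ⟨g₀, hg₀, a, b, hab, hga, hgb⟩, h5⟩ := hZ'
  have h2N : IsMultiplyPretransitive N Ω 2 := by
    rw [is_two_pretransitive_iff]
    intro x y x' y' h h'
    obtain ⟨n, hn, e1, e2⟩ := normal_two_tr hZ hN hN1 h h'
    exact ⟨⟨n, hn⟩, e1, e2⟩
  haveI hFN : FaithfulSMul N Ω := ⟨fun h => Subtype.ext (FaithfulSMul.eq_of_smul_eq_smul (α := Ω) h)⟩
  refine ⟨hFN, h2N, ?_, ?_, ?_⟩
  · intro n x y z hxy hyz hxz hx hy hz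
    exact Subtype.ext (h3 n x y z hxy hyz hxz hx hy hz)
  · obtain ⟨n, hn, hn1, e1, e2⟩ := normal_two_pt hZ hN hN1 hab
    exact ⟨⟨n, hn⟩, fun h => hn1 (congrArg Subtype.val h), a, b, hab, e1, e2⟩
  · intro M hM hMt
    by_contra hcon
    push Not at hcon
    have hR : Reg M Ω := by
      refine ⟨fun c d => ?_, fun m hm c h => ?_⟩
      · obtain ⟨m, hm⟩ := exists_smul_eq M c d
        exact ⟨m, m.2, hm⟩
      · have h6 : (⟨m, hm⟩ : M) ∈ stabilizer M c := h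
        rw [hcon c, Subgroup.mem_bot] at h6
        exact congrArg Subtype.val h6
    have key : ∀ g : G, ∀ m : N, m ∈ M → (⟨g * m * g⁻¹, hN.conj_mem m m.2 g⟩ : N) ∈ M := by
      intro g
      have hM' : (M.map (MulAut.conjNormal g : N ≃* N).toMonoidHom).Normal := hM.map _ (MulAut.conjNormal g : N ≃* N).surjective
      have hval : ∀ m : N, (((MulAut.conjNormal g : N ≃* N) m : N) : G) = g * m * g⁻¹ := fun m => MulAut.conjNormal_apply g m
      have hR' : Reg (M.map (MulAut.conjNormal g : N ≃* N).toMonoidHom) Ω := by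
        refine ⟨fun c d => ?_, ?_⟩
        · obtain ⟨m, hm, e⟩ := hR.1 (g⁻¹ • c) (g⁻¹ • d)
          refine ⟨(MulAut.conjNormal g : N ≃* N) m, ⟨m, hm, rfl⟩, ?_⟩
          change (((MulAut.conjNormal g : N ≃* N) m : N) : G) • c = d
          have e' : (m : G) • g⁻¹ • c = g⁻¹ • d := e
          rw [hval, mul_smul, mul_smul, e', smul_inv_smul]
        · rintro _ ⟨m, hm, rfl⟩ c h
          have h' : (((MulAut.conjNormal g : N ≃* N) m : N) : G) • c = c := h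
          rw [hval, mul_smul, mul_smul] at h'
          have h6 : m = 1 := by
            apply hR.2 m hm (g⁻¹ • c)
            change (m : G) • g⁻¹ • c = g⁻¹ • c
            rw [eq_inv_smul_iff]
            exact h'
          rw [h6]
          exact map_one _
      have h6 := reg_unique h2N a b hab hM hM' hR hR'
      intro m hm
      rw [h6]
      exact ⟨m, hm, Subtype.ext (hval m)⟩
    obtain ⟨c, hc⟩ := h5 (M.map N.subtype) ⟨by
      rintro _ ⟨m, hm, rfl⟩ g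
      exact ⟨_, key g m hm, rfl⟩⟩ ⟨fun c d => by
      obtain ⟨m, hm, e⟩ := hR.1 c d
      exact ⟨⟨(m : G), ⟨m, hm, rfl⟩⟩, e⟩⟩
    apply hc
    rw [eq_bot_iff]
    rintro ⟨_, ⟨m, hm, rfl⟩⟩ hmc
    rw [Subgroup.mem_bot]
    have h6 := hR.2 m hm c hmc
    subst h6
    rfl

end

end CfsgH9.Zas
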