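import Cfsg.Agent.H9.Zas3
import Cfsg.Agent.H9.SingerPrime
import Cfsg.Agent.H9.HalfTr
import Cfsg.Agent.H1.FpfAut
import Mathlib.GroupTheory.SpecificGroups.ZGroup

set_option autoImplicit false

open MulAction

namespace CfsgH9.Zas

section
variable {G Ω : Type*} [Group G] [Finite G] [MulAction G Ω]

theorem card_kernel [Finite Ω] {a b : Ω} (hab : b ≠ a) {K : Subgroup G} (hKle : K ≤ stabilizer G a)
    (hreg : ∀ c d : Ω, c ≠ a → d ≠ a → ∃! u : K, (u : G) • c = d) : Nat.card Ω = Nat.card K + 1 := by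
  classical
  have hne : ∀ x : K, (x : G) • b ≠ a := fun x h => hab (by
    have : (x : G)⁻¹ • (x : G) • b = (x : G)⁻¹ • a := by rw [h]
    rw [inv_smul_smul] at this
    rw [this, inv_smul_eq_iff]
    exact (hKle x.2).symm)
  have e : K ≃ {c : Ω // c ≠ a} := Equiv.ofBijective (fun q => ⟨(q : G) • b, hne q⟩) ⟨by
    intro x y hxy
    have h4 : (x : G) • b = (y : G) • b := congrArg Subtype.val hxy
    obtain ⟨u, -, hu⟩ := hreg b ((x : G) • b) hab (hne x)
    exact (hu x rfl).trans (hu y h4.symm).symm, by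
    rintro ⟨c, hc⟩
    obtain ⟨q, hq, -⟩ := hreg b c hab hc
    exact ⟨q, Subtype.ext hq⟩⟩
  cases nonempty_fintype Ω
  rw [Nat.card_congr e, Nat.card_eq_fintype_card, Nat.card_eq_fintype_card]
  change _ = Fintype.card {c : Ω // ¬ c = a} + 1
  rw [Fintype.card_subtype_compl, Fintype.card_subtype_eq]
  have : 0 < Fintype.card Ω := Fintype.card_pos_iff.2 ⟨a⟩
  omega

theorem affine_zas [Finite Ω] [FaithfulSMul G Ω] (h2 : IsMultiplyPretransitive G Ω 2)
    (h3 : ∀ g : G, ∀ a b c : Ω, a ≠ b → b ≠ c → a ≠ c → g • a = a → g • b = b → g • c = c → g = 1)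
    (hfix : ∃ g : G, g ≠ 1 ∧ ∃ a b : Ω, a ≠ b ∧ g • a = a ∧ g • b = b)
    {N : Subgroup G} (hN : N.Normal) (hR : Reg N Ω) : ∃ p : ℕ, p.Prime ∧ Nat.card Ω = 2 ^ p := by
  classical
  obtain ⟨g₀, hg₀, a, b, hab, hga, hgb⟩ := hfix
  obtain ⟨K, hKle, hKn, hreg⟩ := exists_kernel h2 h3 (Ne.symm hab)
  obtain ⟨n₀, hn₀, hn₀b⟩ := hR.1 a b
  have hn₀1 : n₀ ≠ 1 := by
    rintro rfl
    rw [one_smul] at hn₀b
    exact hab hn₀b
  have hN1 : N ≠ ⊥ := by
    rintro rfl
    exact hn₀1 (Subgroup.mem_bot.1 hn₀)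
  obtain ⟨p, hp, hexp, hcomm⟩ := reg_abelian h2 a hN hR hN1
  have huniq : ∀ x ∈ N, ∀ y ∈ N, x • a = y • a → x = y := by
    intro x hx y hy h
    have h4 : y⁻¹ * x = 1 := by
      apply hR.2 _ (N.mul_mem (N.inv_mem hy) hx) a
      rw [mul_smul, h, inv_smul_smul]
    exact (inv_mul_eq_one.1 h4).symm
  -- element of prime order in the two point stabiliser
  set D := stabilizer G a ⊓ stabilizer G b with hD
  have hD1 : Nat.card D ≠ 1 := by
    intro h
    have h4 := Subgroup.card_eq_one.1 h
    have h5 : g₀ ∈ D := ⟨hga, hgb⟩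
    rw [h4, Subgroup.mem_bot] at h5
    exact hg₀ h5
  obtain ⟨r, hr, hrd⟩ := Nat.exists_prime_and_dvd hD1
  haveI : Fact r.Prime := ⟨hr⟩
  obtain ⟨⟨d, hd⟩, hdr⟩ := exists_prime_orderOf_dvd_card' r hrd
  rw [Subgroup.orderOf_mk] at hdr
  have hd1 : d ≠ 1 := by
    rintro rfl
    rw [orderOf_one] at hdr
    exact hr.ne_one hdr.symm
  have hda : d • a = a := hd.1
  have hdb : d • b = b := hd.2
  have hda' : d⁻¹ • a = a := by rw [inv_smul_eq_iff, hda]
  have hfixd : ∀ c : Ω, d • c = c → c = a ∨ c = b := by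
    intro c hc
    by_contra hcon
    push Not at hcon
    exact hd1 (h3 d a b c hab (Ne.symm hcon.2) (Ne.symm hcon.1) hda hdb hc)
  have hdn₀ : d * n₀ * d⁻¹ = n₀ := by
    apply huniq _ (hN.conj_mem n₀ hn₀ d) _ hn₀
    rw [mul_smul, mul_smul, hda', hn₀b, hdb]
  have hp2 : p = 2 := by
    have h4 : d • (n₀ * n₀) • a = (n₀ * n₀) • a := by
      have e : d * (n₀ * n₀) = (d * n₀ * d⁻¹) * (d * n₀ * d⁻¹) * d := by group
      rw [← mul_smul, e, hdn₀, mul_smul, hda]
    have h5 : n₀ * n₀ = 1 := by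
      rcases hfixd _ h4 with h | h
      · exact hR.2 _ (N.mul_mem hn₀ hn₀) a h
      · exfalso
        apply hab
        rw [mul_smul, ← hn₀b] at h
        have := MulAction.injective n₀ h
        rw [← this, ← hn₀b, this]
    have h6 : orderOf n₀ = p := by
      haveI : Fact p.Prime := ⟨hp⟩
      exact orderOf_eq_prime (hexp n₀ hn₀) hn₀1
    have h7 : orderOf n₀ = 2 := orderOf_eq_prime (by rw [sq, h5]) hn₀1
    rw [← h6, h7]
  subst hp2
  -- cardinalities
  have hcN : Nat.card N = Nat.card Ω := by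
    refine Nat.card_congr (Equiv.ofBijective (fun n : N => (n : G) • a) ⟨?_, ?_⟩)
    · intro x y h
      exact Subtype.ext (huniq x x.2 y y.2 h)
    · intro c
      obtain ⟨m, hm, h⟩ := hR.1 a c
      exact ⟨⟨m, hm⟩, h⟩
  have hcK := card_kernel (Ne.symm hab) hKle hreg
  have hN2 : IsPGroup 2 N := fun x => ⟨1, by rw [pow_one]; exact Subtype.ext (hexp x x.2)⟩
  obtain ⟨e, he⟩ := (IsPGroup.iff_card).1 hN2
  have hKodd : Odd (Nat.card K) := by
    have h4 : Nat.card K + 1 = 2 ^ e := by rw [← hcK, ← hcN, he]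
    have he0 : e ≠ 0 := by
      rintro rfl
      rw [pow_zero] at h4
      have : 0 < Nat.card K := Nat.card_pos
      omega
    obtain ⟨e', rfl⟩ := Nat.exists_eq_succ_of_ne_zero he0
    rw [Nat.succ_eq_add_one, pow_succ] at h4
    exact ⟨2 ^ e' - 1, by have := Nat.one_le_two_pow (n := e'); omega⟩
  -- the linear action
  letI : CommGroup N := { (inferInstance : Group N) with mul_comm := fun x y => Subtype.ext (hcomm x x.2 y y.2) }
  letI : Module (ZMod 2) (Additive N) := AddCommGroup.zmodModule (n := 2) (fun x => by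
    have := hexp (Additive.toMul x : N) (Additive.toMul x).2
    exact congrArg Additive.ofMul (Subtype.ext this : (Additive.toMul x : N) ^ 2 = 1))
  haveI : Finite (Additive N) := inferInstanceAs (Finite N)
  let L : G →* Module.End (ZMod 2) (Additive N) :=
    { toFun := fun g => AddMonoidHom.toZModLinearMap 2 (MonoidHom.toAdditive (MulAut.conjNormal g : N ≃* N).toMonoidHom)
      map_one' := by
        apply LinearMap.ext
        intro x
        change Additive.ofMul ((MulAut.conjNormal (1 : G) : N ≃* N) (Additive.toMul x)) = x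
        rw [map_one]; rfl
      map_mul' := fun g h => by
        apply LinearMap.ext
        intro x
        change Additive.ofMul ((MulAut.conjNormal (g * h) : N ≃* N) (Additive.toMul x)) = _
        rw [map_mul]; rfl }
  have hL : ∀ (g : G) (x : Additive N), ((Additive.toMul (L g x) : N) : G) = g * (Additive.toMul x : N) * g⁻¹ := fun g x =>
    MulAut.conjNormal_apply g _
  have hxa : ∀ x : Additive N, x ≠ 0 → ((Additive.toMul x : N) : G) • a ≠ a := by
    intro x hx h
    apply hx
    exact congrArg Additive.ofMul (Subtype.ext (hR.2 _ (Additive.toMul x).2 a h) : (Additive.toMul x : N) = 1)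
  -- fixed points of elements of G_a
  have hLfix : ∀ g : G, g • a = a → ∀ x : Additive N, L g x = x → g • ((Additive.toMul x : N) : G) • a = ((Additive.toMul x : N) : G) • a := by
    intro g hg x h
    have h4 : g * (Additive.toMul x : N) * g⁻¹ = ((Additive.toMul x : N) : G) := by rw [← hL, h]
    have h5 : g * (Additive.toMul x : N) = ((Additive.toMul x : N) : G) * g := by
      conv_rhs => rw [← h4]
      group
    rw [← mul_smul, h5, mul_smul, hg]
  -- K is fixed point free on N
  have hKfpf : ∀ k ∈ K, k ≠ 1 → ∀ x : Additive N, L k x = x → x = 0 := by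
    intro k hk hk1 x hx
    by_contra hx0
    have h4 := hLfix k (hKle hk) x hx
    have h5 := hxa x hx0
    obtain ⟨u, -, hu⟩ := hreg _ _ h5 h5
    exact hk1 (congrArg Subtype.val ((hu ⟨k, hk⟩ h4).trans (hu 1 (one_smul G _)).symm))
  -- K nilpotent
  haveI hKnil : Group.IsNilpotent K := by
    refine CfsgH1.nilpotent_of_fpf_conj (h := d) ?_ hr ?_ ?_
    · rw [Subgroup.mem_normalizer_iff]
      intro x
      constructor
      · intro hx
        exact hKn d hda x hx
      · intro hx
        have := hKn d⁻¹ hda' _ hx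
        have e : d⁻¹ * (d * x * d⁻¹) * d⁻¹⁻¹ = x := by group
        rwa [e] at this
    · rw [← hdr, pow_orderOf_eq_one]
      exact Subgroup.one_mem _
    · intro x hx h
      by_contra hx1
      have h4 : d • x • b = x • b := by rw [← mul_smul, h, mul_smul, hdb]
      have hxb : x • b ≠ a := by
        intro h5
        apply hab
        have : x⁻¹ • x • b = x⁻¹ • a := by rw [h5]
        rw [inv_smul_smul] at this
        rw [this, eq_inv_smul_iff]
        exact hKle hx
      have h5 : x • b = b := (hfixd _ h4).resolve_left hxb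
      obtain ⟨u, -, hu⟩ := hreg b b (Ne.symm hab) (Ne.symm hab)
      exact hx1 (congrArg Subtype.val ((hu ⟨x, hx⟩ h5).trans (hu 1 (one_smul G _)).symm))
  -- Sylow subgroups cyclic
  haveI hKz : IsZGroup K := by
    refine ⟨fun q hq P => ?_⟩
    haveI : Fact q.Prime := ⟨hq⟩
    by_cases hq2 : q = 2
    · subst hq2
      have h4 : Nat.card P = 1 := by
        obtain ⟨m, hm⟩ := (IsPGroup.iff_card).1 P.2
        have h5 : Nat.card P ∣ Nat.card K := Subgroup.card_subgroup_dvd_card (P : Subgroup K)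
        have h6 : Odd (Nat.card P) := Odd.of_dvd_nat hKodd h5
        rw [hm] at h6 ⊢
        cases m with
        | zero => rfl
        | succ m => exact absurd h6 (by rw [Nat.not_odd_iff_even]; exact (Nat.even_pow.2 ⟨even_two, by omega⟩))
      haveI := (Nat.card_eq_one_iff_unique.1 h4).1
      exact isCyclic_of_subsingleton
    let ρ : P →* G := K.subtype.comp (P : Subgroup K).subtype
    letI : DistribMulAction P (Additive N) :=
      { smul := fun g x => L (ρ g) x
        one_smul := fun x => by change L (ρ 1) x = x; rw [map_one, map_one]; rfl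
        mul_smul := fun g h x => by change L (ρ (g * h)) x = _; rw [map_mul, map_mul]; rfl
        smul_zero := fun g => map_zero (L (ρ g))
        smul_add := fun g x y => map_add (L (ρ g)) x y }
    have hsm : ∀ (g : P) (x : Additive N), g • x = L (ρ g) x := fun _ _ => rfl
    have hρ1 : ∀ g : P, ρ g = 1 → g = 1 := fun g h => Subtype.ext (Subtype.ext h)
    have hstab : ∀ x : Additive N, x ≠ 0 → MulAction.stabilizer P x = ⊥ := by
      intro x hx
      rw [eq_bot_iff]
      intro g hg
      rw [Subgroup.mem_bot]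
      by_contra hg1
      exact hx (hKfpf (ρ g) g.1.2 (fun h => hg1 (hρ1 g h)) x hg)
    haveI : FaithfulSMul P (Additive N) := ⟨fun {g h} hgh => by
      have h4 : g⁻¹ * h = 1 := by
        have h5 : g⁻¹ * h ∈ MulAction.stabilizer P (Additive.ofMul (⟨n₀, hn₀⟩ : N)) := by
          change (g⁻¹ * h) • _ = _
          rw [mul_smul, ← hgh, inv_smul_smul]
        rw [hstab (Additive.ofMul (⟨n₀, hn₀⟩ : N)) (fun h => hn₀1 (congrArg (fun z : Additive N => ((Additive.toMul z : N) : G)) h)), Subgroup.mem_bot] at h5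
        exact h5
      exact (inv_mul_eq_one.1 h4)⟩
    refine (CfsgH9.HalfTr.main (P := P) (E := Additive N) hq2 P.2 Nat.prime_two (fun x => ?_) ?_).1
    · have := hexp (Additive.toMul x : N) (Additive.toMul x).2
      exact congrArg Additive.ofMul (Subtype.ext this : (Additive.toMul x : N) ^ 2 = 1)
    · intro x y hx hy
      rw [hstab x hx, hstab y hy]
  have hKcyc : IsCyclic K := inferInstance
  obtain ⟨k₀, hk₀⟩ := hKcyc.exists_generator
  have hKab : ∀ x ∈ K, ∀ y ∈ K, x * y = y * x := by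
    intro x hx y hy
    obtain ⟨i, hi⟩ := Subgroup.mem_zpowers_iff.1 (hk₀ ⟨x, hx⟩)
    obtain ⟨j, hj⟩ := Subgroup.mem_zpowers_iff.1 (hk₀ ⟨y, hy⟩)
    have h4 : (⟨x, hx⟩ : K) * ⟨y, hy⟩ = ⟨y, hy⟩ * ⟨x, hx⟩ := by
      rw [← hi, ← hj, ← zpow_add, ← zpow_add, add_comm]
    exact congrArg Subtype.val h4
  have hval : ∀ g : G, ((L.toHomUnits g : (Module.End (ZMod 2) (Additive N))ˣ) : Module.End (ZMod 2) (Additive N)) = L g := fun g => rfl
  have hcV := CfsgH9.SP.prime_of_singer (K.map L.toHomUnits) (by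
      rintro _ ⟨x, hx, rfl⟩ _ ⟨y, hy, rfl⟩
      rw [← map_mul, hKab x hx y hy, map_mul]) (by
      intro x y hx hy
      obtain ⟨k, hk, -⟩ := hreg _ _ (hxa x hx) (hxa y hy)
      refine ⟨_, ⟨k, k.2, rfl⟩, ?_⟩
      rw [hval]
      apply Additive.toMul.injective
      apply Subtype.ext
      rw [hL]
      apply huniq _ (hN.conj_mem _ (Additive.toMul x).2 _) _ (Additive.toMul y).2
      have h4 : (k : G)⁻¹ • a = a := by
        rw [inv_smul_eq_iff]
        exact (hKle k.2).symm
      rw [mul_smul, mul_smul, h4]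
      exact hk) (L.toHomUnits d) (by
      rintro _ ⟨x, hx, rfl⟩
      exact ⟨d * x * d⁻¹, hKn d hda x hx, by rw [map_mul, map_mul, map_inv]⟩) (by
      rintro _ ⟨x, hx, rfl⟩
      refine ⟨d⁻¹ * x * d, ?_, by rw [map_mul, map_mul, map_inv]⟩
      have := hKn d⁻¹ hda' x hx
      rwa [inv_inv] at this) hr (by rw [← map_pow, ← hdr, pow_orderOf_eq_one, map_one]) (by
      intro h
      apply hd1
      refine FaithfulSMul.eq_of_smul_eq_smul (α := Ω) (fun c => ?_)
      obtain ⟨m, hm, rfl⟩ := hR.1 a c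
      rw [one_smul]
      exact hLfix d hda (Additive.ofMul (⟨m, hm⟩ : N)) (by
        rw [← hval, h]; rfl)) (v := Additive.ofMul (⟨n₀, hn₀⟩ : N))
      (fun h => hn₀1 (congrArg (fun z : Additive N => ((Additive.toMul z : N) : G)) h)) (by
      rw [hval]
      apply Additive.toMul.injective
      apply Subtype.ext
      rw [hL]
      exact hdn₀) (by
      intro w hw
      rw [hval] at hw
      have h4 := hLfix d hda w hw
      by_cases hw0 : w = 0
      · exact Or.inl hw0
      right
      have h5 := (hfixd _ h4).resolve_left (hxa w hw0)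
      apply Additive.toMul.injective
      apply Subtype.ext
      apply huniq _ (Additive.toMul w).2 _ hn₀
      rw [h5]
      exact hn₀b.symm)
  refine ⟨r, hr, ?_⟩
  rw [← hcN, ← hcV]
  rfl

end

end CfsgH9.Zas
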